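import Cfsg.Statements.S0514
import Cfsg.Agent.Lib.G.Transfer

set_option autoImplicit false
open Cfsg

namespace Cfsg.Agent.S0514

open CA in
theorem npc {G : Type*} [Group G] [Finite G] {M T R : Subgroup G} (hT : SylowIn 2 T M) (hR : R ≤ T)
    (hc : IsCyclic R) (hf : T ⊓ ⁅M, M⁆ ≤ R) : NormalPCompl 2 M := by
  have hK : ⁅M, M⁆ ⊔ R ⊴ M := ⟨sup_le (der_le M) (hR.trans hT.le),
    norms_of_der_le le_sup_left (sup_le (der_le M) (hR.trans hT.le))⟩
  have h1 : SylowIn 2 R (⁅M, M⁆ ⊔ R) := by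
    have := hT.inf_normal hK
    rwa [dedekind_right' (Or.inl ((hR.trans hT.le).trans (norms_der Subgroup.le_normalizer))) hR,
      sup_eq_right.2 hf] at this
  set K := ⁅M, M⁆ ⊔ R
  have h2 : SylowIn 2 R (coreMod {2}ᶜ M K) :=
    h1.trans_relIndex (le_coreMod_self _ _ _) (piNum_relIndex_coreMod _ _ _)
  have h3 : NormalPCompl 2 (coreMod {2}ᶜ M K) :=
    h2.normalPCompl_of_cyclic_min hc fun q hq _ => hq.two_le
  have h4 := coreMod_normalIn {2}ᶜ hK
  have h5 : PiNum {2}ᶜᶜ ((coreMod {2}ᶜ M K).relIndex M) := piNum_relIndex_coq hK.norm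
    (hall_piCoreOf_of_nilpotent (nilpotent_of_abelian ((abelian_quo_iff hK.norm).2 le_sup_left)) _)
  rw [compl_compl] at h5
  refine normalPCompl_of_normal (h4.piCoreOf {2}ᶜ) (piCoreOf_piGrp _ _) ?_
  rw [← Subgroup.relIndex_mul_relIndex _ _ _ (piCoreOf_le _ _) h4.le]
  exact h3.piNum.mul h5

theorem uniq {n : ℕ} [NeZero n] {a b : ZMod n} (ha : a + a = 0) (hb : b + b = 0) (ha0 : a ≠ 0)
    (hb0 : b ≠ 0) : a = b := by
  have h1 := (ZMod.neg_eq_self_iff a).1 (neg_eq_of_add_eq_zero_left ha)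
  have h2 := (ZMod.neg_eq_self_iff b).1 (neg_eq_of_add_eq_zero_left hb)
  apply ZMod.val_injective
  rcases h1 with h1 | h1
  · exact absurd h1 ha0
  rcases h2 with h2 | h2
  · exact absurd h2 hb0
  omega

open DihedralGroup in
theorem dih {n : ℕ} [NeZero n] (τ : DihedralGroup n) (h1 : τ ≠ 1) (h2 : τ * τ = 1) :
    ∃ ρ : DihedralGroup n, ∀ x y : DihedralGroup n, x * τ = τ * x → y * τ = τ * y →
      (x = τ ↔ y = τ) → (x = 1 ↔ y = 1) → (x * x = 1 ↔ y * y = 1) → x * y⁻¹ ∈ Subgroup.zpowers ρ := by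
  have hr : ∀ j : ZMod n, (r j : DihedralGroup n) ∈ Subgroup.zpowers (r 1) := fun j =>
    ⟨j.val, by simp⟩
  rcases τ with i | i
  · refine ⟨r 1, ?_⟩
    have hi : i + i = 0 := by simpa [one_def, -r_zero] using h2
    have hi0 : i ≠ 0 := by simpa [one_def, -r_zero] using h1
    rintro (a | a) (b | b) - - e1 e2 e3
    · simpa [sub_eq_add_neg] using hr (a - b)
    · exfalso
      have ha : a + a = 0 := by simpa [one_def, -r_zero] using e3
      have ha0 : a ≠ 0 := by simpa [one_def, -r_zero] using e2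
      simp [uniq ha hi ha0 hi0] at e1
    · exfalso
      have ha : b + b = 0 := by simpa [one_def, -r_zero] using e3
      have ha0 : b ≠ 0 := by simpa [one_def, -r_zero] using e2
      simp [uniq ha hi ha0 hi0] at e1
    · simpa using hr (b - a)
  · refine ⟨sr i, ?_⟩
    have key : ∀ x : DihedralGroup n, x * sr i = sr i * x → x ≠ 1 → x ≠ sr i →
        ∃ c : ZMod n, c + c = 0 ∧ c ≠ 0 ∧ (x = r c ∨ x = sr (i + c)) := by
      rintro (a | a) e1 e2 e3
      · refine ⟨a, ?_, by simpa [one_def, -r_zero] using e2, Or.inl rfl⟩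
        have : i - a = i + a := by simpa using e1
        linear_combination -this
      · refine ⟨a - i, ?_, sub_ne_zero.2 (by simpa using e3), Or.inr (by simp)⟩
        have : i - a = a - i := by simpa using e1
        linear_combination -this
    intro x y c1 c2 e1 e2 _
    by_cases hx : x = 1
    · rw [hx, e2.1 hx]; simp
    by_cases hx' : x = sr i
    · rw [hx', e1.1 hx']; simp
    obtain ⟨c, hc, hc0, hxc⟩ := key x c1 hx hx'
    obtain ⟨d, hd, hd0, hyd⟩ := key y c2 (mt e2.2 hx) (mt e1.2 hx')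
    obtain rfl := uniq hc hd hc0 hd0
    rcases hxc with rfl | rfl <;> rcases hyd with rfl | rfl
    · simp
    · simp
    · simp
    · simp

/-- In a finite group whose Sylow 2-subgroups are dihedral of order at least 4, the centralizer of any involution has a
normal subgroup of odd order whose index in the centralizer is a power of 2. -/
theorem result {X : Type*} [Group X] [Finite X]
    (S : Sylow 2 X) (n : ℕ) (hn : 2 ≤ n) (hS : Nonempty ((S : Subgroup X) ≃* DihedralGroup n)) (t : X)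
    (ht : orderOf t = 2) :
    ∃ N : Subgroup (Subgroup.centralizer ({t} : Set X)), N.Normal ∧ Odd (Nat.card N) ∧ ∃ k : ℕ, N.index = 2 ^ k := by
  haveI : Fact (Nat.Prime 2) := ⟨Nat.prime_two⟩
  haveI : NeZero n := ⟨by omega⟩
  obtain ⟨e⟩ := hS
  set M := Subgroup.centralizer ({t} : Set X) with hM
  have htM : t ∈ M := CA.self_mem_cent1 t
  obtain ⟨T, hT, htT⟩ := CA.exists_sylowIn_ge (p := 2) (Q := Subgroup.zpowers t) (M := M)
    (CA.piGrp_zpowers.2 ((CA.piElt_of_orderOf_prime Nat.prime_two ht).2 rfl)) (Subgroup.zpowers_le.2 htM)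
  replace htT : t ∈ T := Subgroup.zpowers_le.1 htT
  obtain ⟨g, -, hg⟩ := (CA.sylowIn_top S).exists_le_cj hT.piGrp le_top
  let φ : T →* DihedralGroup n :=
    (e.toMonoidHom.comp (CA.cjEquiv g S).symm.toMonoidHom).comp (Subgroup.inclusion hg)
  have hφ : Function.Injective φ :=
    (e.injective.comp (CA.cjEquiv g S).symm.injective).comp (Subgroup.inclusion_injective hg)
  have ht1 : t ≠ 1 := by rintro rfl; simp at ht
  have ht2 : t * t = 1 := by rw [← pow_two, ← ht, pow_orderOf_eq_one]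
  obtain ⟨ρ, hρ⟩ := dih (φ ⟨t, htT⟩) (fun h => ht1 (congrArg Subtype.val (hφ (h.trans (map_one φ).symm))))
    (by rw [← map_mul, ← map_one φ]; congr 1; exact Subtype.ext ht2)
  have hN : CA.NormalPCompl 2 M := by
    refine npc (R := ((Subgroup.zpowers ρ).comap φ).map T.subtype) hT (Subgroup.map_subtype_le _) ?_ ?_
    · rw [CA.PG.isCyclic_map_iff T.subtype_injective, ← CA.PG.isCyclic_map_iff hφ]
      exact CA.cyclic_of_le (B := Subgroup.zpowers ρ) inferInstance (Subgroup.map_comap_le _ _)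
    · refine hT.inf_der_le fun x hx u hu hy => ?_
      have hut : u * t = t * u := CA.mem_cent1_iff.1 hu
      have c : ∀ z : T, φ z * φ ⟨t, htT⟩ = φ ⟨t, htT⟩ * φ z := fun z => by
        rw [← map_mul, ← map_mul]; congr 1
        exact Subtype.ext (CA.mem_cent1_iff.1 (hT.le z.2))
      have := hρ (φ ⟨x, hx⟩) (φ ⟨_, hy⟩) (c _) (c _) ?_ ?_ ?_
      · rw [← map_inv, ← map_mul] at this
        exact ⟨_, this, by simp [mul_assoc]⟩
      · rw [hφ.eq_iff, hφ.eq_iff, Subtype.ext_iff, Subtype.ext_iff]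
        simp only [mul_inv_eq_iff_eq_mul, ← hut, mul_right_inj]
      · rw [map_eq_one_iff _ hφ, map_eq_one_iff _ hφ, Subtype.ext_iff, Subtype.ext_iff]
        simp
      · rw [← map_mul, ← map_mul, map_eq_one_iff _ hφ, map_eq_one_iff _ hφ, Subtype.ext_iff, Subtype.ext_iff]
        simp
  refine ⟨(Cfsg.piCoreOf {2}ᶜ M).subgroupOf M, (CA.piCoreOf_normalIn _ _).normal_subgroupOf, ?_, ?_⟩
  · rw [CA.card_subgroupOf_of_le (CA.piCoreOf_le _ _)]
    exact (CA.piCoreOf_piGrp {2}ᶜ M).piNum.odd (by simp)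
  · exact (CA.piNum_singleton_iff Nat.prime_two (CA.relIndex_ne_zero' _ _)).1 hN.piNum

end Cfsg.Agent.S0514
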