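import Cfsg.Statements.S0483
import Cfsg.Agent.Lib.GW.Main

set_option autoImplicit false
open Cfsg

namespace Cfsg.Agent.S0483

/-- A finite perfect group whose Sylow 2-subgroups are dihedral of order at least 4 has quotient by its core
(largest normal subgroup of odd order) isomorphic to a projective special linear group of dimension 2 over a field of
odd order greater than 3, or to the alternating group of degree 7. -/
theorem result {X : Type*} [Group X] [Finite X] [Group.IsPerfect X]
    (S : Sylow 2 X) (n : ℕ) (hn : 2 ≤ n) (hS : Nonempty ((S : Subgroup X) ≃* DihedralGroup n)) :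
    (∃ (F : Type) (_ : Field F) (_ : Fintype F), Odd (Fintype.card F) ∧ 3 < Fintype.card F ∧
        Nonempty (X ⧸ Cfsg.oddCore X ≃* Matrix.ProjectiveSpecialLinearGroup (Fin 2) F)) ∨
      Nonempty (X ⧸ Cfsg.oddCore X ≃* alternatingGroup (Fin 7)) := by
  exact CA.GW.gw_of (fun _ _ _ m => m.false) S n hn hS

end Cfsg.Agent.S0483
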