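import Cfsg.Statements.S0283
import Cfsg.Agent.Lib.Classical.UnitaryModel

set_option autoImplicit false
open Cfsg

namespace Cfsg.Agent.S0283

/-- PSU_n(q) is simple for n at least 3 and (n, q) other than (3, 2). -/
theorem result {F : Type*} [Field F] [Fintype F] {q : ℕ} (hF : Fintype.card F = q ^ 2) (n : ℕ) (hn : 3 ≤ n) (h : ¬ (n = 3 ∧ q = 2)) : IsSimpleGroup (Cfsg.PSU n F q) := by
  let := CA.Cl.starRingOfCard hF
  have hK := CA.Cl.isFq2_starRingOfCard hF
  obtain ⟨e, f, p⟩ := CA.Unit.exists_hyp_std (CA.Unit.good_of_isFq2 hK) (n := n) (by omega)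
  have := p.isSimpleGroup_PSU (CA.Unit.good_of_isFq2 hK) CA.Unit.nd_std
    (by rw [Module.finrank_fin_fun]; exact hn) (by
      rw [Module.finrank_fin_fun]
      by_cases hq : q = 2
      · right; omega
      · left; exact CA.Unit.exists_star_sq_ne hK hq)
  exact (CA.Cl.centerQuotCongr (CA.Unit.suEquiv hK n)).isSimpleGroup

end Cfsg.Agent.S0283
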