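import Cfsg.Statements.S0516
import Cfsg.Agent.Lib.Alp.Main

set_option autoImplicit false
open Cfsg

namespace Cfsg.Agent.S0516
open CA CA.Ch
open scoped ComplexConjugate ComplexOrder


/-- In a non-abelian finite simple group of 2-rank at most 2, a Sylow 2-subgroup is dihedral (of order at least 4),
quasi-dihedral, wreathed, or isomorphic to a Sylow 2-subgroup of the projective special unitary group of dimension 3
over the field with 16 elements. -/
theorem result {G : Type*} [Group G] [Finite G] [IsSimpleGroup G]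
    (hG : ¬ IsMulCommutative G) (h2 : Cfsg.PRankLE 2 2 G) (S : Sylow 2 G) {F : Type*} [Field F] [Fintype F]
    (hF : Fintype.card F = 16) (P : Sylow 2 (Cfsg.PSU 3 F 4)) :
    (∃ n : ℕ, 2 ≤ n ∧ Nonempty ((S : Subgroup G) ≃* DihedralGroup n)) ∨ Cfsg.IsQuasiDihedral (S : Subgroup G) ∨
      Cfsg.IsWreathed (S : Subgroup G) ∨ Nonempty ((S : Subgroup G) ≃* (P : Subgroup (Cfsg.PSU 3 F 4))) := by
  haveI : Fact (Nat.Prime 2) := ⟨Nat.prime_two⟩
  refine (CA.Alp.alperin h2 (sylowIn_top S) hG).imp_right (Or.imp_right (Or.imp_right fun h => ?_))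
  obtain ⟨D, hD, ⟨e⟩⟩ := CA.Alp.isU34_sylow hF P
  obtain ⟨f⟩ := h.equiv hD
  exact ⟨f.trans e⟩

end Cfsg.Agent.S0516
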