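import Cfsg.Statements.S5552
import Cfsg.Agent.Lib.Golay.Leech2

set_option autoImplicit false
open Cfsg

namespace Cfsg.Agent.S5552
open CA.Gol
open scoped Pointwise

theorem eight_not_two : ¬ ∃ w ∈ leechLattice, (8 : ℤ) • iz {pt 0} = (2 : ℤ) • w := by
  rintro ⟨w, hw, e⟩
  have h1 := congrArg sqNorm e
  have h2 : sqNorm ((8 : ℤ) • iz {pt 0}) = 64 := by decide +kernel
  have h3 : w ≠ 0 := by
    rintro rfl
    revert e; decide +kernel
  have := min_norm hw h3
  rw [h2, sqNorm_smul] at h1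
  omega

theorem eq_top_of_inv (H : AddSubgroup leechLattice) (h2 : ∀ v, v + v ∈ H) (hinv : ∀ g : Co0, ∀ v ∈ H, g • v ∈ H)
    (h8 : ⟨_, eight_mem (iz {pt 0})⟩ ∈ H) (v : leechLattice) : v ∈ H := by
  have := (invM_of (M := H.map leechLattice.subtype)
    (fun v hv => ⟨_, h2 ⟨v, hv⟩, (two_smul ℤ v).symm⟩) (AddSubgroup.map_subtype_le _)
    (fun g v ⟨w, hw, e⟩ => ⟨_, hinv g w hw, by rw [show w = v from Subtype.ext e]; rfl⟩)).irred ⟨_, h8, rfl⟩
    eight_not_two
  obtain ⟨w, hw, e⟩ : v.1 ∈ H.map leechLattice.subtype := this.symm ▸ v.2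
  rwa [← show w = v from Subtype.ext e]

theorem parity_of_monomial (φ : leechLattice →+ ZMod 2)
    (hpm : ∀ σ ∈ M24, ∀ v w : leechLattice, (w : ZV) = pm σ v → φ w = φ v)
    (hsg : ∀ d ∈ CW, ∀ v w : leechLattice, (w : ZV) = sg d v → φ w = φ v) (v : leechLattice) :
    φ v = φ ⟨v0, v0_mem⟩ * ((v : ZV) (pt 0) : ZMod 2) := by
  have hm : ∀ x : leechLattice, φ x = 0 → x.1 ∈ φ.ker.map leechLattice.subtype := fun x hx => ⟨x, hx, rfl⟩
  have p4 : ∀ s : Finset GolayPt, s.card = 2 → (4 : ℤ) • iz s ∈ leechLattice := fun s hs =>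
    four_mem (by rw [sum_iz, hs]; norm_num)
  have c1 : ∀ s hs t ht, φ ⟨_, p4 s hs⟩ = φ ⟨_, p4 t ht⟩ := by
    intro s hs t ht
    obtain ⟨g, hg, e⟩ := exists_smul_eq (s := t) (t := s) (by omega) (ht.trans hs.symm)
    exact hpm g hg _ _ (by simp only [pm_smul, pm_iz, e])
  have c2 : ∀ s hs, φ ⟨_, p4 s hs⟩ = 0 := by
    intro s hs
    have d1 : ({pt 0, pt 4} : Finset GolayPt).card = 2 := by decide
    have d2 : ({pt 0, pt 1} : Finset GolayPt).card = 2 := by decide
    have d3 : ({pt 0, pt 2} : Finset GolayPt).card = 2 := by decide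
    have d4 : ({pt 1, pt 2} : Finset GolayPt).card = 2 := by decide
    have e : (4 : ℤ) • iz {pt 0, pt 4} - ((4 : ℤ) • iz {pt 0, pt 1} + (4 : ℤ) • iz {pt 0, pt 2} -
      (4 : ℤ) • iz {pt 1, pt 2}) = sg (fs O0) ((4 : ℤ) • iz {pt 0, pt 4}) := by decide +kernel
    have k1 := hsg _ O0_mem.1 ⟨_, p4 _ d1⟩ (⟨_, p4 _ d1⟩ - (⟨_, p4 _ d2⟩ + ⟨_, p4 _ d3⟩ - ⟨_, p4 _ d4⟩)) e
    rw [map_sub, map_sub, map_add, c1 _ d2 s hs, c1 _ d3 s hs, c1 _ d4 s hs] at k1
    simpa using k1
  have h4 : ∀ a b, a ≠ b → (4 : ℤ) • iz {a, b} ∈ φ.ker.map leechLattice.subtype := fun a b hab =>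
    hm ⟨_, p4 _ (Finset.card_pair hab)⟩ (c2 _ (Finset.card_pair hab))
  have c3 : ∀ s (hs : s ∈ octads) t (ht : t ∈ octads), φ ⟨_, two_iz_mem hs.1⟩ = φ ⟨_, two_iz_mem ht.1⟩ := by
    intro s hs t ht
    obtain ⟨g, hg, e⟩ := octad_trans ht hs
    exact hpm g hg _ _ (by simp only [pm_smul, pm_iz, e])
  have hk : ∀ x : leechLattice, x.1 ∈ φ.ker.map leechLattice.subtype → φ x = 0 := by
    rintro x ⟨w, hw, e⟩
    rwa [← show w = x from Subtype.ext e]
  have c4 : ∀ s (hs : s ∈ octads), φ ⟨_, two_iz_mem hs.1⟩ = 0 := by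
    intro s hs
    have o1 := fs_mem_octads (m := 0x149f) (by decide +kernel)
    have o2 := fs_mem_octads (m := Nat.xor O0 0x149f) (by decide +kernel)
    have e : (4 : ℤ) • iz (fs 15) = (2 : ℤ) • iz (fs O0) + (2 : ℤ) • iz (fs 0x149f) -
      (2 : ℤ) • iz (fs (Nat.xor O0 0x149f)) := by decide +kernel
    have k1 := hk (⟨_, two_iz_mem O0_mem.1⟩ + ⟨_, two_iz_mem o1.1⟩ - ⟨_, two_iz_mem o2.1⟩)
      (show _ - _ ∈ _ from e ▸ four_mem_of h4 (y := iz (fs 15)) (by decide +kernel))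
    rw [map_sub, map_add, c3 _ O0_mem s hs, c3 _ o1 s hs, c3 _ o2 s hs] at k1
    simpa using k1
  have hev : ∀ x : leechLattice, 2 ∣ x.1 (pt 0) → φ x = 0 := fun x hx =>
    hk x (even_mem_of h4 (fun j hj => hm ⟨_, two_iz_mem (bas_mem_octads hj).1⟩ (c4 _ (bas_mem_octads hj))) x.2 hx)
  by_cases h : 2 ∣ v.1 (pt 0)
  · rw [hev v h, (ZMod.intCast_zmod_eq_zero_iff_dvd _ 2).2 h, mul_zero]
  · have k1 := hev (v - ⟨v0, v0_mem⟩) (by
      show 2 ∣ v.1 (pt 0) - v0 (pt 0)
      rw [show v0 (pt 0) = -3 from rfl]; omega)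
    rw [map_sub, sub_eq_zero] at k1
    have k2 : ((v.1 (pt 0) : ℤ) : ZMod 2) = ((1 : ℤ) : ZMod 2) := by
      rw [ZMod.intCast_eq_intCast_iff']; push_cast; omega
    rw [k1, k2]; simp

/-- the standard quadratic form -/
def q0 (v : leechLattice) : ZMod 2 := ((sqNorm (v : ZV) / 16 : ℤ) : ZMod 2)

/-- the standard bilinear form -/
def b0 (u v : leechLattice) : ZMod 2 := ((dotInt (u : ZV) v / 8 : ℤ) : ZMod 2)

theorem q0_add (u v : leechLattice) : q0 (u + v) = q0 u + q0 v + b0 u v := by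
  have h1 := sixteen_dvd u.2
  have h2 := sixteen_dvd v.2
  have h3 := eight_dvd_dot u.2 v.2
  rw [q0, q0, q0, b0, ← Int.cast_add, ← Int.cast_add, AddSubgroup.coe_add, sqNorm_add]
  congr 1; omega

theorem b0_add (u v w : leechLattice) : b0 (u + v) w = b0 u w + b0 v w := by
  have h1 := eight_dvd_dot u.2 w.2
  have h2 := eight_dvd_dot v.2 w.2
  rw [b0, b0, b0, ← Int.cast_add, AddSubgroup.coe_add, dot_comm, dot_add, dot_comm w.1, dot_comm w.1]
  congr 1; omega


/-- On the Leech lattice of the definitions, let Q be a function to the field with two elements that is constant on cosets of twice the lattice, is a quadratic form there (Q(u+v+w) + Q(u) + Q(v) + Q(w) = Q(u+v) + Q(u+w) + Q(v+w) for all u, v, w), is invariant under every lattice automorphism, and is not identically zero. Then Q(v) is the squared length of v divided by 16, reduced modulo 2, for every lattice vector v (squared lengths of lattice vectors are multiples of 16). -/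
theorem result (Q : ↥Cfsg.leechLattice → ZMod 2) (hcoset : ∀ v w : ↥Cfsg.leechLattice, Q (v + (w + w)) = Q v) (hquad : ∀ u v w : ↥Cfsg.leechLattice, Q (u + v + w) + Q u + Q v + Q w = Q (u + v) + Q (u + w) + Q (v + w)) (hinv : ∀ (g : ↥Cfsg.Co0) (v : ↥Cfsg.leechLattice), Q (g • v) = Q v) (hne : ∃ v : ↥Cfsg.leechLattice, Q v ≠ 0) (v : ↥Cfsg.leechLattice) : Q v = ((Cfsg.sqNorm (v : Cfsg.GolayPt → ℤ) / 16 : ℤ) : ZMod 2) := by
  have z : ∀ a : ZMod 2, a + a = 0 := by decide
  have hQ0 : Q 0 = 0 := by simpa using hquad 0 0 0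
  let B : leechLattice → leechLattice → ZMod 2 := fun u w => Q (u + w) + Q u + Q w
  have hB : ∀ u v w, B (u + v) w = B u w + B v w := by
    intro u v w
    have := hquad u v w
    simp only [B]
    revert this
    generalize Q (u + v + w) = a, Q u = b, Q v = c, Q w = d, Q (u + v) = e, Q (u + w) = f, Q (v + w) = g
    revert a b c d e f g; decide
  have hBc : ∀ u w, B u w = B w u := fun u w => by simp only [B]; rw [add_comm u w]; ring
  have hBg : ∀ (g : Co0) u w, B (g • u) (g • w) = B u w := fun g u w => by simp only [B, ← co_add, hinv]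
  have hB2 : ∀ u t w, B (u + (t + t)) w = B u w := fun u t w => by rw [hB, hB, z, add_zero]
  let e8 : leechLattice := ⟨_, eight_mem (iz {pt 0})⟩
  let φ : leechLattice →+ ZMod 2 := AddMonoidHom.mk' (fun w => B w e8) fun u v => hB u v e8
  have hφ : ∀ f, IsCo f → (∃ y : ZV, 2 ∣ ∑ p, y p ∧ f e8 = e8 + (8 : ℤ) • y) →
      ∀ v w : leechLattice, (w : ZV) = f v → φ w = φ v := by
    rintro f ⟨g, hg⟩ ⟨y, hy, e⟩ v w hw
    have e1 : w = g • v := Subtype.ext (hw.trans (hg v).symm)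
    have e2 : g • e8 = e8 + (⟨_, four_mem hy⟩ + ⟨_, four_mem hy⟩) := Subtype.ext (by
      rw [hg, e]; show _ = e8.1 + ((4 : ℤ) • y + (4 : ℤ) • y); rw [← add_smul]; rfl)
    show B w e8 = B v e8
    rw [← hBg g v, e2, hBc (g • v), hB2, hBc, e1]
  have hc := parity_of_monomial φ
    (fun σ hσ => hφ _ (isCo_pm hσ) ⟨iz (σ • {pt 0}) - iz {pt 0}, by
      simp only [Pi.sub_apply, Finset.sum_sub_distrib, sum_iz, card_smul]; simp, by
      show pm σ ((8 : ℤ) • _) = (8 : ℤ) • _ + _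
      rw [pm_smul, pm_iz, smul_sub, add_sub_cancel]⟩)
    (fun d hd => hφ _ (isCo_sg hd) ⟨fun p => -2 * (iz d p * iz {pt 0} p), by
      rw [← Finset.mul_sum]; exact Dvd.dvd.mul_right (by norm_num) _, by
      funext p
      show sg d ((8 : ℤ) • iz {pt 0}) p = 8 * iz {pt 0} p + 8 * _
      rw [sg_eq, Pi.smul_apply, smul_eq_mul]; ring⟩)
  set c := φ ⟨v0, v0_mem⟩
  have hBb : ∀ u w, B u w = c * b0 u w := by
    let H : AddSubgroup leechLattice :=
      { carrier := {u | ∀ w, B u w = c * b0 u w}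
        zero_mem' := fun w => by simp [B, hQ0, z, b0, dotInt]
        add_mem' := fun {u v} hu hv w => by rw [hB, b0_add, hu w, hv w, mul_add]
        neg_mem' := fun {u} hu w => by
          have k1 := hB u (-u) w
          have k2 := b0_add u (-u) w
          rw [add_neg_cancel] at k1 k2
          have k3 : B 0 w = 0 := by simp [B, hQ0, z]
          have k4 : b0 0 w = 0 := by simp [b0, dotInt]
          rw [k3, hu w] at k1
          rw [k4] at k2
          rw [eq_neg_of_add_eq_zero_right k1.symm, eq_neg_of_add_eq_zero_right k2.symm, mul_neg] }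
    refine eq_top_of_inv H (fun v w => by rw [hB, b0_add, z, z, mul_zero]) (fun g v hv w => ?_) fun w => ?_
    · have := hv (g⁻¹ • w)
      rw [← hBg g, smul_inv_smul] at this
      rw [this, b0, b0, ← co_dot g v, smul_inv_smul]
    · rw [hBc]
      refine (hc w).trans ?_
      rw [b0, dot_comm, dot_smul, dot_iz]; simp
  have hψ : ∀ u, Q u = c * q0 u := by
    let ψ : leechLattice →+ ZMod 2 := AddMonoidHom.mk' (fun u => Q u + c * q0 u) fun u w => by
      have := hBb u w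
      simp only [B] at this
      rw [q0_add, mul_add, mul_add, ← this]
      generalize Q (u + w) = a, Q u = b, Q w = d, c * q0 u = e, c * q0 w = f
      revert a b d e f; decide
    have hψg : ∀ (g : Co0) u, ψ (g • u) = ψ u := fun g u => by
      show Q _ + c * q0 _ = Q _ + c * q0 _
      rw [hinv, q0, q0, co_norm]
    intro u
    have k : ψ u = 0 := by
      refine eq_top_of_inv ψ.ker (fun v => by rw [AddMonoidHom.mem_ker, map_add, z])
        (fun g v hv => by rw [AddMonoidHom.mem_ker, hψg]; exact hv) ?_ u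
      obtain ⟨g, hg⟩ := isCo_sg O0_mem.1
      have p4 : (4 : ℤ) • iz {pt 0, pt 4} ∈ leechLattice := four_mem (by decide +kernel)
      have e0 : (8 : ℤ) • iz {pt 0} = (4 : ℤ) • iz {pt 0, pt 4} - sg (fs O0) ((4 : ℤ) • iz {pt 0, pt 4}) := by
        decide +kernel
      have e : (⟨_, eight_mem (iz {pt 0})⟩ : leechLattice) = ⟨_, p4⟩ - g • ⟨_, p4⟩ :=
        Subtype.ext (by rw [AddSubgroup.coe_sub, hg]; exact e0)
      rw [AddMonoidHom.mem_ker, e, map_sub, hψg, sub_self]
    replace k : Q u + c * q0 u = 0 := k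
    revert k
    generalize Q u = a, c * q0 u = b
    revert a b; decide
  obtain ⟨u, hu⟩ := hne
  rcases zmod2_cases c with h | h
  · rw [hψ, h, zero_mul] at hu; exact absurd rfl hu
  · rw [hψ, h, one_mul]; rfl

end Cfsg.Agent.S5552
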