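import Cfsg.Statements.S5392
import Cfsg.Agent.Lib.Golay.Leech2

set_option autoImplicit false
open Cfsg

namespace Cfsg.Agent.S5392
open CA.Gol
open scoped Pointwise


/-- The Leech lattice modulo twice itself is a faithful irreducible module for the first Conway group: an automorphism of the rank-24 lattice built from the length-24 code that moves every lattice vector only by twice a lattice vector lies in the centre of the automorphism group (the centre consists of ±1, which act trivially there, so the kernel is exactly the centre), and an additive subgroup lying between twice the lattice and the lattice that is invariant under all lattice automorphisms is one of the two. -/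
theorem result : (∀ g : ↥Cfsg.Co0, (∀ v : ↥Cfsg.leechLattice, ∃ w : ↥Cfsg.leechLattice, ((g • v : ↥Cfsg.leechLattice) : Cfsg.GolayPt → ℤ) - (v : Cfsg.GolayPt → ℤ) = 2 • (w : Cfsg.GolayPt → ℤ)) → g ∈ Subgroup.center ↥Cfsg.Co0) ∧ ∀ M : AddSubgroup (Cfsg.GolayPt → ℤ), (∀ v ∈ Cfsg.leechLattice, (2 : ℤ) • v ∈ M) → M ≤ Cfsg.leechLattice → (∀ g : ↥Cfsg.Co0, ∀ v : ↥Cfsg.leechLattice, (v : Cfsg.GolayPt → ℤ) ∈ M → ((g • v : ↥Cfsg.leechLattice) : Cfsg.GolayPt → ℤ) ∈ M) → (∀ x ∈ M, ∃ w ∈ Cfsg.leechLattice, x = (2 : ℤ) • w) ∨ M = Cfsg.leechLattice := by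
  constructor
  · intro g hg
    have h1 : ∀ v : leechLattice, sqNorm (v : ZV) = 32 → g • v = v ∨ g • v = -v := by
      intro v hv
      obtain ⟨w, hw⟩ := hg v
      rcases short_congr v.2 w.2 hw (by rw [co_norm]; omega) (by omega) with h | h | h
      · exact Or.inl (Subtype.ext h)
      · exact Or.inr (Subtype.ext h)
      · omega
    have h0 := h1 ⟨v0, v0_mem⟩ (by decide +kernel)
    have h2 : (∀ v : leechLattice, g • v = v) ∨ ∀ v : leechLattice, g • v = -v := by
      rcases h0 with h0 | h0
      · refine Or.inl (eq_top_of_short (H := (coHom g).eqLocus (AddMonoidHom.id _)) fun v hv hd => ?_)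
        refine (h1 v hv).resolve_right fun h => hd ?_
        have := co_dot g v ⟨v0, v0_mem⟩
        rw [h, h0, dot_comm, AddSubgroup.coe_neg, dot_neg, dot_comm] at this
        simp only at this
        omega
      · refine Or.inr (eq_top_of_short (H := (coHom g).eqLocus (-AddMonoidHom.id _)) fun v hv hd => ?_)
        refine (h1 v hv).resolve_left fun h => hd ?_
        have := co_dot g v ⟨v0, v0_mem⟩
        rw [h, h0, AddSubgroup.coe_neg, dot_neg] at this
        simp only at this
        omega
    rw [Subgroup.mem_center_iff]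
    intro k
    apply Subtype.ext
    apply Equiv.ext
    intro v
    show (k * g) • v = (g * k) • v
    rw [mul_smul, mul_smul]
    rcases h2 with h | h
    · rw [h, h]
    · rw [h, h, co_neg]
  · intro M h2 hle hinv
    by_cases h : ∀ x ∈ M, ∃ w ∈ leechLattice, x = (2 : ℤ) • w
    · exact Or.inl h
    · push Not at h
      obtain ⟨x, hx, hn⟩ := h
      exact Or.inr ((invM_of h2 hle hinv).irred hx fun ⟨w, hw, e⟩ => hn w hw e)

end Cfsg.Agent.S5392
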