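import Cfsg.Statements.S5593
import Cfsg.Agent.Lib.Golay.Leech2

set_option autoImplicit false
open Cfsg

namespace Cfsg.Agent.S5593
open CA.Gol
open scoped Pointwise

/-- the base vector -/
def b1 : ZV := fun p => 1 - 4 * iz (fs 31) p

/-- equivalent to the class of the base vector -/
def R (x : ZV) : Prop := ∃ hx : x ∈ leechLattice, ∃ g : Co0, ∃ z ∈ leechLattice,
  ((g • (⟨x, hx⟩ : leechLattice) : leechLattice) : ZV) - b1 = 2 • z

theorem R_of_co {f : ZV → ZV} (hf : IsCo f) {x : ZV} (hx : x ∈ leechLattice) (h : R (f x)) : R x := by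
  obtain ⟨e, he⟩ := hf
  obtain ⟨h1, g, z, hz, h2⟩ := h
  refine ⟨hx, g * e, z, hz, ?_⟩
  rw [mul_smul, show e • (⟨x, hx⟩ : leechLattice) = ⟨f x, h1⟩ from Subtype.ext (he _), h2]

theorem R_of_congr {x y w : ZV} (hw : w ∈ leechLattice) (e : x = y + (2 : ℤ) • w) (h : R y) : R x := by
  obtain ⟨h1, g, z, hz, h2⟩ := h
  have hx : x ∈ leechLattice := e ▸ add_mem h1 (zsmul_mem hw _)
  refine ⟨hx, g, z + (g • (⟨w, hw⟩ : leechLattice) : leechLattice), add_mem hz (Subtype.property _), ?_⟩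
  rw [show (⟨x, hx⟩ : leechLattice) = ⟨y, h1⟩ + (2 : ℤ) • ⟨w, hw⟩ from Subtype.ext e, co_add, co_zsmul,
    AddSubgroup.coe_add, add_sub_right_comm, h2, smul_add]
  rfl

theorem R_five {s : Finset GolayPt} (hs : s.card = 5) : R fun p => 1 - 4 * iz s p := by
  obtain ⟨g, hg, e⟩ := exists_smul_eq (s := s) (t := fs 31) hs.le (by rw [hs, card_fs]; decide +kernel)
  refine R_of_co (isCo_pm hg) (one_sub_mem (by rw [hs]; decide)) ?_
  have : pm g (fun p => 1 - 4 * iz s p) = b1 := by
    funext p; rw [b1, ← e, ← pm_iz]; rfl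
  rw [this]
  exact ⟨one_sub_mem (by rw [card_fs]; decide +kernel), 1, 0, zero_mem _, by simp⟩

theorem R_one {y : ZV} (hn : sqNorm (fun p => 1 + 4 * y p) = 64) : R fun p => 1 + 4 * y p := by
  have e : ∑ p, (y p + 2 * y p ^ 2) = 5 := by
    have : ∀ p, (1 + 4 * y p) ^ 2 = 1 + 8 * (y p + 2 * y p ^ 2) := fun p => by ring
    simp only [sqNorm, this] at hn
    rw [Finset.sum_add_distrib, ← Finset.mul_sum, Finset.sum_const, Finset.card_univ, card_golayPt] at hn
    simp only [nsmul_eq_mul] at hn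
    omega
  have h1 : ∀ p, y p = -1 ∨ y p = 0 ∨ y p = 1 := by
    intro p
    have := Finset.single_le_sum (f := fun p => y p + 2 * y p ^ 2) (s := Finset.univ)
      (fun q _ => by rcases le_or_gt 0 (y q) with h | h <;> nlinarith) (Finset.mem_univ p)
    rw [e] at this
    have k1 : -2 < y p := by nlinarith
    have k2 : y p < 2 := by nlinarith
    omega
  set A := Finset.univ.filter fun p => y p = -1 with hA
  set B := Finset.univ.filter fun p => y p = 1 with hB
  have h2 : ∀ p, (y p = -1 ∧ iz A p = 1 ∧ iz B p = 0) ∨ (y p = 0 ∧ iz A p = 0 ∧ iz B p = 0) ∨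
      (y p = 1 ∧ iz A p = 0 ∧ iz B p = 1) := fun p => by
    rcases h1 p with h | h | h <;> simp [iz, hA, hB, h]
  have h3 : (A.card : ℤ) + 3 * B.card = 5 := by
    rw [← e, ← sum_iz, ← sum_iz, Finset.mul_sum, ← Finset.sum_add_distrib]
    refine Finset.sum_congr rfl fun p _ => ?_
    rcases h2 p with h | h | h <;> rw [h.1, h.2.1, h.2.2] <;> rfl
  by_cases h0 : B.card = 0
  · convert R_five (s := A) (by omega) using 2 with p
    have k := Finset.card_eq_zero.1 h0
    rcases h2 p with h | h | h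
    · omega
    · omega
    · rw [k] at h; simp [iz] at h
  · have hd : Disjoint A B := Finset.disjoint_left.2 fun p h1 h2 => by
      simp only [hA, hB, Finset.mem_filter] at h1 h2; omega
    have hc : (A ∪ B).card = 3 := by rw [Finset.card_union_of_disjoint hd]; omega
    obtain ⟨o, ho, hs⟩ := exists_octad_superset (s := A ∪ B) (by omega)
    refine R_of_congr (sub_mem (two_iz_mem ho.1) (four_mem (y := iz A) (by rw [sum_iz]; omega))) ?_
      (R_five (s := o \ (A ∪ B)) (by rw [Finset.card_sdiff_of_subset hs, ho.2, hc]))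
    funext p
    have k : iz o p = iz (o \ (A ∪ B)) p + iz A p + iz B p := by
      by_cases k1 : p ∈ A
      · simp [iz, k1, hs (Finset.mem_union_left _ k1), Finset.disjoint_left.1 hd k1]
      · by_cases k2 : p ∈ B
        · simp [iz, k1, k2, hs (Finset.mem_union_right _ k2)]
        · simp [iz, k1, k2]
    have := h2 p
    simp only [Pi.add_apply, Pi.smul_apply, Pi.sub_apply, smul_eq_mul]
    omega

theorem R_odd {x : ZV} (hx : x ∈ leechLattice) (hn : sqNorm x = 64) (h : ¬ 2 ∣ x (pt 0)) : R x := by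
  obtain ⟨m, c, y, hc, e, -⟩ := mem_leech.1 hx
  have h0 := e (pt 0)
  have key : ∀ d ∈ CW, (∀ p, sg d x p % 4 = 1) → R x := by
    intro d hd h1
    refine R_of_co (isCo_sg hd) hx ?_
    have e1 : sg d x = fun p => 1 + 4 * (sg d x p / 4) := funext fun p => by have := h1 p; omega
    have := (isCo_sg hd).norm hx
    rw [e1] at this ⊢
    exact R_one (this.trans hn)
  by_cases hm : m % 4 = 1
  · refine key c hc fun p => ?_
    have := e p
    rcases iz_cases c p with h | h <;> simp only [sg, h.1, if_true, if_false] <;> omega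
  · refine key _ (compl_mem_CW hc) fun p => ?_
    have := e p
    rcases iz_cases c p with h | h <;> simp only [sg, h.1, if_true, if_false, Finset.mem_sdiff, Finset.mem_univ,
      not_true, not_false_iff, and_false, and_true] <;> omega

theorem exists_move {s : Finset GolayPt} (h0 : 0 < s.card) (h1 : s.card ≤ 21) :
    ∃ g ∈ M24, g⁻¹ (pt 0) ∈ s ∧ g⁻¹ (pt 1) ∉ s ∧ g⁻¹ (pt 2) ∉ s ∧ g⁻¹ (pt 3) ∉ s := by
  obtain ⟨a, ha⟩ := Finset.card_pos.1 h0
  obtain ⟨t, ht, hc⟩ := Finset.exists_subset_card_eq (s := Finset.univ \ s) (n := 3)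
    (by rw [Finset.card_univ_sdiff, card_golayPt]; omega)
  obtain ⟨b, c, d, hbc, hbd, hcd, rfl⟩ := Finset.card_eq_three.1 hc
  have hb : b ∉ s := by simpa using ht (show b ∈ _ by simp)
  have hc : c ∉ s := by simpa using ht (show c ∈ _ by simp)
  have hd : d ∉ s := by simpa using ht (show d ∈ _ by simp)
  have hab : a ≠ b := fun e => hb (e ▸ ha)
  have hac : a ≠ c := fun e => hc (e ▸ ha)
  have had : a ≠ d := fun e => hd (e ▸ ha)
  obtain ⟨g, hg, e1, e2, e3, e4⟩ := trans4 hab hac hbc had hbd hcd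
  obtain ⟨k, hk, f1, f2, f3, f4⟩ := trans4 (a := pt 0) (b := pt 1) (c := pt 2) (d := pt 3) (by decide) (by decide)
    (by decide) (by decide) (by decide) (by decide)
  refine ⟨k⁻¹ * g, mul_mem (inv_mem hk) hg, ?_⟩
  simp only [mul_inv_rev, inv_inv, Equiv.Perm.mul_apply, f1, f2, f3, f4]
  rw [← e1, ← e2, ← e3, ← e4]
  simp [ha, hb, hc, hd]

theorem R_step {x : ZV} (hx : x ∈ leechLattice) (hn : sqNorm x = 64) {k : ℤ} {s : Finset GolayPt}
    (h0 : 0 < s.card) (h1 : s.card ≤ 21) (h : ∀ p, 2 * k ∣ x p - k * iz s p)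
    (ih : ∀ y ∈ leechLattice, sqNorm y = 64 → 2 * k ∣ 2 * y (pt 0) - k → R y) : R x := by
  obtain ⟨g, hg, a0, a1, a2, a3⟩ := exists_move h0 h1
  have hx' := pm_mem hg hx
  refine R_of_co (isCo_pm hg) hx (R_of_co isCo_xi hx' (ih _ (xi_spec hx').1
    (by rw [isCo_xi.norm hx', (isCo_pm hg).norm hx, hn]) ?_))
  rw [xi_zero hx']
  have k0 := h (g⁻¹ (pt 0))
  have k1 := h (g⁻¹ (pt 1))
  have k2 := h (g⁻¹ (pt 2))
  have k3 := h (g⁻¹ (pt 3))
  rw [iz, if_pos a0] at k0
  rw [iz, if_neg a1] at k1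
  rw [iz, if_neg a2] at k2
  rw [iz, if_neg a3] at k3
  have := dvd_sub (dvd_sub (dvd_add (dvd_add k1 k2) k3) k0) (dvd_refl (2 * k))
  rwa [show x (g⁻¹ (pt 1)) - k * 0 + (x (g⁻¹ (pt 2)) - k * 0) + (x (g⁻¹ (pt 3)) - k * 0) - (x (g⁻¹ (pt 0)) - k * 1) -
    2 * k = pm g x (pt 1) + pm g x (pt 2) + pm g x (pt 3) - pm g x (pt 0) - k by simp only [pm]; ring] at this

theorem R_two {x : ZV} (hx : x ∈ leechLattice) (hn : sqNorm x = 64) {q : GolayPt} (h : 4 ∣ x q - 2) : R x := by
  obtain ⟨c, hc, y, e, -⟩ := even_form hx (q := q) (by omega)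
  have h4 := card_mul_le_sqNorm x c 4 fun p hp => by
    have := e p
    rw [iz, if_pos hp] at this
    exact sq_ge_of_ne (k := 2) (by norm_num) (by omega)
  refine R_step hx hn (k := 2) (s := c) (Finset.card_pos.2 ⟨q, ?_⟩) (by omega) (fun p => by rw [e p]; omega)
    fun y hy h1 h2 => R_odd hy h1 (by omega)
  have := e q
  rcases iz_cases c q with h | h
  · exact h.1
  · omega

theorem R_pow {x : ZV} (hx : x ∈ leechLattice) (hn : sqNorm x = 64) {k : ℤ} (hk : k = 4 ∨ k = 8) (h4 : ∀ p, k ∣ x p)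
    {q : GolayPt} (h : ¬ 2 * k ∣ x q) (ih : ∀ y ∈ leechLattice, sqNorm y = 64 → 2 * k ∣ 2 * y (pt 0) - k → R y) :
    R x := by
  set s := Finset.univ.filter fun p => ¬ 2 * k ∣ x p with hs
  have h5 := card_mul_le_sqNorm x s 16 fun p hp => by
    have := h4 p
    rw [hs, Finset.mem_filter] at hp
    exact sq_ge_of_ne (k := 4) (by norm_num) (by rcases hk with rfl | rfl <;> omega)
  refine R_step hx hn (s := s) (Finset.card_pos.2 ⟨q, by simp [hs, h]⟩) (by omega) (fun p => ?_) ih
  have := h4 p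
  rcases iz_cases s p with h | h <;> rw [h.2] <;> simp only [hs, Finset.mem_filter, Finset.mem_univ, true_and] at h <;>
    rcases hk with rfl | rfl <;> omega

theorem R_four {x : ZV} (hx : x ∈ leechLattice) (hn : sqNorm x = 64) {q : GolayPt} (h : ¬ 8 ∣ x q) : R x := by
  by_cases h1 : 2 ∣ x (pt 0)
  · by_cases h2 : ∀ p, 4 ∣ x p
    · exact R_pow hx hn (Or.inl rfl) h2 (q := q) h fun y hy k1 k2 => R_two hy k1 (q := pt 0) (by omega)
    · push Not at h2
      obtain ⟨p, hp⟩ := h2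
      have := same_parity hx p (pt 0)
      exact R_two hx hn (q := p) (by omega)
  · exact R_odd hx hn h1

theorem R_all {x : ZV} (hx : x ∈ leechLattice) (hn : sqNorm x = 64) : R x := by
  by_cases h : ∀ p, 8 ∣ x p
  · obtain ⟨q, hq⟩ : ∃ q, ¬ 16 ∣ x q := by
      by_contra hcon
      push Not at hcon
      have : x = (16 : ℤ) • fun p => x p / 16 := funext fun p => by
        have := hcon p
        simp only [Pi.smul_apply, smul_eq_mul]; omega
      rw [this, sqNorm_smul] at hn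
      omega
    exact R_pow hx hn (Or.inr rfl) h (q := q) hq fun y hy k1 k2 => R_four hy k1 (q := pt 0) (by omega)
  · push Not at h
    obtain ⟨q, hq⟩ := h
    exact R_four hx hn hq


/-- The automorphism group of the Leech lattice acts transitively on the congruence classes modulo twice the lattice of the vectors of sum of squares 64 (customary norm 8): for any two such vectors some automorphism carries the first to a vector congruent to the second. -/
theorem result (v w : ↥Cfsg.leechLattice) (hv : Cfsg.sqNorm (v : Cfsg.GolayPt → ℤ) = 64) (hw : Cfsg.sqNorm (w : Cfsg.GolayPt → ℤ) = 64) :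
    ∃ g : ↥Cfsg.Co0, ∃ z ∈ Cfsg.leechLattice, ((g • v : ↥Cfsg.leechLattice) : Cfsg.GolayPt → ℤ) - (w : Cfsg.GolayPt → ℤ) = 2 • z := by
  obtain ⟨_, g, z, hz, e⟩ := R_all v.2 hv
  obtain ⟨_, k, z', hz', e'⟩ := R_all w.2 hw
  refine ⟨k⁻¹ * g, (k⁻¹ • (⟨z - z', sub_mem hz hz'⟩ : leechLattice) : leechLattice), Subtype.property _, ?_⟩
  have h : g • v = k • w + (2 : ℤ) • ⟨z - z', sub_mem hz hz'⟩ := by
    apply Subtype.ext
    show _ = (k • w : leechLattice).1 + (2 : ℤ) • (z - z')
    rw [smul_sub, ofNat_zsmul, ofNat_zsmul, ← e, ← e']; abel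
  rw [mul_smul, h, co_add, inv_smul_smul, co_zsmul, AddSubgroup.coe_add, add_sub_cancel_left]
  rfl

end Cfsg.Agent.S5593
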