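import Cfsg.Statements.S5415
import Cfsg.Agent.Lib.Co.C3A2

set_option autoImplicit false
open Cfsg

namespace Cfsg.Agent.S5415

open CA CA.Co Subgroup

theorem exists_NM {D L P : Type*} [Group D] [Finite D] [Group L] [Group P] {R : Subgroup D} [R.Normal]
    (e : D ⧸ R ≃* L) (φ : L →* P) (hφ : Function.Surjective φ) (hc : Nat.card L = 3 * Nat.card P)
    (U : Subgroup P) [U.Normal] : ∃ (N M : Subgroup D) (_ : N.Normal) (_ : M.Normal), R ≤ N ∧ N ≤ M ∧
      Nat.card N = 3 * Nat.card R ∧ Nonempty (M ⧸ N.subgroupOf M ≃* U) ∧ M.index = U.index := by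
  let ψ : D →* P := φ.comp (e.toMonoidHom.comp (QuotientGroup.mk' R))
  have hψ : Function.Surjective ψ := hφ.comp (e.surjective.comp (QuotientGroup.mk'_surjective R))
  haveI : Finite P := Finite.of_surjective ψ hψ
  have hs : Function.Surjective (ψ.subgroupComap U) := MonoidHom.subgroupComap_surjective_of_surjective ψ U hψ
  refine ⟨ψ.ker, U.comap ψ, inferInstance, inferInstance, fun x hx => ?_, ker_le_comap ψ U, ?_,
    ⟨(QuotientGroup.quotientMulEquivOfEq ?_).trans (QuotientGroup.quotientKerEquivOfSurjective _ hs)⟩,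
    index_comap_of_surjective _ hψ⟩
  · simp [ψ, MonoidHom.mem_ker, (QuotientGroup.eq_one_iff x).2 hx]
  · have h1 := card_eq_card_quotient_mul_card_subgroup R
    have h2 := card_eq_card_quotient_mul_card_subgroup ψ.ker
    rw [Nat.card_congr (QuotientGroup.quotientKerEquivOfSurjective ψ hψ).toEquiv, h1, Nat.card_congr e.toEquiv,
      hc, mul_comm 3, mul_assoc] at h2
    exact (Nat.eq_of_mul_eq_mul_left Nat.card_pos h2).symm
  · ext x
    exact ⟨fun h => Subtype.ext h, fun h => congrArg Subtype.val h⟩

/-- Let G be a finite group of Monster type at the involution z with Q the extraspecial normal subgroup of order 2^25 of C = C_G(z) (so C/Q is identified with the first Conway group with Q modulo its centre the Leech lattice modulo 2, and z is not weakly closed in Q). Let s be a conjugate of z in Q other than z and let Y be a subgroup of order 3 of the joint centralizer L of z and s that is 3-central in L (Y lies in the centre of some Sylow 3-subgroup of L). Then the centralizer of Y modulo Y is a group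 of large Fischer type (an involution whose centralizer D has generalized Fitting subgroup R extraspecial of order 2^13 and normal subgroups R ≤ N ≤ M with N/R of order 3, M/N the projective special unitary group of dimension 4 over the field with nine elements and M of index 2 in D; the involution not weakly closed in R). -/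
theorem result {G : Type*} [Group G] [Finite G] (z : G) (Q : Subgroup (Subgroup.centralizer ({z} : Set G))) [Q.Normal] (hM : Cfsg.IsOfMonsterType z Q) (s : G) (hsQ : ∃ hsc : s ∈ Subgroup.centralizer ({z} : Set G), (⟨s, hsc⟩ : Subgroup.centralizer ({z} : Set G)) ∈ Q) (hs : IsConj z s) (hs1 : s ≠ z) (Y : Subgroup G) (hY : Y ≤ Subgroup.centralizer ({z, s} : Set G)) (hY3 : Nat.card Y = 3) (hc : ∃ P : Sylow 3 ↥(Subgroup.centralizer ({z, s} : Set G)), Y.subgroupOf (Subgroup.centralizer ({z, s} : Set G)) ≤ (Subgroup.center ↥(P : Subgroup ↥(Subgroup.centralizer ({z, s} : Set G)))).map (P : Subgroup ↥(Subgroup.centralizer ({z, s} : Set G))).subtype) [hn : (Y.subgroupOf (Subgroup.centralizer (Y : Set G))).Normal] : Cfsg.IsOfLargeFischerType (↥(Subgroup.centralizer (Y : Set G)) ⧸ Y.subgroupOf (Subgroup.centralizer (Y : Set G))) := by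
  obtain ⟨Q', π, r, h, hr⟩ := exists_mt_frame hM hsQ hs hs1
  obtain ⟨b, π', r', rfl, ho, hr'⟩ := h.exists_os_three hr hY hY3 (σ := C3A.σ) (τ := C3B.σ) class_three' (by
    rintro b rfl e
    rw [C3B.card_cent, fact3_504, (central_iff3 h hr hY hY3).1 hc] at e
    exact absurd e (by decide))
  obtain ⟨h1, h2, φ, h3, h4⟩ := C3A.main
  obtain ⟨y, R, hR, k1, ⟨e⟩, -⟩ := ho.section hr' h1 (QuotientGroup.mk' ((KK (pmC C3A.σ)).subgroupOf 𝐂[pmC C3A.σ]))
    (QuotientGroup.mk'_surjective _) (fun g => QuotientGroup.eq_one_iff g) (hn := hn)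
  obtain ⟨N, M, a1, a2, a3, a4, a5, ⟨f⟩, a6⟩ := exists_NM e (QuotientGroup.lift _ φ fun g hg => h4 g hg)
    (fun x => let ⟨g, e⟩ := h3 x; ⟨g, e⟩) (by
      have := card_eq_card_quotient_mul_card_subgroup ((KK (pmC C3A.σ)).subgroupOf 𝐂[pmC C3A.σ])
      rw [h2, card_subgroupOf_of_le (KK_le _), card_KK (h1.ord ▸ h1.odd), h1.ord] at this
      rw [Fi.card_PR6]
      exact Nat.eq_of_mul_eq_mul_right (by norm_num) (this.symm.trans (by norm_num))) (_root_.commutator _)
  obtain ⟨K, i1, i2, a7, ⟨f'⟩⟩ := C3A.nonempty_PSU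
  exact ⟨y, R, hR, k1, N, M, a1, a2, a3, a4, a5, ⟨K, i1, i2, a7, ⟨f.trans f'⟩⟩, a6.trans C3A.index_comm⟩

end Cfsg.Agent.S5415
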