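import Cfsg.Statements.S0255
import Cfsg.Agent.Lib.Zas.Small

set_option autoImplicit false
open Cfsg

namespace Cfsg.Agent.S0255

/-- PSL_2(7) is isomorphic to PSL_3(2). -/
theorem result {F K : Type*} [Field F] [Fintype F] [Field K] [Fintype K] (hF : Fintype.card F = 7) (hK : Fintype.card K = 2) : Nonempty (Matrix.ProjectiveSpecialLinearGroup (Fin 2) F ≃* Matrix.ProjectiveSpecialLinearGroup (Fin 3) K) := by
  haveI := CA.Lin.PSL_isSimpleGroup (ι := Fin 3) (F := K) (by simp)
  have h1 := CA.Lin.card_SL_mul (F := K) 3 (by norm_num)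
  rw [hK, Nat.card_congr (CA.Small.slEquivPSL (ι := Fin 3) (F := K) (by simp [hK])).toEquiv] at h1
  obtain ⟨e⟩ := CA.Zas.psl_prime (G := Matrix.ProjectiveSpecialLinearGroup (Fin 3) K) (p := 7) (by simp)
    (by simp [Fin.prod_univ_three] at h1; rw [h1]; rfl) hF
  exact ⟨e.symm⟩

end Cfsg.Agent.S0255
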