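import Cfsg.Statements.S0265
import Cfsg.Agent.Lib.Classical.Linear

set_option autoImplicit false
open Cfsg

namespace Cfsg.Agent.S0265

/-- |PGL_n(q)| = |SL_n(q)|: GL_n modulo its centre (the q-1 non-zero scalars) has the same order as the kernel of det. -/
theorem result {F : Type*} [Field F] [Fintype F] (n : ℕ) : Nat.card (Matrix.ProjGenLinGroup (Fin n) F) = Nat.card (Matrix.SpecialLinearGroup (Fin n) F) := by
  rcases Nat.eq_zero_or_pos n with rfl | hn
  · have : Subsingleton (Matrix.ProjGenLinGroup (Fin 0) F) :=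
      Matrix.ProjGenLinGroup.mk_surjective.subsingleton
    rw [Nat.card_of_subsingleton (1 : Matrix.ProjGenLinGroup (Fin 0) F),
      Nat.card_of_subsingleton (1 : Matrix.SpecialLinearGroup (Fin 0) F)]
  · have : Nonempty (Fin n) := ⟨⟨0, hn⟩⟩
    apply Nat.eq_of_mul_eq_mul_left (Nat.card_pos (α := Fˣ))
    rw [CA.Lin.card_units_mul_card_PGL, CA.Lin.card_units_mul_card_SL]

end Cfsg.Agent.S0265
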