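import Cfsg.Statements.S0276
import Cfsg.Agent.Lib.Classical.SL2

set_option autoImplicit false
open Cfsg

namespace Cfsg.Agent.S0276

/-- For q = 3 or 5 mod 8 the Sylow 2-subgroups of PSL_2(q) are elementary abelian of order 4. -/
theorem result {F : Type*} [Field F] [Fintype F] {q : ℕ} (hF : Fintype.card F = q) (hq : q % 8 = 3 ∨ q % 8 = 5) (P : Sylow 2 (Matrix.ProjectiveSpecialLinearGroup (Fin 2) F)) : IsKleinFour (P : Subgroup (Matrix.ProjectiveSpecialLinearGroup (Fin 2) F)) := by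
  subst hF
  have hodd : Odd (Fintype.card F) := by rw [Nat.odd_iff]; omega
  have hcS := CA.SL2.card_SL_two' (F := F)
  obtain ⟨m, hm, hmo⟩ : ∃ m, (Fintype.card F - 1) * (Fintype.card F + 1) = 8 * m ∧ ¬ 2 ∣ m := by
    rcases hq with hq | hq
    · obtain ⟨k, hk⟩ : ∃ k, Fintype.card F = 8 * k + 3 := ⟨Fintype.card F / 8, by omega⟩
      refine ⟨(4 * k + 1) * (2 * k + 1), ?_, ?_⟩
      · rw [hk, show 8 * k + 3 - 1 = 8 * k + 2 by omega]; ring
      · rw [Nat.Prime.dvd_mul Nat.prime_two]; omega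
    · obtain ⟨k, hk⟩ : ∃ k, Fintype.card F = 8 * k + 5 := ⟨Fintype.card F / 8, by omega⟩
      refine ⟨(2 * k + 1) * (4 * k + 3), ?_, ?_⟩
      · rw [hk, show 8 * k + 5 - 1 = 8 * k + 4 by omega]; ring
      · rw [Nat.Prime.dvd_mul Nat.prime_two]; omega
  have hnd : ¬ 2 ∣ Fintype.card F * m := by
    rw [Nat.Prime.dvd_mul Nat.prime_two]; omega
  have hcP := CA.Lin.card_center_mul_card_PSL (ι := Fin 2) (R := F)
  rw [CA.Lin.card_center_SL, Fintype.card_fin, Nat.card_eq_fintype_card (α := F),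
    Nat.gcd_eq_left (by omega), hcS, hm] at hcP
  have h4 : Nat.card P = 2 ^ 2 :=
    CA.Lin.card_sylow_of_card_eq (m := Fintype.card F * m) (by linarith) hnd P
  obtain ⟨Q, rfl⟩ := Sylow.mapSurjective_surjective
    (QuotientGroup.mk'_surjective (Subgroup.center (Matrix.SpecialLinearGroup (Fin 2) F))) 2 P
  have h8 : Nat.card Q = 2 ^ 3 :=
    CA.Lin.card_sylow_of_card_eq (m := Fintype.card F * m) (by rw [hcS, hm]; ring) hnd Q
  obtain ⟨k, -, ⟨e⟩⟩ := CA.SL2.sylow_two_quaternion hodd Q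
  have hk : 2 ^ k = 2 := by
    have := Nat.card_congr e.toEquiv
    rw [h8, Nat.card_eq_fintype_card, QuaternionGroup.card] at this
    omega
  have hexp : ∀ g : Q, g ^ 4 = 1 := by
    intro g
    apply e.injective
    rw [map_pow, map_one]
    have := Monoid.pow_exponent_eq_one (e g)
    rwa [QuaternionGroup.exponent, show 2 * lcm (2 ^ k) 2 = 4 by rw [hk]; rfl] at this
  refine ⟨h4, ?_⟩
  have hnt := Finite.one_lt_card_iff_nontrivial.1 (lt_of_lt_of_eq (by norm_num) h4.symm)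
  refine (Monoid.exponent_eq_prime_iff Nat.prime_two).2 fun g hg => ?_
  refine orderOf_eq_prime ?_ hg
  obtain ⟨_, g, hgQ, rfl⟩ := g
  apply Subtype.ext
  change (QuotientGroup.mk' _ g) ^ 2 = 1
  rw [← map_pow, QuotientGroup.mk'_apply, QuotientGroup.eq_one_iff]
  by_cases h1 : g ^ 2 = 1
  · rw [h1]; exact one_mem _
  · have h2 : g ^ 2 * g ^ 2 = 1 := by
      rw [← pow_add]; exact congrArg Subtype.val (hexp ⟨g, hgQ⟩)
    have h3 := CA.SL2.eq_neg_one_of_involution (CA.SL2.two_ne_zero_of_odd hodd) _ h1 h2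
    rw [Matrix.SpecialLinearGroup.mem_center_iff]
    exact ⟨-1, by simp, by rw [h3, map_neg, map_one]⟩

end Cfsg.Agent.S0276
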