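import Cfsg.Statements.S0285
import Cfsg.Agent.Lib.Classical.UnitaryModel

set_option autoImplicit false
open Cfsg

namespace Cfsg.Agent.S0285

/-- The standard Hermitian form on F^n, |F| = q^2, has exactly (q^n - (-1)^n)(q^(n-1) + (-1)^n) non-zero isotropic vectors; counting the zero vector too: -/
theorem result {F : Type*} [Field F] [Fintype F] {q : ℕ} (hF : Fintype.card F = q ^ 2) (n : ℕ) : Nat.card {v : Fin n → F // Cfsg.hermForm n F q v v = 0} = (if Even n then (q ^ n - 1) * (q ^ (n - 1) + 1) else (q ^ n + 1) * (q ^ (n - 1) - 1)) + 1 := by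
  let := CA.Cl.starRingOfCard hF
  have hK := CA.Cl.isFq2_starRingOfCard hF
  simp only [CA.Unit.hermForm_eq hK]
  rcases n with _ | n
  · have h0 : Nat.card {v // CA.Unit.std F (Fin 0) v v = 0} = 1 := by
      rw [Nat.card_eq_one_iff_exists]
      exact ⟨⟨0, by simp [CA.Unit.std_apply]⟩, fun y => Subsingleton.elim _ _⟩
    rw [h0]; simp
  · have h2 : 1 ≤ q ^ (n + 1) := Nat.one_le_pow _ _ (by have := hK.two_le; omega)
    have h3 : 1 ≤ q ^ n := Nat.one_le_pow _ _ (by have := hK.two_le; omega)
    zify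
    rw [CA.Unit.card_std_zero hK]
    simp only [Nat.even_add_one, Nat.add_sub_cancel, ite_not]
    split_ifs with hn
    · rw [hn.neg_one_pow]; push_cast [h3]; ring
    · rw [(Nat.not_even_iff_odd.mp hn).neg_one_pow]; push_cast [h2]; ring

end Cfsg.Agent.S0285
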