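import Cfsg.Statements.S0292
import Cfsg.Agent.Lib.Classical.OrthCount
import Cfsg.Agent.Lib.Classical.OrthSpinor

set_option autoImplicit false
open Cfsg

namespace Cfsg.Agent.S0292

/-- 2 |PΩ_{2m+1}(q)| = q^(m^2) prod_{i=1}^{m} (q^(2i) - 1), for q odd and m at least 3 (type B_m). -/
theorem result {F : Type*} [Field F] [Fintype F] {q : ℕ} (hF : Fintype.card F = q) (hodd : Odd q) (m : ℕ) (hm : 3 ≤ m) : 2 * Nat.card (Cfsg.POmega F (Cfsg.quadFormOdd m F)) = q ^ (m ^ 2) * ∏ i ∈ Finset.range m, (q ^ (2 * (i + 1)) - 1) := by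
  subst hF
  have h1 : 1 ≤ Fintype.card F := Fintype.card_pos
  have h2 := CA.Orth.two_ne_zero_of_odd_card hodd
  have h := CA.Orth.card_POmega_Qm _ (CA.Orth.oddEquiv F m) CA.Orth.Qm_oddEquiv
    (CA.Orth.nd_q1 h2) hm
  rw [CA.Orth.card_center_E_of_not_mem CA.Orth.ns_q1.Qm (by rw [CA.Orth.finrank_Qm]; omega)
    (CA.Orth.hyp_Qm ⟨0, by omega⟩) (Or.inr (CA.Orth.negO_not_mem_E_odd h2)),
    show Nat.gcd (Fintype.card F - 1) 2 = 2 by
      rw [Nat.odd_iff] at hodd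
      exact Nat.gcd_eq_right (by omega)] at h
  have := CA.Orth.card_O_odd h2 m
  rw [Nat.card_eq_fintype_card (α := F), ← h] at this
  zify [Nat.one_le_pow _ _ h1]
  push_cast at this
  linarith

end Cfsg.Agent.S0292
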