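import Cfsg.Statements.S0298
import Cfsg.Agent.Lib.Classical.OrthIso

set_option autoImplicit false
open Cfsg

namespace Cfsg.Agent.S0298

/-- PΩ_3(q) is isomorphic to PSL_2(q) for q odd. -/
theorem result {F : Type*} [Field F] [Fintype F] (hodd : Odd (Fintype.card F)) : Nonempty (Cfsg.POmega F (Cfsg.quadFormOdd 1 F) ≃* Matrix.ProjectiveSpecialLinearGroup (Fin 2) F) := by
  have h3 : 3 ≤ Fintype.card F := by
    have := Fintype.one_lt_card (α := F)
    rw [Nat.odd_iff] at hodd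
    omega
  exact ⟨(CA.Orth.isoPE _ (CA.Orth.oddEquiv F 1) CA.Orth.Qm_oddEquiv
    ((CA.Orth.hyp_Qm 0).commutator_eq_E_of_card CA.Orth.ns_q1.Qm (by simp)
      (CA.Cl.exists_ne_zero_ne_one h3))).trans CA.Orth.nonempty_PE3.some⟩

end Cfsg.Agent.S0298
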