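import Cfsg.Statements.S0299
import Cfsg.Agent.Lib.Classical.OrthIso

set_option autoImplicit false
open Cfsg

namespace Cfsg.Agent.S0299

/-- PΩ^+_4(q) is isomorphic to PSL_2(q) x PSL_2(q) for q at least 3. -/
theorem result {F : Type*} [Field F] [Fintype F] (hF : 3 ≤ Fintype.card F) : Nonempty (Cfsg.POmega F (Cfsg.quadFormPlus 2 F) ≃* Matrix.ProjectiveSpecialLinearGroup (Fin 2) F × Matrix.ProjectiveSpecialLinearGroup (Fin 2) F) := by
  exact ⟨(CA.Orth.isoPE _ (CA.Orth.plusEquiv F 2) CA.Orth.Qm_plusEquiv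
    ((CA.Orth.hyp_Qm 0).commutator_eq_E_of_card CA.Orth.nd_q0.ns.Qm
      (by rw [CA.Orth.finrank_Qm]; omega)
      (CA.Cl.exists_ne_zero_ne_one hF))).trans CA.Orth.nonempty_PE4.some⟩

end Cfsg.Agent.S0299
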