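import Cfsg.Statements.S0304
import Cfsg.Agent.Lib.Classical.Symplectic

set_option autoImplicit false
open Cfsg

namespace Cfsg.Agent.S0304

open Matrix

section
variable {F : Type*} [Field F] {m : ℕ}

theorem quad_add (u v : Unit ⊕ (Fin m ⊕ Fin m) → F) [CharP F 2] :
    quadFormOdd m F (u + v) = quadFormOdd m F u + quadFormOdd m F v +
      CA.Sp.om (u ∘ Sum.inr) (v ∘ Sum.inr) := by
  have h2 : (2 : F) = 0 := CharP.cast_eq_zero F 2
  simp only [quadFormOdd, CA.Sp.om_eq, Pi.add_apply, Function.comp]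
  have : ∑ i : Fin m, (u (.inr (.inl i)) + v (.inr (.inl i))) * (u (.inr (.inr i)) + v (.inr (.inr i)))
      = ∑ i : Fin m, u (.inr (.inl i)) * u (.inr (.inr i)) +
        ∑ i : Fin m, v (.inr (.inl i)) * v (.inr (.inr i)) +
        ∑ i : Fin m, (u (.inr (.inr i)) * v (.inr (.inl i)) - u (.inr (.inl i)) * v (.inr (.inr i))) := by
    rw [← Finset.sum_add_distrib, ← Finset.sum_add_distrib]
    refine Finset.sum_congr rfl fun i _ => ?_
    linear_combination (u (.inr (.inl i)) * v (.inr (.inr i))) * h2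
  rw [this]
  linear_combination (u (.inl ()) * v (.inl ())) * h2

theorem quad_smul (c : F) (u : Unit ⊕ (Fin m ⊕ Fin m) → F) :
    quadFormOdd m F (c • u) = c ^ 2 * quadFormOdd m F u := by
  simp only [quadFormOdd, Pi.smul_apply, smul_eq_mul, mul_add, Finset.mul_sum]
  congr 1
  · ring
  · exact Finset.sum_congr rfl fun i _ => by ring

theorem quad_elim (a : Unit → F) (x : Fin m ⊕ Fin m → F) :
    quadFormOdd m F (Sum.elim a x) = a () ^ 2 + quadFormOdd m F (Sum.elim 0 x) := by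
  simp [quadFormOdd]

theorem mem_iff' (g : GL (Unit ⊕ (Fin m ⊕ Fin m)) F) :
    g ∈ isometryGroup F (quadFormOdd m F) ↔
      ∀ u, quadFormOdd m F (g.1 *ᵥ u) = quadFormOdd m F u :=
  ⟨fun h u => h u u, fun h u _ => h u⟩

variable [CharP F 2]

theorem om_pres (g : isometryGroup F (quadFormOdd m F)) (u v : Unit ⊕ (Fin m ⊕ Fin m) → F) :
    CA.Sp.om ((g.1.1 *ᵥ u) ∘ Sum.inr) ((g.1.1 *ᵥ v) ∘ Sum.inr) =
      CA.Sp.om (u ∘ Sum.inr) (v ∘ Sum.inr) := by
  have h := (mem_iff' g.1).1 g.2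
  have h1 := h (u + v)
  rw [mulVec_add, quad_add, quad_add, h, h] at h1
  exact add_left_cancel h1

theorem block21 (g : isometryGroup F (quadFormOdd m F)) : g.1.1.toBlocks₂₁ = 0 := by
  have h : (g.1.1 *ᵥ (Pi.single (.inl ()) 1)) ∘ Sum.inr = 0 := by
    refine CA.Sp.eq_zero_of_om _ fun y => ?_
    have := om_pres g (Pi.single (.inl ()) 1) ((g.1⁻¹).1 *ᵥ Sum.elim 0 y)
    rw [mulVec_mulVec, ← Units.val_mul, mul_inv_cancel, Units.val_one, one_mulVec] at this
    have h0 : (Pi.single (.inl ()) 1 : Unit ⊕ (Fin m ⊕ Fin m) → F) ∘ Sum.inr = 0 := by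
      ext k; simp
    rw [h0, CA.Sp.om_zero_left] at this
    exact this
  ext i j
  simpa [toBlocks₂₁] using congrFun h i

theorem mulVec_elim (g : isometryGroup F (quadFormOdd m F)) (u : Unit ⊕ (Fin m ⊕ Fin m) → F) :
    (g.1.1 *ᵥ u) ∘ Sum.inr = g.1.1.toBlocks₂₂ *ᵥ (u ∘ Sum.inr) := by
  conv_lhs => rw [← fromBlocks_toBlocks g.1.1, fromBlocks_mulVec, block21]
  ext k; simp

theorem block11 (g : isometryGroup F (quadFormOdd m F)) : g.1.1.toBlocks₁₁ = 1 := by
  have h := (mem_iff' g.1).1 g.2 (Pi.single (.inl ()) 1)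
  have h21 : ∀ k, g.1.1 (.inr k) (.inl ()) = 0 := fun k => congrFun (congrFun (block21 g) k) ()
  simp [quadFormOdd, h21] at h
  ext i j
  have h2 : (-1 : F) = 1 := CharTwo.neg_eq 1
  rw [h2, or_self] at h
  simpa [toBlocks₁₁] using h

/-- The action on the quotient by the radical. -/
def toSp : isometryGroup F (quadFormOdd m F) →* symplecticGroup (Fin m) F where
  toFun g := ⟨g.1.1.toBlocks₂₂, CA.Sp.mem_iff_om.2 fun u v => by
    have := om_pres g (Sum.elim 0 u) (Sum.elim 0 v)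
    rwa [mulVec_elim, mulVec_elim] at this⟩
  map_one' := by
    apply Subtype.ext
    ext i j
    simp [toBlocks₂₂, one_apply]
  map_mul' g h := by
    apply Subtype.ext
    ext i j
    have h21 : ∀ k, g.1.1 (.inr k) (.inl ()) = 0 := fun k => congrFun (congrFun (block21 g) k) ()
    simp [toBlocks₂₂, Matrix.mul_apply, Fintype.sum_sum_type, h21]

theorem toSp_injective : Function.Injective (toSp (F := F) (m := m)) := by
  rw [injective_iff_map_eq_one]
  intro g hg
  have h22 : g.1.1.toBlocks₂₂ = 1 := congrArg Subtype.val hg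
  have h12 : g.1.1.toBlocks₁₂ = 0 := by
    ext i k
    have h := (mem_iff' g.1).1 g.2 (Sum.elim 0 (Pi.single k 1))
    rw [← fromBlocks_toBlocks g.1.1, fromBlocks_mulVec, block21, block11, h22, quad_elim,
      Sum.elim_comp_inl, Sum.elim_comp_inr, mulVec_zero, mulVec_zero, zero_add, zero_add,
      one_mulVec, add_eq_right] at h
    simpa using h
  apply Subtype.ext
  apply Units.ext
  rw [← fromBlocks_toBlocks g.1.1, block21, block11, h22, h12]
  simp

theorem toSp_surjective [Fintype F] : Function.Surjective (toSp (F := F) (m := m)) := by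
  intro A
  have hsq : ∀ a : F, ∃ r, r ^ 2 = a := fun a => by
    obtain ⟨r, hr⟩ := FiniteField.isSquare_of_char_two (ringChar.eq F 2) a
    exact ⟨r, by rw [hr, pow_two]⟩
  let Q0 : (Fin m ⊕ Fin m → F) → F := fun x => quadFormOdd m F (Sum.elim 0 x)
  have Q0add : ∀ x y, Q0 (x + y) = Q0 x + Q0 y + CA.Sp.om x y := by
    intro x y
    have : (Sum.elim 0 (x + y) : Unit ⊕ (Fin m ⊕ Fin m) → F) =
        Sum.elim (0 : Unit → F) x + Sum.elim (0 : Unit → F) y := by
      ext k; rcases k with k | k <;> simp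
    simp only [Q0, this, quad_add]
    rfl
  have Q0smul : ∀ (c : F) x, Q0 (c • x) = c ^ 2 * Q0 x := by
    intro c x
    have : (Sum.elim 0 (c • x) : Unit ⊕ (Fin m ⊕ Fin m) → F) = c • Sum.elim (0 : Unit → F) x := by
      ext k; rcases k with k | k <;> simp
    simp only [Q0, this, quad_smul]
  choose r hr using fun k => hsq (Q0 (Pi.single k 1) - Q0 (A.1 *ᵥ Pi.single k 1))
  have h2 : (2 : F) = 0 := CharP.cast_eq_zero F 2
  have key : ∀ x, (r ⬝ᵥ x) ^ 2 + Q0 (A.1 *ᵥ x) = Q0 x := by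
    intro x
    induction x using Pi.single_induction with
    | zero => simp [Q0, quadFormOdd]
    | add x y hx hy =>
      rw [dotProduct_add, mulVec_add, Q0add, Q0add, CA.Sp.mem_iff_om.1 A.2]
      linear_combination hx + hy + (r ⬝ᵥ x) * (r ⬝ᵥ y) * h2
    | single k c =>
      have : (Pi.single k c : Fin m ⊕ Fin m → F) = c • Pi.single k 1 := by
        rw [← Pi.single_smul]; simp
      rw [this, mulVec_smul, Q0smul, Q0smul, dotProduct_smul, dotProduct_single, mul_one,
        smul_eq_mul, mul_pow, hr]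
      ring
  let M : Matrix (Unit ⊕ (Fin m ⊕ Fin m)) (Unit ⊕ (Fin m ⊕ Fin m)) F :=
    fromBlocks 1 (Matrix.of fun _ k => r k) 0 A.1
  have hM : M.det ≠ 0 := by
    rw [det_fromBlocks_zero₂₁, det_one, one_mul, SymplecticGroup.det_eq_one A.2]
    exact one_ne_zero
  refine ⟨⟨GeneralLinearGroup.mkOfDetNeZero M hM, (mem_iff' _).2 fun u => ?_⟩, ?_⟩
  · change quadFormOdd m F (M *ᵥ u) = _
    rw [fromBlocks_mulVec, quad_elim, zero_mulVec, zero_add, one_mulVec]
    conv_rhs => rw [← Sum.elim_comp_inl_inr u, quad_elim]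
    have := key (u ∘ Sum.inr)
    have h3 : ((Matrix.of fun (_ : Unit) k => r k) *ᵥ (u ∘ Sum.inr)) () = r ⬝ᵥ (u ∘ Sum.inr) := rfl
    rw [Pi.add_apply, h3]
    linear_combination this + ((u ∘ Sum.inl) () * (r ⬝ᵥ (u ∘ Sum.inr))) * h2
  · apply Subtype.ext
    rfl

end


/-- In characteristic 2, O_{2m+1}(q) is isomorphic to Sp_{2m}(q). -/
theorem result {F : Type*} [Field F] [Fintype F] [CharP F 2] (m : ℕ) : Nonempty (Cfsg.isometryGroup F (Cfsg.quadFormOdd m F) ≃* Matrix.symplecticGroup (Fin m) F) := by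
  exact ⟨MulEquiv.ofBijective toSp ⟨toSp_injective, toSp_surjective⟩⟩

end Cfsg.Agent.S0304
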