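import Cfsg.Statements.S0305
import Cfsg.Agent.Lib.Classical.OrthCount

set_option autoImplicit false
open Cfsg

namespace Cfsg.Agent.S0305

/-- GO^+_2(q) is dihedral of order 2(q-1). -/
theorem result {F : Type*} [Field F] [Fintype F] {q : ℕ} (hF : Fintype.card F = q) : Nonempty (Cfsg.isometryGroup F (Cfsg.quadFormPlus 1 F) ≃* DihedralGroup (q - 1)) := by
  subst hF
  obtain ⟨e⟩ := (CA.Orth.hyp_Qm (m := 1) (Q0 := CA.Orth.q0 F) 0).nonempty_equiv_dihedral (by
    rintro ⟨x, y, w⟩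
    refine Prod.ext (funext fun i => ?_) (Prod.ext (funext fun i => ?_) rfl) <;>
      simp [CA.Orth.pr, CA.Orth.eV, CA.Orth.fV, CA.Orth.polar_Qm, CA.Orth.q0_apply, Subsingleton.elim i 0])
  exact ⟨(CA.Orth.isoO _ (CA.Orth.plusEquiv F 1) CA.Orth.Qm_plusEquiv).trans e⟩

end Cfsg.Agent.S0305
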