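import Cfsg.Statements.S0507
import Cfsg.Agent.Lib.ABG.Main

set_option autoImplicit false
open Cfsg

namespace Cfsg.Agent.S0507

/-- A finite simple group whose Sylow 2-subgroups are quasi-dihedral is isomorphic to a projective special linear
group of dimension 3 over a field with q ≡ 3 mod 4 elements, to a projective special unitary group of dimension 3 with
q ≡ 1 mod 4, or is simple of order 7920. -/
theorem result {G : Type*} [Group G] [Finite G] [IsSimpleGroup G]
    (S : Sylow 2 G) (hS : Cfsg.IsQuasiDihedral (S : Subgroup G)) :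
    (∃ (F : Type) (_ : Field F) (_ : Fintype F), Fintype.card F % 4 = 3 ∧ Nonempty (G ≃* Matrix.ProjectiveSpecialLinearGroup (Fin 3) F)) ∨ (∃ (F : Type) (_ : Field F) (_ : Fintype F) (q : ℕ), Fintype.card F = q ^ 2 ∧ q % 4 = 1 ∧ Nonempty (G ≃* Cfsg.PSU 3 F q)) ∨ Cfsg.IsM11 G := by
  haveI : Fact (Nat.Prime 2) := ⟨Nat.prime_two⟩
  exact (CA.ABG.abg ⟨S, CA.sylowIn_top S, .inl hS⟩).s507 S hS

end Cfsg.Agent.S0507
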