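import Cfsg.Statements.S0523
import Cfsg.Agent.Lib.ABG.MkWI
import Cfsg.Agent.Lib.ABG.WFalse
import Cfsg.Agent.Lib.ABG.WF
import Cfsg.Agent.Lib.ABG.Fin

set_option autoImplicit false
open Cfsg

namespace Cfsg.Agent.S0523

/-- A finite simple group whose Sylow 2-subgroups are wreathed is isomorphic to a projective special linear or
projective special unitary group of dimension 3 over a field of odd characteristic, or is simple of order 7920 (the
order of the smallest Mathieu group). -/
theorem result {G : Type*} [Group G] [Finite G] [IsSimpleGroup G]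
    (S : Sylow 2 G) (hS : Cfsg.IsWreathed (S : Subgroup G)) :
    (∃ (F : Type) (_ : Field F) (_ : Fintype F), Odd (Fintype.card F) ∧
        Nonempty (G ≃* Matrix.ProjectiveSpecialLinearGroup (Fin 3) F)) ∨
      (∃ (F : Type) (_ : Field F) (_ : Fintype F) (q : ℕ), Fintype.card F = q ^ 2 ∧ Odd q ∧
        Nonempty (G ≃* Cfsg.PSU 3 F q)) ∨
      Cfsg.IsM11 G := by
  haveI : Fact (Nat.Prime 2) := ⟨Nat.prime_two⟩
  have hw : CA.ABG.WSyl (⊤ : Subgroup G) := ⟨S, CA.sylowIn_top S, hS⟩
  exact (CA.ABG.identW hw (CA.ABG.balW_of (fun _ _ _ m => m.wi.elim fun w => w.false) G hw)).s523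

end Cfsg.Agent.S0523
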