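import Cfsg.Statements.S0493
import Cfsg.Agent.Lib.Zas.Small

set_option autoImplicit false
open Cfsg

namespace Cfsg.Agent.S0493

/-- A finite simple group of order at most 100 that is not cyclic has order 60. -/
theorem result {G : Type*} [Group G] [Finite G] [IsSimpleGroup G]
    (hG : ¬ IsCyclic G) (h : Nat.card G ≤ 100) : Nat.card G = 60 := by
  have := CA.Zas.card_mem (CA.Zas.perfect_of_card fun hp => hG (by
    haveI := Fact.mk hp
    exact isCyclic_of_prime_card rfl)) (h.trans (by norm_num))
  simp only [List.mem_cons, List.not_mem_nil, or_false] at this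
  omega

end Cfsg.Agent.S0493
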