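import Cfsg.Statements.S0496
import Cfsg.Agent.Lib.Zas.Small2

set_option autoImplicit false
open Cfsg

namespace Cfsg.Agent.S0496

/-- A non-abelian finite simple group of order at most 1092 has order 60, 168, 360, 504, 660 or 1092. -/
theorem result {G : Type*} [Group G] [Finite G] [IsSimpleGroup G]
    (hG : ¬ IsMulCommutative G) (h : Nat.card G ≤ 1092) :
    Nat.card G = 60 ∨ Nat.card G = 168 ∨ Nat.card G = 360 ∨ Nat.card G = 504 ∨ Nat.card G = 660 ∨
      Nat.card G = 1092 := by
  have := CA.Zas.card_mem (CA.Zas.perfect_of_not_comm hG) h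
  have h1 := CA.Zas.not_720 (G := G)
  have h2 := CA.Zas.not_756 (G := G)
  have h3 := CA.Zas.not_1008 (G := G)
  have h4 := CA.Zas.not_1040 (G := G)
  have h5 := CA.Zas.not_1080 (G := G)
  simp only [List.mem_cons, List.not_mem_nil, or_false] at this
  tauto

end Cfsg.Agent.S0496
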