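import Cfsg.Statements.S0501
import Cfsg.Agent.Lib.Two.MacW3

set_option autoImplicit false
open Cfsg

namespace Cfsg.Agent.S0501

/-- A finite 2-group in which every normal elementary abelian subgroup has order at most 4 has sectional rank at most
4: every quotient of every subgroup has no elementary abelian subgroup of order exceeding 16. -/
theorem result {P : Type*} [Group P] [Finite P] (hP : IsPGroup 2 P)
    (h : ∀ A : Subgroup P, A.Normal → IsMulCommutative A → (∀ a ∈ A, a ^ 2 = 1) → Nat.card A ≤ 4) :
    Cfsg.SectionalPRankLE 2 4 P := by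
  intro H N _ A _ hA
  let f := QuotientGroup.mk' N
  have key := CA.MacW.main hP h (H := (A.comap f).map H.subtype) (M := N.map H.subtype) (by
    rintro _ ⟨x, hx, rfl⟩
    refine ⟨x ^ 2, ?_, rfl⟩
    have := hA _ hx
    rw [← map_pow] at this
    exact (QuotientGroup.eq_one_iff _).1 this)
  rw [Subgroup.card_map_of_injective H.subtype_injective,
    Subgroup.card_map_of_injective H.subtype_injective] at key
  have e := CA.MacW.card_eq f.ker (A.comap f)
  rw [Subgroup.relIndex_ker, Subgroup.map_comap_eq_self_of_surjective (QuotientGroup.mk'_surjective N),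
    inf_eq_left.2 (Subgroup.ker_le_comap f A), QuotientGroup.ker_mk'] at e
  rw [e, mul_comm] at key
  exact Nat.le_of_mul_le_mul_right key Nat.card_pos

end Cfsg.Agent.S0501
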