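import Cfsg.Statements.S0502
import Cfsg.Agent.Lib.G.PGroup
import Cfsg.Agent.Lib.G.Basic

set_option autoImplicit false
open Cfsg

namespace Cfsg.Agent.S0502

open CA Subgroup

theorem elem_of_klein {P : Type*} [Group P] {V : Subgroup P} (h : IsKleinFour V) : Elem 2 2 V ⊤ := by
  refine ⟨le_top, ⟨?_, fun a ha => ?_⟩, h.card_four⟩
  · haveI := h
    exact IsKleinFour.isMulCommutative
  · have := Monoid.pow_exponent_eq_one (⟨a, ha⟩ : V)
    rw [h.exponent_two] at this
    exact congrArg Subtype.val this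

theorem klein_of_elem {P : Type*} [Group P] [Finite P] {V H : Subgroup P} (h : Elem 2 2 V H) : IsKleinFour V := by
  haveI : Fact (Nat.Prime 2) := ⟨Nat.prime_two⟩
  refine ⟨h.card, ?_⟩
  haveI : Nontrivial V := by
    rw [← Finite.one_lt_card_iff_nontrivial, h.card]; norm_num
  rw [Monoid.exponent_eq_prime_iff Nat.prime_two]
  intro g hg
  rw [← Subgroup.orderOf_coe]
  exact h.elemAb.orderOf_eq g.2 (fun h1 => hg (Subtype.ext h1))

/-- An involution normalizing an elementary abelian group of order at least 8 centralizes a four-group of it. -/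
theorem exists_four_cent {P : Type*} [Group P] [Finite P] {E : Subgroup P} [hn : E.Normal]
    (hE : IsElementaryAbelian 2 E) (hE8 : 8 ≤ Nat.card E) {w : P} (hw : w ^ 2 = 1) :
    ∃ W, Elem 2 2 W (E ⊓ 𝐂[w]) := by
  haveI : Fact (Nat.Prime 2) := ⟨Nat.prime_two⟩
  haveI := hE.comm
  have hww : w * w = 1 := by rw [← hw, pow_two]
  have hwi : w⁻¹ = w := inv_eq_of_mul_eq_one_right hww
  let f : E →* E :=
    { toFun := fun e => e * ⟨w * e * w⁻¹, hn.conj_mem _ e.2 w⟩
      map_one' := by ext; simp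
      map_mul' := fun a b => by
        ext
        have h1 := hE.mul_comm b.2 (hn.conj_mem _ a.2 w)
        simp only [Subgroup.coe_mul]
        calc (a : P) * b * (w * (a * b) * w⁻¹) = a * (b * (w * a * w⁻¹)) * (w * b * w⁻¹) := by group
          _ = _ := by rw [h1]; group }
  have hC : ∀ e : E, (e : P) ∈ 𝐂[w] ↔ w * e * w⁻¹ = e := fun e => by
    rw [mem_cent1_iff, mul_inv_eq_iff_eq_mul]; exact eq_comm
  have hker : f.ker ≤ (E ⊓ 𝐂[w]).subgroupOf E := by
    intro e he
    rw [Subgroup.mem_subgroupOf]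
    refine ⟨e.2, (hC e).2 ?_⟩
    have h1 : (e : P) * (w * e * w⁻¹) = 1 := congrArg Subtype.val he
    have h2 : (e : P) * e = 1 := by rw [← pow_two]; exact hE.pow_eq e.2
    exact mul_left_cancel (h1.trans h2.symm)
  have hran : f.range ≤ (E ⊓ 𝐂[w]).subgroupOf E := by
    rintro _ ⟨e, rfl⟩
    rw [Subgroup.mem_subgroupOf]
    refine ⟨(f e).2, (hC _).2 ?_⟩
    show w * ((e : P) * (w * e * w⁻¹)) * w⁻¹ = (e : P) * (w * e * w⁻¹)
    rw [hE.mul_comm e.2 (hn.conj_mem _ e.2 w)]
    calc w * (w * e * w⁻¹ * (e : P)) * w⁻¹ = (w * w) * e * (w * w)⁻¹ * (w * e * w⁻¹) := by group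
      _ = e * (w * e * w⁻¹) := by rw [hww]; group
      _ = _ := hE.mul_comm e.2 (hn.conj_mem _ e.2 w)
  have h1 : Nat.card E = Nat.card f.range * Nat.card f.ker := by
    rw [← Subgroup.index_ker, Subgroup.index_mul_card]
  have h2 := card_le_of_le' hker
  have h3 := card_le_of_le' hran
  rw [card_subgroupOf_of_le inf_le_left] at h2 h3
  have hel : IsElementaryAbelian 2 (E ⊓ 𝐂[w]) := hE.mono inf_le_left
  obtain ⟨n, hn'⟩ := exists_elem_of_elemAb hel le_rfl
  have h4 : 2 ≤ n := by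
    by_contra hlt
    have : Nat.card ↥(E ⊓ 𝐂[w]) ≤ 2 := by
      rw [hn'.card]
      calc 2 ^ n ≤ 2 ^ 1 := Nat.pow_le_pow_right (by norm_num) (by omega)
        _ = 2 := rfl
    have : Nat.card f.range * Nat.card f.ker ≤ 2 * 2 := Nat.mul_le_mul (by omega) (by omega)
    omega
  exact hn'.exists_le h4


/-- If a finite 2-group has a normal elementary abelian subgroup of order at least 8, then any two of its Klein
four-subgroups are joined by a chain of Klein four-subgroups with consecutive members commuting elementwise. -/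
theorem result {P : Type*} [Group P] [Finite P] (hP : IsPGroup 2 P)
    (E : Subgroup P) [E.Normal] (hE : IsMulCommutative E) (hE2 : ∀ e ∈ E, e ^ 2 = 1) (hE8 : 8 ≤ Nat.card E) :
    Cfsg.IsFourConnected P := by
  haveI : Fact (Nat.Prime 2) := ⟨Nat.prime_two⟩
  have hel : IsElementaryAbelian 2 E := ⟨hE, hE2⟩
  have hPt : IsPGroup 2 (⊤ : Subgroup P) := hP.to_subgroup _
  have hne : E ≠ ⊥ := by
    rw [← one_lt_card_iff_ne_bot']; omega
  obtain ⟨z, hzE, hzC, hz1, hz2⟩ := exists_order_p_fixed hPt (PG.normal_iff_top_le.1 ‹_›)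
    (CA.IsPGroup.dvd_card_of_ne_bot hel.isPGroup hne)
  have hzc : ∀ g : P, g * z = z * g := fun g => mem_cent_iff.1 hzC g (Subgroup.mem_top g)
  obtain ⟨U0, hU0⟩ := exists_four_cent hel hE8 (w := 1) (one_pow 2)
  set R := fun A B : Subgroup P => IsKleinFour A ∧ IsKleinFour B ∧ ∀ a ∈ A, ∀ b ∈ B, a * b = b * a with hR
  haveI hsymm : Std.Symm R := ⟨fun A B h => ⟨h.2.1, h.1, fun a ha b hb => (h.2.2 b hb a ha).symm⟩⟩
  -- four-groups `⟨z, w⟩`
  have hzE1 : Elem 2 1 (zpowers z) ⊤ := elem_one_zpowers (Subgroup.mem_top z) hz2 hz1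
  have key1 : ∀ w : P, w ^ 2 = 1 → w ∉ zpowers z →
      Elem 2 2 (zpowers z ⊔ zpowers w) ⊤ ∧ Relation.ReflTransGen R (zpowers z ⊔ zpowers w) U0 := by
    intro w hw hwz
    have hV : Elem 2 2 (zpowers z ⊔ zpowers w) ⊤ :=
      hzE1.sup_zpowers (Subgroup.mem_top w) hw hwz (by rw [cent_zpowers, mem_cent1_iff]; exact hzc w)
    refine ⟨hV, ?_⟩
    obtain ⟨W, hW⟩ := exists_four_cent hel hE8 hw
    have h1 : R (zpowers z ⊔ zpowers w) W := by
      refine ⟨klein_of_elem hV, klein_of_elem hW, cents_iff.1 (cents_symm (cents_sup ?_ ?_))⟩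
      · rw [cent_zpowers]; intro g _; rw [mem_cent1_iff]; exact hzc g
      · rw [cent_zpowers]; exact hW.le.trans inf_le_right
    have h2 : R W U0 := ⟨klein_of_elem hW, klein_of_elem hU0, fun a ha b hb =>
      hel.mul_comm (hW.le ha).1 (hU0.le hb).1⟩
    exact (Relation.ReflTransGen.single h1).tail h2
  have key : ∀ V : Subgroup P, IsKleinFour V → Relation.ReflTransGen R V U0 := by
    intro V hV
    have hV' := elem_of_klein hV
    have : ¬ V ≤ zpowers z := fun h => by
      have := card_le_of_le' h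
      rw [hV'.card, hzE1.card] at this; omega
    obtain ⟨w, hwV, hwz⟩ := SetLike.not_le_iff_exists.1 this
    obtain ⟨h1, h2⟩ := key1 w (hV'.elemAb.pow_eq hwV) hwz
    refine Relation.ReflTransGen.head ⟨hV, klein_of_elem h1, cents_iff.1 (cents_sup ?_ ?_)⟩ h2
    · rw [cent_zpowers]; intro g _; rw [mem_cent1_iff]; exact hzc g
    · rw [cent_zpowers]; intro g hg; rw [mem_cent1_iff]; exact hV'.elemAb.mul_comm hg hwV
  intro U V hU hV
  exact (key U hU).trans (Relation.ReflTransGen.stdSymm.symm _ _ (key V hV))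

end Cfsg.Agent.S0502
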