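import Cfsg.Statements.S0505
import Cfsg.Agent.Lib.G.PLen
import Cfsg.Agent.Lib.G.Omega

set_option autoImplicit false
open Cfsg

namespace Cfsg.Agent.S0505

open CA in
theorem aux {G : Type*} [Group G] [Finite G] {H T M : Subgroup G} (hT : T ⊴ H) (hTp : PiGrp {2} T)
    (hTM : T ≤ M) (hC : 𝐂(T) ≤ M) (hH : 𝐂(T) ≤ H) (hs : Group.IsSolvable M)
    (hO : piCoreOf {2}ᶜ M = ⊥) : H ⊓ 𝐂(piCoreOf {2} H) ≤ piCoreOf {2} H := by
  set C := H ⊓ 𝐂(piCoreOf {2} H) with hCdef
  have h1 : C ≤ 𝐂(T) := inf_le_right.trans (cent_mono (le_piCoreOf hT hTp))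
  have hn : C ⊴ H := normalIn_inf_of_norm (norms_cent (piCoreOf_norm _ _))
  have h2 : piCoreOf {2}ᶜ C = ⊥ := by
    rw [eq_bot_iff, ← hO]
    refine le_trans ?_ (piCoreOf_cent_le hs hTM hTp)
    exact le_piCoreOf ((hn.piCoreOf _).of_le ((piCoreOf_le _ _).trans (le_inf (h1.trans hC) h1))
      (inf_le_right.trans hH)) (piCoreOf_piGrp _ _)
  have h3 := cent_piCoreOf_le (solvable_of_le hs (h1.trans hC)) h2
  have h4 : piCoreOf {2} C ≤ piCoreOf {2} H := piCoreOf_le_of_normalIn _ hn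
  exact (le_inf le_rfl (inf_le_right.trans (cent_mono h4))).trans (h3.trans h4)

/-- Let G be a finite group of even order in which the centralizer of every involution is solvable and has trivial
core (no nontrivial normal subgroup of odd order). Then G is of characteristic 2 type. -/
theorem result {G : Type*} [Group G] [Finite G]
    (h2 : Even (Nat.card G))
    (hs : ∀ t : G, orderOf t = 2 → Group.IsSolvable (Subgroup.centralizer ({t} : Set G)))
    (hc : ∀ t : G, orderOf t = 2 → Cfsg.oddCore (Subgroup.centralizer ({t} : Set G)) = ⊥) :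
    Cfsg.IsCharacteristicTwoType G := by
  refine ⟨h2, fun T hT hT1 => ?_⟩
  haveI : Fact (Nat.Prime 2) := ⟨Nat.prime_two⟩
  obtain ⟨t, ht, htc, ht1, ht2⟩ := CA.exists_order_p_fixed hT (N := T) Subgroup.le_normalizer
    (CA.IsPGroup.dvd_card_of_ne_bot hT hT1)
  have ho : orderOf t = 2 := orderOf_eq_prime ht2 ht1
  have h := aux (H := Subgroup.normalizer (T : Set G)) (M := Subgroup.centralizer {t})
    ⟨Subgroup.le_normalizer, le_rfl⟩ (hT.piGrp Nat.prime_two)
    (CA.mem_cent_iff_le_cent1.1 htc) (CA.cent_le_cent1 ht) (Subgroup.centralizer_le_normalizer _) (hs t ho)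
    (by rw [CA.piCoreOf_compl_singleton Nat.prime_two]
        have := hc t ho
        rw [show pPrimeCore 2 _ = ⊥ from this, Subgroup.map_bot])
  rw [CA.piCoreOf_singleton Nat.prime_two] at h
  intro x hx
  obtain ⟨y, hy, hyx⟩ := h (x := (x : G)) ⟨x.2, by
    rintro _ ⟨z, hz, rfl⟩
    exact congrArg Subtype.val (hx z hz)⟩
  exact (Subtype.ext hyx : y = x) ▸ hy

end Cfsg.Agent.S0505
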