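import Cfsg.Statements.S0508
import Cfsg.Agent.Lib.Zas.BSW5
import Cfsg.Agent.S0514

set_option autoImplicit false
open Cfsg

namespace Cfsg.Agent.S0508

/-- Let G be a finite simple group with a dihedral Sylow 2-subgroup S (of order at least 4), t an involution in the
centre of S, C the centralizer of t and O the core of C (its largest normal subgroup of odd order). Suppose that: if O
is nontrivial then the centralizer of O in S is cyclic of index 2 in S; every element of S not centralizing O inverts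
every element of O; and the normalizer of every nontrivial subgroup of O lies in C. Then G is isomorphic to a projective
special linear group of dimension 2 over a field of odd order. -/
theorem result {G : Type*} [Group G] [Finite G] [IsSimpleGroup G] (S : Sylow 2 G) (n : ℕ)
    (hn : 2 ≤ n) (hS : Nonempty ((S : Subgroup G) ≃* DihedralGroup n)) (t : G) (ht : orderOf t = 2)
    (htS : t ∈ (S : Subgroup G))
    (htZ : ∀ s ∈ (S : Subgroup G), s * t = t * s) (O : Subgroup G)
    (hO : O = (Cfsg.oddCore (Subgroup.centralizer ({t} : Set G))).map (Subgroup.centralizer ({t} : Set G)).subtype)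
    (ha : O ≠ ⊥ → IsCyclic ((S : Subgroup G) ⊓ Subgroup.centralizer (O : Set G) : Subgroup G) ∧
      ((S : Subgroup G) ⊓ Subgroup.centralizer (O : Set G)).relIndex (S : Subgroup G) = 2)
    (hb : ∀ s ∈ (S : Subgroup G), s ∉ Subgroup.centralizer (O : Set G) → ∀ y ∈ O, s * y * s⁻¹ = y⁻¹)
    (hc : ∀ Y : Subgroup G, Y ≤ O → Y ≠ ⊥ → Subgroup.normalizer (Y : Set G) ≤ Subgroup.centralizer ({t} : Set G)) :
    ∃ (F : Type) (_ : Field F) (_ : Fintype F), Odd (Fintype.card F) ∧ Nonempty (G ≃* Matrix.ProjectiveSpecialLinearGroup (Fin 2) F) := by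
  haveI : NeZero n := ⟨by omega⟩
  obtain ⟨N, hN, h1, k, h2⟩ := S0514.result S n hn hS t ht
  obtain ⟨e⟩ := hS
  obtain ⟨t2, t1⟩ := CA.Inv.orderOf_eq_two_iff.1 ht
  have hG : commutator G = ⊤ := CA.Zas.perfect_of_card fun hp => by
    have h3 := Subgroup.card_subgroup_dvd_card (S : Subgroup G)
    rw [Nat.card_congr e.toEquiv, DihedralGroup.nat_card, Nat.dvd_prime hp] at h3
    rcases h3 with h3 | h3
    · omega
    · exact Nat.not_prime_mul (by omega) (by omega) (h3 ▸ hp)
  have hC : (S : Subgroup G) ≤ Subgroup.centralizer {t} := fun s hs => CA.mem_cent1_iff.2 (htZ s hs)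
  rw [oddCore, ← CA.piCore_compl_singleton Nat.prime_two] at hO
  have h3 : CA.NormalPCompl 2 (Subgroup.centralizer ({t} : Set G)) :=
    CA.normalPCompl_of_normal (CA.normalIn_map_subtype N) (by
      rw [CA.PiGrp, Subgroup.card_subtype]; exact fun p hp hd (e : p = 2) => h1.not_two_dvd_nat (e ▸ hd)) (by
      rw [Subgroup.relIndex, ← Subgroup.comap_subtype, Subgroup.comap_map_eq_self_of_injective (Subgroup.subtype_injective _), h2]
      exact fun p hp hd => (Nat.prime_dvd_prime_iff_eq hp Nat.prime_two).1 (hp.dvd_of_dvd_pow hd))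
  obtain ⟨R, hR, h4, h5, h6, h7, h8⟩ : ∃ R ≤ (S : Subgroup G), IsCyclic R ∧ R.relIndex S = 2 ∧ t ∈ R ∧
      R ≤ Subgroup.centralizer O ∧ ∀ s ∈ (S : Subgroup G), s ∉ R → ∀ y ∈ O, s * y * s⁻¹ = y⁻¹ := by
    by_cases h0 : O = ⊥
    · obtain ⟨R, hR, h4, h5, h6⟩ := CA.Zas.dih_exists' hn e htS t1 htZ
      exact ⟨R, hR, h4, h5, h6, by simp [h0], by simp [h0]⟩
    · refine ⟨_, inf_le_left, (ha h0).1, (ha h0).2, ⟨htS, fun y hy => ?_⟩, inf_le_right, fun s hs h => hb s hs fun e => h ⟨hs, e⟩⟩
      exact CA.mem_cent1_iff.1 (CA.piCoreOf_le _ _ (hO ▸ hy))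
  obtain ⟨s, h⟩ := CA.Zas.bsw_of hG (CA.sylowIn_top S) hn e t2 t1 hC (O := O) (hO ▸ h3) (hO ▸ CA.piCoreOf_norm _ _) hR h4 h5 h6 h7
    h8 fun y hy y1 => (CA.norms_zpowers_of_cent1 le_rfl).trans
      (hc (Subgroup.zpowers y) (Subgroup.zpowers_le.2 hy) (by simpa using y1))
  exact h.psl hG

end Cfsg.Agent.S0508
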