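import Cfsg.Statements.S0519
import Cfsg.Agent.Lib.Two.CycNormal

set_option autoImplicit false
open Cfsg

namespace Cfsg.Agent.S0519

/-- Let P be a finite p-group in which every abelian normal subgroup is cyclic, but which has a non-cyclic abelian
subgroup. Then p = 2 and P is generalized quaternion, dihedral of order at least 16, or quasi-dihedral. -/
theorem result {P : Type*} [Group P] [Finite P] (p : ℕ) [Fact p.Prime]
    (hP : IsPGroup p P) (hn : ∀ A : Subgroup P, A.Normal → IsMulCommutative A → IsCyclic A)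
    (hm : ∃ B : Subgroup P, IsMulCommutative B ∧ ¬ IsCyclic B) :
    p = 2 ∧ ((∃ n : ℕ, Nonempty (P ≃* QuaternionGroup n)) ∨ (∃ n : ℕ, 8 ≤ n ∧ Nonempty (P ≃* DihedralGroup n)) ∨
      Cfsg.IsQuasiDihedral P) := by
  have hc : ¬ IsCyclic P := fun h => by
    obtain ⟨B, -, hB⟩ := hm
    exact hB inferInstance
  have h2 : p = 2 := by
    by_contra h2
    obtain ⟨E, hE, hEn⟩ := CA.exists_normal_elem_two (P := (⊤ : Subgroup P)) h2 (hP.to_subgroup _)
      (fun h => hc (isCyclic_of_surjective Subgroup.topEquiv.toMonoidHom Subgroup.topEquiv.surjective))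
    exact hE.not_isCyclic le_rfl (hn E (CA.PG.normal_iff_top_le.2 hEn) hE.comm)
  subst h2
  refine ⟨rfl, ?_⟩
  rcases CA.Two.classify hP hn hc with ⟨n, -, h⟩ | ⟨n, hn, h⟩ | h
  · exact Or.inl ⟨_, h⟩
  · refine Or.inr (Or.inl ⟨_, ?_, h⟩)
    calc 8 = 2 ^ 3 := rfl
      _ ≤ _ := Nat.pow_le_pow_right (by norm_num) hn
  · exact Or.inr (Or.inr h)

end Cfsg.Agent.S0519
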