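import Cfsg.Statements.S0520
import Cfsg.Agent.Lib.G.Sylow
import Cfsg.Agent.Lib.G.Rank
import Cfsg.Agent.Lib.G.PGroup

set_option autoImplicit false
open Cfsg

namespace Cfsg.Agent.S0520

open CA Subgroup in
theorem four_iff {G : Type*} [Group G] [Finite G] {A : Subgroup G} : IsKleinFour A ↔ Elem 2 2 A A := by
  haveI : Fact (Nat.Prime 2) := ⟨Nat.prime_two⟩
  constructor
  · intro h
    refine ⟨le_rfl, ⟨IsKleinFour.isMulCommutative, fun a ha => ?_⟩, h.card_four⟩
    have := Monoid.pow_exponent_eq_one (⟨a, ha⟩ : A)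
    rw [h.exponent_two] at this
    exact congrArg Subtype.val this
  · intro h
    haveI : Nontrivial A := (Subgroup.nontrivial_iff_ne_bot A).2 (h.ne_bot two_pos)
    refine ⟨h.card, (Monoid.exponent_eq_prime_iff Nat.prime_two).2 fun g hg => ?_⟩
    rw [← Subgroup.orderOf_coe]
    exact h.elemAb.orderOf_eq g.2 fun h => hg (Subtype.ext h)

open CA Subgroup in
theorem fus {G : Type*} [Group G] [Finite G] {S Γ : Subgroup G} (hS : SylowIn 2 S ⊤)
    (hΓ : ∀ Q, Q ≤ S → 2 ≤ pRank 2 Q → 𝐍(Q) ≤ Γ) (n : ℕ) :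
    ∀ g : G, Nat.card G ≤ Nat.card ↥(S ⊓ cj g S) + n → 2 ≤ pRank 2 (S ⊓ cj g S) → g ∈ Γ := by
  haveI : Fact (Nat.Prime 2) := ⟨Nat.prime_two⟩
  induction n with
  | zero =>
    intro g hc hr
    have : S ⊓ cj g S = ⊤ := eq_top_of_le_card _ hc
    have h1 : S = ⊤ := eq_top_iff.2 (this ▸ inf_le_left)
    refine hΓ S le_rfl (hr.trans (pRank_mono inf_le_left)) ?_
    rw [h1, normalizer_top']; trivial
  | succ n ih =>
    intro g hc hr
    by_cases hg : g ∈ 𝐍(S)
    · exact hΓ S le_rfl (hr.trans (pRank_mono inf_le_left)) hg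
    set D := S ⊓ cj g S with hD
    have l1 : D < S ⊓ 𝐍(D) := lt_inf_norm_of_nilpotent hS.piGrp.nilpotent
      (inf_lt_left.2 fun hle => hg (mem_normalizer_of_le_cj hle))
    have l2 : D < cj g S ⊓ 𝐍(D) := lt_inf_norm_of_nilpotent (hS.piGrp.cj g).nilpotent
      (inf_lt_right.2 fun hle => hg (mem_normalizer_of_cj_le hle))
    obtain ⟨R, hR, hR1⟩ := exists_sylowIn_ge (hS.piGrp.inf_left 𝐍(D)) inf_le_right
    obtain ⟨h, -, hh⟩ := hS.exists_le_cj hR.piGrp le_top
    obtain ⟨c, hc', hc2⟩ := hR.exists_cj_le ((hS.piGrp.cj g).inf_left 𝐍(D)) inf_le_right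
    have hcΓ : c ∈ Γ := hΓ D inf_le_left hr hc'
    have k1 : D < S ⊓ cj h S := l1.trans_le (le_inf inf_le_left (hR1.trans hh))
    have hhΓ : h ∈ Γ := ih h (by have := card_lt_of_lt' k1; omega) (hr.trans (pRank_mono k1.le))
    have k2 : cj (h⁻¹ * c) D < S ⊓ cj (h⁻¹ * c * g) S := by
      refine (cj_lt_cj.2 l2).trans_le (le_inf ?_ ?_)
      · rw [cj_mul, ← le_cj_iff]; exact hc2.trans hh
      · rw [cj_mul _ g]; exact cj_mono _ inf_le_left
    have := ih _ (by have := card_lt_of_lt' k2; rw [card_cj] at this; omega)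
      (hr.trans ((pRank_cj _ D).ge.trans (pRank_mono k2.le)))
    exact (mul_mem_cancel_left (mul_mem (inv_mem hhΓ) hcΓ)).1 this

/-- Let G be a finite group of 2-rank at least 2 and S a Sylow 2-subgroup whose commuting graph of Klein four-subgroups is
connected. Then the commuting graph of Klein four-subgroups of G is disconnected if and only if the 2-generated core — the
subgroup generated by the normalizers N_G(Q) of the subgroups Q of S that contain a Klein four-group — is a proper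
subgroup of G. -/
theorem result {G : Type*} [Group G] [Finite G] (h2 : ¬ Cfsg.PRankLE 2 1 G)
    (S : Sylow 2 G) (hS : Cfsg.IsFourConnected (S : Subgroup G)) :
    ¬ Cfsg.IsFourConnected G ↔
      (⨆ Q : {Q : Subgroup G // Q ≤ (S : Subgroup G) ∧ ¬ Cfsg.PRankLE 2 1 Q},
          Subgroup.normalizer ((Q : Subgroup G) : Set G)) ≠ ⊤ := by
  haveI : Fact (Nat.Prime 2) := ⟨Nat.prime_two⟩
  set Γ := ⨆ Q : {Q : Subgroup G // Q ≤ (S : Subgroup G) ∧ ¬ Cfsg.PRankLE 2 1 Q},
          Subgroup.normalizer ((Q : Subgroup G) : Set G) with hΓdef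
  have hS' := CA.sylowIn_top S
  obtain ⟨V, hV⟩ := CA.le_pRank_iff.1 ((CA.not_pRankLE_top_iff.1 h2).trans_eq (CA.pRank_sylow' S).symm)
  set r := fun A B : Subgroup G => IsKleinFour A ∧ IsKleinFour B ∧ ∀ a ∈ A, ∀ b ∈ B, a * b = b * a with hr
  have hsymm : ∀ {A B}, Relation.ReflTransGen r A B → Relation.ReflTransGen r B A := fun h => by
    induction h with
    | refl => exact .refl
    | tail _ h ih => exact .head ⟨h.2.1, h.1, fun a ha b hb => (h.2.2 b hb a ha).symm⟩ ih
  have hcj : ∀ (g : G) {A B}, Relation.ReflTransGen r A B →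
      Relation.ReflTransGen r (CA.cj g A) (CA.cj g B) := fun g A B h => by
    refine h.lift (CA.cj g) fun A B h => ⟨four_iff.2 ((four_iff.1 h.1).cj g),
      four_iff.2 ((four_iff.1 h.2.1).cj g), CA.cents_iff.1 ?_⟩
    rw [← CA.cj_centralizer]
    exact CA.cj_mono g (CA.cents_iff.2 h.2.2)
  have hin : ∀ {A B}, CA.Elem 2 2 A (S : Subgroup G) → CA.Elem 2 2 B (S : Subgroup G) →
      Relation.ReflTransGen r A B := fun {A B} hA hB => by
    have := (hS _ _ (four_iff.2 (hA.subgroupOf hA.le).self) (four_iff.2 (hB.subgroupOf hB.le).self)).lift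
      (p := r) (Subgroup.map (S : Subgroup G).subtype) fun A B h =>
        ⟨four_iff.2 ((four_iff.1 h.1).map (Subgroup.subtype_injective _)),
          four_iff.2 ((four_iff.1 h.2.1).map (Subgroup.subtype_injective _)), by
            rintro _ ⟨a, ha, rfl⟩ _ ⟨b, hb, rfl⟩
            exact congrArg Subtype.val (h.2.2 a ha b hb)⟩
    rwa [Function.onFun, Subgroup.map_subgroupOf_eq_of_le hA.le, Subgroup.map_subgroupOf_eq_of_le hB.le] at this
  rw [ne_eq, not_iff_not]
  constructor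
  · intro hG
    have hΓ : ∀ Q, Q ≤ (S : Subgroup G) → 2 ≤ CA.pRank 2 Q → Subgroup.normalizer (Q : Set G) ≤ Γ :=
      fun Q h1 h3 => le_iSup (fun Q : {Q : Subgroup G // Q ≤ (S : Subgroup G) ∧ ¬ Cfsg.PRankLE 2 1 Q} =>
        Subgroup.normalizer ((Q : Subgroup G) : Set G)) ⟨Q, h1, CA.not_pRankLE_iff.2 h3⟩
    have key : ∀ {A : Subgroup G} {x y : G}, CA.Elem 2 2 A A → A ≤ CA.cj x S → A ≤ CA.cj y S → x ∈ Γ →
        y ∈ Γ := fun {A x y} hA h1 h3 hx => by
      have := fus hS' hΓ _ (x⁻¹ * y) (Nat.le_add_left _ _) (CA.Elem.le_pRank ((hA.cj x⁻¹).of_le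
        (le_inf (CA.le_cj_iff.1 h1) (by rw [CA.cj_mul]; exact CA.cj_mono _ h3))))
      exact (mul_mem_cancel_left (inv_mem hx)).1 this
    have hP : ∀ {B}, Relation.ReflTransGen r V B → ∃ x ∈ Γ, B ≤ CA.cj x S := fun h => by
      induction h with
      | refl => exact ⟨1, one_mem _, by rw [CA.cj_one]; exact hV.le⟩
      | tail _ h ih =>
        obtain ⟨x, hx, hx'⟩ := ih
        have hA := four_iff.1 h.1
        have hB := four_iff.1 h.2.1
        obtain ⟨y, -, hy⟩ := hS'.exists_le_cj ((hA.isPGroup.piGrp Nat.prime_two).sup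
          (hB.isPGroup.piGrp Nat.prime_two) (Or.inr (CA.norms_of_cents (CA.cents_iff.2 h.2.2)))) le_top
        exact ⟨y, key hA hx' (le_sup_left.trans hy) hx, le_sup_right.trans hy⟩
    refine eq_top_iff.2 fun g _ => ?_
    obtain ⟨x, hx, hx'⟩ := hP (hG V (CA.cj g V) (four_iff.2 hV.self) (four_iff.2 (hV.self.cj g)))
    exact key (hV.self.cj g) hx' (CA.cj_mono g hV.le) hx
  · intro hΓ
    let H : Subgroup G :=
      { carrier := {g | Relation.ReflTransGen r V (CA.cj g V)}
        one_mem' := by change Relation.ReflTransGen r V (CA.cj 1 V); rw [CA.cj_one]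
        mul_mem' := fun {a b} ha hb => by
          change Relation.ReflTransGen r V (CA.cj (a * b) V)
          rw [CA.cj_mul]; exact Relation.ReflTransGen.trans ha (hcj a hb)
        inv_mem' := fun {a} ha => by
          have := hcj a⁻¹ ha
          rw [CA.cj_inv_cj] at this
          exact hsymm this }
    have hH : Γ ≤ H := iSup_le fun Q g hg => by
      obtain ⟨A, hA⟩ := CA.le_pRank_iff.1 (CA.not_pRankLE_iff.1 Q.2.2)
      exact (hin hV ((hA.cj g).of_le ((CA.cj_le_of_mem_normalizer hA.le hg).trans Q.2.1))).trans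
        (hcj g (hin (hA.mono Q.2.1) hV))
    have key : ∀ U : Subgroup G, IsKleinFour U → Relation.ReflTransGen r V U := fun U hU => by
      have hU' := four_iff.1 hU
      obtain ⟨g, -, hg⟩ := hS'.exists_cj_le (hU'.isPGroup.piGrp Nat.prime_two) le_top
      have h1 := hcj g⁻¹ (hin hV ((hU'.cj g).of_le hg))
      rw [CA.cj_inv_cj] at h1
      exact Relation.ReflTransGen.trans (hH (hΓ ▸ Subgroup.mem_top g⁻¹)) h1
    exact fun U W hU hW => (hsymm (key U hU)).trans (key W hW)

end Cfsg.Agent.S0520
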