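import Cfsg.Statements.S0521
import Cfsg.Agent.Lib.BG.AppA
import Cfsg.Agent.Lib.G.Transfer

set_option autoImplicit false
open Cfsg

namespace Cfsg.Agent.S0521

open CA Subgroup

universe u

theorem aux (p : ℕ) [hp : Fact p.Prime] (n : ℕ) : ∀ {G : Type u} [Group G] [Finite G] {M S : Subgroup G},
    Nat.card M ≤ n → Group.IsSolvable M → Odd (Nat.card M) → SylowIn p S M → IsCyclic ↥⁅S, S⁆ → PLen1 p M := by
  induction n with
  | zero => intro G _ _ M S h; exact absurd (card_pos' M) (by omega)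
  | succ n ih =>
    intro G _ _ M S hn hs ho hS hc
    have hq : ∀ K, K ⊴ M → K ≠ ⊥ → PLen1 p (M /ₛ K) := fun K hK h1 => by
      have hSK : S ≤ 𝐍(K) := hS.le.trans hK.norm
      refine ih (S := S /ₛ K) ?_ (solvable_quo hs K) (odd_card_quo ho K) (hS.quo hSK) ?_
      · have := card_quo_lt_of_normalIn hK h1; omega
      · rw [← quo_der hSK]; exact cyclic_quo hc K
    by_cases hO : piCoreOf {p}ᶜ M = ⊥
    swap
    · exact (plen1_quo_iff_of_compl hp.out (piCoreOf_norm _ M) (piCoreOf_piGrp _ M)).1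
        (hq _ (piCoreOf_normalIn _ M) hO)
    set P := piCoreOf {p} M with hP
    have hPn : P ⊴ M := piCoreOf_normalIn _ M
    have hPp : PiGrp {p} P := piCoreOf_piGrp _ M
    have hPp' : IsPGroup p P := hPp.isPGroup hp.out
    by_cases hΦ : phi P = ⊥
    · by_cases h2 : p = 2
      · subst h2
        exact plen1_of_piGrp_compl hp.out ((piGrp_compl_singleton hp.out).2 (by
          rw [← even_iff_two_dvd, Nat.not_even_iff_odd]; exact ho))
      have hE : IsElementaryAbelian p P := (phi_eq_bot_iff hPp').1 hΦ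
      have hPS : P ≤ S := hS.normal_le hPn hPp
      have hSP : S ≤ 𝐍(P) := hS.le.trans hPn.norm
      have h1 : ⁅P, S⁆ ≤ P ⊓ ⁅S, S⁆ := le_inf (comm_le_left hSP) (comm_le_der hPS le_rfl)
      have h3 : Nat.card ↥(P ⊓ ⁅S, S⁆) ≤ p := card_inf_le_prime_of_isCyclic hc fun a ha => hE.pow_eq ha
      have h4 : P ⊓ ⁅S, S⁆ ≤ 𝐂(S) := by
        obtain ⟨k, hk⟩ := (hE.mono (inf_le_left : P ⊓ ⁅S, S⁆ ≤ P)).exists_card
        rw [hk] at h3
        rcases eq_one_or_eq_of_pow_le_prime h3 with h5 | h5
        · rw [Subgroup.eq_bot_of_card_eq _ (hk.trans h5)]; exact bot_le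
        · exact le_cent_of_card_eq_prime (hS.isPGroup hp.out) (norms_inf hSP (norms_der le_normalizer))
            (hk.trans h5)
      have h5 : S ≤ P := le_piCoreOf_of_quadratic h2 ho hs hO hPp' hPn inf_le_left hS.le
        (comm_eq_bot_iff.2 (h1.trans h4))
      exact plen1_of_le_core2 hp.out hS (h5.trans (piCoreOf_le_core2' _ _ M))
    · have hK : phi P ⊴ M := (phi_charIn P).trans_normalIn hPn
      have hKp : PiGrp {p} (phi P) := hPp.of_le (phi_le P)
      refine (plen1_quo_iff_of_piGrp hp.out hK hKp ?_).1 (hq _ hK hΦ)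
      obtain ⟨L, hKL, hLM, hL⟩ := exists_quo_eq_normal hK (piCoreOf_normalIn {p}ᶜ (M /ₛ phi P))
      have hH : IsPiHallOf {p} (phi P) L := isPiHallOf_mk hKL.le hKp (by
        rw [← piGrp_quo_iff_relIndex hKL.norm, ← hL]; exact piCoreOf_piGrp _ _)
      obtain ⟨Q, hQ, hQ'⟩ := hH.exists_sdprod hKL.norm
      have hQM : Q ≤ M := hQ'.le.trans hLM.le
      have h1 : ⁅P, Q⁆ ≤ phi P := by
        refine hH.le_of_normal hKL.norm ?_ (hPp.of_le (comm_le_left (hQM.trans hPn.norm)))
        exact (Subgroup.commutator_mono le_rfl hQ'.le).trans (comm_le_right (hPn.le.trans hLM.norm))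
      have h2 : Q ≤ 𝐂(P) := (copAct_p_left (hQM.trans hPn.norm) hPp hQ'.piGrp).cents_of_comm_le_phi h1
      have h3 : Q ≤ P := (le_inf hQM h2).trans (cent_piCoreOf_le hs hO)
      have h4 : Q = ⊥ := (hPp.of_le h3).eq_bot hQ'.piGrp
      rw [hL, ← hQ.sup_eq, h4, sup_bot_eq, quo_self]


/-- Let X be a finite solvable group of odd order, p a prime and S a Sylow p-subgroup of X whose commutator subgroup is
cyclic. Then the product of the largest normal subgroup of X of order prime to p with S is a normal subgroup of X. -/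
theorem result {X : Type*} [Group X] [Finite X] [Group.IsSolvable X]
    (hX : Odd (Nat.card X)) (p : ℕ) [Fact p.Prime] (S : Sylow p X) (hS : IsCyclic (commutator (S : Subgroup X))) :
    (Cfsg.pPrimeCore p X ⊔ (S : Subgroup X)).Normal := by
  have h := aux p _ (G := X) (M := ⊤) (S := S) le_rfl (solvable_top_iff.2 ‹_›)
    (by rwa [Subgroup.card_top]) (sylowIn_top S) (by
      rw [← map_subtype_der]; exact PG.isCyclic_map _ hS)
  have h1 := h.sup_normalIn Fact.out (sylowIn_top S)
  rw [piCoreOf_compl_singleton_top Fact.out] at h1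
  exact normalIn_top_iff.1 h1

end Cfsg.Agent.S0521
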