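import Cfsg.Statements.S0522
import Cfsg.Agent.Lib.Loc.Trans

set_option autoImplicit false
open Cfsg

namespace Cfsg.Agent.S0522

/-- Transitivity Theorem (odd-order setting). Let X be a finite group of odd order in which the normalizer of every
nontrivial p-subgroup is solvable, P a Sylow p-subgroup, and B an abelian subgroup of P, normalized by P, with
C_P(B) = B and containing an elementary abelian subgroup of order p^3. Then for every prime q ≠ p, any two q-subgroups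
that are maximal among the q-subgroups normalized by B are conjugate by an element of the centralizer of B. -/
theorem result {X : Type*} [Group X] [Finite X] (hX : Odd (Nat.card X)) (p : ℕ)
    [Fact p.Prime] (hloc : ∀ T : Subgroup X, IsPGroup p T → T ≠ ⊥ → Group.IsSolvable (Subgroup.normalizer (T : Set X)))
    (P : Sylow p X) (B : Subgroup X) (hBP : B ≤ (P : Subgroup X))
    (hBn : ∀ x ∈ (P : Subgroup X), ∀ b ∈ B, x * b * x⁻¹ ∈ B) (hBa : IsMulCommutative B)
    (hBc : (P : Subgroup X) ⊓ Subgroup.centralizer (B : Set X) = B)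
    (hB3 : ∃ E : Subgroup X, E ≤ B ∧ (∀ e ∈ E, e ^ p = 1) ∧ p ^ 3 ≤ Nat.card E)
    (q : ℕ) [Fact q.Prime] (hqp : q ≠ p) (Q₁ Q₂ : Subgroup X)
    (h₁ : IsPGroup q Q₁ ∧ B ≤ Subgroup.normalizer (Q₁ : Set X) ∧
      ∀ R : Subgroup X, IsPGroup q R → B ≤ Subgroup.normalizer (R : Set X) → Q₁ ≤ R → R = Q₁)
    (h₂ : IsPGroup q Q₂ ∧ B ≤ Subgroup.normalizer (Q₂ : Set X) ∧
      ∀ R : Subgroup X, IsPGroup q R → B ≤ Subgroup.normalizer (R : Set X) → Q₂ ≤ R → R = Q₂) :
    ∃ c ∈ Subgroup.centralizer (B : Set X), Q₂ = Q₁.map (MulAut.conj c).toMonoidHom := by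
  have hp : p.Prime := Fact.out
  have hq : q.Prime := Fact.out
  obtain ⟨E, hEB, hEp, hE3⟩ := hB3
  have hBp : CA.PiGrp {p} B := (P.isPGroup'.to_le hBP).piGrp hp
  have hEe : Cfsg.IsElementaryAbelian p E := ⟨CA.abelian_of_le hBa hEB, hEp⟩
  have hr : 3 ≤ CA.pRank p B :=
    (Nat.pow_le_pow_iff_right hp.one_lt).1 (hE3.trans (CA.card_le_pow_pRank hEe hEB))
  have h2 : p ≠ 2 := by
    rintro rfl
    have h3 : 0 < CA.pRank 2 B := by omega
    exact (Nat.not_even_iff_odd.2 hX)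
      (even_iff_two_dvd.2 ((CA.pRank_pos_iff.1 h3).trans (Subgroup.card_subgroup_dvd_card B)))
  have hn : (P : Subgroup X) ≤ Subgroup.normalizer (B : Set X) := fun x hx =>
    CA.mem_normalizer_of_cj_le (CA.cj_le_iff'.2 (hBn x hx))
  have hS : CA.SylowIn p B (Subgroup.centralizer (B : Set X)) := by
    have h3 := ((CA.sylowIn_top P).of_le hn le_top).inf_normal
      (N := Subgroup.centralizer (B : Set X))
      ⟨Subgroup.centralizer_le_normalizer _, CA.normalizer_le_normalizer_centralizer B⟩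
    rwa [hBc] at h3
  have hm : ∀ {Q : Subgroup X}, (IsPGroup q Q ∧ B ≤ Subgroup.normalizer (Q : Set X) ∧
      ∀ R : Subgroup X, IsPGroup q R → B ≤ Subgroup.normalizer (R : Set X) → Q ≤ R → R = Q) →
      Q ∈ Cfsg.maxInvSubgroups ⊤ B {q} := fun h =>
    ⟨⟨le_top, h.1.piGrp hq, h.2.1⟩, fun R hR => h.2.2 R (CA.PiGrp.isPGroup hR.2.1 hq) hR.2.2⟩
  obtain ⟨k, hk, h⟩ := CA.Loc.transitivity
    (fun T h1 h3 => CA.Loc.pConstr_of_solvable (hloc T (h1.isPGroup hp) h3)) (Or.inl h2) hBp hBa hr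
    (fun x hx h => hS.mem_of_normal (Subgroup.centralizer_le_normalizer _) hx h) hqp Q₁ (hm h₁) Q₂ (hm h₂)
  exact ⟨k, CA.piCoreOf_le _ _ hk, h⟩

end Cfsg.Agent.S0522
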