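import Cfsg.Statements.S1028
import Cfsg.Agent.Lib.Chev.Inst
import Cfsg.Agent.Lib.CG.Uni

set_option autoImplicit false
open Cfsg

namespace Cfsg.Agent.S1028

open CA.Chev CA.CG in

/-- Elements of `U` (the subgroup generated by the root elements of the positive roots) are unipotent linear maps: `(u - 1)^n = 0` with `n = rank + nroots` the dimension of the module. -/
theorem result {F : Type*} [Field F] (D : Cfsg.Lie.ChevalleyDatum) (hD : D ∈ [Cfsg.Lie.chevG2, Cfsg.Lie.chevB2, Cfsg.Lie.chevD4, Cfsg.Lie.chevF4, Cfsg.Lie.chevE6, Cfsg.Lie.chevE7, Cfsg.Lie.chevE8]) (g : GL D.Idx F) (hg : g ∈ D.posUnipotent F) :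
    ((g : Matrix D.Idx D.Idx F) - 1) ^ (D.rank + D.nroots) = 0 := by
  have := CA.Chev.isRoot_of_mem hD
  have := CA.Chev.isEta_of_mem hD
  have := CA.Chev.matFacts_of_mem hD F
  rw [← map_U (cartanCox_coxM D)] at hg
  obtain ⟨g, hg, rfl⟩ := hg
  have h1 := up_XS (φ := ordVec D) (m := 1) one_pos.le
    (fun r hr => (pos_iff_ord r).1 ((rs_pos (cartanCox_coxM D) r).1 hr)) hg
  change (mat g - 1) ^ _ = 0
  generalize mat g - 1 = A at h1
  have h2 : ∀ k : ℕ, Up (ordVec D) (k + 1) (A ^ (k + 1)) := by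
    intro k
    induction k with
    | zero => simpa using h1
    | succ k ih => rw [pow_succ]; exact_mod_cast ih.mul h1
  obtain ⟨N, hN⟩ := (Set.finite_range fun a : D.Idx => (ordVec D ⬝ᵥ wI a).natAbs).bddAbove
  have h3 : IsNilpotent A := ⟨2 * N + 1, by
    ext a b
    by_contra h
    have := h2 (2 * N) a b h
    have ha := hN ⟨a, rfl⟩
    have hb := hN ⟨b, rfl⟩
    simp only at ha hb
    omega⟩
  have h4 := (Matrix.isNilpotent_charpoly_sub_pow_of_isNilpotent h3).eq_zero
  have h5 := Matrix.aeval_self_charpoly A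
  rw [sub_eq_zero.1 h4] at h5
  simpa using h5

end Cfsg.Agent.S1028
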