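import Cfsg.Statements.S1030
import Cfsg.Agent.Lib.Chev.Inst
import Cfsg.Agent.Lib.Chev.SL2

set_option autoImplicit false
open Cfsg

namespace Cfsg.Agent.S1030

open CA.Chev in

/-- There is a homomorphism `SL₂(F) → GL` with image `⟨X_r, X_{-r}⟩` sending `[[1,t],[0,1]]` to `x_r(t)` and `[[1,0],[t,1]]` to `x_{-r}(t)`. -/
theorem result {F : Type*} [Field F] (D : Cfsg.Lie.ChevalleyDatum) (hD : D ∈ [Cfsg.Lie.chevG2, Cfsg.Lie.chevB2, Cfsg.Lie.chevD4, Cfsg.Lie.chevF4, Cfsg.Lie.chevE6, Cfsg.Lie.chevE7, Cfsg.Lie.chevE8]) (r : ℕ) (hr : r < D.nroots) :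
    ∃ φ : Matrix.SpecialLinearGroup (Fin 2) F →* GL D.Idx F,
      φ.range = D.rootSubgroup F r ⊔ D.rootSubgroup F (D.neg r) ∧
      ∀ (g : Matrix.SpecialLinearGroup (Fin 2) F) (t : F),
        ((g : Matrix (Fin 2) (Fin 2) F) = !![1, t; 0, 1] → ((φ g : GL D.Idx F) : Matrix D.Idx D.Idx F) = D.x F r t) ∧
        ((g : Matrix (Fin 2) (Fin 2) F) = !![1, 0; t, 1] → ((φ g : GL D.Idx F) : Matrix D.Idx D.Idx F) = D.x F (D.neg r) t) := by
  have := CA.Chev.isRoot_of_mem hD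
  have := CA.Chev.isEta_of_mem hD
  have := CA.Chev.matFacts_of_mem hD F
  obtain ⟨φ, h1, h2, h3⟩ := (stFam_X (D := D) (F := F)).exists_sl2 ⟨r, hr⟩
  refine ⟨φ, le_antisymm ?_ (sup_le ?_ ?_), fun g t => ⟨fun e => congrArg Units.val (h1 g t e),
    fun e => congrArg Units.val (h2 g t e)⟩⟩
  · rintro _ ⟨g, rfl⟩
    refine h3 _ (fun t => ⟨Subgroup.mem_sup_left (Subgroup.subset_closure ?_),
      Subgroup.mem_sup_right (Subgroup.subset_closure ?_)⟩) g <;> exact ⟨t, rfl⟩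
  · refine (Subgroup.closure_le _).2 ?_
    rintro g ⟨t, e⟩
    exact ⟨upM t, (h1 _ t rfl).trans (Units.ext e.symm)⟩
  · refine (Subgroup.closure_le _).2 ?_
    rintro g ⟨t, e⟩
    exact ⟨⟨!![1, 0; t, 1], by simp [Matrix.det_fin_two]⟩, (h2 _ t rfl).trans (Units.ext e.symm)⟩

end Cfsg.Agent.S1030
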