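import Cfsg.Statements.S1057
import Cfsg.Agent.Lib.Chev.Two
import Cfsg.Agent.Lib.Chev.AutG2
import Cfsg.Agent.Lib.CG.Types
import Cfsg.Agent.S0283

set_option autoImplicit false
open Cfsg

namespace Cfsg.Agent.S1057

open Matrix

/-- matrices over the Gaussian integers, with a flag for the field automorphism -/
abbrev M : Type := Matrix (Fin 3) (Fin 3) (ℤ√(-1)) × Bool

/-- the images of the root elements -/
def c (r : ℕ) : M :=
  [(!![⟨1, 0⟩, ⟨0, 1⟩, ⟨1, 1⟩; ⟨0, 2⟩, ⟨1, 0⟩, ⟨2, 1⟩; ⟨1, 2⟩, ⟨2, 2⟩, ⟨0, 0⟩], false),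
    (!![⟨1, 0⟩, ⟨1, 1⟩, ⟨0, 1⟩; ⟨1, 2⟩, ⟨0, 0⟩, ⟨2, 2⟩; ⟨0, 2⟩, ⟨2, 1⟩, ⟨1, 0⟩], false),
    (!![⟨1, 1⟩, ⟨2, 0⟩, ⟨2, 0⟩; ⟨2, 0⟩, ⟨2, 2⟩, ⟨0, 2⟩; ⟨2, 0⟩, ⟨0, 2⟩, ⟨2, 2⟩], true),
    (!![⟨2, 1⟩, ⟨1, 2⟩, ⟨0, 0⟩; ⟨1, 2⟩, ⟨1, 2⟩, ⟨0, 0⟩; ⟨0, 0⟩, ⟨0, 0⟩, ⟨0, 2⟩], true),
    (!![⟨2, 1⟩, ⟨0, 0⟩, ⟨1, 2⟩; ⟨0, 0⟩, ⟨0, 2⟩, ⟨0, 0⟩; ⟨1, 2⟩, ⟨0, 0⟩, ⟨1, 2⟩], true),
    (!![⟨0, 0⟩, ⟨0, 1⟩, ⟨0, 0⟩; ⟨0, 2⟩, ⟨0, 0⟩, ⟨0, 0⟩; ⟨0, 0⟩, ⟨0, 0⟩, ⟨2, 0⟩], false),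
    (!![⟨0, 0⟩, ⟨0, 0⟩, ⟨0, 1⟩; ⟨0, 0⟩, ⟨2, 0⟩, ⟨0, 0⟩; ⟨0, 2⟩, ⟨0, 0⟩, ⟨0, 0⟩], false),
    (!![⟨0, 1⟩, ⟨0, 0⟩, ⟨0, 0⟩; ⟨0, 0⟩, ⟨0, 2⟩, ⟨0, 0⟩; ⟨0, 0⟩, ⟨0, 0⟩, ⟨1, 0⟩], true),
    (!![⟨0, 1⟩, ⟨0, 0⟩, ⟨0, 0⟩; ⟨0, 0⟩, ⟨1, 0⟩, ⟨0, 0⟩; ⟨0, 0⟩, ⟨0, 0⟩, ⟨0, 2⟩], true),
    (!![⟨1, 0⟩, ⟨0, 0⟩, ⟨0, 0⟩; ⟨0, 0⟩, ⟨2, 0⟩, ⟨0, 0⟩; ⟨0, 0⟩, ⟨0, 0⟩, ⟨2, 0⟩], true),
    (!![⟨2, 0⟩, ⟨0, 0⟩, ⟨0, 0⟩; ⟨0, 0⟩, ⟨2, 0⟩, ⟨0, 0⟩; ⟨0, 0⟩, ⟨0, 0⟩, ⟨1, 0⟩], false),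
    (!![⟨2, 0⟩, ⟨0, 0⟩, ⟨0, 0⟩; ⟨0, 0⟩, ⟨1, 0⟩, ⟨0, 0⟩; ⟨0, 0⟩, ⟨0, 0⟩, ⟨2, 0⟩], false)].getD r (1, false)

/-- the product in the semidirect product -/
def cm (x y : M) : M := (x.1 * (if x.2 then y.1.map star else y.1), xor x.2 y.2)

/-- the value of a word -/
def ev (l : List ℕ) : M := l.foldr (fun r y => cm (c r) y) (1, false)

/-- congruence modulo 3 -/
def eq3 (a b : ℤ√(-1)) : Prop := (a - b).re % 3 = 0 ∧ (a - b).im % 3 = 0

instance decEq3 (a b : ℤ√(-1)) : Decidable (eq3 a b) := by unfold eq3; infer_instance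

/-- congruence modulo 3 -/
def Eq3 (x y : M) : Prop := (∀ i j, eq3 (x.1 i j) (y.1 i j)) ∧ x.2 = y.2

instance decEq3' (x y : M) : Decidable (Eq3 x y) :=
  @instDecidableAnd _ _ (@Nat.decidableForallFin _ _ fun _ => Nat.decidableForallFin _) _

theorem chk1 : ∀ r < 12, eq3 (c r).1.det 1 ∧ Eq3 ((c r).1ᵀ * (c r).1.map star, false) (1, false) ∧
    Eq3 (ev [r, r]) (ev []) := by
  simp only [det_fin_three]
  decide +kernel

theorem chk2 : ∀ r < 12, ∀ s < 12, (∀ k ∈ CA.Chev.oddTerms Lie.chevG2 r s, k < 12) ∧ (s ≠ r →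
    s ≠ Lie.chevG2.neg r → Eq3 (ev [s, r]) (ev (r :: s :: CA.Chev.oddTerms Lie.chevG2 r s))) := by
  decide +kernel

variable {K : Type*} [Field K] [Fintype K] [CharP K 3]

omit [Fintype K] in
theorem herm_eq (u v : Fin 3 → K) : hermForm 3 K 3 u v = u ⬝ᵥ (frobenius K 3 ∘ v) := rfl

theorem map_mem (g : SU 3 K 3) : SpecialLinearGroup.map (frobenius K 3) g.1 ∈ SU 3 K 3 := by
  intro u v
  obtain ⟨u, rfl⟩ := (surjective_frobenius K 3).comp_left u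
  obtain ⟨v, rfl⟩ := (surjective_frobenius K 3).comp_left v
  have h := congrArg (frobenius K 3) (g.2 u v)
  have e : ∀ w : Fin 3 → K, slToMat 3 K (SpecialLinearGroup.map (frobenius K 3) g.1) *ᵥ (frobenius K 3 ∘ w) =
      frobenius K 3 ∘ (slToMat 3 K g.1 *ᵥ w) := fun w => funext fun i =>
    (RingHom.map_mulVec (frobenius K 3) g.1.1 w i).symm
  simp only [herm_eq, RingHom.map_dotProduct] at h ⊢
  rw [e, e]
  exact h

variable (hK : Fintype.card K = 9)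
include hK

/-- the field automorphism acting on the unitary group -/
def bar : MulAut (SU 3 K 3) :=
  have h : ∀ g : SU 3 K 3, (g.1.1.map (frobenius K 3)).map (frobenius K 3) = g.1.1 := fun g => by
    ext i j
    simpa [hK, frobenius_def, ← pow_mul] using FiniteField.pow_card (g.1.1 i j)
  { toFun := fun g => ⟨_, map_mem g⟩
    invFun := fun g => ⟨_, map_mem g⟩
    left_inv := fun g => Subtype.ext (Subtype.ext (h g))
    right_inv := fun g => Subtype.ext (Subtype.ext (h g))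
    map_mul' := fun a b => Subtype.ext (map_mul (SpecialLinearGroup.map (frobenius K 3)) a.1 b.1) }

/-- the action of the group of order two -/
def act : ℤˣ →* MulAut (SU 3 K 3) where
  toFun u := if u = 1 then 1 else bar hK
  map_one' := if_pos rfl
  map_mul' u v := by
    have : bar hK * bar hK = 1 := MulEquiv.ext (bar hK).left_inv
    rcases Int.units_eq_one_or u with rfl | rfl <;> rcases Int.units_eq_one_or v with rfl | rfl <;>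
      simp [this]

/-- `g` is represented by `x` -/
def Rep (f : ℤ√(-1) →+* K) (g : SU 3 K 3 ⋊[act hK] ℤˣ) (x : M) : Prop :=
  g.left.1.1 = x.1.map f ∧ g.right = if x.2 then -1 else 1

omit hK [Fintype K] in
theorem map_eq3 (f : ℤ√(-1) →+* K) {a b : ℤ√(-1)} (h : eq3 a b) : f a = f b := by
  obtain ⟨k, hk⟩ := Int.dvd_of_emod_eq_zero h.1
  obtain ⟨l, hl⟩ := Int.dvd_of_emod_eq_zero h.2
  have : a - b = 3 * ⟨k, l⟩ := by ext <;> simp [← hk, ← hl]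
  rw [← sub_eq_zero, ← map_sub, this, map_mul, map_ofNat]
  simp [show (3 : K) = 0 from CharP.cast_eq_zero K 3]

omit hK [Fintype K] in
theorem map_star (f : ℤ√(-1) →+* K) (a : ℤ√(-1)) : f (star a) = frobenius K 3 (f a) := by
  have h1 : f Zsqrtd.sqrtd * f Zsqrtd.sqrtd = -1 := by rw [← map_mul, Zsqrtd.dmuld]; simp
  have h2 : frobenius K 3 (f Zsqrtd.sqrtd) = - f Zsqrtd.sqrtd := by
    rw [frobenius_def]; linear_combination f Zsqrtd.sqrtd * h1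
  have e1 : a = (a.re : ℤ√(-1)) + (a.im : ℤ√(-1)) * Zsqrtd.sqrtd := by ext <;> simp
  have e2 : star a = (a.re : ℤ√(-1)) - (a.im : ℤ√(-1)) * Zsqrtd.sqrtd := by ext <;> simp
  rw [e2]
  conv_rhs => rw [e1]
  simp only [map_sub, map_add, map_mul, map_intCast, h2]
  ring

variable {hK} {f : ℤ√(-1) →+* K}

theorem Rep.mul {g h : SU 3 K 3 ⋊[act hK] ℤˣ} {x y : M} (hg : Rep hK f g x) (hh : Rep hK f h y) :
    Rep hK f (g * h) (cm x y) := by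
  obtain ⟨x, b⟩ := x
  obtain ⟨y, d⟩ := y
  refine ⟨?_, by cases b <;> cases d <;> simp [cm, hg.2, hh.2]⟩
  rw [SemidirectProduct.mul_left, hg.2, cm, Matrix.map_mul, ← hg.1]
  cases b
  · exact congrArg (g.left.1.1 * ·) hh.1
  · change g.left.1.1 * h.left.1.1.map (frobenius K 3) = _
    rw [hh.1]
    congr 1
    ext i j
    exact (map_star f _).symm

theorem Rep.eq {g h : SU 3 K 3 ⋊[act hK] ℤˣ} {x y : M} (hg : Rep hK f g x) (hh : Rep hK f h y)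
    (e : Eq3 x y) : g = h := by
  refine SemidirectProduct.ext (Subtype.ext (Subtype.ext ?_)) (by rw [hg.2, hh.2, e.2])
  rw [hg.1, hh.1]
  ext i j
  exact map_eq3 f (e.1 i j)

theorem rep_ev {p : ℕ → SU 3 K 3 ⋊[act hK] ℤˣ} (hp : ∀ r < 12, Rep hK f (p r) (c r)) {l : List ℕ}
    (hl : ∀ r ∈ l, r < 12) : Rep hK f (l.map p).prod (ev l) := by
  induction l with
  | nil => exact ⟨by simp [ev], rfl⟩
  | cons r l ih => exact (hp r (hl r (by simp))).mul (ih fun s hs => hl s (by simp [hs]))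

variable (hK f) in
theorem exists_rep (r : ℕ) : ∃ g, r < 12 → Rep hK f g (c r) := by
  by_cases hr : r < 12
  swap
  · exact ⟨1, fun h => absurd h hr⟩
  obtain ⟨h1, h2, -⟩ := chk1 r hr
  refine ⟨⟨⟨⟨(c r).1.map f, ?_⟩, fun u v => ?_⟩, _⟩, fun _ => ⟨rfl, rfl⟩⟩
  · rw [← RingHom.mapMatrix_apply, ← RingHom.map_det, map_eq3 f h1, map_one]
  · have e : ((c r).1.map f)ᵀ * ((c r).1.map f).map (frobenius K 3) = 1 := by
      rw [← Matrix.map_one f (map_zero f) (map_one f)]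
      ext i j
      rw [map_apply, ← map_eq3 f (h2.1 i j)]
      simp [mul_apply, map_star]
    change ((c r).1.map f *ᵥ u) ⬝ᵥ (frobenius K 3 ∘ ((c r).1.map f *ᵥ v)) = u ⬝ᵥ (frobenius K 3 ∘ v)
    rw [show frobenius K 3 ∘ ((c r).1.map f *ᵥ v) = ((c r).1.map f).map (frobenius K 3) *ᵥ (frobenius K 3 ∘ v)
      from funext fun i => RingHom.map_mulVec _ _ _ i, ← vecMul_transpose, ← dotProduct_mulVec,
      mulVec_mulVec, e, one_mulVec]

omit hK [Fintype K] [CharP K 3]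

open CA.Chev CA.CG Cfsg.Lie in

/-- G₂(2)′ ≅ PSU₃(3). -/
theorem result {F K : Type*} [Field F] [Fintype F] [Field K] [Fintype K] (hF : Fintype.card F = 2) (hK : Fintype.card K = 9) :
    Nonempty (↥(commutator ↥(Cfsg.Lie.chevG2.group F)) ≃* Cfsg.PSU 3 K 3) := by
  obtain ⟨q, hq, n, hqp, hn⟩ := FiniteField.card' K
  obtain rfl : q = 3 := by
    have : q ∣ 3 ^ 2 := by rw [show 3 ^ 2 = q ^ (n : ℕ) by omega]; exact dvd_pow_self q n.ne_zero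
    exact (Nat.prime_dvd_prime_iff_eq hqp Nat.prime_three).1 (hqp.dvd_of_dvd_pow this)
  obtain ⟨i, hi⟩ := (FiniteField.isSquare_neg_one_iff (F := K)).2 (by rw [hK]; norm_num)
  let f : ℤ√(-1) →+* K := Zsqrtd.lift ⟨i, by simpa using hi.symm⟩
  choose p hp using exists_rep hK f
  obtain ⟨σ, hσ⟩ := exists_hom_two (D := chevG2) hF p (fun r hr => by
      simpa using (rep_ev hp (l := [r, r]) (by simpa using show r < 12 from hr)).eq (rep_ev hp (by simp)) (chk1 r hr).2.2)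
    fun r hr s hs h1 h2 => by
      simpa [mul_assoc] using (rep_ev hp (l := [s, r]) (by simpa using ⟨hs, hr⟩)).eq
        (rep_ev hp (by simpa using ⟨hr, hs, (chk2 r hr s hs).1⟩)) ((chk2 r hr s hs).2 h1 h2)
  have hinj := injective_two hF σ ⟨0, by decide⟩ (by
    rw [hσ, hσ]
    intro e
    have h1 := (hp 0 (by norm_num)).1
    have h2 := (hp 11 (by norm_num)).1
    change p 0 = p 11 at e
    rw [e, h2] at h1
    have := congrFun (congrFun h1 0) 1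
    simp [c, f] at this
    simp [← this] at hi)
  have hK' : Fintype.card K = 3 ^ 2 := hK
  have hs := Cfsg.Agent.S0283.result hK' 3 le_rfl (by simp)
  let := CA.Cl.starRingOfCard hK'
  have hz : Subgroup.center (SU 3 K 3) = ⊥ :=
    Subgroup.eq_bot_of_card_eq _ (CA.Unit.card_center_su (CA.Cl.isFq2_starRingOfCard hK') (by norm_num))
  have e : PSU 3 K 3 ≃* SU 3 K 3 := (QuotientGroup.quotientMulEquivOfEq hz).trans QuotientGroup.quotientBot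
  have hc : Nat.card (SU 3 K 3) = 6048 := by
    have h := CA.Unit.card_psu (CA.Cl.isFq2_starRingOfCard hK') (n := 3) (by norm_num)
    rw [Nat.card_congr e.toEquiv] at h
    simp [Finset.prod_range_succ, Nat.even_iff] at h
    omega
  have : Finite (SU 3 K 3 ⋊[act hK] ℤˣ) := Finite.of_equiv _ SemidirectProduct.equivProd.symm
  have hb := hinj.bijective_of_nat_card_le (by
    rw [SemidirectProduct.card, hc, card_G2 hF, Nat.card_eq_fintype_card, Fintype.card_units_int]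
    norm_num)
  have := e.symm.isSimpleGroup
  have hp : commutator (SU 3 K 3) = ⊤ := by
    refine (Subgroup.Normal.eq_bot_or_eq_top inferInstance).resolve_left fun h => ?_
    have : IsMulCommutative (SU 3 K 3) := (commutator_eq_bot_iff _).1 h
    have := Group.is_simple_iff_prime_card.1 ‹IsSimpleGroup (SU 3 K 3)›
    rw [hc] at this
    norm_num at this
  have hcomm : commutator (SU 3 K 3 ⋊[act hK] ℤˣ) = SemidirectProduct.inl.range := by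
    apply le_antisymm
    · rw [SemidirectProduct.range_inl_eq_ker_rightHom]
      exact Abelianization.commutator_subset_ker _
    · rw [MonoidHom.range_eq_map, ← hp, commutator_def, Subgroup.map_commutator]
      exact Subgroup.commutator_mono le_top le_top
  exact ⟨(CA.Cl.commutatorCongr (MulEquiv.ofBijective σ hb)).trans ((MulEquiv.subgroupCongr hcomm).trans
    ((MonoidHom.ofInjective SemidirectProduct.inl_injective).symm.trans e.symm))⟩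

end Cfsg.Agent.S1057
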