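import Cfsg.Statements.S1058
import Cfsg.Agent.Lib.Chev.Two
import Cfsg.Agent.Lib.Chev.AutB2
import Cfsg.Agent.Lib.CG.Types

set_option autoImplicit false
open Cfsg

namespace Cfsg.Agent.S1058

open Equiv in
/-- the images of the root elements -/
def p (r : ℕ) : Perm (Fin 6) :=
  [swap 0 2,
    swap 0 2 * swap 1 5 * swap 3 4,
    swap 0 2 * swap 1 3 * swap 4 5,
    swap 3 4,
    swap 4 5,
    swap 0 1 * swap 2 5 * swap 3 4,
    swap 0 1 * swap 2 3 * swap 4 5,
    swap 0 1].getD r 1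

open CA.Chev CA.CG Cfsg.Lie in

/-- B₂(2) ≅ S₆. -/
theorem result {F : Type*} [Field F] [Fintype F] (hF : Fintype.card F = 2) :
    Nonempty (↥(Cfsg.Lie.chevB2.group F) ≃* Equiv.Perm (Fin 6)) := by
  obtain ⟨σ, hσ⟩ := exists_hom_two (D := chevB2) hF p (by decide +kernel) (by decide +kernel)
  have hi := injective_two hF σ ⟨0, by decide⟩ (by rw [hσ, hσ]; decide +kernel)
  have hc := card_B2 hF
  refine ⟨MulEquiv.ofBijective σ (hi.bijective_of_nat_card_le ?_)⟩
  simp only [Nat.card_perm, Nat.card_eq_fintype_card (α := Fin 6), Fintype.card_fin]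
  norm_num [Nat.factorial] at hc ⊢
  omega

end Cfsg.Agent.S1058
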