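import Cfsg.Statements.S1078
import Cfsg.Agent.Lib.Chev.AutG2
import Cfsg.Agent.Lib.Chev.AutF4
import Cfsg.Agent.Lib.Chev.AutE8
import Cfsg.Agent.Lib.CG.Types

set_option autoImplicit false
open Cfsg

namespace Cfsg.Agent.S1078

open CA.Chev CA.CG in
theorem aux {K : Type*} [Field K] {D : Cfsg.Lie.ChevalleyDatum} [IsRoot D] [IsEta D] [IsDec D] [MatFacts D K]
    {V : List (List ℤ)} (h : KerOK D (m := 0) ![] ![] [] V []) :
    Subgroup.center (D.SteinbergGroup K) = ⊥ := by
  obtain ⟨θ, hθ⟩ := exists_theta D K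
  rw [← ker_eq_center stFam_stx gen_stx θ hθ, eq_bot_iff]
  intro g hg
  obtain ⟨c, rfl⟩ := closure_hG_le stFam_stx (ker_le_H stFam_stx gen_stx θ hθ hg)
  rw [MonoidHom.mem_ker, theta_torG _ θ hθ, h.mem_ker_iff] at hg
  rw [show c = 1 from funext fun i => by simpa using hg.2 i, map_one]
  exact Subgroup.one_mem _

/-- For G₂, F₄, E₈ the presented group has trivial centre (the universal and adjoint groups coincide). -/
theorem result {K : Type*} [Field K] (D : Cfsg.Lie.ChevalleyDatum) (hD : D ∈ [Cfsg.Lie.chevG2, Cfsg.Lie.chevF4, Cfsg.Lie.chevE8]) :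
    Subgroup.center (D.SteinbergGroup K) = ⊥ := by
  simp only [List.mem_cons, List.not_mem_nil, or_false] at hD
  rcases hD with rfl | rfl | rfl
  · exact aux CA.CG.kerG2
  · exact aux CA.CG.kerF4
  · exact aux CA.CG.kerE8

end Cfsg.Agent.S1078
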