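import Cfsg.Statements.S1079
import Cfsg.Agent.Lib.Chev.EmbE8
import Cfsg.Agent.Lib.CG.Types

set_option autoImplicit false
open Cfsg

namespace Cfsg.Agent.S1079

open CA.Chev CA.CG Cfsg.Lie in
theorem aux {K : Type*} [Field K] {D : Cfsg.Lie.ChevalleyDatum} [IsRoot D] [IsEta D] [IsDec D] [MatFacts D K]
    {ρ : ℕ → ℕ} {ε : ℕ → ℤ} (h : TwData D chevE8 0 ρ ε fun _ => 1)
    (h1 : ∀ i : Nd D, (i : ℕ) < chevE8.rank ∧ ρ (D.simple i) = chevE8.simple i) :
    Nat.card (Subgroup.center (D.SteinbergGroup K)) = Nat.card (tor D K).ker := by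
  obtain ⟨θ, hθ⟩ := exists_theta D K
  have hy := h.stFam (F := K) stFam_xg (by simp) (RingHom.id K) (fun _ => RingHom.id K) (by simp)
  obtain ⟨ψ, hψ⟩ := exists_stLift hy.toStRel hy.hmul
  let ι : Nd D → Nd chevE8 := fun i => ⟨i, (h1 i).1⟩
  have hι : Function.Injective ι := fun i j e => Fin.ext (congrArg Fin.val e :)
  have hinj : Function.Injective (torG (stFam_stx (D := D) (F := K))) := by
    rw [injective_iff_map_eq_one]
    intro c hc
    let m : (Nd D → Kˣ) →* (Nd chevE8 → Kˣ) :=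
      { toFun := fun c => ∏ i, Pi.mulSingle (ι i) (c i)
        map_one' := by simp
        map_mul' := fun a b => by simp [Pi.mulSingle_mul, Finset.prod_mul_distrib] }
    have e : ψ.comp (torG stFam_stx) = (tor chevE8 K).comp m := MonoidHom.pi_ext fun i t => by
      have : m (Pi.mulSingle i t) = Pi.mulSingle (ι i) t := by
        change ∏ j : Nd D, _ = _
        rw [Finset.prod_eq_single i (fun j _ hj => by simp [hj]) (by simp), Pi.mulSingle_eq_same]
      rw [MonoidHom.comp_apply, MonoidHom.comp_apply, torG_single, this, tor_single, map_hG]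
      simp only [hψ]
      rw [h.hG_eq stFam_xg (fun _ => RingHom.id K) (fun _ => rfl) _ t.ne_zero]
      congr 1
      exact Fin.ext (h1 i).2
    have e2 := DFunLike.congr_fun e c
    rw [MonoidHom.comp_apply, hc, map_one, MonoidHom.comp_apply, eq_comm, kerE8.mem_ker_iff] at e2
    funext i
    simpa [m, Finset.prod_apply, Pi.mulSingle_apply, hι.eq_iff] using e2.2 (ι i)
  rw [← ker_eq_center stFam_stx gen_stx θ hθ, ← Subgroup.card_map_of_injective hinj]
  congr 2
  ext g
  constructor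
  · intro hg
    obtain ⟨c, rfl⟩ := closure_hG_le stFam_stx (ker_le_H stFam_stx gen_stx θ hθ hg)
    exact ⟨c, by rwa [MonoidHom.mem_ker, theta_torG _ θ hθ] at hg, rfl⟩
  · rintro ⟨c, hc, rfl⟩
    rwa [MonoidHom.mem_ker, theta_torG _ θ hθ]

/-- `|Z(Ḡ)| = gcd(3, q-1)` for E₆ and `gcd(2, q-1)` for E₇ over a field with `q` elements (the centre is dual to the weight lattice modulo the root lattice). -/
theorem result {K : Type*} [Field K] [Fintype K] {q : ℕ} (hq : Fintype.card K = q)
    (p : Cfsg.Lie.ChevalleyDatum × ℕ) (hp : p ∈ [(Cfsg.Lie.chevE6, 3), (Cfsg.Lie.chevE7, 2)]) :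
    Nat.card (Subgroup.center (p.1.SteinbergGroup K)) = Nat.gcd p.2 (q - 1) := by
  simp only [List.mem_cons, List.not_mem_nil, or_false] at hp
  rcases hp with rfl | rfl
  · rw [aux CA.Chev.twE6E8 (by decide +kernel), CA.CG.kerE6.card_ker, hq]; simp
  · rw [aux CA.Chev.twE7E8 (by decide +kernel), CA.CG.kerE7.card_ker, hq]; simp

end Cfsg.Agent.S1079
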