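import Cfsg.Statements.S1081
import Cfsg.Agent.Lib.Chev.AutE6
import Cfsg.Agent.Lib.Chev.AutD4

set_option autoImplicit false
open Cfsg

namespace Cfsg.Agent.S1081

open CA.Chev CA.CG in
theorem aux {F : Type*} [Field F] {D : Cfsg.Lie.ChevalleyDatum} [IsRoot D] [IsEta D] [MatFacts D F]
    {π : Equiv.Perm (Nd D)} {f : ℕ → F →+* F} {σ : D.group F →* D.group F} {L : ℕ → ℕ} {g : ℕ → F → F}
    (hπ : ∀ i : Nd D, (π i : ℕ) = L i) (hf : ∀ (i : Nd D) t, f i t = g i t)
    (h : (∀ i t, σ (xg (simple i) t) = xg (simple (π i)) (f i t)) ∧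
      ∀ i t, σ (xg (neg (simple i)) t) = xg (neg (simple (π i))) (f i t))
    (hb : Function.Bijective σ) :
    ∃ α : ↥(D.group F) ≃* ↥(D.group F), ∀ (x : ↥(D.group F)) (i : ℕ) (t : F), i < D.rank →
      (((x : GL D.Idx F) : Matrix D.Idx D.Idx F) = D.x F (D.simple i) t →
        ((α x : GL D.Idx F) : Matrix D.Idx D.Idx F) = D.x F (D.simple (L i)) (g i t)) ∧
      (((x : GL D.Idx F) : Matrix D.Idx D.Idx F) = D.x F (D.neg (D.simple i)) t →
        ((α x : GL D.Idx F) : Matrix D.Idx D.Idx F) = D.x F (D.neg (D.simple (L i))) (g i t)) := by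
  refine ⟨MulEquiv.ofBijective σ hb, fun x i t hi => ⟨fun e => ?_, fun e => ?_⟩⟩
  · rw [show x = xg (simple ⟨i, hi⟩) t from mat_inj e, ← hπ ⟨i, hi⟩, ← hf ⟨i, hi⟩]
    exact congrArg mat (h.1 ⟨i, hi⟩ t)
  · rw [show x = xg (neg (simple ⟨i, hi⟩)) t from mat_inj e, ← hπ ⟨i, hi⟩, ← hf ⟨i, hi⟩]
    exact congrArg mat (h.2 ⟨i, hi⟩ t)

open CA.Chev CA.CG in

/-- Graph automorphisms: for E₆ with ρ = (p₁ p₆)(p₃ p₅) and for D₄ with ρ the 3-cycle on the outer nodes there is a group automorphism sending `x_p(t) ↦ x_{ρ(p)}(t)` and `x_{-p}(t) ↦ x_{-ρ(p)}(t)` for every fundamental root `p`. -/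
theorem result {F : Type*} [Field F] (p : Cfsg.Lie.ChevalleyDatum × List ℕ)
    (hp : p ∈ [(Cfsg.Lie.chevE6, [5, 1, 4, 3, 2, 0]), (Cfsg.Lie.chevD4, [2, 1, 3, 0]), (Cfsg.Lie.chevD4, [3, 1, 0, 2])]) :
    ∃ α : ↥(p.1.group F) ≃* ↥(p.1.group F), ∀ (g : ↥(p.1.group F)) (i : ℕ) (t : F), i < p.1.rank →
      (((g : GL p.1.Idx F) : Matrix p.1.Idx p.1.Idx F) = p.1.x F (p.1.simple i) t →
        ((α g : GL p.1.Idx F) : Matrix p.1.Idx p.1.Idx F) = p.1.x F (p.1.simple (p.2.getD i 0)) t) ∧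
      (((g : GL p.1.Idx F) : Matrix p.1.Idx p.1.Idx F) = p.1.x F (p.1.neg (p.1.simple i)) t →
        ((α g : GL p.1.Idx F) : Matrix p.1.Idx p.1.Idx F) = p.1.x F (p.1.neg (p.1.simple (p.2.getD i 0))) t) := by
  simp only [List.mem_cons, List.not_mem_nil, or_false] at hp
  rcases hp with rfl | rfl | rfl
  · obtain ⟨σ, -, h⟩ := graphE6 (RingHom.id F) permE6 permE6_val
    have e : ∀ i, permE6 (permE6 i) = i := by decide +kernel
    exact aux (f := fun _ => RingHom.id F) (g := fun _ t => t) permE6_val (fun _ _ => rfl) h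
      (bijective_of_pow σ 1 (RingHom.id F) Function.surjective_id fun i t => by simp [h.1, h.2, e])
  · obtain ⟨σ, -, h⟩ := graphD4a (RingHom.id F) permD4a permD4a_val
    have e : ∀ i, permD4a (permD4a (permD4a i)) = i := by decide +kernel
    exact aux (f := fun _ => RingHom.id F) (g := fun _ t => t) permD4a_val (fun _ _ => rfl) h
      (bijective_of_pow σ 2 (RingHom.id F) Function.surjective_id fun i t => by simp [h.1, h.2, e])
  · obtain ⟨σ, -, h⟩ := graphD4b (RingHom.id F) permD4b permD4b_val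
    have e : ∀ i, permD4b (permD4b (permD4b i)) = i := by decide +kernel
    exact aux (f := fun _ => RingHom.id F) (g := fun _ t => t) permD4b_val (fun _ _ => rfl) h
      (bijective_of_pow σ 2 (RingHom.id F) Function.surjective_id fun i t => by simp [h.1, h.2, e])

end Cfsg.Agent.S1081
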