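import Cfsg.Statements.S1083
import Cfsg.Agent.Lib.Classical.ChevOrth
import Cfsg.Agent.Lib.Classical.OrthIso

set_option autoImplicit false
open Cfsg

namespace Cfsg.Agent.S1083

open CA CA.Orth CA.ChevO QuadraticMap

/-- the certificate for type `B₂` -/
def cert : Cert 5 where
  qd i := if i = 0 then 1 else 0
  bs i j := if i = 0 ∧ j = 0 then 2 else if i ≠ 0 ∧ j ≠ 0 ∧ (i.1 + 2 = j.1 ∨ j.1 + 2 = i.1) then 1 else 0
  u r := [3, 3, 4, 3, 1, 2, 1, 1].getD r 0
  w r := [4, 0, 0, 2, 4, 0, 0, 2].getD r 0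
  σ r := [-1, -1, -1, -1, 1, 1, 1, 1].getD r 0
  h i := [[(2, 4, 1), (4, 2, -1)], [(1, 3, 1), (2, 4, -1)]].getD i []
  ψ i := [[(none, 1)], [(some (1, 3), 1)]].getD i []

theorem cert_valid : cert.Valid Cfsg.Lie.chevB2 1 3 where
  root := by decide +kernel
  inter₁ := by decide +kernel
  inter₂ := by decide +kernel
  dual := by decide +kernel
  adj₁ := by decide +kernel
  adj₂ := by decide +kernel
  qe := by decide +kernel
  qf := by decide +kernel
  be := by decide +kernel
  bf := by decide +kernel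
  gen := by decide +kernel

/-- numbering of the coordinates -/
def idx : Fin 5 ≃ Unit ⊕ (Fin 2 ⊕ Fin 2) where
  toFun := ![.inl (), .inr (.inl 0), .inr (.inl 1), .inr (.inr 0), .inr (.inr 1)]
  invFun := Sum.elim (fun _ => 0) (Sum.elim ![1, 2] ![3, 4])
  left_inv := by decide
  right_inv := by decide

/-- B₂(F) ≅ PΩ₅(F) for the form `x₀² + x₁y₁ + x₂y₂`, over every field with more than two elements. -/
theorem result {F : Type*} [Field F] (hF : ∃ a : F, a ≠ 0 ∧ a ≠ 1) :
    Nonempty (↥(Cfsg.Lie.chevB2.group F) ≃* Cfsg.POmega F (Cfsg.quadFormOdd 2 F)) := by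
  let bm := ((Pi.basisFun F _).reindex idx.symm).map (oddEquiv F 2)
  have hbm : ∀ i, bm i = (fun k => if .inr (.inl k) = idx i then 1 else 0,
      fun k => if .inr (.inr k) = idx i then 1 else 0, if .inl () = idx i then 1 else 0) :=
    fun i => by
      have : bm i = oddEquiv F 2 (Pi.single (idx i) 1) := by simp [bm]
      rw [this]
      exact Prod.ext (funext fun k => Pi.single_apply ..) (Prod.ext
        (funext fun k => Pi.single_apply ..) (Pi.single_apply ..))
  have hn : 3 ≤ Module.finrank F ((Fin 2 → F) × (Fin 2 → F) × F) := by rw [finrank_Qm]; omega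
  exact ⟨(nonempty_equiv (Q := Qm 2 (q1 F)) (bm := bm) _
    (fun i => by
      rw [hbm]; fin_cases i <;> simp [Qm_apply, q1_apply, idx, cert])
    (fun i j => by
      rw [hbm, hbm]
      fin_cases i <;> fin_cases j <;> simp [polar_Qm, Qm_apply, q1_apply, idx, cert])
    cert_valid ns_q1.Qm (by norm_num)).some.trans
    (isoPE _ (oddEquiv F 2) Qm_oddEquiv ((hyp_Qm 0).commutator_eq_E_of_card ns_q1.Qm hn hF)).symm⟩

end Cfsg.Agent.S1083
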