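import Cfsg.Statements.S1095
import Cfsg.Agent.Lib.Chev.Inst

set_option autoImplicit false
open Cfsg

namespace Cfsg.Agent.S1095

/-- `n_p` (p = p_{i+1} fundamental) is the signed monomial matrix `h_{p_j} ↦ h_{p_j} - A_{p_j,p} h_p`, `e_s ↦ η_s e_{w_p(s)}`, with `η_s = ±1`, `η_p = η_{-p} = -1`, `η_s η_{w_p(s)} = (-1)^{A_{p,s}}`, `η_s η_{-s} = 1`. -/
theorem result {F : Type*} [Field F] (D : Cfsg.Lie.ChevalleyDatum) (hD : D ∈ [Cfsg.Lie.chevG2, Cfsg.Lie.chevB2, Cfsg.Lie.chevD4, Cfsg.Lie.chevF4, Cfsg.Lie.chevE6, Cfsg.Lie.chevE7, Cfsg.Lie.chevE8]) (i : ℕ) (hi : i < D.rank) :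
    ∃ η : ℕ → ℤ, (∀ s < D.nroots, η s = 1 ∨ η s = -1) ∧ η (D.simple i) = -1 ∧ η (D.neg (D.simple i)) = -1 ∧
      (∀ s < D.nroots, η s * η (D.reflectRoot i s) = (-1) ^ (D.cartan i s).natAbs ∧ η s * η (D.neg s) = 1) ∧
      D.nMat F (D.simple i) 1 = Matrix.of (fun (row col : D.Idx) =>
        Sum.elim
          (fun j' : Fin D.rank => Sum.elim
            (fun j : Fin D.rank => (if j' = j then (1 : F) else 0) - (if (j' : ℕ) = i then ((D.cartan j (D.simple i) : ℤ) : F) else 0))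
            (fun _ => (0 : F)) col)
          (fun s' : Fin D.nroots => Sum.elim
            (fun _ => (0 : F))
            (fun s : Fin D.nroots => if (s' : ℕ) = D.reflectRoot i s then ((η s : ℤ) : F) else 0) col)
          row) := by
  have hR := CA.Chev.isRoot_of_mem hD
  have hE := CA.Chev.isEta_of_mem hD
  have hM := CA.Chev.matFacts_of_mem hD F
  let p : CA.Chev.Rt D := CA.Chev.simple ⟨i, hi⟩
  let η : ℕ → ℤ := fun s => if h : s < D.nroots then CA.Chev.eta p ⟨s, h⟩ else 1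
  have hη : ∀ s : CA.Chev.Rt D, η s = CA.Chev.eta p s := fun s => by simp [η]
  refine ⟨η, fun s hs => ?_, ?_, ?_, fun s hs => ⟨?_, ?_⟩, ?_⟩
  · rw [hη ⟨s, hs⟩]; exact CA.Chev.eta_cases _ _
  · exact (hη p).trans (hE.eta_self p)
  · exact (hη (CA.Chev.neg p)).trans ((hE.eta_neg p p).trans (hE.eta_self p))
  · have := hE.eta_refl p ⟨s, hs⟩
    rw [CA.Chev.refl_simple, CA.Chev.pr_simple, ← hη, ← hη] at this
    exact this
  · have := CA.Chev.eta_mul_self p ⟨s, hs⟩
    nth_rewrite 2 [← hE.eta_neg] at this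
    rw [← hη, ← hη] at this
    exact this
  · refine (hM.nMat_eq p 1 one_ne_zero).trans ?_
    ext row col
    rcases row with j' | s' <;> rcases col with j | s
    · simp only [CA.Chev.nExp, Matrix.of_apply, Sum.elim_inl, p, CA.Chev.cor_simple, Pi.single_apply,
        Fin.ext_iff, CA.Chev.wt, CA.Chev.simple_val]
      split_ifs <;> simp
    · rfl
    · rfl
    · simp only [CA.Chev.nExp, Matrix.of_apply, Sum.elim_inr, p, CA.Chev.refl_simple, Fin.ext_iff,
        CA.Chev.sRefl_val, one_zpow, mul_one, hη]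

end Cfsg.Agent.S1095
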