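import Cfsg.Statements.S1096
import Cfsg.Agent.Lib.Chev.Inst

set_option autoImplicit false
open Cfsg

namespace Cfsg.Agent.S1096

/-- `n_p h_{p_j}(t) n_p⁻¹ = h_{w_p(p_j)}(t)` for fundamental `p`, `p_j` and `t ≠ 0`, stated as `n_p h_{p_j}(t) = h_{w_p(p_j)}(t) n_p`. -/
theorem result {F : Type*} [Field F] (D : Cfsg.Lie.ChevalleyDatum) (hD : D ∈ [Cfsg.Lie.chevG2, Cfsg.Lie.chevB2, Cfsg.Lie.chevD4, Cfsg.Lie.chevF4, Cfsg.Lie.chevE6, Cfsg.Lie.chevE7, Cfsg.Lie.chevE8]) (i j : ℕ) (hi : i < D.rank) (hj : j < D.rank) (t : F) (ht : t ≠ 0) :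
    D.nMat F (D.simple i) 1 * D.hMat F (D.simple j) t = D.hMat F (D.reflectRoot i (D.simple j)) t * D.nMat F (D.simple i) 1 := by
  have := CA.Chev.isRoot_of_mem hD
  have := CA.Chev.isEta_of_mem hD
  have hM := CA.Chev.matFacts_of_mem hD F
  have := (CA.Chev.stFam_X (D := D) (F := F)).nconj_h (CA.Chev.simple ⟨i, hi⟩) (CA.Chev.simple ⟨j, hj⟩)
    one_ne_zero ht
  rw [mul_inv_eq_iff_eq_mul, CA.Chev.refl_simple] at this
  have h2 := congrArg Units.val this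
  simp only [Units.val_mul, CA.Chev.hG_X_val, CA.Chev.nG_X_val] at h2
  exact h2

end Cfsg.Agent.S1096
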