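import Cfsg.Statements.S1098
import Cfsg.Agent.Lib.Chev.AutB2
import Cfsg.Agent.Lib.Chev.AutF4

set_option autoImplicit false
open Cfsg

namespace Cfsg.Agent.S1098

open CA.Chev CA.CG in
theorem aux {F : Type*} [Field F] {D : Cfsg.Lie.ChevalleyDatum} [IsRoot D] [IsEta D] [MatFacts D F]
    {π : Equiv.Perm (Nd D)} {f : ℕ → F →+* F} {σ : D.group F →* D.group F} {L : ℕ → ℕ} {g : ℕ → F → F}
    (hπ : ∀ i : Nd D, (π i : ℕ) = L i) (hf : ∀ (i : Nd D) t, f i t = g i t)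
    (h : (∀ i t, σ (xg (simple i) t) = xg (simple (π i)) (f i t)) ∧
      ∀ i t, σ (xg (neg (simple i)) t) = xg (neg (simple (π i))) (f i t))
    (hb : Function.Bijective σ) :
    ∃ α : ↥(D.group F) ≃* ↥(D.group F), ∀ (x : ↥(D.group F)) (i : ℕ) (t : F), i < D.rank →
      (((x : GL D.Idx F) : Matrix D.Idx D.Idx F) = D.x F (D.simple i) t →
        ((α x : GL D.Idx F) : Matrix D.Idx D.Idx F) = D.x F (D.simple (L i)) (g i t)) ∧
      (((x : GL D.Idx F) : Matrix D.Idx D.Idx F) = D.x F (D.neg (D.simple i)) t →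
        ((α x : GL D.Idx F) : Matrix D.Idx D.Idx F) = D.x F (D.neg (D.simple (L i))) (g i t)) := by
  refine ⟨MulEquiv.ofBijective σ hb, fun x i t hi => ⟨fun e => ?_, fun e => ?_⟩⟩
  · rw [show x = xg (simple ⟨i, hi⟩) t from mat_inj e, ← hπ ⟨i, hi⟩, ← hf ⟨i, hi⟩]
    exact congrArg mat (h.1 ⟨i, hi⟩ t)
  · rw [show x = xg (neg (simple ⟨i, hi⟩)) t from mat_inj e, ← hπ ⟨i, hi⟩, ← hf ⟨i, hi⟩]
    exact congrArg mat (h.2 ⟨i, hi⟩ t)

open CA.Chev CA.CG Cfsg.Lie in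

/-- Graph automorphisms in characteristic 2 (K perfect): for B₂ (a short, b long) `x_a(t) ↦ x_b(t²)`, `x_b(t) ↦ x_a(t)`, and for F₄ (p₁, p₂ short, p₃, p₄ long) `x_{p₁}(t) ↦ x_{p₄}(t²)`, `x_{p₂}(t) ↦ x_{p₃}(t²)`, `x_{p₃}(t) ↦ x_{p₂}(t)`, `x_{p₄}(t) ↦ x_{p₁}(t)`, likewise on the negatives, extend to an automorphism of the group. -/
theorem result {K : Type*} [Field K] [CharP K 2] (hperf : ∀ x : K, ∃ y : K, y ^ 2 = x)
    (p : Cfsg.Lie.ChevalleyDatum × List (ℕ × ℕ))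
    (hp : p ∈ [(Cfsg.Lie.chevB2, [(1, 2), (0, 1)]), (Cfsg.Lie.chevF4, [(3, 2), (2, 2), (1, 1), (0, 1)])]) :
    ∃ α : ↥(p.1.group K) ≃* ↥(p.1.group K), ∀ (g : ↥(p.1.group K)) (i : ℕ) (t : K), i < p.1.rank →
      (((g : GL p.1.Idx K) : Matrix p.1.Idx p.1.Idx K) = p.1.x K (p.1.simple i) t →
        ((α g : GL p.1.Idx K) : Matrix p.1.Idx p.1.Idx K) = p.1.x K (p.1.simple (p.2.getD i (0, 1)).1) (t ^ (p.2.getD i (0, 1)).2)) ∧
      (((g : GL p.1.Idx K) : Matrix p.1.Idx p.1.Idx K) = p.1.x K (p.1.neg (p.1.simple i)) t →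
        ((α g : GL p.1.Idx K) : Matrix p.1.Idx p.1.Idx K) = p.1.x K (p.1.neg (p.1.simple (p.2.getD i (0, 1)).1)) (t ^ (p.2.getD i (0, 1)).2)) := by
  simp only [List.mem_cons, List.not_mem_nil, or_false] at hp
  rcases hp with rfl | rfl
  · obtain ⟨σ, -, h⟩ := graphB2 (RingHom.id K) permB2 permB2_val
    have e : ∀ i, permB2 (permB2 i) = i := by decide +kernel
    have e1 : ∀ i : Nd chevB2, [2, 1].getD i 0 = 1 ∨ [2, 1].getD i 0 = 2 := by decide +kernel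
    have e2 : ∀ i : Nd chevB2, [2, 1].getD i 0 * [2, 1].getD (permB2 i) 0 = 2 := by decide +kernel
    have hb := bijective_of_pow σ 1 (frobenius K 2) hperf fun i t => by
      simp only [Function.iterate_succ, Function.iterate_zero, Function.comp, id, h.1, h.2, e,
        expHom_apply _ (e1 _), RingHom.id_apply, ← pow_mul, e2, frobenius_def, and_self]
    have e3 : ∀ i : Nd chevB2, (permB2 i : ℕ) = ([(1, 2), (0, 1)].getD i (0, 1)).1 ∧
        [2, 1].getD i 0 = ([(1, 2), (0, 1)].getD i (0, 1)).2 := by decide +kernel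
    exact aux (f := fun i => expHom 2 (RingHom.id K) ([2, 1].getD i 0)) (fun i => (e3 i).1)
      (fun i t => by rw [expHom_apply _ (e1 i), (e3 i).2]; rfl) h hb
  · obtain ⟨σ, -, h⟩ := graphF4 (RingHom.id K) permF4 permF4_val
    have e : ∀ i, permF4 (permF4 i) = i := by decide +kernel
    have e1 : ∀ i : Nd chevF4, [2, 2, 1, 1].getD i 0 = 1 ∨ [2, 2, 1, 1].getD i 0 = 2 := by decide +kernel
    have e2 : ∀ i : Nd chevF4, [2, 2, 1, 1].getD i 0 * [2, 2, 1, 1].getD (permF4 i) 0 = 2 := by decide +kernel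
    have hb := bijective_of_pow σ 1 (frobenius K 2) hperf fun i t => by
      simp only [Function.iterate_succ, Function.iterate_zero, Function.comp, id, h.1, h.2, e,
        expHom_apply _ (e1 _), RingHom.id_apply, ← pow_mul, e2, frobenius_def, and_self]
    have e3 : ∀ i : Nd chevF4, (permF4 i : ℕ) = ([(3, 2), (2, 2), (1, 1), (0, 1)].getD i (0, 1)).1 ∧
        [2, 2, 1, 1].getD i 0 = ([(3, 2), (2, 2), (1, 1), (0, 1)].getD i (0, 1)).2 := by decide +kernel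
    exact aux (f := fun i => expHom 2 (RingHom.id K) ([2, 2, 1, 1].getD i 0)) (fun i => (e3 i).1)
      (fun i t => by rw [expHom_apply _ (e1 i), (e3 i).2]; rfl) h hb

end Cfsg.Agent.S1098
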