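import Cfsg.Statements.S1099
import Cfsg.Agent.Lib.Chev.AutG2

set_option autoImplicit false
open Cfsg

namespace Cfsg.Agent.S1099

open CA.Chev CA.CG Cfsg.Lie in

/-- Graph automorphism of G₂ in characteristic 3 (K perfect): `x_a(t) ↦ x_b(t³)`, `x_b(t) ↦ x_a(t)`, `x_{-a}(t) ↦ x_{-b}(t³)`, `x_{-b}(t) ↦ x_{-a}(t)` extend to an automorphism of the group. -/
theorem result {K : Type*} [Field K] [CharP K 3] (hperf : ∀ x : K, ∃ y : K, y ^ 3 = x) :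
    ∃ α : ↥(Cfsg.Lie.chevG2.group K) ≃* ↥(Cfsg.Lie.chevG2.group K), ∀ (g : ↥(Cfsg.Lie.chevG2.group K)) (t : K),
      (((g : GL Cfsg.Lie.chevG2.Idx K) : Matrix _ _ K) = Cfsg.Lie.chevG2.x K Cfsg.Lie.g2a t →
        ((α g : GL Cfsg.Lie.chevG2.Idx K) : Matrix _ _ K) = Cfsg.Lie.chevG2.x K Cfsg.Lie.g2b (t ^ 3)) ∧
      (((g : GL Cfsg.Lie.chevG2.Idx K) : Matrix _ _ K) = Cfsg.Lie.chevG2.x K Cfsg.Lie.g2b t →
        ((α g : GL Cfsg.Lie.chevG2.Idx K) : Matrix _ _ K) = Cfsg.Lie.chevG2.x K Cfsg.Lie.g2a t) ∧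
      (((g : GL Cfsg.Lie.chevG2.Idx K) : Matrix _ _ K) = Cfsg.Lie.chevG2.x K Cfsg.Lie.g2ma t →
        ((α g : GL Cfsg.Lie.chevG2.Idx K) : Matrix _ _ K) = Cfsg.Lie.chevG2.x K Cfsg.Lie.g2mb (t ^ 3)) ∧
      (((g : GL Cfsg.Lie.chevG2.Idx K) : Matrix _ _ K) = Cfsg.Lie.chevG2.x K Cfsg.Lie.g2mb t →
        ((α g : GL Cfsg.Lie.chevG2.Idx K) : Matrix _ _ K) = Cfsg.Lie.chevG2.x K Cfsg.Lie.g2ma t) := by
  obtain ⟨σ, -, h⟩ := graphG2 (RingHom.id K) permG2 permG2_val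
  have e : ∀ i, permG2 (permG2 i) = i := by decide +kernel
  have e1 : ∀ i : Nd chevG2, [3, 1].getD i 0 = 1 ∨ [3, 1].getD i 0 = 3 := by decide +kernel
  have e2 : ∀ i : Nd chevG2, [3, 1].getD i 0 * [3, 1].getD (permG2 i) 0 = 3 := by decide +kernel
  have hb := bijective_of_pow σ 1 (frobenius K 3) hperf fun i t => by
    simp only [Function.iterate_succ, Function.iterate_zero, Function.comp, id, h.1, h.2, e,
      expHom_apply _ (e1 _), RingHom.id_apply, ← pow_mul, e2, frobenius_def, and_self]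
  refine ⟨MulEquiv.ofBijective σ hb, fun g t => ⟨fun e => ?_, fun e => ?_, fun e => ?_, fun e => ?_⟩⟩
  · rw [show g = xg (simple (0 : Fin 2)) t from mat_inj e]
    exact congrArg mat (h.1 (0 : Fin 2) t)
  · rw [show g = xg (simple (1 : Fin 2)) t from mat_inj e]
    exact congrArg mat (h.1 (1 : Fin 2) t)
  · rw [show g = xg (neg (simple (0 : Fin 2))) t from mat_inj e]
    exact congrArg mat (h.2 (0 : Fin 2) t)
  · rw [show g = xg (neg (simple (1 : Fin 2))) t from mat_inj e]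
    exact congrArg mat (h.2 (1 : Fin 2) t)

end Cfsg.Agent.S1099
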