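import Cfsg.Statements.S1114
import Cfsg.Agent.Lib.CG.TwG2

set_option autoImplicit false
open Cfsg

namespace Cfsg.Agent.S1114

/-- `|H¹| = |G¹ ∩ H|`: `|H¹| = 3 ^ (2 * m + 1) - 1` for ²G₂(3^(2m+1)). -/
theorem result {K : Type*} [Field K] [Fintype K] {m : ℕ} (hK : Fintype.card K = 3 ^ (2 * m + 1)) :
    Nat.card ↥(Cfsg.Lie.chevG2.diagonalSubgroup K ⊓ Cfsg.Lie.twistedG2 K (3 ^ m)) = 3 ^ (2 * m + 1) - 1 := by
  obtain ⟨θ, ψ, σ, E⟩ := CA.CG.g2Data hK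
  rw [E.card_H (hK ▸ CA.CG.three_pow_mod m), hK]

end Cfsg.Agent.S1114
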