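import Cfsg.Statements.S1386
import Cfsg.Agent.Lib.PF.TypePWith
-- import your own Cfsg.Agent.* helpers here

set_option autoImplicit false
open Cfsg

namespace Cfsg.Agent.S1386

open CA CA.BG in
/-- Let G be a finite group, W₁, W₂ subgroups forming a self-normalizing cyclic pair, S a subgroup with W₂ ≤ S and W₁ a complement to S' in S, and (W₁, U, W₂') type-P data for S. Then W₂' = W₂ (that is, C_{S'}(W₁) = W₂). -/
theorem result {G : Type*} [Group G] [Finite G] (W₁ W₂ S U W₂' : Subgroup G) (hW : Cfsg.IsSelfNormalizingCyclic W₁ W₂)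
    (hSW : Cfsg.IsComplIn ⁅S, S⁆ W₁ S) (hW₂S : W₂ ≤ S) (hP : Cfsg.IsTypePWith S W₁ U W₂') :
    W₂' = W₂ := by
  have h := CA.PF.typeP_of_with hP
  have d := CA.PF.dprod_of_snc hW
  have t := CA.PF.normedTI_of_snc hW
  obtain ⟨x, hx, x1⟩ := exists_ne_one_mem' h.ne1
  have h1 : W₁ ⊔ W₂ ≤ W₁ ⊔ W₂' :=
    sup_le le_sup_left (h.cent1_eq hx x1 ▸ le_inf hW₂S (d.cent.trans (cent_le_cent1 hx)))
  have ab := abelian_of_cyclic h.cycW
  have h2 : W₁ ⊔ W₂' ≤ W₁ ⊔ W₂ := fun g hg => by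
    obtain ⟨z, hz⟩ := t.1
    refine t.2.2 g z hz ?_
    have e : g * z = z * g :=
      congrArg Subtype.val (ab.is_comm.comm ⟨g, hg⟩ ⟨z, h1 (CA.PF.mem_hatZ'.1 hz).1⟩)
    rwa [e, mul_inv_cancel_right]
  have h3 : Nat.card W₂ = Nat.card W₂' := by
    have := d.card_eq
    rw [le_antisymm h1 h2, ← h.dp.card_eq] at this
    exact Nat.eq_of_mul_eq_mul_left (card_pos' _) this
  refine (eq_of_le_of_card_eq (fun y hy => ?_) h3).symm
  obtain ⟨a, ha, b, hb, rfl⟩ := h.dp.sdprod.isComplIn.2.2.2 y (h1 (Subgroup.mem_sup_right hy))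
  have c : Commute a b := Subgroup.mem_centralizer_iff.1 (h.dp.cent hb) a ha
  have e1 : (a * b) ^ Nat.card W₂' = 1 := by
    rw [← h3]; exact congrArg Subtype.val (pow_card_eq_one' (x := (⟨_, hy⟩ : W₂)))
  have e2 : b ^ Nat.card W₂' = 1 := congrArg Subtype.val (pow_card_eq_one' (x := (⟨_, hb⟩ : W₂')))
  rw [c.mul_pow, e2, mul_one] at e1
  have e3 : orderOf a = 1 := Nat.eq_one_of_dvd_coprimes h.coprime12 (orderOf_dvd_card_of_mem ha)
    (orderOf_dvd_of_pow_eq_one e1)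
  rwa [orderOf_eq_one_iff.1 e3, one_mul]

end Cfsg.Agent.S1386
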