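import Cfsg.Statements.S1396
import Cfsg.Agent.Lib.BG.BG7
-- import your own Cfsg.Agent.* helpers here

set_option autoImplicit false
open Cfsg

namespace Cfsg.Agent.S1396

open CA CA.BG in
/-- Let G be a minimal simple group of odd order, p a prime dividing the order of G and A an abelian p-subgroup. Suppose either (1) A consists exactly of the elements x of C_G(A) with x^p = 1, and every proper subgroup of G has p-length at most one, or (2) A is normal and self-centralizing in some Sylow p-subgroup of G and has rank at least 2. Then A satisfies the transitivity hypothesis. -/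
theorem result {G : Type*} [Group G] [Finite G] (hG : Cfsg.IsMinSimpleOddOrder G)
    (p : ℕ) [Fact p.Prime] (hp : p ∣ Nat.card G) (A : Subgroup G) (hAp : IsPGroup p A) (hAc : IsMulCommutative A)
    (h : (∀ x ∈ Subgroup.centralizer (A : Set G), x ^ p = 1 ↔ x ∈ A) ∧ (∀ H : Subgroup G, H ≠ ⊤ → Cfsg.PLengthLE p 1 H) ∨
      ∃ P : Sylow p G, Cfsg.IsSCN (P : Subgroup G) A ∧ ¬ Cfsg.PRankLE p 1 A) :
    Cfsg.TransitivityHypothesis A := by
  haveI : MinOdd G := ⟨hG⟩
  have hp' : p.Prime := Fact.out
  have key : NormConstr {p} A := by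
    rcases h with ⟨h1, h2⟩ | ⟨P, h1, h2⟩
    · have hA : MaxElem p A ⊤ := maxElem_iff.2 ⟨le_top,
        ⟨hAc, fun a ha => (h1 a (abelian_iff.1 hAc ha)).2 ha⟩, fun x _ hx hxp => (h1 x hx).1 hxp⟩
      refine normConstr_of_plen1 hp' hA ?_ fun H hH => (pLengthLE_one_iff hp').1 (h2 H hH)
      rintro rfl
      obtain ⟨x, -, hx⟩ := exists_orderOf_eq_prime (A := (⊤ : Subgroup G)) hp' (by simpa using hp)
      have := (h1 x (by simp)).1 (hx ▸ pow_orderOf_eq_one x)
      rw [Subgroup.mem_bot] at this
      rw [this, orderOf_one] at hx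
      exact hp'.one_lt.ne hx
    · exact normConstr_of_scn (sylowIn_top P) h1 (not_pRankLE_iff.1 h2)
  exact normConstr_iff.1 (key.congr (primesOf_card_iff_of_piGrp key.piGrp key.ne_bot))

end Cfsg.Agent.S1396
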