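import Cfsg.Statements.S1405
import Cfsg.Agent.Lib.BG.S10a

set_option autoImplicit false
open Cfsg

namespace Cfsg.Agent.S1405

set_option linter.style.haveILetI false in
open CA CA.BG Subgroup in
/-- Let G be a minimal simple group of odd order and M a maximal subgroup, α(M) the set of primes p with M of p-rank at least 3, and M_α = O_{α(M)}(M). Then M_α is a Hall α(M)-subgroup of M and of G, M_α ≤ M_σ, the quotient M/M_α has no elementary abelian subgroup of order p ^ 3 for any prime p, and the image of M' in M/M_α is nilpotent. -/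
theorem result {G : Type*} [Group G] [Finite G] (hG : Cfsg.IsMinSimpleOddOrder G)
    (M : Subgroup G) (hM : IsCoatom M) :
    Cfsg.IsPiHallOf (Cfsg.alpha M) (Cfsg.alphaCore M) M ∧ Cfsg.IsPiHall (Cfsg.alpha M) (Cfsg.alphaCore M) ∧
      Cfsg.alphaCore M ≤ Cfsg.sigmaCore M ∧ Cfsg.RankLE 2 (↥M ⧸ Cfsg.piCore (Cfsg.alpha M) ↥M) ∧
      Group.IsNilpotent ↥((commutator ↥M).map (QuotientGroup.mk' (Cfsg.piCore (Cfsg.alpha M) ↥M))) := by
  haveI : MinOdd G := ⟨hG⟩
  obtain ⟨e⟩ := nonempty_quo_equiv' (piCore (alpha M) M)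
  refine ⟨Malpha_Hall hM, isPiHall_iff.2 (Malpha_Hall_G hM), Malpha_sub_Msigma hM, ?_, ?_⟩
  · rw [rankLE_top_iff, ← rank_congr (e.trans topEquiv.symm)]
    exact Malpha_quo_rank2 hM
  · obtain ⟨f⟩ := nonempty_quo_equiv_map_mk' (piCore (alpha M) M) (_root_.commutator M)
    obtain ⟨f'⟩ := nonempty_quo_pmap_equiv (MonoidHom.id M) (X := ⁅M, M⁆) (L := alphaCore M) (der_le M)
      (alphaCore_le M) (norms_alphaCore (der_le M)) (by rw [pker_id]; exact bot_le)
    rw [pmap_id, pmap_id, der_subgroupOf, alphaCore_eq, piCoreOf_subgroupOf_self] at f'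
    haveI := Malpha_quo_nil hM
    exact Group.nilpotent_of_mulEquiv (_h := this) (f'.symm.trans f)

end Cfsg.Agent.S1405
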