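import Cfsg.Statements.S1414
import Cfsg.Agent.Lib.BG.S10b

set_option autoImplicit false
open Cfsg

namespace Cfsg.Agent.S1414

set_option linter.style.haveILetI false in
open CA CA.BG Subgroup in
/-- Let G be a minimal simple group of odd order, M a maximal subgroup, β(M) the set of ideal primes in α(M), and M_β = O_{β(M)}(M). Then M_β is a Hall β(M)-subgroup of M and of G; M' and M_σ each have a nilpotent Hall β(M)'-subgroup; and for each prime p dividing the order of M with p ∉ β(M), both M' and M_σ have normal p-complements and every prime dividing the index of O_{p'}(M) in M is at most p. -/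
theorem result {G : Type*} [Group G] [Finite G] (hG : Cfsg.IsMinSimpleOddOrder G)
    (M : Subgroup G) (hM : IsCoatom M) :
    Cfsg.IsPiHallOf (Cfsg.beta M) (Cfsg.piCoreOf (Cfsg.beta M) M) M ∧ Cfsg.IsPiHall (Cfsg.beta M) (Cfsg.piCoreOf (Cfsg.beta M) M) ∧
      (∃ H : Subgroup G, Cfsg.IsPiHallOf {q | q.Prime ∧ q ∉ Cfsg.beta M} H ⁅M, M⁆ ∧ Group.IsNilpotent H) ∧
      (∃ H : Subgroup G, Cfsg.IsPiHallOf {q | q.Prime ∧ q ∉ Cfsg.beta M} H (Cfsg.sigmaCore M) ∧ Group.IsNilpotent H) ∧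
      ∀ p : ℕ, p.Prime → p ∣ Nat.card M → p ∉ Cfsg.beta M →
        Cfsg.HasNormalPComplement p ↥⁅M, M⁆ ∧ Cfsg.HasNormalPComplement p ↥(Cfsg.sigmaCore M) ∧
        ∀ q : ℕ, q.Prime → q ∣ (Cfsg.pPrimeCore p ↥M).index → q ≤ p := by
  haveI : MinOdd G := ⟨hG⟩
  have key : ∀ D : Subgroup G, D ≤ ⁅M, M⁆ →
      ∃ H : Subgroup G, IsPiHallOf {q | q.Prime ∧ q ∉ beta M} H D ∧ Group.IsNilpotent H := fun D hD => by
    obtain ⟨H, hH⟩ := exists_hall (beta M)ᶜ (mFT_sol_of_le hM (hD.trans (der_le M)))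
    exact ⟨H, (isPiHallOf_congr fun p hp => by simp [hp]).1 hH,
      beta'_der1_nil hM hH.piGrp (hH.le.trans hD)⟩
  refine ⟨Mbeta_Hall hM, isPiHall_iff.2 (Mbeta_Hall_G hM), key _ le_rfl, key _ (Msigma_der1 hM),
    fun p hp _ hb => ?_⟩
  haveI := Fact.mk hp
  obtain ⟨h1, h2, h3⟩ := beta_max_pdiv hM hp hb
  refine ⟨hasNormalPComplement_iff.2 h1, hasNormalPComplement_iff.2 h2, fun q hq hd => h3 q hq ?_⟩
  rwa [relIndex, piCoreOf_subgroupOf_self, piCore_compl_singleton hp]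

end Cfsg.Agent.S1414
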