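import Cfsg.Statements.S1422
import Cfsg.Agent.Lib.BG.S12c

set_option autoImplicit false
open Cfsg

namespace Cfsg.Agent.S1422

set_option linter.style.haveILetI false in
open CA CA.BG Subgroup in
/-- Let G be a minimal simple group of odd order, p a prime and P a non-abelian p-subgroup of G. Then P lies in exactly one maximal subgroup of G. -/
theorem result {G : Type*} [Group G] [Finite G] (hG : Cfsg.IsMinSimpleOddOrder G) (p : ℕ) [Fact p.Prime] (P : Subgroup G) (hP : IsPGroup p P) (hPna : ¬ IsMulCommutative P) :
    Cfsg.InUniqueMaximal P := by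
  haveI : MinOdd G := ⟨hG⟩
  rename_i hp
  exact nonabelian_Uniqueness (hP.piGrp hp.out) hPna

end Cfsg.Agent.S1422
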