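import Cfsg.Statements.S1436
import Cfsg.Agent.Lib.BG.S14d
-- import your own Cfsg.Agent.* helpers here

set_option autoImplicit false
open Cfsg

namespace Cfsg.Agent.S1436

open CA CA.BG in
/-- Let G be a minimal simple group of odd order, M a maximal subgroup, x ≠ 1 in M_σ with C_G(x) ⊄ M, and N a maximal subgroup containing C_G(x). (a) If some prime of σ(N) divides the order of M, then κ(M) = ∅ and τ₂(M) = ∅. (b) If y ≠ 1 in M_σ has C_G(y) ⊄ M, N' is a maximal subgroup containing C_G(y), and gN'g⁻¹ = N for some g ∈ G, then mN'm⁻¹ = N for some m ∈ M. -/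
theorem result {G : Type*} [Group G] [Finite G] (hG : Cfsg.IsMinSimpleOddOrder G)
    (M : Subgroup G) (hM : IsCoatom M) (x : G) (hx : x ∈ Cfsg.sigmaCore M) (hx1 : x ≠ 1) (hxM : ¬ Subgroup.centralizer ({x} : Set G) ≤ M)
    (N : Subgroup G) (hN : IsCoatom N) (hxN : Subgroup.centralizer ({x} : Set G) ≤ N) :
    ((∃ p ∈ Cfsg.sigma N, p ∣ Nat.card M) → Cfsg.kappa M = ∅ ∧ Cfsg.tau2 M = ∅) ∧
      ∀ (y : G) (N' : Subgroup G) (g : G), y ∈ Cfsg.sigmaCore M → y ≠ 1 → ¬ Subgroup.centralizer ({y} : Set G) ≤ M → IsCoatom N' → Subgroup.centralizer ({y} : Set G) ≤ N' →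
        N'.map (MulAut.conj g).toMonoidHom = N → ∃ m ∈ M, N'.map (MulAut.conj m).toMonoidHom = N := by
  haveI : MinOdd G := ⟨hG⟩
  obtain rfl := sigBase_eq hM hx hx1 hxM hN hxN
  have l1 := Msigma_ell1 hM hx hx1
  have h1 := (one_lt_ncard_sigmaMmax_iff hx1 ⟨hM, hx⟩).2 hxM
  refine ⟨fun ⟨p, hp, hd⟩ => ?_, fun y N' g hy y1 hc hN' hyN hg => ?_⟩
  · obtain ⟨a1, a2, -⟩ := non_disjoint_signalizer_Frobenius l1 h1 ⟨hM, hx⟩
      fun h => h p (sigma_prime hp) hd hp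
    exact ⟨a1.2, a2⟩
  · obtain rfl := sigBase_eq hM hy y1 hc hN' hyN
    exact signalizer_base_conj l1 h1 ⟨hM, hx⟩ hy y1 hc hg

end Cfsg.Agent.S1436
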