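import Cfsg.Statements.S1437
import Cfsg.Agent.Lib.BG.S15b

set_option autoImplicit false
open Cfsg

namespace Cfsg.Agent.S1437

set_option linter.style.haveILetI false in
open CA CA.BG Subgroup in
/-- Let G be a minimal simple group of odd order and M a maximal subgroup with standard factorisation M = K U M_σ such that M_F ≠ M_σ; put K* = M_σ ∩ C_G(K), p = #K, q = #K*. Then U = 1 and M_σ = M'; p and q are prime, q divides #M_F and q ∈ β(M); M_σ has a Sylow q-subgroup Q normal in M and contained in M_F; every complement D of Q in M_σ is nilpotent, and Q₀ = Q ∩ C_G(D) is normal in M; Q₀ < Q with #Q = #Q₀ · q ^ p, every element of Q has its q-th power and all its commutators with Q in Q₀, and every subgroup strictly between Q₀ and Q fails to be normal in M. -/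
theorem result {G : Type*} [Group G] [Finite G] (hG : Cfsg.IsMinSimpleOddOrder G)
    (M : Subgroup G) (hM : IsCoatom M) (K U : Subgroup G) (hKU : Cfsg.IsSigmaDecomposition M K U) (hne : Cfsg.fittingHallOf M ≠ Cfsg.sigmaCore M) :
    U = ⊥ ∧ Cfsg.sigmaCore M = ⁅M, M⁆ ∧ (Nat.card K).Prime ∧ (Nat.card ↥(Cfsg.sigmaCore M ⊓ Subgroup.centralizer (K : Set G))).Prime ∧
      Nat.card ↥(Cfsg.sigmaCore M ⊓ Subgroup.centralizer (K : Set G)) ∣ Nat.card (Cfsg.fittingHallOf M) ∧ Nat.card ↥(Cfsg.sigmaCore M ⊓ Subgroup.centralizer (K : Set G)) ∈ Cfsg.beta M ∧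
      ∃ Q : Subgroup G, Q ≤ Cfsg.fittingHallOf M ∧ M ≤ Subgroup.normalizer (Q : Set G) ∧ IsPGroup (Nat.card ↥(Cfsg.sigmaCore M ⊓ Subgroup.centralizer (K : Set G))) Q ∧
        ¬ Nat.card ↥(Cfsg.sigmaCore M ⊓ Subgroup.centralizer (K : Set G)) ∣ Q.relIndex (Cfsg.sigmaCore M) ∧
        ∀ D : Subgroup G, Cfsg.IsComplIn Q D (Cfsg.sigmaCore M) →
          Group.IsNilpotent D ∧ M ≤ Subgroup.normalizer ((Q ⊓ Subgroup.centralizer (D : Set G) : Subgroup G) : Set G) ∧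
          Q ⊓ Subgroup.centralizer (D : Set G) < Q ∧
          Nat.card Q = Nat.card ↥(Q ⊓ Subgroup.centralizer (D : Set G)) * Nat.card ↥(Cfsg.sigmaCore M ⊓ Subgroup.centralizer (K : Set G)) ^ Nat.card K ∧
          (∀ a ∈ Q, ∀ b ∈ Q, a ^ Nat.card ↥(Cfsg.sigmaCore M ⊓ Subgroup.centralizer (K : Set G)) ∈ Q ⊓ Subgroup.centralizer (D : Set G) ∧
            a * b * a⁻¹ * b⁻¹ ∈ Q ⊓ Subgroup.centralizer (D : Set G)) ∧
          ∀ N : Subgroup G, Q ⊓ Subgroup.centralizer (D : Set G) < N → N < Q → ¬ M ≤ Subgroup.normalizer (N : Set G) := by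
  haveI : MinOdd G := ⟨hG⟩
  have h := (isSigmaDecomposition_iff hM).1 hKU
  obtain ⟨P1, -, eM, -, hq, hs, hKQ, hQ, -⟩ := Fcore_structure_aux hM h.hallK hne rfl rfl rfl
  obtain ⟨D, hD⟩ := exists_hall {Nat.card ↥(sigmaCore M ⊓ 𝐂(K))}ᶜ (mFT_sol_of_le hM (sigmaCore_le M))
  obtain ⟨-, ⟨a, -, b, c⟩, ⟨d, -⟩, -⟩ := Fcore_structure hM h.hallK hne rfl rfl rfl hD rfl
  refine ⟨(trivg_kappa_compl hM h).2 P1, eM, a, hq, b, c, _, SylowIn.le_Fcore d (piCoreOf_norm _ _),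
    piCoreOf_norm _ _, hQ.piGrp.isPGroup hq, SylowIn.not_dvd hQ hq, fun D hD => ?_⟩
  obtain ⟨-, -, ⟨-, e, f⟩, ⟨g, i, j⟩, -⟩ := Fcore_structure hM h.hallK hne rfl rfl rfl
    (hQ.compl_of_isComplIn hD) rfl
  have n := g.normalIn.2
  refine ⟨e, f.2, g.lt, by rw [← j, card_mul_relIndex g.lt.le], fun x hx y hy => ⟨?_, ?_⟩,
    fun N h1 h2 h3 => h2.ne (g.2.2.2 N h1 h2.le h3)⟩
  · rw [← qel_eq_one_iff (pow_mem (n hx) _), pel_pow _ (n hx)]
    exact i.pow_eq (qel_mem_quo _ hx)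
  · exact (abelian_quo_iff n).1 i.comm (comm_mem hx hy)

end Cfsg.Agent.S1437
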