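import Cfsg.Statements.S1439
import Cfsg.Agent.Lib.BG.S15b

set_option autoImplicit false
open Cfsg

namespace Cfsg.Agent.S1439

set_option linter.style.haveILetI false in
open CA CA.BG Subgroup in
/-- Let G be a minimal simple group of odd order and M a maximal subgroup, and let Y be the largest normal subgroup of F(M) involving no prime of σ(M). Then Y is cyclic, every prime divisor of its order lies in τ₂(M), and F(M) is generated by F(M_σ) and Y (a direct product, the orders being coprime). -/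
theorem result {G : Type*} [Group G] [Finite G] (hG : Cfsg.IsMinSimpleOddOrder G)
    (M : Subgroup G) (hM : IsCoatom M) :
    IsCyclic ↥(Cfsg.piCoreOf {q | q.Prime ∧ q ∉ Cfsg.sigma M} (Cfsg.fittingOf M)) ∧
      (∀ p : ℕ, p.Prime → p ∣ Nat.card ↥(Cfsg.piCoreOf {q | q.Prime ∧ q ∉ Cfsg.sigma M} (Cfsg.fittingOf M)) → p ∈ Cfsg.tau2 M) ∧
      Cfsg.fittingOf M = Cfsg.fittingOf (Cfsg.sigmaCore M) ⊔ Cfsg.piCoreOf {q | q.Prime ∧ q ∉ Cfsg.sigma M} (Cfsg.fittingOf M) := by
  haveI : MinOdd G := ⟨hG⟩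
  rw [piCoreOf_congr (π := {q | q.Prime ∧ q ∉ sigma M}) (ρ := (sigma M)ᶜ) fun p hp => ⟨fun h => h.2, fun h => ⟨hp, h⟩⟩]
  obtain ⟨⟨a, b⟩, ⟨-, -, c⟩, -⟩ := Fitting_structure hM
  exact ⟨a, b, c.sup_eq.symm⟩

end Cfsg.Agent.S1439
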