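import Cfsg.Statements.S1441
import Cfsg.Agent.Lib.G.Coprime
-- import your own Cfsg.Agent.* helpers here

set_option autoImplicit false
open Cfsg

namespace Cfsg.Agent.S1441

open CA in
/-- Let G be a finite group, H a solvable subgroup and A a subgroup normalizing H. Suppose there is a chain H = H₀ ≥ H₁ ≥ ⋯ ≥ H_n = 1 of subgroups normal in H and normalized by A such that A acts trivially on each factor H_{i-1}/H_i (that is, [H_{i-1}, A] ≤ H_i). Then every prime dividing the index of C_A(H) in A divides the order of H. -/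
theorem result {G : Type*} [Group G] [Finite G] (H A : Subgroup G) (hH : Group.IsSolvable H) (hA : (A ≤ Subgroup.normalizer (H : Set G)))
    (n : ℕ) (c : Fin (n + 1) → Subgroup G) (hc0 : c 0 = H) (hcn : c (Fin.last n) = ⊥) (hanti : Antitone c)
    (hcN : ∀ i, H ≤ Subgroup.normalizer ((c i : Subgroup G) : Set G)) (hcA : ∀ i, A ≤ Subgroup.normalizer ((c i : Subgroup G) : Set G))
    (htriv : ∀ i : Fin n, ⁅c i.castSucc, A⁆ ≤ c i.succ) :
    ∀ p : ℕ, p.Prime → p ∣ (A ⊓ Subgroup.centralizer (H : Set G)).relIndex A → p ∣ Nat.card H := by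
  intro p hp hd
  by_contra hpH
  obtain ⟨P, hP⟩ := exists_sylowIn p A
  have h : CopAct H P := copAct_p_right (hP.1.trans hA) ((piGrp_compl_singleton hp).2 hpH) hP.piGrp
  have hc : P ≤ 𝐂(H) := h.cents_of_series (fun i => if hi : i ≤ n then c ⟨i, by omega⟩ else ⊥) n
    (by simp [← hc0]) (by simp only [dif_pos le_rfl]; exact hcn) fun i hi => by
      simp only [dif_pos hi.le, dif_pos (Nat.succ_le_of_lt hi)]
      exact (Subgroup.commutator_mono le_rfl hP.1).trans (htriv ⟨i, hi⟩)
  exact (hP.piNum_relIndex_of_le (le_inf hP.1 hc)) p hp hd rfl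

end Cfsg.Agent.S1441
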