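import Cfsg.Statements.S1443
import Cfsg.Agent.Lib.G.Critical
-- import your own Cfsg.Agent.* helpers here

set_option autoImplicit false
open Cfsg

namespace Cfsg.Agent.S1443

open CA in
/-- Let G be a finite group, p an odd prime, H a p-subgroup, E an elementary abelian subgroup of H, and A a subgroup of order coprime to p normalizing H. If A centralizes every element of order p in H ∩ C_G(E), then A centralizes H. -/
theorem result {G : Type*} [Group G] [Finite G] (p : ℕ) [Fact p.Prime] (hp : p ≠ 2) (H E A : Subgroup G) (hH : IsPGroup p H) (hE : E ≤ H) (hEe : Cfsg.IsElementaryAbelian p E)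
    (hA : (A ≤ Subgroup.normalizer (H : Set G))) (hcop : (Nat.card A).Coprime p)
    (hfix : ∀ x ∈ (H ⊓ Subgroup.centralizer (E : Set G)), orderOf x = p → A ≤ Subgroup.centralizer ({x} : Set G)) :
    A ≤ Subgroup.centralizer (H : Set G) := by
  refine (copAct_of_coprime_prime hH hA hcop).cents_of_omega1_cent hp hH hE hEe
    (cents_symm (omega1_le_iff.2 fun x hx hxp => ?_))
  by_cases h1 : x = 1
  · rw [h1]; exact one_mem _
  exact mem_cent_iff_le_cent1.2 (hfix x hx (orderOf_eq_prime hxp h1))

end Cfsg.Agent.S1443
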