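import Cfsg.Statements.S1451
import Cfsg.Agent.Lib.BG.BG5


set_option autoImplicit false
open Cfsg

namespace Cfsg.Agent.S1451

/-- Let G be a solvable group of odd order such that G, or its Fitting subgroup, has no elementary abelian subgroup of order q ^ 3 for any prime q. Then G' is nilpotent; for every Sylow subgroup S of G, every characteristic subgroup T of S with T ≤ [S, S] is normal in G; and for every prime p, G has a characteristic subgroup that is a Hall subgroup for the set of primes greater than p. -/
theorem result {G : Type*} [Group G] [Finite G] [Group.IsSolvable G] (hodd : Odd (Nat.card G)) (hr : Cfsg.RankLE 2 G ∨ Cfsg.RankLE 2 (Cfsg.fittingSubgroup G)) :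
    Group.IsNilpotent ↥(commutator G) ∧
      (∀ (q : ℕ) [Fact q.Prime] (S : Sylow q G) (T : Subgroup ↥(S : Subgroup G)), T.Characteristic → T.map (S : Subgroup G).subtype ≤ ⁅(S : Subgroup G), (S : Subgroup G)⁆ →
        (T.map (S : Subgroup G).subtype).Normal) ∧
      ∀ p : ℕ, ∃ N : Subgroup G, N.Characteristic ∧ Cfsg.IsPiHall {q | q.Prime ∧ p < q} N := by
  open CA in
  have ho : Odd (Nat.card (⊤ : Subgroup G)) := by rwa [Subgroup.card_top]
  have hs : Group.IsSolvable (⊤ : Subgroup G) := solvable_top_iff.2 inferInstance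
  have hr' : rank (fittingOf (⊤ : Subgroup G)) ≤ 2 :=
    hr.elim (fun h => (rank_mono le_top).trans (rankLE_top_iff.1 h))
      fun h => fittingOf_top (G := G) ▸ rankLE_iff.1 h
  refine ⟨rank2_nilpotent_der ho hs hr', fun q _ S T hT h => normalIn_top_iff.1
    (rank2_charIn_sylow_normal ho hs hr' (sylowIn_top S) (charIn_map_subtype T) h), fun p =>
    ⟨_, charIn_top_iff.1 (piCoreOf_charIn {q | p + 1 ≤ q} ⊤), isPiHall_iff.2 ?_⟩⟩
  exact (rank2_hall_piCoreOf_ge ho hs hr' (p + 1)).congr_dvd
    fun q hq _ => ⟨fun h => And.intro hq h, fun h => And.right h⟩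

end Cfsg.Agent.S1451
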