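import Cfsg.Statements.S1454
import Cfsg.Agent.Lib.BG.BG4


set_option autoImplicit false
open Cfsg

namespace Cfsg.Agent.S1454

/-- Let G be a finite group, p an odd prime, R a narrow p-subgroup and A a solvable subgroup of odd order normalizing R with A ∩ C_G(R) = 1. Then [A, A] ≤ O_p(A) and the index of O_p(A) in A is coprime to p; if R has an elementary abelian subgroup of order p ^ 3 then the order of every element of A of order coprime to p divides p − 1; and if the order of A is a prime not dividing p(p − 1), then 2·#A divides p + 1, and if in addition [R, A] = R and R is non-abelian then #R = p ^ 3. -/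
theorem result {G : Type*} [Group G] [Finite G] (p : ℕ) [Fact p.Prime] (hp : p ≠ 2) (R A : Subgroup G) (hR : IsPGroup p R) (hRn : Cfsg.IsNarrow p R)
    (hA : (A ≤ Subgroup.normalizer (R : Set G))) (hAs : Group.IsSolvable A) (hAodd : Odd (Nat.card A)) (hfaith : A ⊓ Subgroup.centralizer (R : Set G) = ⊥) :
    (commutator ↥A ≤ Cfsg.pCore p ↥A ∧ ((Cfsg.pCore p ↥A).index).Coprime p) ∧
      (¬ Cfsg.PRankLE p 2 R → ∀ a ∈ A, (orderOf a).Coprime p → orderOf a ∣ p - 1) ∧
      ((Nat.card A).Prime → ¬ Nat.card A ∣ p * (p - 1) →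
        2 * Nat.card A ∣ p + 1 ∧ (⁅R, A⁆ = R → ¬ IsMulCommutative R → Nat.card R = p ^ 3)) := by
  open CA in
  have hN := (isNarrow_iff hp hR).1 hRn
  have hd := hN.isPGroup_der hp hR hA hAodd hfaith
  refine ⟨⟨?_, ?_⟩, fun hr a ha h => hN.orderOf_dvd_pred hp hR (not_pRankLE_iff.1 hr) hA hfaith ha
    ((piNum_compl_singleton_iff_coprime Fact.out).2 h), fun hq hd' => (hN.prime_card hp hR hA
      (fun h => ne_bot_of_prime_card hq (le_bot_iff.1 (hfaith ▸ le_inf le_rfl h))) hq hd').2⟩
  · rw [← piCoreOf_singleton_top Fact.out]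
    exact le_piCoreOf (normalIn_top _) ((isPGroup_der_iff.1 hd).piGrp Fact.out)
  · rw [← piCoreOf_singleton_top Fact.out, ← Subgroup.relIndex_top_right]
    exact (piNum_compl_singleton_iff_coprime Fact.out).1 (sylowIn_piCoreOf_of_der
      ((isPGroup_der_iff.1 hd).piGrp Fact.out)).piNum_relIndex

end Cfsg.Agent.S1454
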