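import Cfsg.Statements.S1463
import Cfsg.Agent.Lib.G.GL2Odd


set_option autoImplicit false
open scoped MatrixGroups
open Cfsg

namespace Cfsg.Agent.S1463

/-- Let F be a field of odd characteristic p and H a finite subgroup of odd order of GL(2, F) that leaves no 1-dimensional subspace of F² invariant. Then p does not divide the order of H. -/
theorem result {F : Type*} [Field F] (p : ℕ) [Fact p.Prime] [CharP F p] (hp : p ≠ 2)
    (H : Subgroup (GL (Fin 2) F)) [Finite H] (hodd : Odd (Nat.card H))
    (hirr : ∀ v : Fin 2 → F, v ≠ 0 → ∃ g ∈ H, (g : Matrix (Fin 2) (Fin 2) F).mulVec v ∉ Submodule.span F {v}) :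
    ¬ p ∣ Nat.card H := by
  refine CA.GL2.not_dvd_card_of_irreducible (F := F) (V := Fin 2 → F) p hp (by simp)
    (((Matrix.toLinAlgEquiv' : Matrix (Fin 2) (Fin 2) F ≃ₐ[F] _) :
      Matrix (Fin 2) (Fin 2) F →* Module.End F (Fin 2 → F)).comp ((Units.coeHom _).comp H.subtype))
    (Matrix.toLinAlgEquiv'.injective.comp (Units.val_injective.comp Subtype.val_injective)) hodd
    fun W hW => ?_
  by_contra hne
  rw [not_or] at hne
  obtain ⟨v, hv, h0⟩ := (Submodule.ne_bot_iff W).1 hne.1
  obtain ⟨g, hg, hgv⟩ := hirr v h0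
  have h1 := Submodule.finrank_lt hne.2
  have h2 : Submodule.span F {v} = W := Submodule.eq_of_le_of_finrank_le
    ((Submodule.span_singleton_le_iff_mem v W).2 hv) (by
      rw [finrank_span_singleton h0]
      simp only [Module.finrank_fintype_fun_eq_card, Fintype.card_fin] at h1
      omega)
  exact hgv (h2 ▸ hW ⟨g, hg⟩ v hv)

end Cfsg.Agent.S1463
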