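import Cfsg.Statements.S1466
import Cfsg.Agent.Lib.Puig.Rel


set_option autoImplicit false
open Cfsg

namespace Cfsg.Agent.S1466

/-- Let p be a prime and R a nontrivial finite p-group. Then for every i > 0, Z(R) ≤ C_R(L_i(R)) ≤ L_i(R); likewise Z(R) ≤ C_R(L_*(R)) ≤ L_*(R) and Z(R) ≤ C_R(L(R)) ≤ L(R); and L(R) ≠ 1, L_*(R) ≠ 1. -/
theorem result {R : Type*} [Group R] [Finite R] (p : ℕ) [Fact p.Prime] (hR : IsPGroup p R) [Nontrivial R] :
    (∀ i : ℕ, 0 < i → Subgroup.center R ≤ Subgroup.centralizer ((Cfsg.puigSeq R i : Subgroup R) : Set R) ∧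
        Subgroup.centralizer ((Cfsg.puigSeq R i : Subgroup R) : Set R) ≤ Cfsg.puigSeq R i) ∧
      (Subgroup.center R ≤ Subgroup.centralizer ((Cfsg.puigLower R : Subgroup R) : Set R) ∧ Subgroup.centralizer ((Cfsg.puigLower R : Subgroup R) : Set R) ≤ Cfsg.puigLower R) ∧
      (Subgroup.center R ≤ Subgroup.centralizer ((Cfsg.puigSubgroup R : Subgroup R) : Set R) ∧ Subgroup.centralizer ((Cfsg.puigSubgroup R : Subgroup R) : Set R) ≤ Cfsg.puigSubgroup R) ∧
      Cfsg.puigSubgroup R ≠ ⊥ ∧ Cfsg.puigLower R ≠ ⊥ := by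
  have hZ : Subgroup.center R ≠ ⊥ := hR.bot_lt_center.ne'
  have hl : Subgroup.center R ≤ Cfsg.puigLower R :=
    CA.Puig.le_puigLower_of_normal inferInstance
  refine ⟨fun i hi => ⟨Subgroup.center_le_centralizer _, CA.Puig.cent_puigSeq_le hR hi⟩,
    ⟨Subgroup.center_le_centralizer _, CA.Puig.cent_puigLower_le hR⟩,
    ⟨Subgroup.center_le_centralizer _, CA.Puig.cent_puigSubgroup_le hR⟩, ?_, ?_⟩
  · exact fun e => hZ (eq_bot_iff.2 ((hl.trans CA.Puig.puigLower_le_puigSubgroup).trans e.le))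
  · exact fun e => hZ (eq_bot_iff.2 (hl.trans e.le))

end Cfsg.Agent.S1466
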