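import Cfsg.Statements.S1480
import Cfsg.Agent.Lib.Loc.Trans

set_option autoImplicit false
open Cfsg

namespace Cfsg.Agent.S1480

/-- Let G be a finite group and p a prime such that the normalizer of every nontrivial p-subgroup of G is p-constrained; if p = 2 assume also that the Sylow 2-subgroups of G have nilpotency class at most 2. Let E be an abelian p-subgroup containing an elementary abelian subgroup of order p ^ 3 and containing every element of p-power order of C_G(E). Then for every prime q ≠ p, any two maximal E-invariant q-subgroups of G are conjugate by an element of O_{p'}(C_G(E)). -/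
theorem result {G : Type*} [Group G] [Finite G] (p : ℕ) [Fact p.Prime]
    (hloc : ∀ T : Subgroup G, IsPGroup p T → T ≠ ⊥ → Cfsg.IsPConstrained p ↥(Subgroup.normalizer (T : Set G)))
    (h2 : p = 2 → ∀ S : Sylow p G, Group.IsNilpotent (S : Subgroup G) ∧ Group.nilpotencyClass (S : Subgroup G) ≤ 2)
    (E : Subgroup G) (hEp : IsPGroup p E) (hEc : IsMulCommutative E) (hE3 : ¬ Cfsg.PRankLE p 2 E)
    (hEfull : ∀ x ∈ Subgroup.centralizer (E : Set G), IsPGroup p (Subgroup.zpowers x) → x ∈ E)
    (q : ℕ) [Fact q.Prime] (hqp : q ≠ p) :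
    ∀ Q₁ ∈ Cfsg.maxInvSubgroups ⊤ E {q}, ∀ Q₂ ∈ Cfsg.maxInvSubgroups ⊤ E {q},
        ∃ k ∈ Cfsg.piCoreOf (Cfsg.primesNotDvd p) (Subgroup.centralizer (E : Set G)), Q₂ = Q₁.map (MulAut.conj k).toMonoidHom := by
  have hp : p.Prime := Fact.out
  rw [CA.piCoreOf_primesNotDvd_prime hp]
  refine CA.Loc.transitivity (fun T h1 h3 => CA.Loc.pConstr_of (hloc T (h1.isPGroup hp) h3)) ?_
    (hEp.piGrp hp) hEc (CA.not_pRankLE_iff.1 hE3)
    (fun x hx h => hEfull x hx ((CA.piGrp_zpowers.2 h).isPGroup hp)) hqp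
  by_cases h : p = 2
  · refine Or.inr fun T _ hT => ?_
    obtain ⟨S, hS⟩ := (hT.isPGroup hp).exists_le_sylow
    obtain ⟨hn, hc⟩ := h2 h S
    have h3 := Subgroup.lowerCentralSeries_eq_bot_iff_nilpotencyClass_le.2 hc
    rw [← CA.lcn_eq] at h3
    have h4 := CA.map_lcn (S : Subgroup G).subtype 2 ⊤
    rw [h3, Subgroup.map_bot, ← MonoidHom.range_eq_map, Subgroup.range_subtype, CA.lcn_two] at h4
    exact CA.cents_mono (CA.comm_eq_bot_iff.1 h4.symm) (CA.der_mono hS) hS
  · exact Or.inl h

end Cfsg.Agent.S1480
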