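import Cfsg.Statements.S1490
import Cfsg.Agent.Lib.Char.Extend

set_option autoImplicit false
open Cfsg

namespace Cfsg.Agent.S1490
open CA CA.Ch
open scoped ComplexConjugate ComplexOrder


/-- Let H be a normal subgroup of the finite group G, θ an irreducible character of H with inertia group T, and suppose the commutator of any two elements of T lies in H (T/H abelian). Then there are a positive integer e and a finite set C of irreducible characters of G with e ^ 2 * |C| * |H| = |T|, such that the function induced from θ is e times the sum of the members of C and every member of C has degree [G:T] * e * θ(1). -/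
theorem result {G : Type*} [Group G] [Fintype G] (H T : Subgroup G) [hN : H.Normal] (θ : H → ℂ) (hθ : Cfsg.IsIrrCharacter H θ) (hT : ∀ g : G, g ∈ T ↔ ∀ h : H, θ ⟨g * h * g⁻¹, hN.conj_mem h h.2 g⟩ = θ h) (hab : ∀ x ∈ T, ∀ y ∈ T, x * y * x⁻¹ * y⁻¹ ∈ H) : ∃ (e : ℕ) (C : Finset (G → ℂ)), 0 < e ∧ (∀ χ ∈ C, Cfsg.IsIrrCharacter G χ) ∧ e ^ 2 * C.card * Nat.card H = Nat.card T ∧ Cfsg.indFun H θ = (e : ℂ) • ∑ χ ∈ C, χ ∧ ∀ χ ∈ C, χ 1 = (T.index : ℂ) * e * θ 1 := by
  have hθ' : IsIrr θ := hθ
  have hI' : inertia H.subtype θ = T := by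
    ext g
    rw [hT, ← funext_iff, ← cfj_subtype]; rfl
  have hHT : H ≤ T := hI' ▸ subtype_le_inertia H hθ'.isCF
  have hI : inertia (T.subtype.comp (Subgroup.inclusion hHT)) θ = T.subtype.range := by
    rw [Subgroup.range_subtype]; exact hI'
  have hc : commutator T ≤ (Subgroup.inclusion hHT).range := by
    rw [Subgroup.inclusion_range, commutator, Subgroup.commutator_le]
    intro x _ y _
    exact hab x x.2 y y.2
  obtain ⟨ψ, hψ, h1⟩ := hθ'.exists_ind_constt (Subgroup.inclusion hHT)
  rw [Ne, ip_eq_zero_comm, ip_ind_right _ _ hψ.isCF] at h1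
  obtain ⟨e, he⟩ := (hψ.isChar.comp (Subgroup.inclusion hHT)).ip_nat hθ'.isChar
  have he0 : 0 < e := Nat.pos_of_ne_zero (by rintro rfl; exact h1 (by simpa using he))
  obtain ⟨C, h2, h3, h4, h5⟩ :=
    ind_of_abelian_inertia T.subtype (Subgroup.inclusion hHT) hθ' hI hc hψ he he0
  refine ⟨e, C, he0, h2, ?_, by rw [indFun_eq]; exact h4, by simpa using h5⟩
  rw [h3, index_range_mul]

end Cfsg.Agent.S1490
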