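import Cfsg.Statements.S1491
import Cfsg.Agent.Lib.Char.Extend

set_option autoImplicit false
open Cfsg

namespace Cfsg.Agent.S1491
open CA CA.Ch
open scoped ComplexConjugate ComplexOrder


/-- Let H be a normal subgroup of the finite group G and θ an irreducible character of H with inertia group T, where T/H is abelian (commutators of T lie in H) and the index of H in T is coprime to the order of H. Then the function induced from θ is the sum of a set of exactly [T:H] irreducible characters of G, each of degree [G:T] * θ(1). -/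
theorem result {G : Type*} [Group G] [Fintype G] (H T : Subgroup G) [hN : H.Normal] (θ : H → ℂ) (hθ : Cfsg.IsIrrCharacter H θ) (hT : ∀ g : G, g ∈ T ↔ ∀ h : H, θ ⟨g * h * g⁻¹, hN.conj_mem h h.2 g⟩ = θ h) (hab : ∀ x ∈ T, ∀ y ∈ T, x * y * x⁻¹ * y⁻¹ ∈ H) (hcop : Nat.Coprime (Nat.card H) (H.relIndex T)) : ∃ C : Finset (G → ℂ), (∀ χ ∈ C, Cfsg.IsIrrCharacter G χ) ∧ C.card = H.relIndex T ∧ Cfsg.indFun H θ = ∑ χ ∈ C, χ ∧ ∀ χ ∈ C, χ 1 = (T.index : ℂ) * θ 1 := by
  have hθ' : IsIrr θ := hθ
  have hI' : inertia H.subtype θ = T := by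
    ext g
    rw [hT, ← funext_iff, ← cfj_subtype]; rfl
  have hHT : H ≤ T := hI' ▸ subtype_le_inertia H hθ'.isCF
  have hI : inertia (T.subtype.comp (Subgroup.inclusion hHT)) θ = T.subtype.range := by
    rw [Subgroup.range_subtype]; exact hI'
  have hc : commutator T ≤ (Subgroup.inclusion hHT).range := by
    rw [Subgroup.inclusion_range, commutator, Subgroup.commutator_le]
    intro x _ y _
    exact hab x x.2 y y.2
  have hi : (Subgroup.inclusion hHT).range.index = H.relIndex T := by
    rw [Subgroup.inclusion_range]; rfl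
  obtain ⟨C, h2, h3, h4, h5⟩ :=
    ind_of_coprime_abelian_inertia T.subtype (Subgroup.inclusion hHT) hθ' hI hc (hi ▸ hcop)
  exact ⟨C, h2, hi ▸ h3, by rw [indFun_eq]; exact h4, by simpa using h5⟩

end Cfsg.Agent.S1491
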