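import Cfsg.Statements.S1492
import Cfsg.Agent.Lib.Char.Extend

set_option autoImplicit false
open Cfsg

namespace Cfsg.Agent.S1492
open CA CA.Ch
open scoped ComplexConjugate ComplexOrder


/-- Let ψ be an irreducible character of the finite group G and B ≤ D ≤ C subgroups with B normal in C, every commutator of an element of D with an element of C lying in B (so D/B is central in C/B), and ψ constant equal to ψ 1 on B. Then ψ(1) ^ 2 * |C| * |D| ≤ |G| ^ 2. -/
theorem result {G : Type*} [Group G] [Finite G] (ψ : G → ℂ) (hψ : Cfsg.IsIrrCharacter G ψ) (B C D : Subgroup G) (hBD : B ≤ D) (hDC : D ≤ C) (hBn : ∀ c ∈ C, ∀ b ∈ B, c * b * c⁻¹ ∈ B) (hcent : ∀ d ∈ D, ∀ c ∈ C, d * c * d⁻¹ * c⁻¹ ∈ B) (hker : ∀ b ∈ B, ψ b = ψ 1) : ‖ψ 1‖ ^ 2 * (Nat.card C : ℝ) * (Nat.card D : ℝ) ≤ (Nat.card G : ℝ) ^ 2 := by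
  have hψ' : IsIrr ψ := hψ
  obtain ⟨n, -, hn⟩ := hψ'.nat
  have h := hψ'.sq_le_of_central_section C.subtype (D.subgroupOf C)
    (fun d hd c => hψ'.mem_cfker.mpr (hker _ (hcent d hd c c.2))) hn
  rw [Subgroup.range_subtype] at h
  have h1 := Subgroup.index_mul_card C
  have h2 := Subgroup.index_mul_card (D.subgroupOf C)
  rw [Nat.card_congr (Subgroup.subgroupOfEquivOfLe hDC).toEquiv] at h2
  have h3 : n ^ 2 * Nat.card C * Nat.card D ≤ Nat.card G ^ 2 := by
    calc n ^ 2 * Nat.card C * Nat.card D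
        ≤ C.index ^ 2 * (D.subgroupOf C).index * Nat.card C * Nat.card D := by gcongr
      _ = C.index ^ 2 * Nat.card C * ((D.subgroupOf C).index * Nat.card D) := by ring
      _ = _ := by rw [h2, ← h1]; ring
  rw [hn, Complex.norm_natCast]
  exact_mod_cast h3

end Cfsg.Agent.S1492
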