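import Cfsg.Statements.S1493
import Cfsg.Agent.Lib.Char.Extend

set_option autoImplicit false
open Cfsg

namespace Cfsg.Agent.S1493
open CA CA.Ch
open scoped ComplexConjugate ComplexOrder


/-- Let G be a finite group of order a * b with a and b coprime, let k be coprime to a, and let χ be a character of G. Then there is a character χ' of G such that χ'(g) = χ(g ^ k) whenever the order of g divides a and χ'(g) = χ(g) whenever the order of g is coprime to a; moreover χ' is irreducible if χ is. -/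
theorem result {G : Type*} [Group G] [Finite G] (a b k : ℕ) (hab : Nat.card G = a * b) (hcop : Nat.Coprime a b) (hk : Nat.Coprime k a) (χ : G → ℂ) (hχ : Cfsg.IsCharacter G χ) : ∃ χ' : G → ℂ, Cfsg.IsCharacter G χ' ∧ (Cfsg.IsIrrCharacter G χ → Cfsg.IsIrrCharacter G χ') ∧ (∀ g : G, orderOf g ∣ a → χ' g = χ (g ^ k)) ∧ (∀ g : G, Nat.Coprime (orderOf g) a → χ' g = χ g) := by
  have hpos : 0 < a * b := hab ▸ Nat.card_pos
  obtain ⟨σ, h1, h2⟩ := exists_ringEquiv_pow_coprime (Nat.pos_of_mul_pos_right hpos)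
    (Nat.pos_of_mul_pos_left hpos) hcop hk
  have hχ' : IsChar χ := hχ
  refine ⟨(σ : ℂ →+* ℂ) ∘ χ, hχ'.ringHom _, fun h => IsIrr.ringHom h _, fun g hg => ?_,
    fun g hg => ?_⟩
  · refine hχ'.isVC.ringHom_apply _ fun z hz => h1 z ?_
    obtain ⟨c, rfl⟩ := hg
    rw [pow_mul, hz, one_pow]
  · have := hχ'.isVC.ringHom_apply (σ : ℂ →+* ℂ) (g := g) (k := 1) fun z hz => by
      rw [pow_one]
      apply h2
      obtain ⟨c, rfl⟩ : orderOf g ∣ b := hg.dvd_of_dvd_mul_left (hab ▸ orderOf_dvd_natCard g)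
      rw [pow_mul, hz, one_pow]
    simpa using this

end Cfsg.Agent.S1493
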