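import Cfsg.Statements.S1497
import Cfsg.Agent.Lib.PF.Dade

set_option autoImplicit false
open Cfsg

namespace Cfsg.Agent.S1497
open CA CA.Ch
open scoped ComplexConjugate ComplexOrder


/-- Let A be a nonempty subset of the finite group G not containing 1 and L a subgroup. Then A is a TI-subset whose normaliser is L if and only if the Dade hypothesis holds for A, L and the constant choice H(a) = ⊥. -/
theorem result {G : Type*} [Group G] [Finite G] (A : Set G) (hA : A.Nonempty) (h1 : (1 : G) ∉ A) (L : Subgroup G) : (Cfsg.IsTISubset A ∧ Subgroup.normalizer A = L) ↔ Cfsg.DadeHypothesis A L (fun _ => ⊥) := by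
  constructor
  · rintro ⟨hti, rfl⟩
    have hc : ∀ x ∈ Subgroup.normalizer A, ∀ a ∈ A, x * a * x⁻¹ ∈ A :=
      fun x hx a ha => (Subgroup.mem_set_normalizer_iff.mp hx a).mp ha
    have ht : ∀ a ∈ A, ∀ g : G, g * a * g⁻¹ ∈ A → g ∈ Subgroup.normalizer A := fun a ha g hg => by
      by_contra h
      exact h1 (hti g h a ha hg ▸ ha)
    exact dade_of_ti h1 (fun a ha => ht a ha a (by simpa using ha)) hc ht
  · intro hD
    have ht : ∀ a ∈ A, ∀ g : G, g * a * g⁻¹ ∈ A → g ∈ L := fun a ha g hg => by
      have := (Dade.tiEmb hD (A₁ := {x : L | (x : G) ∈ A}) (fun _ h => h)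
        (fun a ha x => hD.conj_mem x x.2 a ha) (fun _ _ => rfl)).ti ⟨a, hD.subset ha⟩ ha
        ⟨_, hD.subset hg⟩ hg g rfl
      simpa using this
    have hL : L ≤ Subgroup.normalizer A := fun x hx =>
      Subgroup.mem_normalizer_fintype (hD.conj_mem x hx)
    refine ⟨fun g hg x hx h => absurd (hL (ht x hx g h)) hg, le_antisymm (fun g hg => ?_) hL⟩
    obtain ⟨a, ha⟩ := hA
    exact ht a ha g ((Subgroup.mem_set_normalizer_iff.mp hg a).mp ha)

end Cfsg.Agent.S1497
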