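import Cfsg.Statements.S1502
import Cfsg.Agent.Lib.PF.Bridge3

set_option autoImplicit false
open Cfsg

namespace Cfsg.Agent.S1502
open CA CA.Ch
open scoped ComplexConjugate ComplexOrder


/-- Let W₁, W₂ be nontrivial subgroups of the finite group G generating a cyclic subgroup W = W₁ ⊔ W₂ of odd order that is the normaliser of every nonempty set of its elements outside W₁ ∪ W₂. Then there is a family attaching to each linear character ω of W an irreducible character of G up to sign, orthonormal, sending the trivial character to the principal character, with χ ω = ω on W outside W₁ ∪ W₂, and such that inducing (1 − φ)(1 − ψ) to G gives 1 − χ φ − χ ψ + χ (φψ) whenever φ ≠ 1 is trivial on W₂ and ψ ≠ 1 is trivial on W₁. -/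
theorem result {G : Type*} [Group G] [Fintype G] (W₁ W₂ : Subgroup G) (hW : Cfsg.IsSelfNormalizingCyclic W₁ W₂) (hodd : Odd (Nat.card ↥(W₁ ⊔ W₂))) : ∃ χ : (↥(W₁ ⊔ W₂) →* ℂˣ) → (G → ℂ), Cfsg.IsCyclicTIFamily W₁ W₂ χ := by
  obtain ⟨η, h⟩ := (CTI.mk (cti0_of_snc hW) hodd).exists_fam
  refine ⟨fun ω => η (Du.mk ω), fun ω => h.sirr _, fun a b => ?_, h.one,
    fun ω w h1 h2 => h.eq_on _ w ⟨h1, h2⟩, fun φ ψ _ _ h1 h2 => ?_⟩
  · rw [classInner_eq, h.ip]; congr
  · rw [alph_mk, indFun_eq, h.ind_alph (mem_ann_subgroupOf.mpr h1) (mem_ann_subgroupOf.mpr h2), h.one]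
    rfl

end Cfsg.Agent.S1502
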