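import Cfsg.Statements.S1504
import Cfsg.Agent.Lib.PF.Bridge3

set_option autoImplicit false
open Cfsg

namespace Cfsg.Agent.S1504
open CA CA.Ch
open scoped ComplexConjugate ComplexOrder


/-- Let W₁, W₂ be subgroups of a finite group with W₁ ⊓ W₂ = ⊥ whose elements commute, and W = W₁ ⊔ W₂. For linear characters φ, ψ of W with φ trivial on W₂ and ψ trivial on W₁, the function (1 − φ)(1 − ψ) vanishes on W₁ ∪ W₂; and the family of these functions, indexed by pairs (φ, ψ) with φ ≠ 1 ≠ ψ, is linearly independent over ℂ. -/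
theorem result {G : Type*} [Group G] [Finite G] (W₁ W₂ : Subgroup G) (hdisj : W₁ ⊓ W₂ = ⊥) (hcomm : ∀ a ∈ W₁, ∀ b ∈ W₂, a * b = b * a) : (∀ φ ψ : ↥(W₁ ⊔ W₂) →* ℂˣ, (∀ w : ↥(W₁ ⊔ W₂), (w : G) ∈ W₂ → φ w = 1) → (∀ w : ↥(W₁ ⊔ W₂), (w : G) ∈ W₁ → ψ w = 1) → ∀ w : ↥(W₁ ⊔ W₂), ((w : G) ∈ W₁ ∨ (w : G) ∈ W₂) → (1 - (φ w : ℂ) - (ψ w : ℂ) + (φ w : ℂ) * (ψ w : ℂ)) = 0) ∧ LinearIndependent ℂ (fun p : {p : (↥(W₁ ⊔ W₂) →* ℂˣ) × (↥(W₁ ⊔ W₂) →* ℂˣ) // p.1 ≠ 1 ∧ p.2 ≠ 1 ∧ (∀ w : ↥(W₁ ⊔ W₂), (w : G) ∈ W₂ → p.1 w = 1) ∧ (∀ w : ↥(W₁ ⊔ W₂), (w : G) ∈ W₁ → p.2 w = 1)} => fun w : ↥(W₁ ⊔ W₂) => 1 - (p.1.1 w : ℂ) - (p.1.2 w : ℂ) + (p.1.1 w : ℂ) * (p.1.2 w : ℂ)) := by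
  refine ⟨fun φ ψ h1 h2 w hw => ?_, ?_⟩
  · rcases hw with hw | hw
    · simp [h2 w hw]
    · simp [h1 w hw]
  classical
  have key : ∀ a : Du ↥(W₁ ⊔ W₂), a ∈ ann (W₂.subgroupOf (W₁ ⊔ W₂)) →
      a ∈ ann (W₁.subgroupOf (W₁ ⊔ W₂)) → a = 1 := fun a h2 h1 => by
    rw [← Subgroup.mem_bot, ← ann_top, ← Subgroup.subgroupOf_self,
      Subgroup.subgroupOf_sup le_sup_left le_sup_right, ann_sup]
    exact ⟨h1, h2⟩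
  rw [linearIndependent_iff']
  intro s g hs p hp
  obtain ⟨⟨φ, ψ⟩, h1, h2, h3, h4⟩ := p
  have a1 := mem_ann_subgroupOf.mpr h3
  have a2 := mem_ann_subgroupOf.mpr h4
  have := congrArg (⟪·, (Du.mk φ * Du.mk ψ).ch⟫) hs
  simp only [alph_mk, ip_sum_left, ip_smul_left, ip_zero_left] at this
  rw [Finset.sum_eq_single_of_mem _ hp] at this
  all_goals
    have e : ∀ φ' ψ' : Du ↥(W₁ ⊔ W₂), φ' ∈ ann (W₂.subgroupOf (W₁ ⊔ W₂)) →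
        ψ' ∈ ann (W₁.subgroupOf (W₁ ⊔ W₂)) → ⟪alph φ' ψ', (Du.mk φ * Du.mk ψ).ch⟫ =
          if φ' * ψ' = Du.mk φ * Du.mk ψ then 1 else 0 := fun φ' ψ' b1 b2 => by
      have c1 : ∀ x ∈ ann (W₂.subgroupOf (W₁ ⊔ W₂)), x ≠ Du.mk φ * Du.mk ψ := fun x hx e =>
        h2 (key _ ((Subgroup.mul_mem_cancel_left _ a1).mp (e ▸ hx)) a2)
      have c2 : ∀ x ∈ ann (W₁.subgroupOf (W₁ ⊔ W₂)), x ≠ Du.mk φ * Du.mk ψ := fun x hx e =>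
        h1 (key _ a1 ((Subgroup.mul_mem_cancel_right _ a2).mp (e ▸ hx)))
      simp only [alph_eq, ip_add_left, ip_sub_left, Du.ip_ch, c1 _ (one_mem _), c1 _ b1, c2 _ b2]
      simp
  · simpa [e _ _ a1 a2] using this
  · rintro ⟨⟨φ', ψ'⟩, h1', h2', h3', h4'⟩ - hne
    have b1 := mem_ann_subgroupOf.mpr h3'
    have b2 := mem_ann_subgroupOf.mpr h4'
    rw [e _ _ b1 b2, if_neg, mul_zero]
    intro e'
    have e1 : (Du.mk φ)⁻¹ * Du.mk φ' = Du.mk ψ * (Du.mk ψ')⁻¹ := by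
      rw [inv_mul_eq_iff_eq_mul, ← mul_assoc, ← e', mul_inv_cancel_right]
    have e2 := key _ (mul_mem (inv_mem a1) b1) (e1 ▸ mul_mem a2 (inv_mem b2))
    rw [e2] at e1
    exact hne (Subtype.ext (Prod.ext (inv_mul_eq_one.mp e2).symm (mul_inv_eq_one.mp e1.symm).symm))

end Cfsg.Agent.S1504
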