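import Cfsg.Statements.S1507
import Cfsg.Agent.Lib.PF.Bridge3

set_option autoImplicit false
open Cfsg

namespace Cfsg.Agent.S1507
open CA CA.Ch
open scoped ComplexConjugate ComplexOrder


open Classical in
/-- Let W₁, W₂ ≤ G form a self-normalising cyclic subgroup W = W₁ ⊔ W₂ of odd order with Nat.card W₁ < Nat.card W₂, and χ an orthonormal family of irreducible characters of G up to sign, indexed by the linear characters ω of W, with χ_1 = 1, χ_ω = ω on W outside W₁ ∪ W₂, and the induction identity for (1 − φ)(1 − ψ). Let θ be a class function of G vanishing on W outside W₁ ∪ W₂, and suppose fewer than 2 · Nat.card W₁ linear characters ω of W have ⟨θ, χ ω⟩ ≠ 0. Then one of: all ⟨θ, χ ω⟩ vanish; or there are ψ₀ and a with ⟨θ, χ ω⟩ = a when ω ψ₀⁻¹ is trivial on W₂ and 0 otherwise; or there are φ₀ and a with ⟨θ, χ ω⟩ = a when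 ω φ₀⁻¹ is trivial on W₁ and 0 otherwise. -/
theorem result {G : Type*} [Group G] [Fintype G] (W₁ W₂ : Subgroup G) (hW : Cfsg.IsSelfNormalizingCyclic W₁ W₂) (hodd : Odd (Nat.card ↥(W₁ ⊔ W₂))) (χ : (↥(W₁ ⊔ W₂) →* ℂˣ) → (G → ℂ)) (hχ : Cfsg.IsCyclicTIFamily W₁ W₂ χ) (hlt : Nat.card W₁ < Nat.card W₂) (θ : G → ℂ) (hθ : Cfsg.IsClassFunction G θ) (hθV : ∀ w : ↥(W₁ ⊔ W₂), (w : G) ∉ W₁ → (w : G) ∉ W₂ → θ w = 0) (hfew : Nat.card {ω : ↥(W₁ ⊔ W₂) →* ℂˣ // Cfsg.classInner θ (χ ω) ≠ 0} < 2 * Nat.card W₁) : (∀ ω, Cfsg.classInner θ (χ ω) = 0) ∨ (∃ (ψ₀ : ↥(W₁ ⊔ W₂) →* ℂˣ) (a : ℂ), ∀ ω, Cfsg.classInner θ (χ ω) = if (∀ w : ↥(W₁ ⊔ W₂), (w : G) ∈ W₂ → (ω * ψ₀⁻¹) w = 1) then a else 0) ∨ (∃ (φ₀ : ↥(W₁ ⊔ W₂) →* ℂˣ) (a : ℂ), ∀ ω, Cfsg.classInner θ (χ ω) = if (∀ w : ↥(W₁ ⊔ W₂), (w : G) ∈ W₁ → (ω * φ₀⁻¹) w = 1) then a else 0) := by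
  have h := CTF.mk (cf0_of_fam hW hχ) hodd
  simp only [classInner_eq] at hfew ⊢
  by_cases h0 : ∀ ω, ⟪θ, χ ω⟫ = 0
  · exact Or.inl h0
  right
  push Not at h0
  obtain ⟨ω₀, h0⟩ := h0
  obtain ⟨i₀, hi₀, j₀, hj₀, e⟩ := h.exists_pair (Du.mk ω₀)
  have h0' : ⟪θ, χ (i₀ * j₀).hom⟫ ≠ 0 := by rw [← e]; exact h0
  have hnc : nc (fun ω : Du _ => χ ω.hom) θ = Nat.card {ω : ↥(W₁ ⊔ W₂) →* ℂˣ // ⟪θ, χ ω⟫ ≠ 0} := by
    classical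
    rw [nc, ← Fintype.card_subtype, Fintype.card_eq_nat_card]; rfl
  rcases h.small_nc hθ (fun v hv => hθV v hv.1 hv.2) (by
    rw [card_subgroupOf_sup_left, card_subgroupOf_sup_right, hnc]; omega) hi₀ hj₀ h0' with e | e
  · refine Or.inl ⟨j₀.hom, ⟪θ, χ (i₀ * j₀).hom⟫, fun ω => ?_⟩
    obtain ⟨i, hi, j, hj, e'⟩ := h.exists_pair (Du.mk ω)
    have e2 : (∀ w : ↥(W₁ ⊔ W₂), (w : G) ∈ W₂ → (ω * j₀.hom⁻¹) w = 1) ↔ j = j₀ := by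
      rw [← mem_ann_subgroupOf]
      change Du.mk ω * j₀⁻¹ ∈ _ ↔ _
      rw [e', mul_assoc, h.mul_mem_ann₂ hi (mul_mem hj (inv_mem hj₀)), mul_inv_eq_one]
    simp only [e2]
    have := e i hi j hj
    rw [← e'] at this
    convert this
    rfl
  · refine Or.inr ⟨i₀.hom, ⟪θ, χ (i₀ * j₀).hom⟫, fun ω => ?_⟩
    obtain ⟨i, hi, j, hj, e'⟩ := h.exists_pair (Du.mk ω)
    have e2 : (∀ w : ↥(W₁ ⊔ W₂), (w : G) ∈ W₁ → (ω * i₀.hom⁻¹) w = 1) ↔ i = i₀ := by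
      rw [← mem_ann_subgroupOf]
      change Du.mk ω * i₀⁻¹ ∈ _ ↔ _
      rw [e', mul_right_comm, h.mul_mem_ann₁ (mul_mem hi (inv_mem hi₀)) hj, mul_inv_eq_one]
    simp only [e2]
    have := e i hi j hj
    rw [← e'] at this
    convert this
    rfl

end Cfsg.Agent.S1507
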