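import Cfsg.Statements.S1511
import Cfsg.Agent.Lib.PF.PDade

set_option autoImplicit false
open Cfsg

namespace Cfsg.Agent.S1511
open CA CA.Ch
open scoped ComplexConjugate ComplexOrder


/-- Let L be a finite group with K normal with complement W₁ ≠ 1 a cyclic Hall subgroup, and W₂ ≠ 1 a cyclic subgroup of K equal to C_K(x) for every non-identity x ∈ W₁, with W₁W₂ of odd order. Then there are a map μ from the linear characters of W = W₁ ⊔ W₂ to irreducible characters of L, injective, and a sign δ(ω) ∈ {1, −1} depending only on the values of ω on W₂, such that: for ω, ω' agreeing on W₂, the function induced to L from ω − ω' equals δ(ω) • (μ ω − μ ω'); μ ω x = δ(ω) ω x for x ∈ W outside W₂; every irreducible character of L not of the form μ ω vanishes on W outside W₂; and μ ω 1 − δ(ω) is an integer multiple of Nat.card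 W₁. -/
theorem result {L : Type*} [Group L] [Fintype L] (K W₁ W₂ : Subgroup L) [hK : K.Normal] (hKW₁ : K ⊓ W₁ = ⊥) (hKW₁' : K ⊔ W₁ = ⊤) (hW₁ : W₁ ≠ ⊥) (hW₁c : IsCyclic W₁) (hHall : Nat.Coprime (Nat.card W₁) W₁.index) (hW₂ : W₂ ≠ ⊥) (hW₂c : IsCyclic W₂) (hW₂K : W₂ ≤ K) (hC : ∀ x ∈ W₁, x ≠ 1 → K ⊓ Subgroup.centralizer ({x} : Set L) = W₂) (hodd : Odd (Nat.card ↥(W₁ ⊔ W₂))) : ∃ (μ : (↥(W₁ ⊔ W₂) →* ℂˣ) → (L → ℂ)) (δ : (↥(W₁ ⊔ W₂) →* ℂˣ) → ℂ), Function.Injective μ ∧ (∀ ω, Cfsg.IsIrrCharacter L (μ ω)) ∧ (∀ ω, δ ω = 1 ∨ δ ω = -1) ∧ (∀ ω ω' : ↥(W₁ ⊔ W₂) →* ℂˣ, (∀ w : ↥(W₁ ⊔ W₂), (w : L) ∈ W₂ → ω w = ω' w) → δ ω = δ ω' ∧ Cfsg.indFun (W₁ ⊔ W₂) (fun w => (ω w : ℂ) - (ω' w : ℂ)) = δ ω • (μ ω - μ ω')) ∧ (∀ ω, ∀ w : ↥(W₁ ⊔ W₂), (w : L) ∉ W₂ → μ ω w = δ ω * (ω w : ℂ)) ∧ (∀ θ : L → ℂ, Cfsg.IsIrrCharacter L θ → (∀ ω, θ ≠ μ ω) → ∀ w :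 ↥(W₁ ⊔ W₂), (w : L) ∉ W₂ → θ w = 0) ∧ (∀ ω, ∃ n : ℤ, μ ω 1 - δ ω = n * (Nat.card W₁ : ℂ)) := by
  obtain ⟨μ, δ, h⟩ :=
    (pti_of_subgroups K W₁ W₂ hKW₁ hKW₁' hW₁ hW₁c hHall hW₂ hW₂c hW₂K hC hodd).exists_data
  refine ⟨fun ω => μ (Du.mk ω), fun ω => δ (Du.mk ω), h.inj, fun ω => h.irr _, fun ω => h.sgnC _,
    fun ω ω' e => ?_, fun ω w hw => h.eq_on _ w hw, fun θ hθ hne w hw => ?_, fun ω => ?_⟩
  · have h1 : Du.mk ω * (Du.mk ω')⁻¹ ∈ ann (W₂.subgroupOf (W₁ ⊔ W₂)) :=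
      mem_ann_subgroupOf.mpr fun w hw => mul_inv_eq_one.mpr (e w hw)
    have h2 := h.sgn_mul _ h1 (Du.mk ω')
    have h3 := h.ind_sub h1 (one_mem _) (Du.mk ω')
    rw [inv_mul_cancel_right] at h2 h3
    rw [one_mul, ← h2] at h3
    exact ⟨by simp only [h2], by rw [indFun_eq]; exact h3⟩
  · exact h.vanish (IsIrr.isCF hθ) (fun ω => IsIrr.ip_ne hθ (h.irr ω) (hne ω)) (w := w) hw
  · obtain ⟨n, hn⟩ := h.one_mod (Du.mk ω)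
    rw [card_subgroupOf_sup_left] at hn
    exact ⟨n, by simp [hn]⟩

end Cfsg.Agent.S1511
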