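import Cfsg.Statements.S1512
import Cfsg.Agent.Lib.Char.Extend

set_option autoImplicit false
open Cfsg

namespace Cfsg.Agent.S1512
open CA CA.Ch
open scoped ComplexConjugate ComplexOrder


/-- Let K be a normal subgroup of the finite group L and x a non-identity element whose order is coprime to the order of K, such that K ⊓ C_L(y) = W₂ for every non-identity element y of the cyclic group generated by x. Then the number of conjugacy classes of K mapped to themselves by conjugation by x is at most Nat.card W₂. -/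
theorem result {L : Type*} [Group L] [Finite L] (K W₂ : Subgroup L) [hK : K.Normal] (x : L) (hx1 : x ≠ 1) (hx : Nat.Coprime (orderOf x) (Nat.card K)) (hC : ∀ y ∈ Subgroup.zpowers x, y ≠ 1 → K ⊓ Subgroup.centralizer ({y} : Set L) = W₂) : Nat.card {C : ConjClasses K // ConjClasses.map (MulEquiv.toMonoidHom ((MulAut.conjNormal x : MulAut K))) C = C} ≤ Nat.card W₂ := by
  have hW : K ⊓ Subgroup.centralizer {x} = W₂ := hC x (Subgroup.mem_zpowers x) hx1
  have key : ∀ C : {C : ConjClasses K // ConjClasses.map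
      (MulEquiv.toMonoidHom ((MulAut.conjNormal x : MulAut K))) C = C},
      ∃ w : W₂, ∃ k : K, (k : L) = w ∧ ConjClasses.mk k = C.1 := by
    rintro ⟨C, hC⟩
    obtain ⟨y, rfl⟩ := ConjClasses.mk_surjective C
    obtain ⟨h, hh⟩ := isConj_iff.mp (ConjClasses.mk_eq_mk_iff_isConj.mp hC)
    have hh' : (h : L) * (x * y * x⁻¹) * (h : L)⁻¹ = y := congrArg Subtype.val hh
    obtain ⟨z, hz, h1⟩ := exists_fixed_in_class K (fun k hk => hK.conj_mem k hk x) hx (y := y) h.2
      (by calc (h : L) * x * y = ((h : L) * (x * y * x⁻¹) * (h : L)⁻¹) * (h * x) := by group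
        _ = _ := by rw [hh'])
    have hm : z * y * z⁻¹ ∈ K := hK.conj_mem _ y.2 z
    refine ⟨⟨z * y * z⁻¹, hW ▸ ⟨hm, Subgroup.mem_centralizer_singleton_iff.mpr h1.symm⟩⟩,
      ⟨_, hm⟩, rfl, ?_⟩
    exact ConjClasses.mk_eq_mk_iff_isConj.mpr (isConj_iff.mpr ⟨(⟨z, hz⟩ : K), rfl⟩).symm
  choose w k h1 h2 using key
  refine Nat.card_le_card_of_injective w fun a b hab => Subtype.ext ?_
  rw [← h2, ← h2, show k a = k b from Subtype.ext (by rw [h1, h1, hab])]

end Cfsg.Agent.S1512
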