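import Cfsg.Statements.S1513
import Cfsg.Agent.Lib.PF.PDade

set_option autoImplicit false
open Cfsg

namespace Cfsg.Agent.S1513
open CA CA.Ch
open scoped ComplexConjugate ComplexOrder


/-- Let L be a finite group with K normal with complement W₁ ≠ 1 a cyclic Hall subgroup, and W₂ ≠ 1 a cyclic subgroup of K equal to C_K(x) for every non-identity x ∈ W₁, with W₁W₂ of odd order. For an irreducible character θ of K: if θ is not fixed under conjugation by some element of W₁, then the function induced from θ to L is an irreducible character of L; and the irreducible characters of K fixed by all of W₁ are exactly Nat.card W₂ in number, each inducing to the sum of Nat.card W₁ pairwise distinct irreducible characters of L. -/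
theorem result {L : Type*} [Group L] [Fintype L] (K W₁ W₂ : Subgroup L) [hK : K.Normal] (hKW₁ : K ⊓ W₁ = ⊥) (hKW₁' : K ⊔ W₁ = ⊤) (hW₁ : W₁ ≠ ⊥) (hW₁c : IsCyclic W₁) (hHall : Nat.Coprime (Nat.card W₁) W₁.index) (hW₂ : W₂ ≠ ⊥) (hW₂c : IsCyclic W₂) (hW₂K : W₂ ≤ K) (hC : ∀ x ∈ W₁, x ≠ 1 → K ⊓ Subgroup.centralizer ({x} : Set L) = W₂) (hodd : Odd (Nat.card ↥(W₁ ⊔ W₂))) : (∀ θ : K → ℂ, Cfsg.IsIrrCharacter K θ → (∃ x ∈ W₁, (fun k : K => θ ⟨x * k * x⁻¹, hK.conj_mem (k : L) k.2 x⟩) ≠ θ) → Cfsg.IsIrrCharacter L (Cfsg.indFun K θ)) ∧ Nat.card {θ : Cfsg.IrrCharacter K // ∀ x ∈ W₁, (fun k : K => (θ : K → ℂ) ⟨x * k * x⁻¹, hK.conj_mem (k : L) k.2 x⟩) = θ} = Nat.card W₂ ∧ (∀ θ : K → ℂ, Cfsg.IsIrrCharacter K θ → (∀ x ∈ W₁, (fun k : K => θ ⟨x * k * x⁻¹, hK.conj_mem (k : L) k.2 x⟩) = θ) → ∃ C : Finset (L → ℂ), C.card = Nat.card W₁ ∧ (∀ μ ∈ C, Cfsg.IsIrrCharacter L μ) ∧ Cfsg.indFun K θ = ∑ μ ∈ C, μ) :=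 by
  classical
  obtain ⟨μ, δ, h⟩ :=
    (pti_of_subgroups K W₁ W₂ hKW₁ hKW₁' hW₁ hW₁c hHall hW₂ hW₂c hW₂K hC hodd).exists_data
  simp only [← cfj_subtype, indFun_eq]
  have key : ∀ θ : K → ℂ, IsIrr θ → (∀ x ∈ W₁, cfj K.subtype x θ = θ) →
      ∃ j ∈ ann (W₁.subgroupOf (W₁ ⊔ W₂)), θ = μ j ∘ K.subtype := fun θ hθ hf => by
    obtain ⟨x, hx, hx1⟩ := (Subgroup.bot_or_exists_ne_one _).resolve_left h.ne1
    exact h.exists_res_of_fixed hθ hx hx1 (hf x hx)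
  refine ⟨fun θ hθ ⟨x, _, hx⟩ => ?_, ?_, fun θ hθ hf => ?_⟩
  · rcases h.irr_cases hθ with ⟨j, -, rfl⟩ | e
    · exact absurd (cfj_res _ (h.irr j).isCF x) hx
    · exact e
  · rw [← card_subgroupOf_sup_right (W₁ := W₁), ← h.card_ann₁]
    symm
    refine Nat.card_congr (Equiv.ofBijective (fun j => ⟨⟨μ j ∘ K.subtype, h.isIrr_res j⟩,
      fun x _ => cfj_res _ (h.irr j).isCF x⟩) ⟨fun a b e => Subtype.ext (h.res_inj a.2 b.2 ?_), ?_⟩)
    · exact congrArg (fun z => z.1.1) e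
    · rintro ⟨⟨θ, hθ⟩, hf⟩
      obtain ⟨j, hj, e⟩ := key θ hθ hf
      exact ⟨⟨j, hj⟩, Subtype.ext (Subtype.ext e.symm)⟩
  · obtain ⟨j, hj, rfl⟩ := key θ hθ hf
    have hinj : Function.Injective fun i : ann (W₂.subgroupOf (W₁ ⊔ W₂)) => μ (i * j) :=
      fun a b e => Subtype.ext (mul_right_cancel (h.inj e))
    refine ⟨Finset.univ.image fun i : ann (W₂.subgroupOf (W₁ ⊔ W₂)) => μ (i * j), ?_, ?_, ?_⟩
    · rw [Finset.card_image_of_injective _ hinj, Finset.card_univ, h.fcard_ann₂,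
        card_subgroupOf_sup_left]
    · intro χ hχ
      obtain ⟨i, -, rfl⟩ := Finset.mem_image.mp hχ
      exact h.irr _
    · rw [Finset.sum_image hinj.injOn, h.ind_res]; rfl

end Cfsg.Agent.S1513
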