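import Cfsg.Statements.S1514
import Cfsg.Agent.Lib.PF.Coh

set_option autoImplicit false
open Cfsg

namespace Cfsg.Agent.S1514
open CA CA.Ch
open scoped ComplexConjugate ComplexOrder


/-- Let S be a nonempty set of irreducible characters of the finite group L, closed under complex conjugation and containing no real-valued member, and τ a linear isometry on the integer combinations of S vanishing at 1, with values virtual characters of G vanishing at 1. Then there is a choice R making (S, τ, R) a coherence system. -/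
theorem result {L : Type*} [Group L] [Fintype L] {G : Type*} [Group G] [Fintype G] (S : Set (L → ℂ)) (hS : S.Nonempty) (hirr : ∀ χ ∈ S, Cfsg.IsIrrCharacter L χ) (hconj : ∀ χ ∈ S, Cfsg.conjFun χ ∈ S ∧ Cfsg.conjFun χ ≠ χ) (τ : (L → ℂ) → (G → ℂ)) (hτ : Cfsg.IsLinearIsometryOn (Cfsg.zspanOn S {1}ᶜ) τ) (hτ1 : ∀ α ∈ Cfsg.zspanOn S {1}ᶜ, τ α 1 = 0) : ∃ R : (L → ℂ) → Finset (G → ℂ), Cfsg.IsCoherenceSystem S τ R := by
  classical
  obtain ⟨τ', h1, h2⟩ := exists_iso1 hτ hτ1
  have hi : ∀ χ ∈ S, IsIrr χ := hirr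
  obtain ⟨R, h⟩ := subCoh_of_irr hi (fun χ hχ => (hconj χ hχ).1) (fun χ hχ => (hconj χ hχ).2) h1
  refine ⟨R, hS, h.char, h.star_mem, h.star_ne, hτ, hτ1, fun χ hχ φ hφ e => ?_,
    fun χ hχ α a β b => ?_, h.vc, fun χ hχ => ?_, fun χ hχ φ hφ e1 e2 α a β b => ?_⟩
  · rw [classInner_eq]; exact h.ip_ne hχ hφ e
  · rw [classInner_eq]; convert (h.on χ hχ).ip a b <;> rfl
  · exact (h2 _ (h.sub_star_mem hχ) (h.char χ hχ).sub_star_one).symm.trans (h.sum_eq χ hχ)
  · rw [classInner_eq] at e1 e2 ⊢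
    refine h.orth χ hχ φ hφ ?_ ?_ α a β b
    · rintro rfl; exact one_ne_zero ((hi φ hφ).ip_self.symm.trans e1)
    · intro e; exact one_ne_zero ((hi φ hφ).ip_self.symm.trans (by rw [← e2]; congr 1))

end Cfsg.Agent.S1514
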