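import Cfsg.Statements.S1515
import Cfsg.Agent.Lib.PF.Coh

set_option autoImplicit false
open Cfsg

namespace Cfsg.Agent.S1515
open CA CA.Ch
open scoped ComplexConjugate ComplexOrder


/-- Let (S, τ, R) be a coherence system from L to G, χ ∈ S, and ψ an integer combination of S with ⟨χ, ψ⟩ = ⟨conj χ, ψ⟩ = 0. Let τ₁ be a linear isometry on the integer combinations of χ − ψ and χ − conj χ, with virtual-character values, agreeing with τ on integer multiples of χ − conj χ. Then the sum over α ∈ R χ of the squared absolute values of ⟨τ₁(χ − ψ), α⟩ is at least ⟨χ, χ⟩; and if ⟨τ₁(χ − ψ), τ₁(χ − ψ)⟩ minus that sum is at least ⟨ψ, ψ⟩, then the sum equals ⟨χ, χ⟩ and every ⟨τ₁(χ − ψ), α⟩ with α ∈ R χ is 0 or 1. -/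
theorem result {L : Type*} [Group L] [Fintype L] {G : Type*} [Group G] [Fintype G] (S : Set (L → ℂ)) (τ : (L → ℂ) → (G → ℂ)) (R : (L → ℂ) → Finset (G → ℂ)) (hS : Cfsg.IsCoherenceSystem S τ R) (χ : L → ℂ) (hχ : χ ∈ S) (ψ : L → ℂ) (hψ : ψ ∈ Cfsg.zspan S) (h1 : Cfsg.classInner χ ψ = 0) (h2 : Cfsg.classInner (Cfsg.conjFun χ) ψ = 0) (τ₁ : (L → ℂ) → (G → ℂ)) (hτ₁ : Cfsg.IsLinearIsometryOn (Cfsg.zspan {χ - ψ, χ - Cfsg.conjFun χ}) τ₁) (hagree : ∀ n : ℤ, τ₁ (n • (χ - Cfsg.conjFun χ)) = τ (n • (χ - Cfsg.conjFun χ))) : (Cfsg.classInner χ χ).re ≤ ∑ α ∈ R χ, ‖Cfsg.classInner (τ₁ (χ - ψ)) α‖ ^ 2 ∧ ((Cfsg.classInner ψ ψ).re ≤ (Cfsg.classInner (τ₁ (χ - ψ)) (τ₁ (χ - ψ))).re - ∑ α ∈ R χ, ‖Cfsg.classInner (τ₁ (χ - ψ)) α‖ ^ 2 → (∑ α ∈ R χ, ‖Cfsg.classInner (τ₁ (χ - ψ)) α‖ ^ 2 = (Cfsg.classInner χ χ).re ∧ ∀ α ∈ R χ, Cfsg.classInner (τ₁ (χ -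 ψ)) α = 0 ∨ Cfsg.classInner (τ₁ (χ - ψ)) α = 1)) := by
  classical
  obtain ⟨τ', h, he⟩ := exists_subCoh hS
  simp only [classInner_eq] at *
  obtain ⟨-, -, h3, h4⟩ := hτ₁
  simp only [classInner_eq] at h3
  have m1 : χ - ψ ∈ Cfsg.zspan {χ - ψ, χ - Cfsg.conjFun χ} := Submodule.subset_span (by simp)
  have m2 : χ - star χ ∈ Cfsg.zspan {χ - ψ, χ - Cfsg.conjFun χ} :=
    Submodule.subset_span (Or.inr rfl)
  have h2' : ⟪star χ, ψ⟫ = 0 := h2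
  have e1 : τ₁ (χ - star χ) = τ' (χ - star χ) := by
    rw [he _ (h.sub_star_mem hχ) (h.char χ hχ).sub_star_one]
    have := hagree 1
    rwa [one_smul] at this
  set Φ := τ₁ (χ - ψ) with hΦ
  have vΦ : IsVC Φ := h4 _ m1
  have hO := h.on χ hχ
  have n1 : nrm (∑ α ∈ R χ, ⟪Φ, α⟫ • α) = ∑ α ∈ R χ, ‖⟪Φ, α⟫‖ ^ 2 := hO.nrm_sum _
  have n2 : nrm Φ = nrm χ + nrm ψ := by
    rw [← nrm_sub_of_orth h1, nrm, h3 _ m1 _ m1]; rfl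
  obtain ⟨a1, a2⟩ := h.norm hχ (X := ∑ α ∈ R χ, ⟪Φ, α⟫ • α) (Y := ∑ α ∈ R χ, ⟪Φ, α⟫ • α - Φ)
    (IsVC.sum fun α hα => by
      obtain ⟨n, hn⟩ := vΦ.ip_int (h.vc χ hχ α hα)
      rw [hn]; exact (h.vc χ hχ α hα).intCast_smul n)
    (by
      rw [sub_sub_cancel, ← e1, h3 _ m1 _ m2]
      simp only [ip_sub_left, ip_sub_right, h.ip_star hχ, ip_eq_zero_symm h1, ip_eq_zero_symm h2']
      simp)
    fun α hα => by rw [← neg_sub, ip_neg_left, neg_eq_zero]; exact hO.ip_sub_proj Φ hα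
  rw [n1] at a1 a2
  refine ⟨a1, fun h5 => ?_⟩
  change nrm ψ ≤ nrm Φ - _ at h5
  obtain ⟨E, hE, e⟩ := a2 (by linarith)
  refine ⟨le_antisymm (by change _ ≤ nrm χ; linarith) a1, fun α hα => ?_⟩
  rw [← show ⟪∑ α ∈ R χ, ⟪Φ, α⟫ • α, α⟫ = ⟪Φ, α⟫ from hO.ip_sum_left _ hα, e]
  by_cases hα' : α ∈ E
  · exact Or.inr ((hO.mono (Finset.coe_subset.mpr hE)).ip_sum_left' hα')
  · exact Or.inl (sum_ip_eq_zero fun β hβ => hO.og β (hE hβ) α hα (by rintro rfl; exact hα' hβ))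

end Cfsg.Agent.S1515
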