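import Cfsg.Statements.S1518
import Cfsg.Agent.Lib.PF.Dade
import Cfsg.Agent.Lib.Char.Orth

set_option autoImplicit false
open Cfsg

namespace Cfsg.Agent.S1518
open CA CA.Ch
open scoped ComplexConjugate ComplexOrder


/-- Under the Dade hypothesis for (A, L, H): if χ is an irreducible character of L vanishing at every non-identity element of L outside A, then the Dade image of χ − conj χ equals μ − conj μ for some irreducible character μ of G. -/
theorem result {G : Type*} [Group G] [Fintype G] (A : Set G) (L : Subgroup G) [Fintype L] (H : G → Subgroup G) (hD : Cfsg.DadeHypothesis A L H) (χ : L → ℂ) (hχ : Cfsg.IsIrrCharacter L χ) (hsupp : ∀ x : L, x ≠ 1 → (x : G) ∉ A → χ x = 0) : ∃ μ : G → ℂ, Cfsg.IsIrrCharacter G μ ∧ Cfsg.dadeIsometry A L H (χ - Cfsg.conjFun χ) = μ - Cfsg.conjFun μ := by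
  have hχ' : IsIrr χ := hχ
  simp only [conjFun_eq, dade_eq]
  by_cases hr : χ = star χ
  · exact ⟨1, isIrr_one, by rw [← hr]; simp⟩
  have hs : ∀ x : L, (x : G) ∉ A → (χ - star χ) x = 0 := fun x hx => by
    by_cases h1 : x = 1
    · simp [h1, hχ'.isChar.star_one]
    · simp [hsupp x h1 hx]
  have hv := hχ'.isVC.sub hχ'.star.isVC
  obtain ⟨μ, ν, hμ, hν, hne, e⟩ := (Dade.isVC hD hv hs).norm_two_zero (by
    rw [Dade.ip_dade_dade hD hv.isCF hv.isCF hs]
    simp only [ip_sub_left, ip_sub_right, hχ'.ip_self, hχ'.star.ip_self, hχ'.ip_ne hχ'.star hr,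
      hχ'.star.ip_ne hχ' (Ne.symm hr)]
    norm_num) (Dade.apply_one hD _)
  refine ⟨μ, hμ, ?_⟩
  have e2 : star μ - star ν = ν - μ := by
    rw [← star_sub, ← e, ← dade_star, ← neg_sub μ, ← e, ← map_neg]; simp
  have e3 := congrArg (⟪·, ν⟫) e2
  simp only [ip_sub_left, hν.ip_self, hμ.ip_ne hν hne] at e3
  rw [e, hμ.star.eq_of_ip_ne hν]
  intro h0
  classical
  rw [h0, hν.star.ip hν] at e3
  split_ifs at e3 <;> norm_num at e3

end Cfsg.Agent.S1518
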