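import Cfsg.Statements.S1521
import Cfsg.Agent.Lib.PF.Six

set_option autoImplicit false
open Cfsg

namespace Cfsg.Agent.S1521
open CA CA.Ch
open scoped ComplexConjugate ComplexOrder


/-- Let K be a solvable normal subgroup of the finite group L of odd order and (S, τ, R) a coherence system from L to G with S the functions induced from non-principal irreducible characters of K; S(A) as before. Let M ≤ K be normal in L with K/M nilpotent, H₁ = [K, K] ⊔ M, H₁ < K < L, and suppose every element of K outside H₁ is centralised modulo H₁ only from inside K (L/H₁ is a Frobenius group with kernel K/H₁). Suppose one of the following: some normal subgroup of L lies strictly between H₁ and K; or [K:H₁] > 4[L:K]^2 + 1; or [K:M] is not a prime power; or [K,K] ≤ M; or [K:M] is a power of a prime p with [L:K] dividing p − 1. Then S(M) is coherent. -/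
theorem result {L : Type*} [Group L] [Fintype L] {G : Type*} [Group G] [Fintype G] (K : Subgroup L) [hK : K.Normal] (hsolv : Group.IsSolvable K) (τ : (L → ℂ) → (G → ℂ)) (R : (L → ℂ) → Finset (G → ℂ)) (hS : Cfsg.IsCoherenceSystem (Cfsg.inducedIrrAbove K ⊥) τ R) (hodd : Odd (Nat.card L)) (M : Subgroup L) [M.Normal] (hMK : M ≤ K) [(M.subgroupOf K).Normal] (hnil : Group.IsNilpotent (↥K ⧸ M.subgroupOf K)) (H₁ : Subgroup L) (hH₁ : H₁ = ⁅K, K⁆ ⊔ M) (hH₁K : H₁ < K) (hKL : K < ⊤) (hfrob : ∀ k ∈ K, k ∉ H₁ → ∀ x : L, x * k * x⁻¹ * k⁻¹ ∈ H₁ → x ∈ K) (hgood : (∃ N : Subgroup L, N.Normal ∧ H₁ < N ∧ N < K) ∨ 4 * K.index ^ 2 + 1 < H₁.relIndex K ∨ (¬ ∃ p m : ℕ, p.Prime ∧ M.relIndex K = p ^ m) ∨ ⁅K, K⁆ ≤ M ∨ (∃ p m : ℕ, p.Prime ∧ M.relIndex K = p ^ m ∧ K.index ∣ p - 1)) : Cfsg.IsCoherent (Cfsg.inducedIrrAbove K M) {1}ᶜ τ := by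
  simp only [inducedIrrAbove_eq] at hS ⊢
  obtain ⟨τ', h, he⟩ := exists_subCoh hS
  subst hH₁
  refine h.isCoherent_sInd he (by simpa using fun e => hH₁K.not_ge (le_sup_of_le_right e)) ?_
  by_contra hc
  have := h.cohX.non_coh_chief hodd (M := M) (by simpa) (by
    rw [Subgroup.range_subtype]
    exact nilpotent_of_mulEquiv (nonempty_quo_equiv (le_norm_of_normal K M)).some.symm)
    (by rw [Subgroup.range_subtype]; exact fd_of_cent hH₁K.le hfrob) hc
  rw [Subgroup.range_subtype] at this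
  obtain ⟨h1, h2, h3, p, hp, h4, h5⟩ := this
  obtain ⟨m, hm⟩ := (piGrp_singleton_iff_card hp).mp (h4.piGrp hp)
  rw [card_quo (le_norm_of_normal _ _)] at hm
  rcases hgood with ⟨N, a, b, c⟩ | a | a | a | ⟨q, k, a, b, c⟩
  · exact h1 N a b c
  · omega
  · exact a ⟨p, m, hp, hm⟩
  · exact h3 a
  · have h6 := one_lt_relIndex (A := M) (B := K) fun e => hH₁K.not_ge (le_sup_of_le_right e)
    rw [hm] at h6 b
    obtain rfl : p = q := (Nat.prime_dvd_prime_iff_eq hp a).mp (hp.dvd_of_dvd_pow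
      (b ▸ dvd_pow_self p (by rintro rfl; simp at h6)))
    exact h5 c

end Cfsg.Agent.S1521
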