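import Cfsg.Statements.S1523
import Cfsg.Agent.Lib.PF.Six

set_option autoImplicit false
open Cfsg

namespace Cfsg.Agent.S1523
open CA CA.Ch
open scoped ComplexConjugate ComplexOrder


/-- Let G be a finite group, p a prime, P a Sylow p-subgroup whose underlying set is a TI-subset of G, with L the set normaliser of P of odd order. Let Z ≠ ⊥ be a subgroup of P, normal in L and central in P, such that the centralisers in L of any two non-identity elements of Z have the same order. If ψ is an irreducible character of G taking the same value at all non-identity elements of Z, then for z ∈ Z, z ≠ 1, the value ψ z is an integer n with Nat.card P dividing ψ(1) − n (as integers, ψ 1 being the degree). -/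
theorem result {G : Type*} [Group G] [Finite G] (p : ℕ) [Fact p.Prime] (P : Sylow p G) (hTI : Cfsg.IsTISubset ((P : Subgroup G) : Set G)) (hodd : Odd (Nat.card (Subgroup.normalizer ((P : Subgroup G) : Set G)))) (Z : Subgroup G) (hZ1 : Z ≠ ⊥) (hZP : Z ≤ P) (hZn : ∀ x ∈ Subgroup.normalizer ((P : Subgroup G) : Set G), ∀ z ∈ Z, x * z * x⁻¹ ∈ Z) (hZc : ∀ z ∈ Z, ∀ y ∈ (P : Subgroup G), z * y = y * z) (hCL : ∀ z ∈ Z, ∀ z' ∈ Z, z ≠ 1 → z' ≠ 1 → Nat.card ↥(Subgroup.normalizer ((P : Subgroup G) : Set G) ⊓ Subgroup.centralizer ({z} : Set G)) = Nat.card ↥(Subgroup.normalizer ((P : Subgroup G) : Set G) ⊓ Subgroup.centralizer ({z'} : Set G))) (ψ : G → ℂ) (hψ : Cfsg.IsIrrCharacter G ψ) (hconst : ∀ z ∈ Z, ∀ z' ∈ Z, z ≠ 1 → z' ≠ 1 → ψ z = ψ z') (z : G) (hz : z ∈ Z) (hz1 : z ≠ 1) : ∃ n d : ℤ, ψ z = n ∧ ψ 1 = d ∧ (Nat.card (P : Subgroup G) : ℤ) ∣ d - n := by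
  obtain ⟨n, hn⟩ := (IsIrr.isVC hψ).int_of_const hz hz1 fun y a b => hconst y a z hz b hz1
  obtain ⟨d, hd⟩ := (IsIrr.isVC hψ).int
  obtain ⟨k, hk⟩ := IsIrr.tiSylow hψ (sylowIn_top P) (fun x hx h1 g hg => by
    by_contra e; exact h1 (hTI g e x hx hg)) le_rfl hodd (le_inf hZP (cents_iff.mpr hZc))
    (fun x hx => mem_normalizer_of_cj_le (cj_le_iff'.mpr (hZn x hx))) hz hz1
    fun y a b => hconst y a z hz b hz1
  exact ⟨n, d, hn, hd, k, by rw [hn, hd] at hk; exact_mod_cast hk⟩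

end Cfsg.Agent.S1523
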