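import Cfsg.Statements.S1524
import Cfsg.Agent.Lib.PF.Feit

set_option autoImplicit false
open Cfsg

namespace Cfsg.Agent.S1524
open CA CA.Ch
open scoped ComplexConjugate ComplexOrder


/-- Let G be a finite group and H ≤ L subgroups with L of odd order, H ≠ ⊥ nilpotent and normal in L with a nontrivial complement W₁ in L (H ⊓ W₁ = ⊥, H ⊔ W₁ = L) acting on H without non-identity fixed points (L is a Frobenius group with kernel H), and suppose the underlying set of H is a TI-subset of G whose normaliser is L. Let S be the set of functions on L induced from the non-principal irreducible characters of H. Then (S, L minus 1, induction to G) is coherent. -/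
theorem result {G : Type*} [Group G] [Fintype G] (H L W₁ : Subgroup G) [Fintype L] (hodd : Odd (Nat.card L)) (hHL : H ≤ L) (hW₁L : W₁ ≤ L) (hH1 : H ≠ ⊥) (hW1 : W₁ ≠ ⊥) (hnil : Group.IsNilpotent H) (hHn : ∀ x ∈ L, ∀ h ∈ H, x * h * x⁻¹ ∈ H) (hinf : H ⊓ W₁ = ⊥) (hsup : H ⊔ W₁ = L) (hfpf : ∀ w ∈ W₁, w ≠ 1 → ∀ h ∈ H, w * h = h * w → h = 1) (hTI : Cfsg.IsTISubset (H : Set G)) (hN : Subgroup.normalizer (H : Set G) = L) : Cfsg.IsCoherent (Cfsg.inducedIrrAbove (H.subgroupOf L) ⊥) {1}ᶜ (fun α : L → ℂ => Cfsg.indFun L α) := by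
  haveI : (H.subgroupOf L).Normal := NormalIn.normal_subgroupOf ⟨hHL, hN.ge⟩
  rw [inducedIrrAbove_eq]
  have hF : Frob L H W₁ := ⟨⟨hsup, hW₁L.trans hN.ge, hinf⟩, hH1, hW1, fun w a b => eq_bot_iff.mpr
    fun h c => hfpf w a b h c.1 (mem_cent1_iff.mp c.2).symm⟩
  refine isCoherent_indFun (sibley_frob hodd (nilpotent_range_subgroupOf hHL hnil)
    (tiEmb_of_isTI hTI hN) (frob_subtype (cent1_le_subgroupOf fun k => hF.cent1_le_ker)))
    (sInd.exists_ne_zero hodd ?_)
  rw [Subgroup.range_subtype, top_inf_eq, le_bot_iff, Subgroup.subgroupOf_eq_bot]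
  exact fun e => hH1 (e.eq_bot_of_le hHL)

end Cfsg.Agent.S1524
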