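import Cfsg.Statements.S1525
import Cfsg.Agent.Lib.PF.Dade

set_option autoImplicit false
open Cfsg

namespace Cfsg.Agent.S1525
open CA CA.Ch
open scoped ComplexConjugate ComplexOrder


/-- Under the Dade hypothesis for (A, L, H), let χ be a class function of G and let ψ be a function on L whose value at each a ∈ A is the average of χ over the coset a·H(a). Then (1/|G|) Σ |χ g|² over the elements g of G conjugate into some coset a·H(a) with a ∈ A is at least (1/|L|) Σ_{a ∈ A ∩ L} |ψ a|². -/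
theorem result {G : Type*} [Group G] [Fintype G] (A : Set G) (L : Subgroup G) [Fintype L] (H : G → Subgroup G) (hD : Cfsg.DadeHypothesis A L H) (χ : G → ℂ) (hχ : Cfsg.IsClassFunction G χ) (ψ : L → ℂ) (hψ : ∀ a : L, (a : G) ∈ A → ψ a = (Nat.card (H a) : ℂ)⁻¹ * ∑ᶠ u ∈ (H a : Set G), χ (a * u)) : (Nat.card L : ℝ)⁻¹ * ∑ᶠ a ∈ {a : L | (a : G) ∈ A}, ‖ψ a‖ ^ 2 ≤ (Nat.card G : ℝ)⁻¹ * ∑ᶠ g ∈ {g : G | ∃ a ∈ A, ∃ u ∈ H a, ∃ x : G, x * g * x⁻¹ = a * u}, ‖χ g‖ ^ 2 := by
  classical
  have h := Dade.nrm_rho_le hD hχ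
  rw [nrm_def, nrm_def] at h
  convert h using 2
  · rw [finsum_mem_eq_finite_toFinset_sum _ (Set.toFinite _)]
    rw [← Finset.sum_subset (Finset.subset_univ (Set.toFinite {a : L | (a : G) ∈ A}).toFinset)]
    · refine Finset.sum_congr rfl fun a ha => ?_
      have ha' : (a : G) ∈ A := by simpa using ha
      rw [rho_mem _ ha', hψ a ha', avg_eq_finsum]
    · intro a _ ha
      rw [rho_not_mem _ (by simpa using ha)]; simp
  · rw [finsum_mem_eq_finite_toFinset_sum _ (Set.toFinite _)]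
    rw [← Finset.sum_subset (Finset.subset_univ (Set.toFinite (dsupp A H)).toFinset)]
    · refine Finset.sum_congr rfl fun a ha => ?_
      rw [Set.indicator_of_mem (by simpa using ha)]
    · intro a _ ha
      rw [Set.indicator_of_notMem (by simpa using ha)]; simp

end Cfsg.Agent.S1525
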