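import Cfsg.Statements.S1527
import Cfsg.Agent.Lib.PF.Dade

set_option autoImplicit false
open Cfsg

namespace Cfsg.Agent.S1527
open CA CA.Ch
open scoped ComplexConjugate ComplexOrder


/-- Let G be a finite group and H i (i in a finite index type) subgroups of pairwise coprime orders, each of whose underlying sets is a TI-subset of G, such that every non-identity element of G is conjugate to an element of some H i. Then Nat.card G − 1 = Σ_i [G : N_G(H i)] · (Nat.card (H i) − 1). -/
theorem result {G : Type*} [Group G] [Finite G] {ι : Type*} [Fintype ι] (H : ι → Subgroup G) (hcop : ∀ i j, i ≠ j → Nat.Coprime (Nat.card (H i)) (Nat.card (H j))) (hTI : ∀ i, Cfsg.IsTISubset (H i : Set G)) (hcover : ∀ g : G, g ≠ 1 → ∃ i, ∃ x : G, x * g * x⁻¹ ∈ H i) : Nat.card G - 1 = ∑ i, (Subgroup.normalizer (H i : Set G)).index * (Nat.card (H i) - 1) := by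
  classical
  let A : ι → Set G := fun i => (H i : Set G) \ {1}
  have hD : ∀ i, DadeHypothesis (A i) (Subgroup.normalizer (H i : Set G)) (fun _ => ⊥) := fun i =>
    dade_of_ti (by simp [A]) (fun a ha => (H i).le_normalizer ha.1)
      (fun x hx a ha => ⟨(Subgroup.mem_normalizer_iff.mp hx a).mp ha.1, by simpa using ha.2⟩)
      (fun a ha g hg => by by_contra h; exact ha.2 (hTI i g h a ha.1 hg.1))
  have h1 : ∀ i, (dsupp (A i) (fun _ => ⊥)).ncard =
      (Subgroup.normalizer (H i : Set G)).index * (Nat.card (H i) - 1) := by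
    intro i
    have := Dade.ncard_dsupp (hD i)
    rw [← (Subgroup.normalizer (H i : Set G)).index_mul_card, ← mul_assoc,
      mul_left_inj' Nat.card_pos.ne'] at this
    rw [this, mul_comm, Set.ncard_sdiff_singleton_of_mem (H i).one_mem]
    rfl
  have h2 : ({1}ᶜ : Set G) = ⋃ i, dsupp (A i) (fun _ => ⊥) := by
    ext g
    simp only [Set.mem_compl_iff, Set.mem_singleton_iff, Set.mem_iUnion]
    constructor
    · intro hg
      obtain ⟨i, x, hx⟩ := hcover g hg
      exact ⟨i, _, ⟨hx, by simpa using hg⟩, 1, Subgroup.one_mem _, x, by simp⟩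
    · rintro ⟨i, hi⟩ rfl
      exact Dade.one_not_mem_dsupp (hD i) hi
  have h3 : ∀ i, ∀ g ∈ dsupp (A i) (fun _ => ⊥), g ≠ 1 ∧ orderOf g ∣ Nat.card (H i) := by
    rintro i g ⟨a, ha, u, hu, x, h⟩
    rw [Subgroup.mem_bot.mp hu, mul_one] at h
    subst h
    refine ⟨by simpa using ha.2, ?_⟩
    have := Subgroup.orderOf_dvd_natCard _ ha.1
    rwa [← MulAut.conj_apply, ← MulEquiv.coe_toMonoidHom,
      orderOf_injective _ (MulAut.conj x).injective] at this
  rw [← Finset.sum_congr rfl fun i _ => h1 i, ← finsum_eq_sum_of_fintype,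
    ← Set.ncard_iUnion_of_finite (fun i => Set.toFinite _), ← h2, Set.ncard_compl]
  · simp
  · intro i j hij
    rw [Function.onFun, Set.disjoint_left]
    intro g hi hj
    exact (h3 i g hi).1 (orderOf_eq_one_iff.mp
      (Nat.eq_one_of_dvd_coprimes (hcop i j hij) (h3 i g hi).2 (h3 j g hj).2))

end Cfsg.Agent.S1527
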