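import Cfsg.Statements.S1529
import Cfsg.Agent.Lib.PF.Coh2

set_option autoImplicit false
open Cfsg

namespace Cfsg.Agent.S1529
open CA CA.Ch
open scoped ComplexConjugate ComplexOrder


/-- Let N be a subgroup of the finite group G, S a set of irreducible characters of N with at least two members, and τ₁ a linear isometry on the integer combinations of S with virtual-character values such that τ₁ α vanishes at 1 whenever α ∈ ℤ[S] does. Then there is ε ∈ {1, −1} such that ε • τ₁ χ is an irreducible character of G for every χ ∈ S, and distinct members of S give distinct characters. -/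
theorem result {G : Type*} [Group G] [Fintype G] (N : Subgroup G) [Fintype N] (S : Set (N → ℂ)) (hirr : ∀ χ ∈ S, Cfsg.IsIrrCharacter N χ) (htwo : ∃ χ ∈ S, ∃ ψ ∈ S, χ ≠ ψ) (τ₁ : (N → ℂ) → (G → ℂ)) (hτ₁ : Cfsg.IsLinearIsometryOn (Cfsg.zspan S) τ₁) (h0 : ∀ α ∈ Cfsg.zspan S, α 1 = 0 → τ₁ α 1 = 0) : ∃ ε : ℂ, (ε = 1 ∨ ε = -1) ∧ (∀ χ ∈ S, Cfsg.IsIrrCharacter G (ε • τ₁ χ)) ∧ (∀ χ ∈ S, ∀ ψ ∈ S, τ₁ χ = τ₁ ψ → χ = ψ) := by
  have hi : ∀ χ ∈ S, IsIrr χ := hirr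
  obtain ⟨-, -, h3, h4⟩ := hτ₁
  simp only [classInner_eq] at h3
  obtain ⟨ν, hν⟩ := exists_linear_of_ip h3
  have e : ∀ χ ∈ S, ν χ = τ₁ χ := fun χ hχ => hν χ (mem_zs hχ)
  have hc : CohWith S ν ν := ⟨fun a ha b hb => by rw [e a ha, e b hb, h3 a (mem_zs ha) b (mem_zs hb)],
    fun a ha => by rw [e a ha]; exact h4 a (mem_zs ha), fun _ _ _ => rfl⟩
  have hI : Iso1 S ν := ⟨fun a ha _ b hb _ => hc.ipZ ha hb, fun a ha _ => hc.vcZ ha,
    fun a ha h1 => by rw [hν a ha]; exact h0 a ha h1⟩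
  obtain ⟨χ₀, hχ₀, -⟩ := htwo
  have inj : ∀ χ ∈ S, ∀ ψ ∈ S, τ₁ χ = τ₁ ψ → χ = ψ := fun χ hχ ψ hψ h =>
    (hc.on hi).injOn hχ hψ (by rw [e χ hχ, e ψ hψ, h])
  by_cases h1 : IsIrr (ν χ₀)
  · exact ⟨1, Or.inl rfl, fun χ hχ => by
      rw [one_smul, ← e χ hχ]; exact (hc.irr_iff hI hχ₀ hχ (hi _ hχ₀) (hi _ hχ)).mp h1, inj⟩
  · exact ⟨-1, Or.inr rfl, fun χ hχ => by
      rw [neg_one_smul, ← e χ hχ]
      exact (hc.isSIrr hχ (hi _ hχ)).resolve_left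
        fun h => h1 ((hc.irr_iff hI hχ₀ hχ (hi _ hχ₀) (hi _ hχ)).mpr h), inj⟩

end Cfsg.Agent.S1529
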