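import Cfsg.Statements.S1530
import Cfsg.Agent.Lib.PF.Coh2

set_option autoImplicit false
open Cfsg

namespace Cfsg.Agent.S1530
open CA CA.Ch
open scoped ComplexConjugate ComplexOrder


/-- Let N be a subgroup of the finite group G and S₀ a finite set of irreducible characters of N, χ an irreducible character of N not in S₀, with degrees ξ 1 = d ξ. Let τ be a linear isometry on the integer combinations of S₀ ∪ {χ} vanishing at 1, with values virtual characters of G vanishing at 1, such that (S₀, N minus 1, τ) is coherent. If some ψ ∈ S₀ has d ψ dividing d χ and 2 · d ψ · d χ < Σ_{ξ ∈ S₀} (d ξ)², then (S₀ ∪ {χ}, N minus 1, τ) is coherent. -/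
theorem result {G : Type*} [Group G] [Fintype G] (N : Subgroup G) [Fintype N] (S₀ : Finset (N → ℂ)) (χ : N → ℂ) (hirr : ∀ ξ ∈ S₀, Cfsg.IsIrrCharacter N ξ) (hχ : Cfsg.IsIrrCharacter N χ) (hχS : χ ∉ S₀) (d : (N → ℂ) → ℕ) (hd : ∀ ξ ∈ insert χ S₀, ξ 1 = (d ξ : ℂ)) (τ : (N → ℂ) → (G → ℂ)) (hτ : Cfsg.IsLinearIsometryOn (Cfsg.zspanOn (↑(insert χ S₀) : Set (N → ℂ)) {1}ᶜ) τ) (hτ1 : ∀ α ∈ Cfsg.zspanOn (↑(insert χ S₀) : Set (N → ℂ)) {1}ᶜ, τ α 1 = 0) (hcoh : Cfsg.IsCoherent (↑S₀ : Set (N → ℂ)) {1}ᶜ τ) (ψ : N → ℂ) (hψ : ψ ∈ S₀) (hdvd : d ψ ∣ d χ) (hlt : 2 * d ψ * d χ < ∑ ξ ∈ S₀, d ξ ^ 2) : Cfsg.IsCoherent (↑(insert χ S₀) : Set (N → ℂ)) {1}ᶜ τ := by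
  obtain ⟨τ', h1, h2⟩ := exists_iso1 hτ hτ1
  have hi : ∀ ξ ∈ S₀, IsIrr ξ := hirr
  have e : ∀ {_ : DecidableEq (N → ℂ)}, (↑(insert χ S₀) : Set (N → ℂ)) = ↑S₀ ∪ {χ} := by
    intro _; ext; simp
  rw [e] at h1 h2 ⊢
  obtain ⟨ν, hν⟩ := coh_of_isCoherent (fun α a => h2 α (zs_mono Set.subset_union_left a)) hcoh
  obtain ⟨a, ha⟩ := hdvd
  have d1 := hd χ (by simp)
  have d2 : ∀ ξ ∈ S₀, ξ 1 = d ξ := fun ξ hξ => hd ξ (by simp [hξ])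
  obtain ⟨ν', h3, -⟩ := coh_insert_irr hi hχ hχS h1 hν hψ (a := a)
    (by rw [d1, d2 ψ hψ, ha]; push_cast; ring) (by
      rw [d1, d2 ψ hψ, Finset.sum_congr rfl fun ξ hξ => by rw [d2 ξ hξ], mul_right_comm]
      simp only [Complex.norm_natCast]
      exact_mod_cast hlt)
  exact Coh.isCoherent ⟨ν', h3⟩ h2 (exists_ne_zero_of_irr (Or.inl hψ) (Or.inr rfl) (hi ψ hψ) hχ
    (by rintro rfl; exact hχS hψ))

end Cfsg.Agent.S1530
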