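import Cfsg.Statements.S1531
import Cfsg.Agent.Lib.PF.Coh2

set_option autoImplicit false
open Cfsg

namespace Cfsg.Agent.S1531
open CA CA.Ch
open scoped ComplexConjugate ComplexOrder


/-- Let N be a subgroup of the finite group G, S a set of irreducible characters of N, and α a linear isometry on the integer combinations of S vanishing at 1 with values virtual characters of G vanishing at 1. Let X, Y ⊆ S be disjoint, each with at least two members, and σ, τ linear isometries on ℤ[X], ℤ[Y] into virtual characters agreeing with α on the members vanishing at 1. Then ⟨σ χ, τ η⟩ = 0 for χ ∈ X, η ∈ Y; and if for some χ₀ ∈ X, η₀ ∈ Y with degrees c = χ₀ 1, e = η₀ 1 one has α (c • η₀ − e • χ₀) = c • τ η₀ − e • σ χ₀, then (X ∪ Y, N minus 1, α) is coherent. -/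
theorem result {G : Type*} [Group G] [Fintype G] (N : Subgroup G) [Fintype N] (S X Y : Set (N → ℂ)) (hirr : ∀ ξ ∈ S, Cfsg.IsIrrCharacter N ξ) (hXS : X ⊆ S) (hYS : Y ⊆ S) (hXY : Disjoint X Y) (hX2 : ∃ a ∈ X, ∃ b ∈ X, a ≠ b) (hY2 : ∃ a ∈ Y, ∃ b ∈ Y, a ≠ b) (α : (N → ℂ) → (G → ℂ)) (hα : Cfsg.IsLinearIsometryOn (Cfsg.zspanOn S {1}ᶜ) α) (hα1 : ∀ θ ∈ Cfsg.zspanOn S {1}ᶜ, α θ 1 = 0) (σ τ : (N → ℂ) → (G → ℂ)) (hσ : Cfsg.IsLinearIsometryOn (Cfsg.zspan X) σ) (hσα : ∀ θ ∈ Cfsg.zspanOn X {1}ᶜ, σ θ = α θ) (hτ : Cfsg.IsLinearIsometryOn (Cfsg.zspan Y) τ) (hτα : ∀ θ ∈ Cfsg.zspanOn Y {1}ᶜ, τ θ = α θ) : (∀ χ ∈ X, ∀ η ∈ Y, Cfsg.classInner (σ χ) (τ η) = 0) ∧ ((∃ χ₀ ∈ X, ∃ η₀ ∈ Y, α (χ₀ 1 • η₀ - η₀ 1 • χ₀) = χ₀ 1 • τ η₀ - η₀ 1 • σ χ₀) → Cfsg.IsCoherent (X ∪ Y) {1}ᶜ α) := by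
  obtain ⟨α', h1, h2⟩ := exists_iso1 hα hα1
  have hi : ∀ ξ ∈ S, IsIrr ξ := hirr
  obtain ⟨σ', s1, s2⟩ := exists_cohWith (fun a ha => h2 a (zs_mono hXS ha)) hσ hσα
  obtain ⟨τ', t1, t2⟩ := exists_cohWith (fun a ha => h2 a (zs_mono hYS ha)) hτ hτα
  have two : ∀ {Z : Set (N → ℂ)}, (∃ a ∈ Z, ∃ b ∈ Z, a ≠ b) → ∀ c, ∃ a ∈ Z, c ≠ a := by
    rintro Z ⟨a, ha, b, hb, h⟩ c
    by_cases e : c = a
    exacts [⟨b, hb, e ▸ h⟩, ⟨a, ha, e⟩]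
  have ne : ∀ {a b}, a ∈ X → b ∈ Y → a ≠ b := fun ha hb e => Set.disjoint_left.mp hXY ha (e ▸ hb)
  have ho : ∀ χ ∈ X, ∀ η ∈ Y, ⟪σ' χ, τ' η⟫ = 0 := fun χ hχ η hη => by
    obtain ⟨χ', hχ', n1⟩ := two hX2 χ
    obtain ⟨η', hη', n2⟩ := two hY2 η
    exact CohWith.orth_irr h1 hXS hYS s1 t1 hχ hχ' hη hη' (hi _ (hXS hχ)) (hi _ (hXS hχ'))
      (hi _ (hYS hη)) (hi _ (hYS hη')) n1 n2 (ne hχ hη) (ne hχ hη') (ne hχ' hη) (ne hχ' hη')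
  refine ⟨fun χ hχ η hη => ?_, ?_⟩
  · rw [classInner_eq, ← s2 χ (mem_zs hχ), ← t2 η (mem_zs hη), ho χ hχ η hη]
  rintro ⟨χ, hχ, η, hη, e⟩
  have hs := Set.union_subset hXS hYS
  have iχ := hi _ (hXS hχ)
  have iη := hi _ (hYS hη)
  obtain ⟨ν, h3, -⟩ := coh_union_with ((og_of_irr hi).mono hs) (fun _ h => (hi _ (hs h)).ne_zero)
    (fun _ h => (hi _ (hs h)).isVC) s1 t1 (fun a ha hb => ne ha hb rfl) ho
    (Submodule.smul_mem _ (η 1) (Submodule.subset_span hχ))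
    (Submodule.smul_mem _ (χ 1) (Submodule.subset_span hη)) (mul_comm _ _)
    (mul_ne_zero iη.ne_zero_one iχ.ne_zero_one) (by
      rw [← neg_sub, map_neg, h2 _ (cross_mem_zs (mem_zs (hXS hχ)) (mem_zs (hYS hη)) iχ.isVC iη.isVC)
        (cross_one _ _), e, map_smul, map_smul, s2 χ (mem_zs hχ), t2 η (mem_zs hη), neg_sub])
  exact Coh.isCoherent ⟨ν, h3⟩ (fun a ha => h2 a (zs_mono hs ha))
    (exists_ne_zero_of_irr (Or.inl hχ) (Or.inr hη) iχ iη (ne hχ hη))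

end Cfsg.Agent.S1531
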