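import Cfsg.Statements.S1532
import Cfsg.Agent.Lib.PF.Feit

set_option autoImplicit false
open Cfsg

namespace Cfsg.Agent.S1532
open CA CA.Ch
open scoped ComplexConjugate ComplexOrder


/-- Let G be a finite group, p an odd prime and P a Sylow p-subgroup that is non-abelian, whose underlying set is a TI-subset of G, with P properly contained in its set normaliser N and C_G(x) ≤ P for every non-identity x ∈ P. Let Z be a nontrivial subgroup of the centre of P normalised by N. Then the set of irreducible characters χ of N with χ z ≠ χ 1 for some z ∈ Z is coherent for the map induced by induction from N to G. -/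
theorem result {G : Type*} [Group G] [Fintype G] (p : ℕ) [Fact p.Prime] (hp : p ≠ 2) (P : Sylow p G) (hna : ¬ IsMulCommutative (P : Subgroup G)) (hTI : Cfsg.IsTISubset ((P : Subgroup G) : Set G)) (hlt : (P : Subgroup G) < Subgroup.normalizer ((P : Subgroup G) : Set G)) (hC : ∀ k ∈ (P : Subgroup G), k ≠ 1 → Subgroup.centralizer ({k} : Set G) ≤ (P : Subgroup G)) [Fintype ↥(Subgroup.normalizer ((P : Subgroup G) : Set G))] (Z : Subgroup G) (hZ1 : Z ≠ ⊥) (hZP : ∀ z ∈ Z, z ∈ (P : Subgroup G) ∧ ∀ y ∈ (P : Subgroup G), z * y = y * z) (hZn : ∀ x ∈ Subgroup.normalizer ((P : Subgroup G) : Set G), ∀ z ∈ Z, x * z * x⁻¹ ∈ Z) : Cfsg.IsCoherent {χ : ↥(Subgroup.normalizer ((P : Subgroup G) : Set G)) → ℂ | Cfsg.IsIrrCharacter ↥(Subgroup.normalizer ((P : Subgroup G) : Set G)) χ ∧ ∃ z : ↥(Subgroup.normalizer ((P : Subgroup G) : Set G)), (z : G) ∈ Z ∧ χ z ≠ χ 1} {1}ᶜ (fun α => Cfsg.indFun (Subgroup.normalizer ((P : Subgroup G) : Set G)) α) := by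
  have hp' : p.Prime := Fact.out
  have a1 := cent1_le_subgroupOf (N := 𝐍((P : Subgroup G))) fun k a b => inf_le_right.trans (hC k a b)
  have hZ : Z ≤ P := fun z h => (hZP z h).1
  haveI : (Z.subgroupOf 𝐍((P : Subgroup G))).Normal := NormalIn.normal_subgroupOf ⟨hZ.trans hlt.le,
    fun x hx => mem_normalizer_of_cj_le (cj_le_iff'.mpr (hZn x hx))⟩
  rw [irr_set_eq a1 (Z := Z.subgroupOf _) (P := fun x => (x : G) ∈ Z) (Subgroup.subgroupOf_mono _ hZ)
    fun _ => Iff.rfl]
  obtain ⟨k, hk⟩ := (piGrp_singleton_iff_card hp').mp (P.isPGroup'.piGrp hp')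
  have ho : Odd (Nat.card 𝐍((P : Subgroup G))) := odd_card_of_index (N := (P : Subgroup G).subgroupOf _)
    (by rw [card_subgroupOf_of_le hlt.le, hk]; exact (hp'.odd_of_ne_two hp).pow)
    (by_contra fun e => hna (abelian_iff'.mpr fun a ha b hb => congrArg Subtype.val
      (abelian_iff'.mp (abelian_of_frob_even a1 e) ⟨a, hlt.le ha⟩ ha ⟨b, hlt.le hb⟩ hb)))
  refine isCoherent_indFun ((sibley_frob ho (nilpotent_range_subgroupOf hlt.le
    (nilpotent_of_pgroup hp' P.isPGroup')) (tiEmb_of_isTI hTI rfl) (frob_subtype a1)).mono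
    fun _ h => sInd.sub_top h) (sInd.exists_ne_zero ho ?_)
  rw [Subgroup.range_subtype, inf_eq_left.mpr (Subgroup.subgroupOf_mono _ hZ), le_bot_iff,
    Subgroup.subgroupOf_eq_bot]
  exact fun e => hZ1 (e.eq_bot_of_le (hZ.trans hlt.le))

end Cfsg.Agent.S1532
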