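import Cfsg.Statements.S1533
import Cfsg.Agent.Lib.PF.Feit

set_option autoImplicit false
open Cfsg

namespace Cfsg.Agent.S1533
open CA CA.Ch
open scoped ComplexConjugate ComplexOrder


/-- Let G be a finite group, p an odd prime, and P a nontrivial Sylow p-subgroup whose underlying set is a TI-subset of G, with P properly contained in its set normaliser N and C_G(x) ≤ P for every non-identity x ∈ P. Let S be the set of irreducible characters χ of N with χ x ≠ χ 1 for some x ∈ P. Then either S has exactly one member, P is elementary abelian and Nat.card P = [N:P] + 1; or (S, N minus 1, induction to G) is coherent. -/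
theorem result {G : Type*} [Group G] [Fintype G] (p : ℕ) [Fact p.Prime] (hp : p ≠ 2) (P : Sylow p G) (hP1 : (P : Subgroup G) ≠ ⊥) (hTI : Cfsg.IsTISubset ((P : Subgroup G) : Set G)) (hlt : (P : Subgroup G) < Subgroup.normalizer ((P : Subgroup G) : Set G)) (hC : ∀ k ∈ (P : Subgroup G), k ≠ 1 → Subgroup.centralizer ({k} : Set G) ≤ (P : Subgroup G)) [Fintype ↥(Subgroup.normalizer ((P : Subgroup G) : Set G))] : (Nat.card {χ : ↥(Subgroup.normalizer ((P : Subgroup G) : Set G)) → ℂ // Cfsg.IsIrrCharacter ↥(Subgroup.normalizer ((P : Subgroup G) : Set G)) χ ∧ ∃ x : ↥(Subgroup.normalizer ((P : Subgroup G) : Set G)), (x : G) ∈ (P : Subgroup G) ∧ χ x ≠ χ 1} = 1 ∧ Cfsg.IsElementaryAbelian p (P : Subgroup G) ∧ Nat.card (P : Subgroup G) = ((P : Subgroup G).subgroupOf (Subgroup.normalizer ((P : Subgroup G) : Set G))).index + 1) ∨ Cfsg.IsCoherent {χ : ↥(Subgroup.normalizer ((P : Subgroup G) : Set G)) → ℂ | Cfsg.IsIrrCharacter ↥(Subgroup.normalizer ((P : Subgroup G) : Set G)) χ ∧ ∃ x : ↥(Subgroup.normalizer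 ((P : Subgroup G) : Set G)), (x : G) ∈ (P : Subgroup G) ∧ χ x ≠ χ 1} {1}ᶜ (fun α => Cfsg.indFun (Subgroup.normalizer ((P : Subgroup G) : Set G)) α) := by
  have hp' : p.Prime := Fact.out
  have a1 := cent1_le_subgroupOf (N := 𝐍((P : Subgroup G))) fun k a b => inf_le_right.trans (hC k a b)
  have hn := nilpotent_of_pgroup hp' P.isPGroup'
  have e := irr_set_eq a1 le_rfl (P := fun x => (x : G) ∈ (P : Subgroup G)) fun _ => Iff.rfl
  rw [sInd_self_eq] at e
  haveI := nilpotent_subgroupOf hlt.le hn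
  rcases two_or_card (N := (P : Subgroup G).subgroupOf 𝐍((P : Subgroup G))) (by
    rw [Ne, Subgroup.subgroupOf_eq_bot]; exact fun e => hP1 (e.eq_bot_of_le hlt.le)) a1 with h | ⟨h1, h2, h3⟩
  · right
    rw [e]
    refine isCoherent_indFun ((feit_sibley hP1 hn hTI hC).resolve_right fun c => ?_) h
    exact hP1 ((P.isPGroup'.piGrp hp').eq_bot ((c.1.piGrp Nat.prime_two).compl_singleton hp))
  · refine Or.inl ⟨(Nat.card_congr (Equiv.setCongr e)).trans (by simpa using h1), ?_,
      (card_subgroupOf_of_le hlt.le).symm.trans h2⟩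
    have := h3.elemAb_of_pgroup hp' (P.isPGroup'.of_equiv (Subgroup.subgroupOfEquivOfLe hlt.le).symm)
    have := this.map (Subgroup.subtype _)
    rwa [Subgroup.subgroupOf_map_subtype, inf_eq_left.mpr hlt.le] at this

end Cfsg.Agent.S1533
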