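import Cfsg.Statements.S1534
import Cfsg.Agent.Lib.PF.Feit

set_option autoImplicit false
open Cfsg

namespace Cfsg.Agent.S1534
open CA CA.Ch
open scoped ComplexConjugate ComplexOrder


/-- Let G be a finite group and K a nontrivial nilpotent subgroup whose underlying set is a TI-subset of G, properly contained in its set normaliser N, with C_G(k) ≤ K for every non-identity k ∈ K; let e be the index of K in N and S the set of irreducible characters χ of N with χ k ≠ χ 1 for some k ∈ K. Then one of: S has exactly one member, Nat.card K = e + 1 and K is an elementary abelian p-group for some prime p; or K is a Sylow 2-subgroup of G (Nat.card K is the largest power of 2 dividing Nat.card G) and [K : [K,K]] < 4e²; or (S, N minus 1, induction to G) is coherent. -/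
theorem result {G : Type*} [Group G] [Fintype G] (K : Subgroup G) (hK1 : K ≠ ⊥) (hnil : Group.IsNilpotent K) (hTI : Cfsg.IsTISubset (K : Set G)) (hlt : K < Subgroup.normalizer (K : Set G)) (hC : ∀ k ∈ K, k ≠ 1 → Subgroup.centralizer ({k} : Set G) ≤ K) [Fintype ↥(Subgroup.normalizer (K : Set G))] : (Nat.card {χ : ↥(Subgroup.normalizer (K : Set G)) → ℂ // Cfsg.IsIrrCharacter ↥(Subgroup.normalizer (K : Set G)) χ ∧ ∃ k : ↥(Subgroup.normalizer (K : Set G)), (k : G) ∈ K ∧ χ k ≠ χ 1} = 1 ∧ Nat.card K = (K.subgroupOf (Subgroup.normalizer (K : Set G))).index + 1 ∧ ∃ p : ℕ, p.Prime ∧ Cfsg.IsElementaryAbelian p K) ∨ (Nat.card K = 2 ^ (Nat.card G).factorization 2 ∧ (⁅K, K⁆.subgroupOf K).index < 4 * (K.subgroupOf (Subgroup.normalizer (K : Set G))).index ^ 2) ∨ Cfsg.IsCoherent {χ : ↥(Subgroup.normalizer (K : Set G)) → ℂ | Cfsg.IsIrrCharacter ↥(Subgroup.normalizer (K : Set G)) χ ∧ ∃ k : ↥(Subgroup.normalizer (K : Set G)), (k : G) ∈ K ∧ χ k ≠ χ 1} {1}ᶜ (fun α => Cfsg.indFun (Subgroup.normalizer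 (K : Set G)) α) := by
  have a1 := cent1_le_subgroupOf (N := 𝐍(K)) fun k a b => inf_le_right.trans (hC k a b)
  have e := irr_set_eq a1 le_rfl (P := fun x => (x : G) ∈ K) fun _ => Iff.rfl
  rw [sInd_self_eq] at e
  haveI := nilpotent_subgroupOf hlt.le hnil
  rcases two_or_card (N := K.subgroupOf 𝐍(K)) (by
    rw [Ne, Subgroup.subgroupOf_eq_bot]; exact fun e => hK1 (e.eq_bot_of_le hlt.le)) a1 with h | ⟨h1, h2, h3⟩
  · right
    rcases feit_sibley hK1 hnil hTI hC with c | ⟨c1, c2, c3, c4⟩
    · right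
      rw [e]
      exact isCoherent_indFun c h
    have c5 := (hallIn_of_cent1_le (normalIn_normalizer K) fun k a b => inf_le_right.trans (hC k a b)).coprime
    haveI := Fact.mk Nat.prime_two
    have c6 : SylowIn 2 K ⊤ := (sylowIn_mk Nat.prime_two hlt.le c1 c2.not_two_dvd_nat).of_norm_le_top le_rfl
    refine Or.inl ⟨by simpa using c6.card_eq_pow Nat.prime_two, ?_⟩
    obtain ⟨k, hk⟩ := CA.IsPGroup.relIndex_eq_pow c1 ⁅K, K⁆
    have c7 := CA.IsPGroup.dvd_relIndex c1 (der_lt_nil hnil hK1).not_ge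
    have c8 : 1 < (K.subgroupOf 𝐍(K)).index := one_lt_relIndex hlt.not_ge
    change ⁅K, K⁆.relIndex K < _
    refine lt_of_le_of_ne (by omega) fun e => ?_
    rw [hk] at e
    have := ((Nat.coprime_two_right.mpr c2).pow_right k).eq_one_of_dvd
      (e ▸ (dvd_pow_self _ two_ne_zero).mul_left 4)
    omega
  · refine Or.inl ⟨(Nat.card_congr (Equiv.setCongr e)).trans (by simpa using h1),
      (card_subgroupOf_of_le hlt.le).symm.trans h2, ?_⟩
    obtain ⟨p, a, -, b⟩ := h3.elemAb inferInstance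
    exact ⟨p, a, by simpa [Subgroup.subgroupOf_map_subtype, inf_eq_left.mpr hlt.le] using b.map (Subgroup.subtype _)⟩

end Cfsg.Agent.S1534
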