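import Cfsg.Statements.S1535
import Cfsg.Agent.Lib.PF.Feit
import Cfsg.Agent.Lib.Loc.NPC

set_option autoImplicit false
open Cfsg

namespace Cfsg.Agent.S1535
open CA CA.Ch
open scoped ComplexConjugate ComplexOrder


/-- Let N be a finite group with a proper nontrivial normal subgroup H such that every element commuting with a non-identity element of H lies in H (N is a Frobenius group with kernel H); let e be the index of H and suppose Nat.card H ≠ e + 1. Let S be the set of irreducible characters χ of N with χ h ≠ χ 1 for some h ∈ H, and τ a linear isometry on the integer combinations of S vanishing at 1, with values virtual characters of a finite group G vanishing at 1. Then (S, N minus 1, τ) is coherent, or there is a prime p with Nat.card H a power of p, H non-abelian and [H : [H,H]] ≤ 4e² + 1. -/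
theorem result {N : Type*} [Group N] [Fintype N] {G : Type*} [Group G] [Fintype G] (H : Subgroup N) [H.Normal] (hH1 : H ≠ ⊥) (hH2 : H ≠ ⊤) (hC : ∀ h ∈ H, h ≠ 1 → Subgroup.centralizer ({h} : Set N) ≤ H) (he : Nat.card H ≠ H.index + 1) (τ : (N → ℂ) → (G → ℂ)) (hτ : Cfsg.IsLinearIsometryOn (Cfsg.zspanOn {χ : N → ℂ | Cfsg.IsIrrCharacter N χ ∧ ∃ h ∈ H, χ h ≠ χ 1} {1}ᶜ) τ) (hτ1 : ∀ α ∈ Cfsg.zspanOn {χ : N → ℂ | Cfsg.IsIrrCharacter N χ ∧ ∃ h ∈ H, χ h ≠ χ 1} {1}ᶜ, τ α 1 = 0) : Cfsg.IsCoherent {χ : N → ℂ | Cfsg.IsIrrCharacter N χ ∧ ∃ h ∈ H, χ h ≠ χ 1} {1}ᶜ τ ∨ ∃ p : ℕ, p.Prime ∧ (∃ m : ℕ, Nat.card H = p ^ m) ∧ ¬ IsMulCommutative H ∧ (⁅H, H⁆.subgroupOf H).index ≤ 4 * H.index ^ 2 + 1 := by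
  obtain ⟨E, hE⟩ := exists_frob_of_cent1_le (K := H) (M := ⊤) ⟨le_top, PG.normal_iff_top_le.1 inferInstance⟩
    hH1 hH2 fun x a b => inf_le_right.trans (hC x a b)
  have hn : Group.IsNilpotent H := hE.ker_nilpotent
  rw [irr_set_eq hC (Z := H) le_rfl (fun _ => Iff.rfl), sInd_self_eq] at hτ hτ1 ⊢
  obtain ⟨τ', h1, h2⟩ := exists_iso1 hτ hτ1
  by_cases hc : Coh (sInd H.subtype ⊤ ⊥ : Set (N → ℂ)) τ'
  · exact Or.inl (hc.isCoherent h2 ((two_or_card hH1 hC).resolve_right fun h => he h.2.1))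
  obtain ⟨b1, b2, p, hp, b3⟩ := feit_coh (by rwa [Subgroup.range_subtype]) (frob_subtype hC) h1 hc
  rw [Subgroup.range_subtype] at b1 b2 b3
  haveI := Fact.mk hp
  exact Or.inr ⟨p, hp, IsPGroup.iff_card.1 b3, fun h => b1 (abelian_iff_der.1 h), b2⟩

end Cfsg.Agent.S1535
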