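import Cfsg.Statements.S1536
import Cfsg.Agent.Lib.Char.Extend

set_option autoImplicit false
open Cfsg

namespace Cfsg.Agent.S1536
open CA CA.Ch
open scoped ComplexConjugate ComplexOrder


/-- Let H be a normal subgroup of the finite group M whose order is coprime to its index. For x ∈ M: some non-principal irreducible character of H is unchanged under h ↦ θ(x h x⁻¹) if and only if some non-identity element of H commutes with x. -/
theorem result {M : Type*} [Group M] [Finite M] (H : Subgroup M) [hN : H.Normal] (hHall : Nat.Coprime (Nat.card H) H.index) (x : M) : (∃ θ : H → ℂ, Cfsg.IsIrrCharacter H θ ∧ θ ≠ (fun _ => 1) ∧ (fun h : H => θ ⟨x * h * x⁻¹, hN.conj_mem h h.2 x⟩) = θ) ↔ ∃ h ∈ H, h ≠ 1 ∧ x * h = h * x := by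
  rw [show (fun _ => 1 : H → ℂ) = 1 from rfl]
  simp only [← cfj_subtype, cfj_eq]
  constructor
  · rintro ⟨θ, hθ, h1, h2⟩
    by_contra hc
    push Not at hc
    have hx : (orderOf x).Coprime (Nat.card H) := by
      have h3 : x ^ H.index = 1 := by
        by_contra h
        exact hc _ (H.pow_index_mem x) h (Commute.self_pow x _)
      exact Nat.Coprime.coprime_dvd_left (orderOf_dvd_of_pow_eq_one h3) hHall.symm
    refine h1 (IsIrr.eq_one_of_fixed hθ _ (fun y hy => ?_) h2)
    obtain ⟨h, hh⟩ := isConj_iff.mp hy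
    have hh' : (h : M) * (x * y * x⁻¹) * (h : M)⁻¹ = y := by
      have := congrArg H.subtype hh
      rw [map_mul, map_mul, cAut_spec] at this
      simpa using this
    obtain ⟨z, hz, h3⟩ := exists_fixed_in_class H (fun k hk => hN.conj_mem k hk x) hx (y := y) h.2
      (by calc (h : M) * x * y = ((h : M) * (x * y * x⁻¹) * (h : M)⁻¹) * (h * x) := by group
        _ = _ := by rw [hh'])
    by_contra hy1
    exact hc _ (hN.conj_mem _ y.2 z) (by simpa using hy1) h3
  · rintro ⟨h, hh, h1, h2⟩
    refine exists_fixed_irr _ (h := ⟨h, hh⟩) (by simpa using h1) ?_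
    rw [show cAut H.subtype x ⟨h, hh⟩ = ⟨h, hh⟩ from Subtype.ext
      ((cAut_spec H.subtype x ⟨h, hh⟩).trans (by simp [h2]))]

end Cfsg.Agent.S1536
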