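import Cfsg.Statements.S1546
import Mathlib.Tactic

set_option autoImplicit false
open Cfsg

namespace Cfsg.Agent.S1546


/-- Let p and q be odd primes and N = (p ^ q − 1) / (p − 1) = 1 + p + ⋯ + p^(q−1). Then N is odd; if p ≡ 1 (mod q) then q ∣ N; and if p is not ≡ 1 (mod q) then N is coprime to p − 1 and every divisor of N is ≡ 1 (mod q). -/
theorem result (p q : ℕ) (hp : p.Prime) (hq : q.Prime) (hp2 : p ≠ 2) (hq2 : q ≠ 2) : Odd ((p ^ q - 1) / (p - 1)) ∧ (p % q = 1 → q ∣ (p ^ q - 1) / (p - 1)) ∧ (p % q ≠ 1 → Nat.Coprime ((p ^ q - 1) / (p - 1)) (p - 1) ∧ ∀ x : ℕ, x ∣ (p ^ q - 1) / (p - 1) → x % q = 1) := by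
  have hp1 : 1 < p := hp.one_lt
  have hN : (p ^ q - 1) / (p - 1) = ∑ i ∈ Finset.range q, p ^ i := (Nat.geomSum_eq hp1 q).symm
  have hpo : Odd p := hp.odd_of_ne_two hp2
  have hqo : Odd q := hq.odd_of_ne_two hq2
  have hmod : ∀ m : ℕ, p ≡ 1 [MOD m] → ∑ i ∈ Finset.range q, p ^ i ≡ q [MOD m] := by
    intro m hm
    have : ∀ n, ∑ i ∈ Finset.range n, p ^ i ≡ n [MOD m] := by
      intro n
      induction n with
      | zero => simp [Nat.ModEq]
      | succ n ih =>
        rw [Finset.sum_range_succ]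
        exact ih.add (by simpa using hm.pow n)
    exact this q
  rw [hN]
  have hprime : p % q ≠ 1 → ∀ r : ℕ, r.Prime → r ∣ ∑ i ∈ Finset.range q, p ^ i →
      ¬ r ∣ p - 1 ∧ r % q = 1 := by
    intro hpq r hr hrN
    have := Fact.mk hr
    have h1 : ¬ r ∣ p - 1 := by
      intro h
      have h2 := hmod r ((Nat.modEq_iff_dvd' hp1.le).mpr h).symm
      have h3 : r ∣ q := (Nat.modEq_zero_iff_dvd.mp
        (h2.symm.trans (Nat.modEq_zero_iff_dvd.mpr hrN)))
      obtain rfl := (Nat.prime_dvd_prime_iff_eq hr hq).mp h3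
      apply hpq
      have := ((Nat.modEq_iff_dvd' hp1.le).mpr h).symm
      rwa [Nat.ModEq, Nat.mod_eq_of_lt hr.one_lt] at this
    refine ⟨h1, ?_⟩
    have h2 : (p : ZMod r) ^ q = 1 := by
      have h3 : ((∑ i ∈ Finset.range q, p ^ i : ℕ) : ZMod r) = 0 :=
        (ZMod.natCast_eq_zero_iff _ _).mpr hrN
      push_cast at h3
      have := mul_geom_sum (p : ZMod r) q
      rw [h3, mul_zero] at this
      exact (sub_eq_zero.mp this.symm)
    have h3 : (p : ZMod r) ≠ 1 := by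
      intro h
      apply h1
      have : (p : ZMod r) = ((1 : ℕ) : ZMod r) := by simpa using h
      exact (Nat.modEq_iff_dvd' hp1.le).mp ((ZMod.natCast_eq_natCast_iff _ _ _).mp this).symm
    have := Fact.mk hq
    have h4 : orderOf (p : ZMod r) = q := orderOf_eq_prime h2 h3
    have h5 : (p : ZMod r) ≠ 0 := by
      intro h; rw [h, zero_pow hq.ne_zero] at h2; exact zero_ne_one h2
    have h6 : q ∣ r - 1 := h4 ▸ ZMod.orderOf_dvd_card_sub_one h5
    have := ((Nat.modEq_iff_dvd' hr.one_lt.le).mpr h6).symm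
    rwa [Nat.ModEq, Nat.mod_eq_of_lt hq.one_lt] at this
  refine ⟨?_, fun h => ?_, fun h => ⟨?_, fun x hx => ?_⟩⟩
  · have := hmod 2 (by rw [Nat.ModEq, Nat.odd_iff.mp hpo])
    rw [Nat.odd_iff, this, Nat.odd_iff.mp hqo]
  · have := hmod q (by rw [Nat.ModEq, h, Nat.mod_eq_of_lt hq.one_lt])
    exact Nat.modEq_zero_iff_dvd.mp (this.trans (by simp [Nat.ModEq]))
  · exact Nat.coprime_of_dvd fun r hr h1 => (hprime h r hr h1).1
  · have hne : ∑ i ∈ Finset.range q, p ^ i ≠ 0 := by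
      have := hmod 2 (by rw [Nat.ModEq, Nat.odd_iff.mp hpo])
      intro h0
      rw [h0, Nat.ModEq, Nat.odd_iff.mp hqo] at this
      simp at this
    induction x using Nat.recOnMul with
    | zero => exact absurd (Nat.eq_zero_of_zero_dvd hx) hne
    | one => exact Nat.mod_eq_of_lt hq.one_lt
    | prime r hr => exact (hprime h r hr hx).2
    | mul a b ha hb =>
      rw [Nat.mul_mod, ha (Dvd.dvd.trans (Dvd.intro _ rfl) hx), hb (Dvd.dvd.trans (Dvd.intro_left _ rfl) hx)]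
      exact Nat.mod_eq_of_lt hq.one_lt

end Cfsg.Agent.S1546
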