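import Cfsg.Statements.S5345
import Cfsg.Agent.Lib.ThreeT.Basic

set_option autoImplicit false
open Cfsg

namespace Cfsg.Agent.S5345

/-- Let D be a conjugation-invariant generating set of 3-transpositions of a finite group G and T a Sylow 2-subgroup of G. Then the members of D lying in T generate an abelian subgroup, and their number is the width of D (the largest number of pairwise commuting members of D). -/
theorem result {G : Type*} [Group G] [Finite G] {D : Set G} (hD : Cfsg.IsThreeTranspositionGroup D) (T : Sylow 2 G) : IsMulCommutative (Subgroup.closure {d : G | d ∈ D ∧ d ∈ T}) ∧ {d : G | d ∈ D ∧ d ∈ T}.ncard = Cfsg.commutingWidth D := by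
  have : Fact (Nat.Prime 2) := ⟨Nat.prime_two⟩
  have hc : ∀ a ∈ {d : G | d ∈ D ∧ d ∈ T}, ∀ b ∈ {d : G | d ∈ D ∧ d ∈ T}, Commute a b := by
    rintro a ⟨ha, haT⟩ b ⟨hb, hbT⟩
    obtain ⟨k, hk⟩ := CA.Core.exists_pow_of_mem T.isPGroup' (T.1.mul_mem haT hbT)
    exact CA.TT.commute_of_two_pow hD.1 ha hb hk
  refine ⟨Subgroup.isMulCommutative_closure (fun x hx y hy => hc x hx y hy), le_antisymm ?_ ?_⟩
  · exact CA.TT.ncard_le_width (fun x hx => hx.1) hc
  · apply CA.TT.width_le
    intro E h1 h2 h3
    have hE := CA.TT.isPGroup_closure_of_commute (fun a ha => CA.TT.sq hD.1 (h1 ha)) h3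
    obtain ⟨k, hk⟩ := CA.Core.exists_cj_le_sylow T hE
    refine Set.ncard_le_ncard_of_injOn (fun x => k * x * k⁻¹) ?_ ?_ (Set.toFinite _)
    · intro x hx
      exact ⟨hD.2.1 k x (h1 hx), hk (CA.conj_mem_cj.2 (Subgroup.subset_closure hx))⟩
    · intro x _ y _ h
      simpa using h

end Cfsg.Agent.S5345
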