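import Cfsg.Statements.S5346
import Cfsg.Agent.Lib.ThreeT.Width

set_option autoImplicit false
open Cfsg

namespace Cfsg.Agent.S5346

/-- Let D be a conjugation-invariant generating set of 3-transpositions of a finite group G and d a member of D. Then D has width 1 (no two different members of D commute) if and only if G is the product of the subgroup generated by d with the largest normal 3-subgroup of G. -/
theorem result {G : Type*} [Group G] [Finite G] {D : Set G} (hD : Cfsg.IsThreeTranspositionGroup D) {d : G} (hd : d ∈ D) : Cfsg.commutingWidth D = 1 ↔ Subgroup.zpowers d ⊔ Cfsg.pCore 3 G = ⊤ := by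
  rw [CA.TT.width_eq_one_iff hd]
  constructor
  · intro hw
    rw [eq_top_iff, ← hD.2.2, CA.TT.closure_eq_zpowers_sup (fun a ha => CA.TT.sq hD.1 ha) hd]
    exact sup_le_sup_left (CA.TT.prods_le_pCore_three hD hw) _
  · intro h a ha b hb hab
    have hd2 := CA.TT.sq hD.1 hd
    have key : ∀ x ∈ D, d * x ∈ Cfsg.pCore 3 G := by
      intro x hx
      refine (CA.TT.mem_zpowers_sup_invol (N := Cfsg.pCore 3 G) hd2
        (by rw [Subgroup.normalizer_eq_top]; trivial) (h ▸ Subgroup.mem_top x)).resolve_left fun h => ?_
      obtain ⟨k, hk⟩ := CA.Core.exists_pow_of_mem_pCore h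
      exact CA.TT.ne_one hD.1 hx (CA.Inv.eq_one_of_pow_coprime (m := 2)
        (by rw [pow_two]; exact CA.TT.sq hD.1 hx) hk (Nat.Coprime.pow_right _ (by norm_num)))
    have : a * b ∈ Cfsg.pCore 3 G := by
      have := mul_mem (inv_mem (key a ha)) (key b hb)
      rwa [mul_inv_rev, CA.TT.inv_eq hD.1 ha, mul_assoc, inv_mul_cancel_left] at this
    obtain ⟨k, hk⟩ := CA.Core.exists_pow_of_mem_pCore this
    exact CA.TT.not_commute_of_three_pow hD.1 ha hb hk hab

end Cfsg.Agent.S5346
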