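import Cfsg.Statements.S5347
import Cfsg.Agent.Lib.FStar.Invol

set_option autoImplicit false
open Cfsg

namespace Cfsg.Agent.S5347

/-- Let D be a conjugation-invariant generating set of 3-transpositions of a finite group G, p a prime bigger than 3, and P a p-subgroup of G. If a member d of D normalizes P then d centralizes P. -/
theorem result {G : Type*} [Group G] [Finite G] {D : Set G} (hD : Cfsg.IsThreeTranspositionGroup D) {p : ℕ} (hp : p.Prime) (hp3 : 3 < p) (P : Subgroup G) (hP : IsPGroup p P) {d : G} (hd : d ∈ D) (hnorm : d ∈ Subgroup.normalizer (P : Set G)) : ∀ x ∈ P, Commute d x := by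
  intro x hx
  have hd2 : d * d = 1 := CA.Inv.mul_self_of_orderOf (hD.1.1 d hd)
  have he : x * d * x⁻¹ ∈ D := hD.2.1 x d hd
  have hmem : d * (x * d * x⁻¹) ∈ P := by
    have h1 : d * x * d⁻¹ ∈ P := (Subgroup.mem_normalizer_iff.1 hnorm x).1 hx
    rw [CA.Inv.inv_eq_self hd2] at h1
    have := P.mul_mem h1 (P.inv_mem hx)
    simpa [mul_assoc] using this
  obtain ⟨k, hk⟩ := hP ⟨_, hmem⟩
  have hk' : (d * (x * d * x⁻¹)) ^ p ^ k = 1 := by simpa using congrArg Subtype.val hk
  have h1 : d * (x * d * x⁻¹) = 1 := by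
    rcases hD.1.2 d hd _ he with h | h
    · refine CA.Inv.eq_one_of_pow_coprime h hk' (Nat.Coprime.pow_right _ ?_)
      exact (Nat.coprime_primes Nat.prime_two hp).2 (by omega)
    · refine CA.Inv.eq_one_of_pow_coprime h hk' (Nat.Coprime.pow_right _ ?_)
      exact (Nat.coprime_primes Nat.prime_three hp).2 (by omega)
  have h2 : x * d * x⁻¹ = d := by
    rw [← CA.Inv.mul_mul_cancel hd2 (x * d * x⁻¹), h1, mul_one]
  show d * x = x * d
  calc d * x = (x * d * x⁻¹) * x := by rw [h2]
    _ = x * d := by group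

end Cfsg.Agent.S5347
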