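import Cfsg.Statements.S5348
import Cfsg.Agent.Lib.FStar.Invol

set_option autoImplicit false
open Cfsg

namespace Cfsg.Agent.S5348

/-- Let D be a conjugation-invariant generating set of 3-transpositions of a finite group G and d a member of D. Let V be the set of members of D commuting with exactly the same members of D as d, and W the set of members w of D such that the members of D other than w commuting with w are precisely the members of D other than d commuting with d. Then V = {d} or W = {d}. -/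
theorem result {G : Type*} [Group G] [Finite G] {D : Set G} (hD : Cfsg.IsThreeTranspositionGroup D) {d : G} (hd : d ∈ D) : {v : G | v ∈ D ∧ ∀ e ∈ D, Commute v e ↔ Commute d e} = {d} ∨ {w : G | w ∈ D ∧ {y : G | y ∈ D ∧ y ≠ d ∧ Commute d y} = {y : G | y ∈ D ∧ y ≠ w ∧ Commute w y}} = {d} := by
  by_contra hcon
  rw [not_or] at hcon
  obtain ⟨h1, h2⟩ := hcon
  have hv : ∃ v, v ∈ D ∧ (∀ e ∈ D, Commute v e ↔ Commute d e) ∧ v ≠ d := by
    by_contra h
    apply h1
    ext v
    simp only [Set.mem_setOf_eq, Set.mem_singleton_iff]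
    constructor
    · rintro ⟨hv, hv'⟩
      by_contra hne
      exact h ⟨v, hv, hv', hne⟩
    · rintro rfl
      exact ⟨hd, fun _ _ => Iff.rfl⟩
  have hw : ∃ w, w ∈ D ∧ {y : G | y ∈ D ∧ y ≠ d ∧ Commute d y} = {y : G | y ∈ D ∧ y ≠ w ∧ Commute w y} ∧ w ≠ d := by
    by_contra h
    apply h2
    ext w
    simp only [Set.mem_setOf_eq, Set.mem_singleton_iff]
    constructor
    · rintro ⟨hv, hv'⟩
      by_contra hne
      exact h ⟨w, hv, hv', hne⟩
    · rintro rfl
      exact ⟨hd, rfl⟩
  obtain ⟨v, hvD, hv, hvd⟩ := hv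
  obtain ⟨w, hwD, hw, hwd⟩ := hw
  have a1 : Commute v d := (hv d hd).2 (Commute.refl d)
  have a2 : v ∈ {y : G | y ∈ D ∧ y ≠ d ∧ Commute d y} := ⟨hvD, hvd, a1.symm⟩
  rw [hw] at a2
  have a3 : Commute d w := (hv w hwD).1 a2.2.2.symm
  have a4 : w ∈ {y : G | y ∈ D ∧ y ≠ d ∧ Commute d y} := ⟨hwD, hwd, a3⟩
  rw [hw] at a4
  exact a4.2.1 rfl

end Cfsg.Agent.S5348
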