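import Cfsg.Statements.S5349
import Cfsg.Agent.Lib.ThreeT.VW

set_option autoImplicit false
open Cfsg

namespace Cfsg.Agent.S5349

/-- Let D be a conjugacy class of 3-transpositions generating the finite group G, with at least two members, and d a member of D. Then the set of members of D commuting with exactly the same members of D as d coincides with the set of members of D lying in the coset of d modulo the largest normal 2-subgroup of G, and also with the orbit of d under conjugation by that normal 2-subgroup. -/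
theorem result {G : Type*} [Group G] [Finite G] {D : Set G} (hD : Cfsg.IsThreeTranspositionClass D) (hD2 : ∃ a ∈ D, ∃ b ∈ D, a ≠ b) {d : G} (hd : d ∈ D) : {v : G | v ∈ D ∧ ∀ e ∈ D, Commute v e ↔ Commute d e} = {v : G | v ∈ D ∧ d⁻¹ * v ∈ Cfsg.pCore 2 G} ∧ {v : G | v ∈ D ∧ ∀ e ∈ D, Commute v e ↔ Commute d e} = {v : G | ∃ g ∈ Cfsg.pCore 2 G, v = g * d * g⁻¹} := by
  have hG := CA.TT.class_group hD
  constructor
  · ext v
    simp only [Set.mem_ofPred_eq, and_congr_right_iff]
    intro hv
    rw [CA.TT.inv_eq hD.1 hd, ← CA.TT.tau_iff hG hd hv]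
    exact ⟨fun h => CA.TT.Tau.symm h, fun h => h.symm⟩
  · ext v
    simp only [Set.mem_ofPred_eq]
    constructor
    · rintro ⟨hv, h⟩
      exact CA.TT.Tau.exists_conj hD hD2 (CA.TT.Tau.symm h) hd hv
    · rintro ⟨g, hg, rfl⟩
      exact ⟨hG.2.1 g d hd, (CA.TT.tau_of_mul_mem_pCore hD.1 hd (hG.2.1 g d hd)
        (CA.TT.mul_conj_mem (CA.TT.sq hD.1 hd) hg)).symm⟩

end Cfsg.Agent.S5349
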