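import Cfsg.Statements.S5354
import Cfsg.Agent.Lib.ThreeT.Prim

set_option autoImplicit false
open Cfsg

namespace Cfsg.Agent.S5354

/-- Let D be a conjugation-invariant generating set of 3-transpositions of the finite group G on which G acts primitively by conjugation, and suppose two different members of D commute (width at least 2). Then G has a quasisimple normal subgroup L of index at most 2 with the generalized Fitting subgroup of G equal to L times the centre, the commuting graph of D is connected, and for d in D the subgroup generated by the members of D commuting with d is a maximal D-subgroup: it is proper, and every subgroup generated by members of D that contains it is either it or G. -/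
theorem result {G : Type*} [Group G] [Finite G] {D : Set G} (hD : Cfsg.IsThreeTranspositionGroup D) (hprim : Cfsg.IsPrimitiveUnderConj D) (hw : ∃ a ∈ D, ∃ b ∈ D, a ≠ b ∧ Commute a b) : (∃ L : Subgroup G, L.Normal ∧ Cfsg.IsQuasisimple L ∧ L.index ≤ 2 ∧ Cfsg.generalizedFittingSubgroup G = L ⊔ Subgroup.center G) ∧ (Cfsg.commutingGraph D).Connected ∧ ∀ d ∈ D, Subgroup.closure {y : G | y ∈ D ∧ Commute d y} ≠ ⊤ ∧ ∀ H : Subgroup G, Cfsg.IsDSubgroup D H → Subgroup.closure {y : G | y ∈ D ∧ Commute d y} ≤ H → H = Subgroup.closure {y : G | y ∈ D ∧ Commute d y} ∨ H = ⊤ := by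
  have hC := CA.TT.class_of_primitive hD hprim
  have h2 := CA.TT.two_le_center_of_primitive hD hprim
  have h3 := CA.TT.three_le_center_of_primitive hD hprim hw
  have hc := CA.TT.connected_of_primitive hD hprim hw
  have hq := CA.TT.layer_qs hC (CA.TT.layer_ne_bot hC hprim.2.1 h2 h3)
  refine ⟨⟨layer G, inferInstance, CA.FStar.isQuasisimple_iff.2 hq,
    CA.TT.index_le_two hD fun a ha b hb => CA.TT.mul_mem_of_connected hC hq hc ha hb, ?_⟩, hc,
    fun d hd => ⟨fun h => ?_, fun H hH hle => CA.TT.perp_maximal hD hprim hc hd hH hle⟩⟩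
  · rw [← CA.TT.fit_eq_center hC h2 h3]; rfl
  · obtain ⟨c, -, h4⟩ := CA.TT.exists_not_commute hC hprim.2.1 hd
    have : Subgroup.closure {y : G | y ∈ D ∧ Commute d y} ≤ Subgroup.centralizer {d} :=
      (Subgroup.closure_le _).2 fun y hy => CA.mem_cent1_iff.2 hy.2.symm
    exact h4 (CA.mem_cent1_iff.1 (this (h ▸ Subgroup.mem_top c))).symm

end Cfsg.Agent.S5354
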