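import Cfsg.Statements.S5355
import Cfsg.Agent.Lib.ThreeT.Prim
import Cfsg.Agent.Lib.ThreeT.Sym

set_option autoImplicit false
open Cfsg

namespace Cfsg.Agent.S5355

/-- Let D be a conjugacy class of 3-transpositions generating the finite group G, with at least two members, and d a member of D. Suppose that every member of D commuting with d commutes with exactly the same members of D as d does, and that exactly one member of D other than d commutes with d. Then G is isomorphic to the symmetric group of degree 4. -/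
theorem result {G : Type*} [Group G] [Finite G] {D : Set G} (hD : Cfsg.IsThreeTranspositionClass D) (hD2 : ∃ a ∈ D, ∃ b ∈ D, a ≠ b) {d : G} (hd : d ∈ D) (hV : {y : G | y ∈ D ∧ Commute d y} = {v : G | v ∈ D ∧ ∀ e ∈ D, Commute v e ↔ Commute d e}) (hm : {y : G | y ∈ D ∧ Commute d y}.ncard = 2) : Nonempty (G ≃* Equiv.Perm (Fin 4)) := by
  have hG := CA.TT.class_group hD
  have sq := fun {x} (hx : x ∈ D) => CA.TT.sq hD.1 hx
  -- every member of `D` has a unique partner
  have hd' : ∃ d' ∈ D, d' ≠ d ∧ CA.TT.Tau D d d' ∧ ∀ y ∈ D, Commute d y → y = d ∨ y = d' := by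
    obtain ⟨x, y, hxy, h⟩ := Set.ncard_eq_two.1 hm
    have h1 : d ∈ {y : G | y ∈ D ∧ Commute d y} := ⟨hd, Commute.refl d⟩
    have key : ∀ y, y ≠ d → {y : G | y ∈ D ∧ Commute d y} = {d, y} →
        ∃ d' ∈ D, d' ≠ d ∧ CA.TT.Tau D d d' ∧ ∀ y ∈ D, Commute d y → y = d ∨ y = d' := by
      intro y hy h
      have h2 : y ∈ {y : G | y ∈ D ∧ Commute d y} := h ▸ by simp
      exact ⟨y, h2.1, hy, CA.TT.Tau.symm (hV.le h2).2, fun z hz hc => h.le ⟨hz, hc⟩⟩
    rcases h.le h1 with rfl | rfl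
    · exact key y hxy.symm h
    · exact key x hxy (h.trans (Set.pair_comm _ _))
  have part : ∀ a ∈ D, ∃ a' ∈ D, a' ≠ a ∧ CA.TT.Tau D a a' ∧ ∀ y ∈ D, Commute a y → y = a ∨ y = a' := by
    intro a ha
    obtain ⟨d', h1, h2, h3, h4⟩ := hd'
    obtain ⟨g, rfl⟩ := CA.TT.class_exists_conj hD hd ha
    refine ⟨_, hG.2.1 g d' h1, by simpa using h2, h3.conj hG.2.1 g, fun y hy hc => ?_⟩
    rcases h4 (g⁻¹ * y * g⁻¹⁻¹) (hG.2.1 _ y hy) (by
      rw [← CA.TT.commute_conj_iff g]; simpa [mul_assoc] using hc) with h | h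
    · left; rw [← h]; group
    · right; rw [← h]; group
  -- the product of two partners swaps all other pairs
  have swap : ∀ a ∈ D, ∀ a' ∈ D, a' ≠ a → CA.TT.Tau D a a' → ∀ y ∈ D, ¬ Commute a y → ∀ y' ∈ D, y' ≠ y →
      (∀ z ∈ D, Commute y z → z = y ∨ z = y') → a * a' * y * (a * a')⁻¹ = y' := by
    intro a ha a' ha' h1 h2 y hy h3 y' hy' h4 h5
    have h6 := h2.conj_prod hG ha ha' hy
    refine (h5 _ (hG.2.1 _ y hy) (h6.commute (hG.2.1 _ y hy))).resolve_left fun h7 => h1 ?_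
    have h8 : a' * y * a' = a * y * a := by
      rw [mul_inv_rev, CA.TT.inv_eq hD.1 ha, CA.TT.inv_eq hD.1 ha'] at h7
      conv_rhs => rw [← h7]
      simp only [mul_assoc, CA.Inv.mul_mul_cancel (sq ha), sq ha, mul_one]
    rw [CA.TT.braid hD.1 ha hy h3, CA.TT.braid hD.1 ha' hy fun h => h3 ((h2 y hy).2 h)] at h8
    simpa using h8
  obtain ⟨d', hd1, hd2, hd3, hd4⟩ := part d hd
  obtain ⟨c, hc, hdc⟩ := CA.TT.exists_not_commute hD hD2 hd
  have hdc' : ¬ Commute d' c := fun h => hdc ((hd3 c hc).2 h)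
  obtain ⟨φ, e1, e2, e3⟩ := CA.Rw.exists_hom_s4 (sq hd) (sq hc) (sq hd1) (CA.TT.braid hD.1 hd hc hdc)
    (CA.TT.braid hD.1 hc hd1 fun h => hdc' h.symm) (hd3.commute hd1)
  have hinj := CA.Rw.injective_s4 φ (by rw [e1, e3]; exact hd2.symm)
  refine ⟨(MulEquiv.ofBijective φ ⟨hinj, ?_⟩).symm⟩
  rw [← MonoidHom.range_eq_top, eq_top_iff, ← hD.2.2, Subgroup.closure_le]
  intro y hy
  by_contra hy1
  have tr : ∀ i j : Fin 4, i ≠ j → φ (Equiv.swap i j) ∈ D := by
    intro i j hij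
    obtain ⟨σ, hσ⟩ : ∃ σ : Equiv.Perm (Fin 4), σ * Equiv.swap 0 1 * σ⁻¹ = Equiv.swap i j := by
      revert i j; decide +kernel
    rw [← hσ, map_mul, map_mul, map_inv, e1]
    exact hG.2.1 _ d hd
  obtain ⟨y', h1, h2, h3, h4⟩ := part y hy
  have key : ∀ i j k l : Fin 4, i ≠ j → k ≠ l → Equiv.swap k l ≠ Equiv.swap i j →
      Commute (Equiv.swap i j) (Equiv.swap k l) →
      (φ (Equiv.swap i j * Equiv.swap k l) * y * (φ (Equiv.swap i j * Equiv.swap k l))⁻¹ = y' ∧
      φ (Equiv.swap i j * Equiv.swap k l) * y' * (φ (Equiv.swap i j * Equiv.swap k l))⁻¹ = y) := by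
    intro i j k l hij hkl h5 h6
    obtain ⟨a', h7, h8, h9, h10⟩ := part _ (tr i j hij)
    have h11 := (h10 _ (tr k l hkl) (h6.map φ)).resolve_left (fun h => h5 (hinj h))
    have h12 : ¬ Commute (φ (Equiv.swap i j)) y := fun h => by
      rcases h10 y hy h with h | h
      · exact hy1 ⟨_, h.symm⟩
      · exact hy1 ⟨_, h11.trans h.symm⟩
    rw [map_mul, h11]
    refine ⟨swap _ (tr i j hij) a' h7 h8 h9 y hy h12 y' h1 h2 h4,
      swap _ (tr i j hij) a' h7 h8 h9 y' h1 (fun h => h12 ((h3 _ (tr i j hij)).2 h.symm).symm) y hy h2.symm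
        fun z hz h => (h4 z hz ((h3 z hz).2 h)).symm⟩
  have k1 := key 0 1 2 3 (by decide) (by decide) (by decide) (by unfold Commute SemiconjBy; decide)
  have k2 := key 0 2 1 3 (by decide) (by decide) (by decide) (by unfold Commute SemiconjBy; decide)
  have k3 := key 0 3 1 2 (by decide) (by decide) (by decide) (by unfold Commute SemiconjBy; decide)
  have e : Equiv.swap (0 : Fin 4) 3 * Equiv.swap 1 2 =
      (Equiv.swap 0 1 * Equiv.swap 2 3) * (Equiv.swap 0 2 * Equiv.swap 1 3) := by decide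
  apply h2
  rw [← k3.1, e, map_mul]
  conv_rhs => rw [← k1.2, ← k2.1]
  group

end Cfsg.Agent.S5355
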