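import Cfsg.Statements.S5356
import Cfsg.Agent.Lib.ThreeT.Prim

set_option autoImplicit false
open Cfsg

namespace Cfsg.Agent.S5356

open Subgroup CA CA.TT

/-- Let D be a conjugacy class of 3-transpositions generating the finite group G, with at least two members, and d a member of D such that every member of D commuting with d commutes with exactly the same members of D as d. Then there is a Sylow 3-subgroup P of G normalized by d such that G is generated by d, P and the largest normal 2-subgroup of G. -/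
theorem result {G : Type*} [Group G] [Finite G] {D : Set G} (hD : Cfsg.IsThreeTranspositionClass D) (hD2 : ∃ a ∈ D, ∃ b ∈ D, a ≠ b) {d : G} (hd : d ∈ D) (hV : {y : G | y ∈ D ∧ Commute d y} = {v : G | v ∈ D ∧ ∀ e ∈ D, Commute v e ↔ Commute d e}) : ∃ P : Sylow 3 G, d ∈ Subgroup.normalizer (P : Set G) ∧ Subgroup.zpowers d ⊔ (P : Subgroup G) ⊔ Cfsg.pCore 2 G = ⊤ := by
  have hG := class_group hD
  have d2 := sq hD.1 hd
  have tau : ∀ a ∈ D, ∀ b ∈ D, Commute a b → a * b ∈ pCore 2 G := by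
    intro a ha b hb h
    obtain ⟨g, rfl⟩ := class_exists_conj hD hd ha
    have h1 : Tau D d (g⁻¹ * b * g⁻¹⁻¹) := Tau.symm (hV.le ⟨hG.2.1 _ b hb, by
      rw [← commute_conj_iff g]; simpa [mul_assoc] using h⟩).2
    have := h1.conj hG.2.1 g
    rw [show g * (g⁻¹ * b * g⁻¹⁻¹) * g⁻¹ = b by group] at this
    exact this.mul_mem_pCore hG ha hb
  obtain ⟨c, hc, hdc⟩ := exists_not_commute hD hD2 hd
  obtain ⟨P, h1, ⟨h2, h3⟩, h4⟩ := exists_maximal_ge (fun P : Subgroup G => IsPGroup 3 P ∧ d ∈ 𝐍(P))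
    (A := zpowers (d * c)) ⟨Core.isPGroup_zpowers (k := 1) (by simpa using cube hD.1 hd hc hdc), by
      rw [mem_normalizer_iff_cj, cj_zpowers, Inv.conj_mul_left d2 (sq hD.1 hc), zpowers_inv]⟩
  have s1 : ∀ y ∈ 𝐍(P), Commute d (y * d * y⁻¹) → d = y * d * y⁻¹ := by
    intro y hy h5
    have he := hG.2.1 y d hd
    have h6 : y * d * y⁻¹ ∈ 𝐍(P) := mul_mem (mul_mem hy h3) (inv_mem hy)
    generalize y * d * y⁻¹ = e at h5 he h6
    by_contra hne
    have h7 : pCore 2 G ⊓ 𝐍(P) ≤ 𝐂(P) := by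
      refine cents_of_norms_of_disjoint (norms_inf (by rw [normalizer_eq_top]; exact le_top)
        (norms_self_of_le le_normalizer)) inf_le_right ?_
      exact disjoint_iff.1 (IsPGroup.disjoint_of_ne 2 3 (by norm_num) _ _
        ((Core.pCore_isPGroup 2 G).to_le inf_le_left) h2)
    have h8 : Commute (d * e) (d * c) :=
      (mem_cent_iff.1 (h7 ⟨tau d hd e he h5, mul_mem h3 h6⟩) _ (h1 (mem_zpowers _))).symm
    refine hdc ((Inv.commute_iff_sq d2 (sq hD.1 hc)).2 (sq_of_commute h8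
      ((Inv.commute_iff_sq d2 (sq hD.1 he)).1 h5)
      (fun h => hne (mul_left_cancel (d2.trans h.symm))) ?_ (hD.1.2 d hd c hc)))
    rw [h5.eq, mul_assoc, Inv.mul_mul_cancel d2]
    exact hD.1.2 e he c hc
  have oD : ∀ x ∈ orb 𝐍(P) d, x ∈ D := by rintro _ ⟨h, -, rfl⟩; exact hG.2.1 h d hd
  have oN : ∀ x ∈ orb 𝐍(P) d, x ∈ 𝐍(P) := by
    rintro _ ⟨h, hh, rfl⟩; exact mul_mem (mul_mem hh h3) (inv_mem hh)
  have oc : ∀ h ∈ 𝐍(P), ∀ x ∈ orb 𝐍(P) d, h * x * h⁻¹ ∈ orb 𝐍(P) d := by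
    rintro h hh _ ⟨k, hk, rfl⟩
    exact ⟨h * k, mul_mem hh hk, by group⟩
  have s2 : IsPGroup 3 (closure (prods (orb 𝐍(P) d))) := by
    refine isPGroup_three_prods (fun a ha => sq hD.1 (oD a ha)) (fun a ha b hb => ?_) ?_
    · simpa [inv_eq hD.1 (oD a ha)] using oc a (oN a ha) b hb
    · intro a ha b hb
      refine (commute_or_braid hD.1 (oD a ha) (oD b hb)).elim (fun h => ?_) id
      obtain ⟨x, hx, rfl⟩ := ha
      obtain ⟨y, hy, rfl⟩ := hb
      have := s1 (x⁻¹ * y) (mul_mem (inv_mem hx) hy) (by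
        rw [← commute_conj_iff x]; simpa [mul_assoc] using h)
      have h5 : y * d * y⁻¹ = x * d * x⁻¹ := by
        conv_rhs => rw [this]
        group
      rw [h5]
  have s3 : closure (prods (orb 𝐍(P) d)) ≤ P := by
    have h5 : 𝐍(P) ≤ 𝐍(closure (prods (orb 𝐍(P) d))) := norms_closure fun g hg => prods_conj (oc g hg)
    refine le_sup_right.trans (h4 _ ⟨Core.isPGroup_sup_of_norm h2 s2
      (((closure_le _).2 prods_subset).trans ((closure_le _).2 oN)), ?_⟩ le_sup_left).le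
    exact norms_sup le_rfl h5 h3
  have s4 : ⁅𝐍(P), zpowers d⁆ ≤ P := (comm_le_prods d2).trans s3
  let S : Sylow 3 G := ⟨P, h2, fun {Q} hQ hPQ => by
    by_contra hne
    obtain ⟨x, h5, h6, h7⟩ := Core.exists_mem_norm_of_pgroup hQ (lt_of_le_of_ne hPQ (Ne.symm hne))
    have h8 : P ≤ Q ⊓ 𝐍(P) := le_inf hPQ le_normalizer
    exact h6 ((h4 (Q ⊓ 𝐍(P)) ⟨hQ.to_le inf_le_left,
      norms_of_commutator_le (s4.trans h8) inf_le_right (mem_zpowers d)⟩ h8).le ⟨h5, h7⟩)⟩
  refine ⟨S, h3, ?_⟩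
  let f := QuotientGroup.mk' (pCore 2 G)
  have s5 : IsPGroup 3 (closure (prods (f '' D))) := by
    refine isPGroup_three_prods ?_ ?_ ?_
    · rintro _ ⟨a, ha, rfl⟩; rw [← map_mul, sq hD.1 ha, map_one]
    · rintro _ ⟨a, ha, rfl⟩ _ ⟨b, hb, rfl⟩
      exact ⟨_, conj_mem' hG ha hb, by simp only [map_mul]⟩
    · rintro _ ⟨a, ha, rfl⟩ _ ⟨b, hb, rfl⟩
      rcases commute_or_braid hD.1 ha hb with h | h
      · rw [show f a = f b from mk_eq_mk_of_mul_mem (sq hD.1 ha) (tau a ha b hb h)]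
      · simpa only [map_mul] using congrArg f h
  have s6 : (closure (prods (f '' D))).Normal := by
    refine Core.closure_normal_of_conj fun g => prods_conj ?_
    obtain ⟨g, rfl⟩ := QuotientGroup.mk'_surjective _ g
    rintro _ ⟨a, ha, rfl⟩
    exact ⟨_, hG.2.1 g a ha, by simp only [map_mul, map_inv]; rfl⟩
  have s7 := s5.le_sylow_of_normal (S.mapSurjective (QuotientGroup.mk'_surjective (pCore 2 G)))
  rw [eq_top_iff, ← hD.2.2, closure_eq_zpowers_sup (fun a ha => sq hD.1 ha) hd, sup_assoc]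
  refine sup_le_sup_left ((closure_le _).2 ?_) _
  rintro _ ⟨a, ha, b, hb, rfl⟩
  obtain ⟨x, hx, e⟩ := s7 (subset_closure ⟨_, ⟨a, ha, rfl⟩, _, ⟨b, hb, rfl⟩, (map_mul f a b)⟩)
  have := mul_mem_sup hx (QuotientGroup.eq.1 e)
  simpa using this

end Cfsg.Agent.S5356
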