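import Cfsg.Statements.S5358
import Cfsg.Agent.Lib.Classical.OrthRefl3

set_option autoImplicit false
open scoped MatrixGroups
open Cfsg

namespace Cfsg.Agent.S5358

/-- Let Q be a non-degenerate quadratic form on the n-dimensional coordinate space over the field with three elements and u, v vectors of the same non-zero norm Q(u) = Q(v) spanning different lines (v ≠ u and v ≠ −u). Then the reflection matrices of u and v commute if and only if u and v are orthogonal for the polar form of Q. -/
theorem result (n : ℕ) (Q : QuadraticForm (ZMod 3) (Fin n → ZMod 3)) (hQ : (QuadraticMap.polarBilin Q).Nondegenerate) (u v : Fin n → ZMod 3) (hu : Q u ≠ 0) (huv : Q u = Q v) (h1 : v ≠ u) (h2 : v ≠ -u) : Commute (Cfsg.reflectionMatrix (⇑Q) u) (Cfsg.reflectionMatrix (⇑Q) v) ↔ QuadraticMap.polar (⇑Q) u v = 0 := by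
  rw [← CA.Orth.refl_commute_iff_three hu huv h1 h2]
  have key : ∀ a b : Fin n → ZMod 3, ∀ x, (Cfsg.reflectionMatrix Q a * Cfsg.reflectionMatrix Q b).mulVec x
      = (CA.Orth.refl Q a * CA.Orth.refl Q b).1 x := fun a b x => by
    rw [← Matrix.mulVec_mulVec, CA.Orth.reflectionMatrix_mulVec, CA.Orth.reflectionMatrix_mulVec]
    rfl
  constructor
  · intro h
    apply CA.Orth.O.ext; intro x
    rw [← key, ← key, h.eq]
  · intro h
    refine Matrix.toLin'.injective (LinearMap.ext fun x => ?_)
    rw [Matrix.toLin'_apply, Matrix.toLin'_apply, key, key, h.eq]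

end Cfsg.Agent.S5358
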