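import Cfsg.Statements.S5360
import Cfsg.Agent.Lib.Classical.OrthRefl3

set_option autoImplicit false
open scoped MatrixGroups
open Cfsg

namespace Cfsg.Agent.S5360

/-- Let Q be a non-degenerate quadratic form on the n-dimensional coordinate space over the field with three elements, n ≥ 5, c a non-zero scalar, and R the subgroup of the isometry group generated by the reflections of norm c. Then the commutator subgroup of R is quasisimple of index at most 2, the generalized Fitting subgroup of R is the product of the centre and the commutator subgroup, and R acts primitively by conjugation on its reflections of norm c. -/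
theorem result (n : ℕ) (hn : 5 ≤ n) (Q : QuadraticForm (ZMod 3) (Fin n → ZMod 3)) (hQ : (QuadraticMap.polarBilin Q).Nondegenerate) (c : ZMod 3) (hc : c ≠ 0) : Cfsg.IsQuasisimple (commutator ↥(Cfsg.reflectionSubgroup (⇑Q) c)) ∧ (commutator ↥(Cfsg.reflectionSubgroup (⇑Q) c)).index ≤ 2 ∧ Cfsg.generalizedFittingSubgroup ↥(Cfsg.reflectionSubgroup (⇑Q) c) = Subgroup.center ↥(Cfsg.reflectionSubgroup (⇑Q) c) ⊔ commutator ↥(Cfsg.reflectionSubgroup (⇑Q) c) ∧ Cfsg.IsPrimitiveUnderConj {g : ↥(Cfsg.reflectionSubgroup (⇑Q) c) | (g : ↥(Cfsg.isometryGroup (ZMod 3) (⇑Q))) ∈ Cfsg.reflectionsOfNorm (⇑Q) c} := by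
  have hQ' := CA.Orth.nd_of_nondegenerate hQ
  have hn' : 5 ≤ Module.finrank (ZMod 3) (Fin n → ZMod 3) := by simpa using hn
  have h1 := CA.Orth.reflEmb_injective Q c
  have h2 := CA.Orth.range_reflEmb Q c
  have h3 := CA.Orth.mem_reflSet_iff Q c
  have hp := CA.Orth.threeTransp_primitive hQ' hn' hc h1 h2 h3
  obtain ⟨h4, h5, h6⟩ := CA.TT.primitive_structure
    (CA.Orth.threeTransp_class hQ' hn' hc h1 h2 h3) hp (CA.Orth.exists_commuting hQ' hn' hc h1 h2 h3)
  exact ⟨h4, h5, h6, hp⟩

end Cfsg.Agent.S5360
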