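import Cfsg.Statements.S5361
import Cfsg.Agent.Lib.ThreeT.Prim

set_option autoImplicit false
open Cfsg

namespace Cfsg.Agent.S5361

/-- Let D be a conjugacy class of 3-transpositions generating the finite group G, and suppose the centre of G is trivial and some two different members of D commute. Then the following are equivalent: (1) the commutator subgroup of G is simple (possibly of prime order); (2) G acts primitively on D by conjugation; (3) the largest normal 2-subgroup and the largest normal 3-subgroup of G are trivial and the commuting graph of D is connected. -/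
theorem result {G : Type*} [Group G] [Finite G] {D : Set G} (hD : Cfsg.IsThreeTranspositionClass D) (hZ : Subgroup.center G = ⊥) (hw : ∃ a ∈ D, ∃ b ∈ D, a ≠ b ∧ Commute a b) : (IsSimpleGroup (commutator G) ↔ Cfsg.IsPrimitiveUnderConj D) ∧ (Cfsg.IsPrimitiveUnderConj D ↔ (Cfsg.pCore 2 G = ⊥ ∧ Cfsg.pCore 3 G = ⊥ ∧ (Cfsg.commutingGraph D).Connected)) := by
  have hG := CA.TT.class_group hD
  have hD2 : ∃ a ∈ D, ∃ b ∈ D, a ≠ b := by
    obtain ⟨a, ha, b, hb, h, -⟩ := hw
    exact ⟨a, ha, b, hb, h⟩
  have hcomm : ∀ a ∈ D, ∀ b ∈ D, a * b ∈ commutator G := by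
    intro a ha b hb
    obtain ⟨g, rfl⟩ := CA.TT.class_exists_conj hD ha hb
    have := CA.comm_mem (Subgroup.mem_top a) (Subgroup.mem_top g)
    rw [CA.TT.inv_eq hD.1 ha] at this
    rwa [← mul_assoc, ← mul_assoc]
  have h23 : IsPrimitiveUnderConj D → pCore 2 G = ⊥ ∧ pCore 3 G = ⊥ ∧ (commutingGraph D).Connected :=
    fun hp => ⟨le_bot_iff.1 (hZ ▸ CA.TT.two_le_center_of_primitive hG hp),
      le_bot_iff.1 (hZ ▸ CA.TT.three_le_center_of_primitive hG hp hw),
      CA.TT.connected_of_primitive hG hp hw⟩
  have key : pCore 2 G = ⊥ ∧ pCore 3 G = ⊥ ∧ (commutingGraph D).Connected →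
      IsPrimitiveUnderConj D ∧ IsSimpleGroup (commutator G) := by
    rintro ⟨h2, h3, hc⟩
    have h2' : pCore 2 G ≤ Subgroup.center G := h2 ▸ bot_le
    have h3' : pCore 3 G ≤ Subgroup.center G := h3 ▸ bot_le
    have hq := CA.TT.layer_qs hD (CA.TT.layer_ne_bot hD hD2 h2' h3')
    have hm := fun a ha b hb => CA.TT.mul_mem_of_connected (a := a) (b := b) hD hq hc ha hb
    have hi := CA.TT.index_le_two hG hm
    refine ⟨CA.TT.primitive_of_index hD hD2 h2' h3' hq
      (by rw [← CA.TT.fit_eq_center hD h2' h3']; rfl) hi, ?_⟩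
    have e : commutator G = layer G := by
      apply le_antisymm
      · have : Nat.card (G ⧸ layer G) ≤ 2 := hi
        have h0 : 0 < Nat.card (G ⧸ layer G) := Nat.card_pos
        have hcy : IsCyclic (G ⧸ layer G) := by
          obtain h | h : Nat.card (G ⧸ layer G) = 1 ∨ Nat.card (G ⧸ layer G) = 2 := by omega
          · have := (Nat.card_eq_one_iff_unique.1 h).1
            exact isCyclic_of_subsingleton
          · exact isCyclic_of_prime_card h
        have hab : IsMulCommutative (G ⧸ layer G) := inferInstance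
        rw [commutator_def, CA.comm_le_iff]
        intro a _ b _
        rw [← QuotientGroup.eq_one_iff]
        simp [hab.is_comm.comm (a : G ⧸ layer G) b]
      · rw [← hq.der]; exact CA.der_mono le_top
    rw [e]
    have hz : layer G ⊓ Subgroup.centralizer (layer G) = ⊥ := by
      rw [eq_bot_iff, ← hZ, ← CA.TT.fit_eq_center hD h2' h3', ← CA.fittingOf_top]
      exact (CA.center_le_fittingOf _).trans (CA.fittingOf_mono_normal (CA.normalIn_top _))
    have hnt : Nontrivial (layer G) := (Subgroup.nontrivial_iff_ne_bot _).2 hq.ne_bot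
    refine ⟨fun N hN => ?_⟩
    rcases hq.normal (CA.normalIn_map_subtype N) with h | h
    · left
      rw [← Subgroup.map_eq_bot_iff_of_injective _ (layer G).subtype_injective, eq_bot_iff, ← hz]
      exact le_inf (Subgroup.map_subtype_le N) h
    · right
      rw [← CA.subgroupOf_map_subtype' N, h, Subgroup.subgroupOf_self]
  refine ⟨⟨fun hs => ?_, fun hp => (key (h23 hp)).2⟩, h23, fun h => (key h).1⟩
  refine CA.TT.primitive_of_normal hD hD2 fun K hK a ha b hb hab h c hc e he => ?_
  rcases hs.eq_bot_or_eq_top_of_normal (K.subgroupOf (commutator G)) inferInstance with h1 | h1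
  · have : (⟨a * b, hcomm a ha b hb⟩ : commutator G) ∈ K.subgroupOf (commutator G) := h
    rw [h1, Subgroup.mem_bot, Subtype.ext_iff] at this
    exact absurd (mul_left_cancel ((CA.TT.sq hD.1 ha).trans this.symm)) hab
  · exact (h1.ge (Subgroup.mem_top (⟨c * e, hcomm c hc e he⟩ : commutator G)) :)

end Cfsg.Agent.S5361
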