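import Cfsg.Statements.S5363
import Cfsg.Agent.Lib.FStar.Invol

set_option autoImplicit false
open Cfsg

namespace Cfsg.Agent.S5363

/-- Let D be a conjugation-invariant set of involutions of a finite group G. Then every product of two members of D has odd order or order 2 if and only if, for every a in D and every b in D different from a and commuting with a, the members of D commuting with a b are exactly those commuting with both a and b. -/
theorem result {G : Type*} [Group G] [Finite G] {D : Set G} (hinv : ∀ d ∈ D, orderOf d = 2) (hconj : ∀ g : G, ∀ d ∈ D, g * d * g⁻¹ ∈ D) : (∀ a ∈ D, ∀ b ∈ D, Odd (orderOf (a * b)) ∨ orderOf (a * b) = 2) ↔ ∀ a ∈ D, ∀ b ∈ D, b ≠ a → Commute a b → {y : G | y ∈ D ∧ Commute (a * b) y} = {y : G | y ∈ D ∧ Commute a y} ∩ {y : G | y ∈ D ∧ Commute b y} := by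
  have h2 : ∀ d ∈ D, d * d = 1 := fun d hd => CA.Inv.mul_self_of_orderOf (hinv d hd)
  constructor
  · intro H a ha b hb hba hab
    have key : ∀ a ∈ D, ∀ b ∈ D, b ≠ a → Commute a b → ∀ y ∈ D, Commute (a * b) y → Commute a y := by
      intro a ha b hb hba hab y hy hc
      rcases H a ha y hy with ho | ho
      · have ht : orderOf (a * b) = 2 := by
          apply CA.Inv.orderOf_eq_two
          · have := (CA.Inv.commute_iff_sq (h2 a ha) (h2 b hb)).1 hab
            rwa [pow_two] at this
          · intro h
            apply hba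
            rw [← CA.Inv.mul_mul_cancel (h2 a ha) b, h, mul_one]
        have hc2 : Commute (a * b) (a * y) :=
          Commute.mul_right ((Commute.refl a).mul_right hab).symm hc
        have e : (a * b) * (a * y) = b * y := by
          rw [hab.eq, mul_assoc, CA.Inv.mul_mul_cancel (h2 a ha)]
        have hcop : (orderOf (a * b)).Coprime (orderOf (a * y)) := by
          rw [ht]; exact Nat.coprime_two_left.2 ho
        have ho2 := hc2.orderOf_mul_eq_mul_orderOf_of_coprime hcop
        rw [e, ht] at ho2
        rcases H b hb y hy with h | h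
        · rw [ho2] at h
          exact absurd h (by simp)
        · have : orderOf (a * y) = 1 := by omega
          rw [orderOf_eq_one_iff] at this
          have : y = a := by rw [← CA.Inv.mul_mul_cancel (h2 a ha) y, this, mul_one]
          rw [this]
      · exact (CA.Inv.commute_iff_sq (h2 a ha) (h2 y hy)).2 (ho ▸ pow_orderOf_eq_one _)
    ext y
    simp only [Set.mem_setOf_eq, Set.mem_inter_iff]
    constructor
    · rintro ⟨hy, hc⟩
      exact ⟨⟨hy, key a ha b hb hba hab y hy hc⟩,
        hy, key b hb a ha hba.symm hab.symm y hy (hab.eq ▸ hc)⟩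
    · rintro ⟨⟨hy, h1⟩, _, h3⟩
      exact ⟨hy, h1.mul_left h3⟩
  · intro H a ha b hb
    by_cases ho : Odd (orderOf (a * b))
    · exact Or.inl ho
    right
    obtain ⟨z, -, hz2, hz1, haz, hbz, h3, -⟩ := CA.Inv.exists_central_of_even (h2 a ha) (h2 b hb) ho
    have hza : z * a ∈ D := by
      rcases h3 with ⟨k, hk⟩ | ⟨k, hk⟩
      · exact hk ▸ hconj _ _ ha
      · exact hk ▸ hconj _ _ hb
    have hne : z * a ≠ a := fun h => hz1 (by simpa using h)
    have hc : Commute a (z * a) := haz.mul_right (Commute.refl a)
    have := H a ha (z * a) hza hne hc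
    have e : a * (z * a) = z := by rw [← haz.eq, CA.Inv.mul_mul_cancel (h2 a ha)]
    rw [e] at this
    have hb' : b ∈ {y : G | y ∈ D ∧ Commute z y} := ⟨hb, hbz.symm⟩
    rw [this] at hb'
    have h4 := (CA.Inv.commute_iff_sq (h2 a ha) (h2 b hb)).1 hb'.1.2
    have h5 := orderOf_dvd_of_pow_eq_one h4
    rcases (Nat.dvd_prime Nat.prime_two).1 h5 with h | h
    · rw [h] at ho; exact absurd odd_one ho
    · exact h

end Cfsg.Agent.S5363
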