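import Cfsg.Statements.S5364
import Cfsg.Agent.Lib.FStar.Invol

set_option autoImplicit false
open Cfsg

namespace Cfsg.Agent.S5364

/-- Let D be a conjugation-invariant set of involutions of a finite group G and t an involution in the centre of G such that d t does not lie in D for any d in D. If the images of the members of D in G modulo the subgroup generated by t satisfy the 3-transposition order conditions (each has order 2 and any two have product of order at most 3), then so do the members of D. -/
theorem result {G : Type*} [Group G] [Finite G] {D : Set G} (hinv : ∀ d ∈ D, orderOf d = 2) (hconj : ∀ g : G, ∀ d ∈ D, g * d * g⁻¹ ∈ D) (t : G) (ht : orderOf t = 2) (htZ : t ∈ Subgroup.center G) (hDt : ∀ d ∈ D, d * t ∉ D) [(Subgroup.zpowers t).Normal] (himg : Cfsg.IsThreeTranspositionSet ((QuotientGroup.mk : G → G ⧸ Subgroup.zpowers t) '' D)) : Cfsg.IsThreeTranspositionSet D := by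
  have h2 : ∀ d ∈ D, d * d = 1 := fun d hd => CA.Inv.mul_self_of_orderOf (hinv d hd)
  have ht2 : t * t = 1 := CA.Inv.mul_self_of_orderOf ht
  have hz : ∀ x ∈ Subgroup.zpowers t, x = 1 ∨ x = t := by
    intro x hx
    obtain ⟨k, rfl⟩ := hx
    rcases Int.even_or_odd k with ⟨m, rfl⟩ | ⟨m, rfl⟩
    · left
      show t ^ (m + m) = 1
      rw [← two_mul, zpow_mul, zpow_two, ht2, one_zpow]
    · right
      show t ^ (2 * m + 1) = t
      rw [zpow_add_one, zpow_mul, zpow_two, ht2, one_zpow, one_mul]
  refine ⟨hinv, fun d hd e he => ?_⟩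
  have hq : ∀ (x : G) (n : ℕ), ((x : G ⧸ Subgroup.zpowers t)) ^ n = 1 → x ^ n = 1 ∨ x ^ n = t := by
    intro x n h
    apply hz
    rw [← QuotientGroup.eq_one_iff]
    simpa using h
  have hdt : t * d = d * t := (Subgroup.mem_center_iff.1 htZ d).symm
  rcases himg.2 _ ⟨d, hd, rfl⟩ _ ⟨e, he, rfl⟩ with h | h
  · rcases hq (d * e) 2 (by simpa using h) with h | h
    · exact Or.inl h
    · exfalso
      apply hDt d hd
      have := hconj e d hd
      rw [CA.Inv.inv_eq_self (h2 e he)] at this
      rw [← h, pow_two, mul_assoc d e, CA.Inv.mul_mul_cancel (h2 d hd), ← mul_assoc]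
      exact this
  · rcases hq (d * e) 3 (by simpa using h) with h | h
    · exact Or.inr h
    · exfalso
      apply hDt d hd
      have := hconj (e * d) e he
      rw [mul_inv_rev, CA.Inv.inv_eq_self (h2 e he), CA.Inv.inv_eq_self (h2 d hd)] at this
      rw [← h, pow_three, mul_assoc d e, CA.Inv.mul_mul_cancel (h2 d hd)]
      simpa [mul_assoc] using this

end Cfsg.Agent.S5364
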