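import Cfsg.Statements.S5365
import Cfsg.Agent.Lib.ThreeT.Prim
import Cfsg.Agent.Lib.ThreeT.Sym

set_option autoImplicit false
set_option synthInstance.maxSize 1000
open Cfsg

namespace Cfsg.Agent.S5365

open Subgroup CA CA.TT Equiv

theorem range_le {G H : Type*} [Group G] [Group H] (φ : H →* G) {S : Set H} (hS : closure S = ⊤)
    {K : Subgroup G} (h : ∀ x ∈ S, φ x ∈ K) : φ.range ≤ K := by
  rw [MonoidHom.range_eq_map, ← hS, MonoidHom.map_closure, closure_le]
  rintro _ ⟨x, hx, rfl⟩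
  exact h x hx

theorem equiv_of_range {G H : Type*} [Group G] [Group H] (φ : H →* G) (hφ : Function.Injective φ)
    {K : Subgroup G} (h : φ.range = K) : Nonempty (K ≃* H) :=
  ⟨((MonoidHom.ofInjective hφ).trans (MulEquiv.subgroupCongr h)).symm⟩

theorem theta_mem {G : Type*} [Group G] [Finite G] {D : Set G} (hD : IsThreeTranspositionSet D)
    (hconj : ∀ g : G, ∀ d ∈ D, g * d * g⁻¹ ∈ D) {a b : G} (ha : a ∈ D) (hb : b ∈ D) (h : Theta D a b) :
    a * b ∈ pCore 3 G := by
  have hn := Core.closure_normal_of_conj hconj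
  have hG : IsThreeTranspositionGroup {x : closure D | (x : G) ∈ D} := by
    refine ⟨⟨fun d hd => ?_, fun d hd e he => ?_⟩, fun g d hd => hconj g d hd, ?_⟩
    · rw [← Subgroup.orderOf_coe]; exact hD.1 d hd
    · simpa only [Subtype.ext_iff, coe_pow, coe_mul, coe_one] using hD.2 d hd e he
    · exact closure_closure_coe_preimage
  have h1 : Theta {x : closure D | (x : G) ∈ D} ⟨a, subset_closure ha⟩ ⟨b, subset_closure hb⟩ := by
    intro y hy
    simpa only [Commute, SemiconjBy, Subtype.ext_iff, ne_eq, coe_mul] using h y hy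
  exact Core.oP_le_pCore_of_normal (closure D) ⟨_, h1.mul_mem_pCore hG ha hb, rfl⟩

/-- Let D be a non-empty conjugation-invariant set of involutions of a finite group G satisfying the 3-transposition order conditions, and suppose that for every d in D the members of D other than d commuting with d generate a subgroup isomorphic to the symmetric group of degree 3, and the largest normal 3-subgroup of the centralizer of d has order 3. Then the subgroup generated by D is isomorphic to the symmetric group of degree 5 or to the direct product of two symmetric groups of degree 3. -/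
theorem result {G : Type*} [Group G] [Finite G] {D : Set G} (hD : Cfsg.IsThreeTranspositionSet D) (hconj : ∀ g : G, ∀ d ∈ D, g * d * g⁻¹ ∈ D) (hne : D.Nonempty) (hloc : ∀ d ∈ D, Nonempty (↥(Subgroup.closure {y : G | y ∈ D ∧ y ≠ d ∧ Commute d y}) ≃* Equiv.Perm (Fin 3)) ∧ Nat.card (Cfsg.pCore 3 ↥(Subgroup.centralizer ({d} : Set G))) = 3) : Nonempty (↥(Subgroup.closure D) ≃* Equiv.Perm (Fin 5)) ∨ Nonempty (↥(Subgroup.closure D) ≃* Equiv.Perm (Fin 3) × Equiv.Perm (Fin 3)) := by
  have sq := fun {x} (hx : x ∈ D) => CA.TT.sq hD hx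
  have cm : ∀ x ∈ D, ∀ y ∈ D, x * y * x ∈ D := fun x hx y hy => by
    simpa [inv_eq hD hx] using hconj x y hy
  have loc : ∀ d ∈ D, (∀ x ∈ D, x ≠ d → Commute d x → ∀ y ∈ D, y ≠ d → Commute d y →
      (Commute x y → x = y) ∧ (¬ Commute x y → ∀ z ∈ D, z ≠ d → Commute d z → z = x ∨ z = y ∨ z = x * y * x)) ∧
      ∃ x ∈ D, x ≠ d ∧ Commute d x ∧ ∃ y ∈ D, y ≠ d ∧ Commute d y ∧ ¬ Commute x y := by
    intro d hd
    obtain ⟨e⟩ := (hloc d hd).1
    have inv : ∀ x (hx : x ∈ {y : G | y ∈ D ∧ y ≠ d ∧ Commute d y}),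
        e ⟨x, subset_closure hx⟩ * e ⟨x, subset_closure hx⟩ = 1 ∧ e ⟨x, subset_closure hx⟩ ≠ 1 := by
      intro x hx
      rw [← map_mul, Ne, map_eq_one_iff e e.injective, map_eq_one_iff e e.injective, Subtype.ext_iff,
        Subtype.ext_iff]
      exact ⟨sq hx.1, ne_one hD hx.1⟩
    refine ⟨fun x h1 h2 h3 y h4 h5 h6 => ⟨fun h7 => ?_, fun h7 z h8 h9 h10 => ?_⟩, ?_⟩
    · have : ∀ σ τ : Perm (Fin 3), σ * σ = 1 ∧ σ ≠ 1 → τ * τ = 1 ∧ τ ≠ 1 → σ * τ = τ * σ → σ = τ := by
        decide +kernel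
      have := this _ _ (inv x ⟨h1, h2, h3⟩) (inv y ⟨h4, h5, h6⟩) (by
        rw [← map_mul, ← map_mul]; exact congrArg e (Subtype.ext h7))
      exact congrArg Subtype.val (e.injective this)
    · have : ∀ σ τ υ : Perm (Fin 3), σ * σ = 1 ∧ σ ≠ 1 → τ * τ = 1 ∧ τ ≠ 1 → υ * υ = 1 ∧ υ ≠ 1 → σ ≠ τ →
          υ = σ ∨ υ = τ ∨ υ = σ * τ * σ := by
        decide +kernel
      have := this _ _ _ (inv x ⟨h1, h2, h3⟩) (inv y ⟨h4, h5, h6⟩) (inv z ⟨h8, h9, h10⟩) (fun h => by
        have : x = y := congrArg Subtype.val (e.injective h)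
        exact h7 (this ▸ Commute.refl x))
      rw [← map_mul, ← map_mul] at this
      simpa only [e.apply_eq_iff_eq, Subtype.ext_iff, coe_mul] using this
    · by_contra h
      push Not at h
      have h1 := isMulCommutative_closure (k := {y : G | y ∈ D ∧ y ≠ d ∧ Commute d y})
        fun x hx y hy => h x hx.1 hx.2.1 hx.2.2 y hy.1 hy.2.1 hy.2.2
      have h2 := (abelian_congr e).1 h1
      exact absurd (h2.is_comm.comm (swap 0 1) (swap 1 2)) (by decide)
  obtain ⟨d, hd⟩ := hne
  obtain ⟨a, ha, had, hda, b, hb, hbd, hdb, hab⟩ := (loc d hd).2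
  obtain ⟨e, he, hea, hae, hde⟩ : ∃ e ∈ D, e ≠ a ∧ Commute a e ∧ ¬ Commute d e := by
    obtain ⟨x, h1, h2, h3, y, h4, h5, h6, h7⟩ := (loc a ha).2
    by_cases h8 : Commute d x
    · have := ((loc a ha).1 d hd had.symm hda.symm x h1 h2 h3).1 h8
      exact ⟨y, h4, h5, h6, this ▸ h7⟩
    · exact ⟨x, h1, h2, h3, h8⟩
  -- two commuting members of `D` and a third one commuting with neither
  have s4 : ∀ x ∈ D, ∀ x' ∈ D, x ≠ x' → Commute x x' → ∀ y ∈ D, ¬ Commute x y → ¬ Commute x' y →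
      x * x' * y * (x * x')⁻¹ ≠ y ∧ Commute y (x * x' * y * (x * x')⁻¹) ∧
      ∃ g : G, y * (x * x' * y * (x * x')⁻¹) = g * (x * x') * g⁻¹ := by
    intro x hx x' hx' hne hc y hy h1 h2
    obtain ⟨φ, e1, e2, e3⟩ := Rw.exists_hom_s4 (sq hx) (sq hy) (sq hx') (braid hD hx hy h1)
      (braid hD hy hx' fun h => h2 h.symm) hc
    have hinj := Rw.injective_s4 φ (by rwa [e1, e3])
    rw [← e1, ← e2, ← e3]
    simp only [← map_mul, ← map_inv]
    refine ⟨fun h => absurd (hinj h) (by decide), Commute.map (by unfold Commute SemiconjBy; decide) φ,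
      φ (swap 0 2), ?_⟩
    simp only [← map_mul, ← map_inv]
    exact congrArg φ (by decide)
  by_cases hbe : Commute b e
  · right
    have heb : e ≠ b := fun h => hde (h ▸ hdb)
    obtain ⟨φ, e1, e2⟩ := Rw.exists_hom_s3 (sq ha) (sq hb) (braid hD ha hb hab)
    obtain ⟨ψ, e3, e4⟩ := Rw.exists_hom_s3 (sq hd) (sq he) (braid hD hd he hde)
    have i1 := Rw.injective_s3 φ (by rw [e1, e2]; exact fun h => hab (h ▸ Commute.refl a))
    have i2 := Rw.injective_s3 ψ (by rw [e3, e4]; exact fun h => hde (h ▸ Commute.refl d))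
    have gen : closure ({swap 0 1, swap 1 2} : Set (Perm (Fin 3))) = ⊤ := by
      rw [eq_top_iff]
      intro σ _
      have h1 : swap 0 1 ∈ closure ({swap 0 1, swap 1 2} : Set (Perm (Fin 3))) := subset_closure (by simp)
      have h2 : swap 1 2 ∈ closure ({swap 0 1, swap 1 2} : Set (Perm (Fin 3))) := subset_closure (by simp)
      have : ∀ σ : Perm (Fin 3), σ = 1 ∨ σ = swap 0 1 ∨ σ = swap 1 2 ∨ σ = swap 0 1 * swap 1 2 ∨
        σ = swap 1 2 * swap 0 1 ∨ σ = swap 0 1 * swap 1 2 * swap 0 1 := by decide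
      rcases this σ with rfl | rfl | rfl | rfl | rfl | rfl
      exacts [one_mem _, h1, h2, mul_mem h1 h2, mul_mem h2 h1, mul_mem (mul_mem h1 h2) h1]
    have hc : ∀ σ τ, Commute (φ σ) (ψ τ) := by
      have : φ.range ≤ 𝐂(ψ.range) := by
        refine range_le φ gen ?_
        rintro _ (rfl | rfl) <;> refine mem_cent_iff_le_cent1.2 (range_le ψ gen ?_) <;>
          rintro _ (rfl | rfl) <;> simp only [e1, e2, e3, e4, mem_cent1_iff]
        exacts [hda, hae.symm, hdb, hbe.symm]
      exact fun σ τ => cents_iff.1 this _ ⟨σ, rfl⟩ _ ⟨τ, rfl⟩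
    have m1 : ∀ σ, φ σ ∈ (φ.noncommCoprod ψ hc).range := fun σ => ⟨(σ, 1), by simp⟩
    have m2 : ∀ σ, ψ σ ∈ (φ.noncommCoprod ψ hc).range := fun σ => ⟨(1, σ), by simp⟩
    refine equiv_of_range (φ.noncommCoprod ψ hc) ?_ (le_antisymm ?_ ?_)
    · rw [injective_iff_map_eq_one]
      rintro ⟨σ, τ⟩ h
      have h1 : φ σ * ψ τ = 1 := h
      have h2 : σ = 1 := by
        have : ∀ σ : Perm (Fin 3), (∀ υ, σ * υ = υ * σ) → σ = 1 := by decide
        refine this σ fun υ => i1 ?_
        rw [map_mul, map_mul, eq_inv_of_mul_eq_one_left h1]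
        exact (hc υ τ).symm.inv_left
      rw [h2, map_one, one_mul] at h1
      rw [h2, (map_eq_one_iff ψ i2).1 h1]; rfl
    · rintro _ ⟨⟨σ, τ⟩, rfl⟩
      refine mul_mem (range_le φ gen ?_ ⟨σ, rfl⟩) (range_le ψ gen ?_ ⟨τ, rfl⟩) <;>
        rintro _ (rfl | rfl) <;> simp only [e1, e2, e3, e4] <;> exact subset_closure ‹_›
    · rw [closure_le]
      intro y hy
      by_contra hy1
      have Pd := ((loc d hd).1 a ha had hda b hb hbd hdb).2 hab
      have Pe := ((loc e he).1 a ha hea.symm hae.symm b hb heb.symm hbe.symm).2 hab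
      have Pa := ((loc a ha).1 d hd had.symm hda.symm e he hea hae).2 hde
      have Pb := ((loc b hb).1 d hd hbd.symm hdb.symm e he heb hbe).2 hde
      have n1 : ¬ Commute d y := fun h => by
        rcases Pd y hy (fun h => hy1 (h ▸ e3 ▸ m2 _)) h with rfl | rfl | rfl
        exacts [hy1 (e1 ▸ m1 _), hy1 (e2 ▸ m1 _), hy1 (mul_mem (mul_mem (e1 ▸ m1 _) (e2 ▸ m1 _)) (e1 ▸ m1 _))]
      have n2 : ¬ Commute a y := fun h => by
        rcases Pa y hy (fun h => hy1 (h ▸ e1 ▸ m1 _)) h with rfl | rfl | rfl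
        exacts [hy1 (e3 ▸ m2 _), hy1 (e4 ▸ m2 _), hy1 (mul_mem (mul_mem (e3 ▸ m2 _) (e4 ▸ m2 _)) (e3 ▸ m2 _))]
      have th : ∀ u ∈ D, ∀ v ∈ D, ∀ p ∈ D, ∀ q ∈ D, ¬ Commute u v → ¬ Commute p q → Commute u p →
          Commute u q → Commute v p → Commute v q →
          (∀ z ∈ D, z ≠ u → Commute u z → z = p ∨ z = q ∨ z = p * q * p) →
          ∀ z ∈ D, z ≠ u ∧ Commute u z → z ≠ v ∧ Commute v z := by
        intro u hu v hv p hp q hq h1 h2 h3 h4 h5 h6 h7 z hz h8
        refine ⟨fun h => h1 (h ▸ h8.2), ?_⟩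
        rcases h7 z hz h8.1 h8.2 with rfl | rfl | rfl
        exacts [h5, h6, (h5.mul_right h6).mul_right h5]
      have t1 : Theta D a b := fun z hz =>
        ⟨th a ha b hb d hd e he hab hde hda.symm hae hdb.symm hbe Pa z hz,
          th b hb a ha d hd e he (fun h => hab h.symm) hde hdb.symm hbe hda.symm hae Pb z hz⟩
      have t2 : Theta D d e := fun z hz =>
        ⟨th d hd e he a ha b hb hde hab hda hdb hae.symm hbe.symm Pd z hz,
          th e he d hd a ha b hb (fun h => hde h.symm) hab hae.symm hbe.symm hda hdb Pe z hz⟩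
      have q1 := theta_mem hD hconj ha hb t1
      have q2 := theta_mem hD hconj hd he t2
      have o1 : Core.oP 3 𝐂[d] = zpowers (a * b) := by
        refine eq_zpowers_of_prime_card ?_ (Core.pCore_inf_le_oP _ ⟨q1, mem_cent1_iff.2
          (hda.mul_right hdb).symm⟩) fun h => hab ?_
        · rw [Core.oP_def, card_map_subtype, (hloc d hd).2]; norm_num
        · rw [mul_left_cancel ((sq ha).trans h.symm)]
      have invt : ∀ q ∈ pCore 3 G, a * d * q * (a * d)⁻¹ = q⁻¹ := by
        have i3 : a * d * (a * b) * (a * d)⁻¹ = (a * b)⁻¹ := by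
          rw [mul_assoc a d, (hda.mul_right hdb).eq, mul_inv_rev, ← mul_assoc, ← mul_assoc,
            mul_inv_cancel_right, Inv.conj_mul_left (sq ha) (sq hb)]
        have i4 : a * d * (d * e) * (a * d)⁻¹ = (d * e)⁻¹ := by
          rw [← hda.eq, mul_assoc d a, (hda.symm.mul_right hae).eq, mul_inv_rev, ← mul_assoc, ← mul_assoc,
            mul_inv_cancel_right, Inv.conj_mul_left (sq hd) (sq he)]
        have c1 : Commute (a * b) (d * e) := (hda.symm.mul_right hae).mul_left (hdb.symm.mul_right hbe)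
        have k1 : ∀ u ∈ zpowers (d * e), ∀ q ∈ pCore 3 G, q * d * q⁻¹ = u * d * u⁻¹ →
            a * d * q * (a * d)⁻¹ = q⁻¹ := by
          intro u hu q hq h
          have h1 : u⁻¹ * q ∈ zpowers (a * b) := by
            rw [← o1]
            refine Core.pCore_inf_le_oP _ ⟨(pCore 3 G).mul_mem ((pCore 3 G).inv_mem (zpowers_le.2 q2 hu)) hq, mem_cent1_iff.2 ?_⟩
            rw [mul_assoc, inv_mul_eq_iff_eq_mul, ← mul_assoc, ← mul_assoc, ← h, inv_mul_cancel_right]
          obtain ⟨i, rfl⟩ := hu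
          obtain ⟨j, hj⟩ := h1
          have : q = (d * e) ^ i * (a * b) ^ j := by
            simp only at hj; rw [hj, mul_inv_cancel_left]
          rw [this, show a * d * ((d * e) ^ i * (a * b) ^ j) * (a * d)⁻¹ =
            (a * d * (d * e) ^ i * (a * d)⁻¹) * (a * d * (a * b) ^ j * (a * d)⁻¹) by group,
            ← conj_zpow, ← conj_zpow, i3, i4, inv_zpow, inv_zpow, ← mul_inv_rev,
            ((c1.zpow_left j).zpow_right i).eq]
        intro q hq
        have t3 := theta_of_mul_mem_pCore hD hd (hconj q d hd) (mul_conj_mem (sq hd) hq)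
        have t4 := (t3 a ha).1 ⟨had, hda⟩
        have br := braid hD hd he hde
        rcases Pa _ (hconj q d hd) t4.1.symm t4.2.symm with h | h | h
        · exact k1 1 (one_mem _) q hq (by simpa using h)
        · refine k1 (d * e) (mem_zpowers _) q hq ?_
          rw [h, mul_inv_rev, inv_eq hD hd, inv_eq hD he, br, ← mul_assoc, Inv.mul_cancel_right (sq he),
            mul_assoc e d d, sq hd, mul_one]
        · refine k1 (d * e)⁻¹ (inv_mem (mem_zpowers _)) q hq ?_
          rw [h, inv_inv, mul_inv_rev, inv_eq hD hd, inv_eq hD he, mul_assoc e d d, sq hd, mul_one, br,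
            mul_assoc]
      obtain ⟨-, -, g, hg⟩ := s4 a ha d hd had hda.symm y hy n2 n1
      have hN : (pCore 3 G).Normal := inferInstance
      have j1 : g * (a * d) * g⁻¹ * (a * b) * (g * (a * d) * g⁻¹)⁻¹ = (a * b)⁻¹ := by
        have := invt _ (hN.conj_mem _ q1 g⁻¹)
        calc _ = g * (a * d * (g⁻¹ * (a * b) * g⁻¹⁻¹) * (a * d)⁻¹) * g⁻¹ := by group
          _ = _ := by rw [this]; group
      have j2 : y * (a * d * y * (a * d)⁻¹) * (a * b) * (y * (a * d * y * (a * d)⁻¹))⁻¹ = a * b := by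
        have j3 := invt _ (hN.conj_mem _ (inv_mem q1) y)
        have j4 := invt _ (inv_mem q1)
        have j5 : (a * d)⁻¹ = a * d := by rw [mul_inv_rev, inv_eq hD ha, inv_eq hD hd, hda.eq]
        calc _ = y * (a * d * (y * ((a * d)⁻¹ * (a * b) * (a * d)⁻¹⁻¹) * y⁻¹) * (a * d)⁻¹) * y⁻¹ := by group
          _ = y * (a * d * (y * (a * b)⁻¹ * y⁻¹) * (a * d)⁻¹) * y⁻¹ := by
            rw [← invt _ q1]; simp only [j5]
          _ = _ := by
            rw [j3, inv_eq hD hy]
            simp only [mul_inv_rev, inv_inv, inv_eq hD hy, mul_assoc, Inv.mul_mul_cancel (sq hy), sq hy,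
              mul_one]
      rw [hg, j1] at j2
      exact hab ((Inv.commute_iff_sq (sq ha) (sq hb)).2 (by rw [pow_two]; nth_rewrite 1 [← j2]; group))
  · left
    obtain ⟨φ, e1, e2, e3, e4⟩ := Rw.exists_hom_s5 (sq ha) (sq hb) (sq he) (sq hd) (braid hD ha hb hab)
      (braid hD hb he hbe) (braid hD he hd fun h => hde h.symm) hae hda.symm hdb.symm
    have hinj : Function.Injective φ := by
      rw [← MonoidHom.ker_eq_bot_iff]
      by_contra h
      have := Perm.alternatingGroup_le_of_normal (α := Fin 5) (by simp)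
        ((Subgroup.nontrivial_iff_ne_bot φ.ker).2 h)
        (show swap 0 1 * swap 1 2 ∈ _ by rw [Perm.mem_alternatingGroup]; decide)
      rw [MonoidHom.mem_ker, map_mul, e1, e2] at this
      exact hab (by rw [mul_left_cancel ((sq ha).trans this.symm)])
    have tr : ∀ i j : Fin 5, i ≠ j → φ (swap i j) ∈ D := by
      intro i j hij
      obtain ⟨σ, hσ⟩ := isConj_iff.1 (Perm.isConj_swap (show (0 : Fin 5) ≠ 1 by decide) hij)
      rw [← hσ, map_mul, map_mul, map_inv, e1]
      exact hconj _ a ha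
    refine equiv_of_range φ hinj (le_antisymm (range_le φ Perm.closure_isSwap ?_) ?_)
    · rintro _ ⟨i, j, hij, rfl⟩
      exact subset_closure (tr i j hij)
    rw [closure_le]
    intro y hy
    by_contra hy1
    have nc : ∀ i j : Fin 5, i ≠ j → ¬ Commute (φ (swap i j)) y := by
      intro i j hij h
      obtain ⟨k, l, m, h1, h2, h3, h4, h5, h6, h7⟩ : ∃ k l m : Fin 5, k ≠ l ∧ l ≠ m ∧
          swap k l ≠ swap i j ∧ swap l m ≠ swap i j ∧ swap i j * swap k l = swap k l * swap i j ∧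
          swap i j * swap l m = swap l m * swap i j ∧ swap k l * swap l m ≠ swap l m * swap k l := by
        clear h; revert i j; decide +kernel
      rcases ((loc _ (tr i j hij)).1 _ (tr k l h1) (hinj.ne h3) (Commute.map h5 φ) _ (tr l m h2)
        (hinj.ne h4) (Commute.map h6 φ)).2 (fun h => h7 (hinj (by simpa only [map_mul] using h.eq))) y hy
        (fun h => hy1 ⟨_, h.symm⟩) h with h | h | h
      · exact hy1 ⟨_, h.symm⟩
      · exact hy1 ⟨_, h.symm⟩
      · exact hy1 ⟨swap k l * swap l m * swap k l, by rw [h, map_mul, map_mul]⟩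
    have key : ∀ i j k l : Fin 5, i ≠ j → k ≠ l → swap i j ≠ swap k l →
        swap i j * swap k l = swap k l * swap i j →
        φ (swap i j * swap k l) * y * (φ (swap i j * swap k l))⁻¹ ≠ y ∧
          Commute y (φ (swap i j * swap k l) * y * (φ (swap i j * swap k l))⁻¹) := by
      intro i j k l h1 h2 h3 h4
      obtain ⟨h5, h6, -⟩ := s4 _ (tr i j h1) _ (tr k l h2) (hinj.ne h3) (Commute.map h4 φ) y hy
        (nc i j h1) (nc k l h2)
      rw [map_mul]
      exact ⟨h5, h6⟩
    have k1 := key 0 1 2 3 (by decide) (by decide) (by decide) (by decide)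
    have k2 := key 0 2 1 3 (by decide) (by decide) (by decide) (by decide)
    have k3 := key 0 3 1 2 (by decide) (by decide) (by decide) (by decide)
    have e : swap (0 : Fin 5) 2 * swap 1 3 = (swap 0 1 * swap 2 3) * (swap 0 3 * swap 1 2) := by decide
    have k4 := (commute_conj_iff (φ (swap 0 1 * swap 2 3))).2 k3.2
    have k5 : φ (swap 0 2 * swap 1 3) * y * (φ (swap 0 2 * swap 1 3))⁻¹ = φ (swap 0 1 * swap 2 3) *
        (φ (swap 0 3 * swap 1 2) * y * (φ (swap 0 3 * swap 1 2))⁻¹) * (φ (swap 0 1 * swap 2 3))⁻¹ := by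
      rw [e, map_mul]; group
    rw [← k5] at k4
    have k6 := ((loc y hy).1 _ (hconj _ y hy) k1.1 k1.2 _ (hconj _ y hy) k2.1 k2.2).1 k4
    rw [k5, conj_inj] at k6
    exact k3.1 k6.symm

end Cfsg.Agent.S5365
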