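import Cfsg.Statements.S5366
import Cfsg.Agent.Lib.ThreeT.Fischer

set_option autoImplicit false
open Cfsg

namespace Cfsg.Agent.S5366

/-- Let L be a nondegenerate Fischer space on the point type X (every point on a line). Then for every point x the map t(x) — sending a point collinear with x to the third point of their common line and fixing every other point — is a permutation of X of order 2 and an automorphism of the line system; and the set of all t(x) satisfies the 3-transposition order conditions in the permutation group of X (any two have product of order at most 3). -/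
theorem result {X : Type*} (L : Set (Set X)) (hL : Cfsg.IsFischerSpace L) (hnd : Cfsg.LineSystem.IsNondegenerate L) : (∀ x : X, ∃ σ : Equiv.Perm X, ⇑σ = Cfsg.LineSystem.lineMap L x ∧ orderOf σ = 2 ∧ Cfsg.LineSystem.IsIso L L σ) ∧ Cfsg.IsThreeTranspositionSet {σ : Equiv.Perm X | ∃ x : X, ⇑σ = Cfsg.LineSystem.lineMap L x} := by
  have h := CA.Fisch.t3_lineMap hL.1 hL.2.1
  have sq : ∀ x, CA.Fisch.perm hL x * CA.Fisch.perm hL x = 1 := fun x => Equiv.ext (h.invol x)
  have ord : ∀ x, orderOf (CA.Fisch.perm hL x) = 2 := fun x => by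
    refine CA.Inv.orderOf_eq_two (sq x) fun h1 => ?_
    obtain ⟨l, hl, hx⟩ := hnd x
    obtain ⟨y, hy, h2⟩ := Set.exists_ne_of_one_lt_ncard (s := l) (by rw [hL.2.1 l hl]; norm_num) x
    exact (h.line_eq hl hx hy h2.symm).1 (congrArg (fun σ : Equiv.Perm X => σ y) h1)
  have cj : ∀ x y, CA.Fisch.perm hL x * CA.Fisch.perm hL y * CA.Fisch.perm hL x =
      CA.Fisch.perm hL (LineSystem.lineMap L x y) := fun x y => Equiv.ext fun z => by
    show LineSystem.lineMap L x (LineSystem.lineMap L y (LineSystem.lineMap L x z)) =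
      LineSystem.lineMap L (LineSystem.lineMap L x y) z
    rw [CA.Fisch.distrib hL x y, h.invol]
  have ex : ∀ (σ : Equiv.Perm X) x, ⇑σ = LineSystem.lineMap L x → σ = CA.Fisch.perm hL x :=
    fun σ x h => Equiv.ext fun y => congrFun h y
  refine ⟨fun x => ⟨CA.Fisch.perm hL x, rfl, ord x, CA.Fisch.perm_isIso hL x⟩, ?_, ?_⟩
  · rintro σ ⟨x, hx⟩
    rw [ex σ x hx]; exact ord x
  · rintro σ ⟨x, hx⟩ τ ⟨y, hy⟩
    rw [ex σ x hx, ex τ y hy]
    by_cases h1 : LineSystem.lineMap L x y = y
    · left
      rw [pow_two, ← mul_assoc, cj, h1, sq]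
    · right
      exact CA.TT.cube_of_braid (sq x) (sq y) (by rw [cj, cj, h.symm x y h1])

end Cfsg.Agent.S5366
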