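import Cfsg.Statements.S5386
import Cfsg.Agent.Lib.CoT.A7
import Cfsg.Agent.Lib.Co.CT9

set_option autoImplicit false
open Cfsg

namespace Cfsg.Agent.S5386

/-- Let G be a finite group of Conway type (involution z with generalized Fitting subgroup Q of its centralizer C extraspecial of order 2^9, C/Q the commutator subgroup of the isometry group of the hyperbolic quadratic form in dimension 8 over the field with two elements, z not weakly closed in Q). Then G has a subgroup V of order 7 whose centralizer is isomorphic to the direct product of a cyclic group of order 7 and the alternating group of degree 7, and a subgroup W of order 3 whose normalizer is isomorphic to the direct product of the symmetric group of degree 3 and the alternating group of degree 9. -/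
theorem result {G : Type*} [Group G] [Finite G] (z : G) (hz : orderOf z = 2) (Q : Subgroup (Subgroup.centralizer ({z} : Set G))) [Q.Normal] (hF : Cfsg.generalizedFittingSubgroup (Subgroup.centralizer ({z} : Set G)) = Q) (hQ : Cfsg.IsExtraspecial 2 Q) (hcard : Nat.card Q = 2 ^ 9) (e : (Subgroup.centralizer ({z} : Set G)) ⧸ Q ≃* Cfsg.Omega (ZMod 2) (Cfsg.quadFormPlus 4 (ZMod 2))) (hnwc : ∃ g : G, (∃ hq : g * z * g⁻¹ ∈ Subgroup.centralizer ({z} : Set G), (⟨g * z * g⁻¹, hq⟩ : Subgroup.centralizer ({z} : Set G)) ∈ Q) ∧ g * z * g⁻¹ ≠ z) : (∃ V : Subgroup G, Nat.card V = 7 ∧ Nonempty (↥(Subgroup.centralizer (V : Set G)) ≃* Multiplicative (ZMod 7) × alternatingGroup (Fin 7))) ∧ ∃ W : Subgroup G, Nat.card W = 3 ∧ Nonempty (↥(Subgroup.normalizer (W : Set G)) ≃* Equiv.Perm (Fin 3) × alternatingGroup (Fin 9)) := by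
  obtain ⟨f, -⟩ := CA.Co.conway_type ⟨hz, hF, hQ, hcard, hnwc⟩ e
  obtain ⟨V, a1, ⟨E1⟩⟩ := (⟨_, CA.CoT.A7.partV⟩ : ∃ V : Subgroup Spor.Co1, Nat.card V = 7 ∧
    Nonempty (↥(Subgroup.centralizer (V : Set Spor.Co1)) ≃* Multiplicative (ZMod 7) × alternatingGroup (Fin 7)))
  obtain ⟨W, a2, ⟨E2⟩⟩ := (⟨_, CA.CoT.A9.partW⟩ : ∃ W : Subgroup Spor.Co1, Nat.card W = 3 ∧
    Nonempty (↥(Subgroup.normalizer (W : Set Spor.Co1)) ≃* Equiv.Perm (Fin 3) × alternatingGroup (Fin 9)))
  refine ⟨⟨V.comap f.symm.toMonoidHom, ?_, ⟨MulEquiv.trans ?_ E1⟩⟩,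
    W.comap f.symm.toMonoidHom, ?_, ⟨MulEquiv.trans ?_ E2⟩⟩
  · rw [Subgroup.comap_equiv_eq_map_symm', Subgroup.card_map_of_injective f.symm.symm.injective, a1]
  · refine (MulEquiv.subgroupMap f.symm _).trans (MulEquiv.subgroupCongr (Subgroup.ext fun x => ?_))
    obtain ⟨x, rfl⟩ := f.symm.surjective x
    refine (Subgroup.mem_map_iff_mem (f := f.symm.toMonoidHom) f.symm.injective).trans ?_
    rw [Subgroup.mem_centralizer_iff, Subgroup.mem_centralizer_iff]
    exact ⟨fun h y hy => f.injective (by simpa using h (f y) (by simpa using hy)),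
      fun h y hy => f.symm.injective (by simpa using h (f.symm y) hy)⟩
  · rw [Subgroup.comap_equiv_eq_map_symm', Subgroup.card_map_of_injective f.symm.symm.injective, a2]
  · refine (MulEquiv.subgroupMap f.symm _).trans (MulEquiv.subgroupCongr ?_)
    rw [← Subgroup.comap_normalizer_eq_of_surjective _ f.symm.surjective]
    exact Subgroup.map_comap_eq_self_of_surjective f.symm.surjective _

end Cfsg.Agent.S5386
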