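import Cfsg.Statements.S5387
import Cfsg.Agent.Lib.TC.L34

set_option autoImplicit false
open Cfsg

namespace Cfsg.Agent.S5387

open CA.L34 Subgroup in
theorem key {L₁ : Type*} [Group L₁] [Finite L₁] {Q : Type} [Group Q]
    (e : Q ≃* Matrix.ProjectiveSpecialLinearGroup (Fin 3) K4) (h₁ : commutator L₁ = ⊤) (hc₁ : Nat.card (center L₁) = 4)
    (e₁ : L₁ ⧸ center L₁ ≃* Q) {P : Type*} [Group P] [Finite P] (f : P →* L₁) (hf : Function.Surjective f)
    (hz : ∀ z, f z ∈ center L₁ → z ∈ center P ∧ z * z = 1) : Nonempty (commutator P ≃* L₁) := by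
  have h1 := card_commutator_le (π := ((e₁.trans e).toMonoidHom.comp (QuotientGroup.mk' _)).comp f)
    (fun z h => hz z ((QuotientGroup.eq_one_iff _).1 ((e₁.trans e).map_eq_one_iff.1 h)))
    (((e₁.trans e).surjective.comp (QuotientGroup.mk'_surjective _)).comp hf)
  refine ⟨MulEquiv.ofBijective (f.comp (commutator P).subtype) (Function.Surjective.bijective_of_nat_card_le (fun x => ?_) ?_)⟩
  · have : x ∈ (commutator P).map f := by
      rw [commutator_def, map_commutator, map_top_of_surjective _ hf, ← commutator_def, h₁]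
      trivial
    obtain ⟨y, hy, rfl⟩ := this
    exact ⟨⟨y, hy⟩, rfl⟩
  · rwa [card_eq_card_quotient_mul_card_subgroup (center L₁), hc₁, Nat.card_congr (e₁.trans e).toEquiv, card_psl]


/-- Up to isomorphism there is at most one quasisimple group whose centre is elementary abelian of order 4 and whose central quotient is isomorphic to the projective special linear group of dimension 3 over the field with four elements: any two such groups are isomorphic. -/
theorem result {L₁ L₂ : Type*} [Group L₁] [Finite L₁] [Group L₂] [Finite L₂] (F : Type) [Field F] [Fintype F] (hF : Fintype.card F = 4) (h₁ : Cfsg.IsQuasisimple L₁) (h₂ : Cfsg.IsQuasisimple L₂) (hc₁ : Nat.card (Subgroup.center L₁) = 4) (hc₂ : Nat.card (Subgroup.center L₂) = 4) (he₁ : ∀ x ∈ Subgroup.center L₁, x * x = 1) (he₂ : ∀ x ∈ Subgroup.center L₂, x * x = 1) (e₁ : L₁ ⧸ Subgroup.center L₁ ≃* Matrix.ProjectiveSpecialLinearGroup (Fin 3) F) (e₂ : L₂ ⧸ Subgroup.center L₂ ≃* Matrix.ProjectiveSpecialLinearGroup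 (Fin 3) F) : Nonempty (L₁ ≃* L₂) := by
  let e := CA.Small.pslCongr (ι := Fin 3) (FiniteField.ringEquivOfCardEq (K := F) (K' := CA.L34.K4) hF)
  let π₁ := e₁.toMonoidHom.comp (QuotientGroup.mk' _)
  let π₂ := e₂.toMonoidHom.comp (QuotientGroup.mk' _)
  have s₁ : Function.Surjective π₁ := e₁.surjective.comp (QuotientGroup.mk'_surjective _)
  have s₂ : Function.Surjective π₂ := e₂.surjective.comp (QuotientGroup.mk'_surjective _)
  have k₁ : ∀ x, π₁ x = 1 ↔ x ∈ Subgroup.center L₁ := fun x => e₁.map_eq_one_iff.trans (QuotientGroup.eq_one_iff _)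
  have k₂ : ∀ x, π₂ x = 1 ↔ x ∈ Subgroup.center L₂ := fun x => e₂.map_eq_one_iff.trans (QuotientGroup.eq_one_iff _)
  let P := (π₁.comp (MonoidHom.fst L₁ L₂)).eqLocus (π₂.comp (MonoidHom.snd L₁ L₂))
  have hz : ∀ z : P, z.1.1 ∈ Subgroup.center L₁ → z.1.2 ∈ Subgroup.center L₂ → z ∈ Subgroup.center P ∧ z * z = 1 :=
    fun z h1 h2 => ⟨Subgroup.mem_center_iff.2 fun g => Subtype.ext (Prod.ext (Subgroup.mem_center_iff.1 h1 _)
      (Subgroup.mem_center_iff.1 h2 _)), Subtype.ext (Prod.ext (he₁ _ h1) (he₂ _ h2))⟩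
  obtain ⟨a⟩ := key e h₁.1.commutator_eq_top hc₁ e₁ ((MonoidHom.fst L₁ L₂).comp P.subtype)
    (fun x => (s₂ (π₁ x)).elim fun y hy => ⟨⟨(x, y), hy.symm⟩, rfl⟩)
    fun z h => hz z h ((k₂ _).1 (z.2.symm.trans ((k₁ _).2 h)))
  obtain ⟨b⟩ := key e h₂.1.commutator_eq_top hc₂ e₂ ((MonoidHom.snd L₁ L₂).comp P.subtype)
    (fun x => (s₁ (π₂ x)).elim fun y hy => ⟨⟨(y, x), hy⟩, rfl⟩)
    fun z h => hz z ((k₁ _).1 (z.2.trans ((k₂ _).2 h))) h
  exact ⟨a.symm.trans b⟩

end Cfsg.Agent.S5387
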