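import Cfsg.Statements.S5393
import Cfsg.Agent.Lib.Golay.Mod

set_option autoImplicit false
open Cfsg

namespace Cfsg.Agent.S5393
open CA.Gol
open scoped Pointwise


/-- The length-24 code built from the squares modulo 23 contains the all-ones word, and the code modulo the all-ones word is an irreducible module over the field with two elements for the code's automorphism group: a subspace of the code that contains the all-ones word and is invariant under every coordinate permutation preserving the code is either the span of the all-ones word or the whole code. -/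
theorem result : (fun _ : Cfsg.GolayPt => (1 : ZMod 2)) ∈ Cfsg.golayCode ∧ ∀ W : Submodule (ZMod 2) (Cfsg.GolayPt → ZMod 2), (fun _ => (1 : ZMod 2)) ∈ W → W ≤ Cfsg.golayCode → (∀ σ ∈ Cfsg.M24, ∀ w ∈ W, (fun p => w (σ.symm p)) ∈ W) → W = Submodule.span (ZMod 2) {fun _ => (1 : ZMod 2)} ∨ W = Cfsg.golayCode := by
  refine ⟨one_mem_golay, fun W h1 hle hW => ?_⟩
  have hI := invFam_of_submodule hW
  by_cases h : ∀ s, ind s ∈ W → s = ∅ ∨ s = Finset.univ
  · exact Or.inl (eq_span_one h1 h)
  · push Not at h
    obtain ⟨s, hs, h0, h2⟩ := h
    refine Or.inr (le_antisymm hle fun w hw => ?_)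
    rw [← ind_support w]
    exact hI.of_code (mem_CW.2 (hle hs)) h0.ne_empty h2 hs (support_mem_CW.2 hw)

end Cfsg.Agent.S5393
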