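import Cfsg.Statements.S5394
import Cfsg.Agent.Lib.Golay.Classes

set_option autoImplicit false
open Cfsg

namespace Cfsg.Agent.S5394
open CA.Gol


/-- The automorphism group of the length-24 code built from the squares modulo 23 has exactly two conjugacy classes of involutions: an involution either fixes exactly the eight points of an octad or has no fixed points, both kinds occur, and any two involutions of the same kind are conjugate in the group. -/
theorem result : (∀ g ∈ Cfsg.M24, orderOf g = 2 → (Finset.univ.filter fun p => g p = p) ∈ Cfsg.octads ∨ ∀ p, g p ≠ p) ∧ (∃ g ∈ Cfsg.M24, orderOf g = 2 ∧ (Finset.univ.filter fun p => g p = p) ∈ Cfsg.octads) ∧ (∃ g ∈ Cfsg.M24, orderOf g = 2 ∧ ∀ p, g p ≠ p) ∧ ∀ g ∈ Cfsg.M24, ∀ h ∈ Cfsg.M24, orderOf g = 2 → orderOf h = 2 → ((∀ p, g p ≠ p) ↔ (∀ p, h p ≠ p)) → ∃ k ∈ Cfsg.M24, k * g * k⁻¹ = h := by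
  refine ⟨fun g hg h2 => (fix_two hg h2).imp id card_fixS_eq_zero.1,
    ⟨_, perm_mem_M24 r2A_in, r2A_order, r2A_fix⟩,
    ⟨_, perm_mem_M24 r2B_in, r2B_order, card_fixS_eq_zero.1 r2B_fix⟩, fun g hg h hh g2 h2 e => ?_⟩
  rw [← card_fixS_eq_zero, ← card_fixS_eq_zero] at e
  by_cases h0 : (fixS g).card = 0
  · obtain ⟨k, hk, e1⟩ := class_2B hg g2 h0
    obtain ⟨k', hk', e2⟩ := class_2B hh h2 (e.1 h0)
    exact ⟨_, mul_mem (inv_mem hk') hk, conj_of_conj e1 e2⟩
  · obtain ⟨k, hk, e1⟩ := class_2A hg g2 h0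
    obtain ⟨k', hk', e2⟩ := class_2A hh h2 (fun h => h0 (e.2 h))
    exact ⟨_, mul_mem (inv_mem hk') hk, conj_of_conj e1 e2⟩

end Cfsg.Agent.S5394
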