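import Cfsg.Statements.S5395
import Cfsg.Agent.Lib.Extra2.Basic

set_option autoImplicit false
open Cfsg

namespace Cfsg.Agent.S5395

open CA CA.Ex2

/-- For a finite extraspecial 2-group E, an automorphism of E that induces the identity on E modulo its centre is inner (so these automorphisms form exactly the inner automorphism group, an elementary abelian 2-group of order |E|/2). -/
theorem result {E : Type*} [Group E] [Finite E] (hE : Cfsg.IsExtraspecial 2 E) (φ : E ≃* E) (hφ : ∀ x : E, φ x * x⁻¹ ∈ Subgroup.center E) : ∃ g : E, ∀ x : E, φ x = g * x * g⁻¹ := by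
  let G := SemidirectProduct E (MulAut E) (MonoidHom.id _)
  haveI : Finite G := Finite.of_equiv _ SemidirectProduct.equivProd.symm
  let f : E →* G := SemidirectProduct.inl
  have hf : Function.Injective f := SemidirectProduct.inl_injective
  have h0 : Extraspecial 2 (⊤ : Subgroup E) := by
    refine ⟨⟨(hE.1.1).to_subgroup ⊤, ?_, ?_⟩, ?_⟩
    · rw [phi_top, center_top_eq]; exact hE.1.2.1
    · rw [center_top_eq]; exact hE.1.2.2
    · rw [center_top_eq]; exact hE.2
  obtain ⟨z, hz⟩ := exists_ez (h0.map hf)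
  let x : G := SemidirectProduct.inr φ
  have hx : ∀ e, f (φ e) = x * f e * x⁻¹ := fun e => by
    have := SemidirectProduct.inl_aut (φ := MonoidHom.id (MulAut E)) φ e
    rw [map_inv] at this
    exact this
  have h1 : x ∈ Subgroup.map f ⊤ ⊔ 𝐂(Subgroup.map f ⊤) := hz.mem_sup_cent (by
    rintro _ ⟨e, -, rfl⟩
    rw [← hz.cen, ← PG.map_cent_inf hf, center_top_eq]
    refine ⟨e * φ e⁻¹, ?_, by rw [map_mul, hx, map_inv]; simp only [mul_assoc]⟩
    have h2 := hφ e⁻¹
    rw [inv_inv] at h2
    have := Subgroup.mem_center_iff.1 h2 e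
    have h3 : e * φ e⁻¹ = φ e⁻¹ * e := by
      calc e * φ e⁻¹ = e * (φ e⁻¹ * e) * e⁻¹ := by group
        _ = _ := by rw [this]; group
    rw [h3]; exact h2)
  obtain ⟨_, ⟨g, -, rfl⟩, c, hc, e⟩ := (mem_sup_of_norm_right
    (Subgroup.centralizer_le_normalizer _)).1 h1
  refine ⟨g, fun y => hf ?_⟩
  rw [hx, ← e, map_mul, map_mul, map_inv]
  have := conj_eq_of_mem_cent hc (⟨y, trivial, rfl⟩ : f y ∈ Subgroup.map f ⊤)
  calc f g * c * f y * (f g * c)⁻¹ = f g * (c * f y * c⁻¹) * (f g)⁻¹ := by
        simp only [mul_assoc, mul_inv_rev]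
    _ = _ := by rw [this]

end Cfsg.Agent.S5395
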