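import Cfsg.Statements.S5397
import Cfsg.Agent.Lib.Co.CT9

set_option autoImplicit false
open Cfsg

namespace Cfsg.Agent.S5397

open CA CA.Co CA.Gol Subgroup
open scoped Pointwise

theorem card_E1 : Nat.card E1 = 2 ^ 11 := by
  haveI := card_E1_le.1
  refine le_antisymm card_E1_le.2 ?_
  let f : Fin 2048 → E1 := fun i => ⟨sgC (fs (enc i)), mem_E1.2 ⟨_, enc_mem_CW (by omega), rfl⟩⟩
  simpa using Nat.card_le_card_of_injective f fun i j e => by
    have hi : i.1 < 4096 := by omega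
    have hj : j.1 < 4096 := by omega
    have h := (Bool.and_eq_true_iff.1 ((mr_sg (isCode_enc hi)).of_mk_eq (mr_sg (isCode_enc hj)) (congrArg Subtype.val e))).1
    simp only [eqc, Bool.or_eq_true, beq_iff] at h
    rcases h with h | h
    · exact Fin.ext (by rw [← enc_land hi, h, enc_land hj])
    · have k := beq_iff.1 (allLt_iff.1 (by decide +kernel : allLt (fun i =>
        Nat.beq (Nat.land (Nat.xor (enc i) 16777215) 4095) (Nat.sub 4095 i)) 2048 = true) i i.2)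
      rw [h, enc_land hj, Nat.sub_eq] at k
      omega

theorem orbits {x : Spor.Co1} (hx : x ∈ E1) (h1 : x ≠ 1) : ∃ n ∈ N1,
    n * x * n⁻¹ = (sgC (fs O0) : Co0) ∨ n * x * n⁻¹ = (sgC (fs D0) : Co0) := by
  obtain ⟨c, hc, rfl⟩ := mem_E1.1 hx
  have k : ∀ c ∈ CW, c.card = 8 ∨ c.card = 12 → ∃ n ∈ N1, n * (sgC c : Co0) * n⁻¹ = (sgC (fs O0) : Co0) ∨
      n * (sgC c : Co0) * n⁻¹ = (sgC (fs D0) : Co0) := by
    rintro c hc (h | h)
    · obtain ⟨g, hg, e⟩ := octad_trans ⟨hc, h⟩ (fs_mem_octads (m := O0) (by decide +kernel))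
      exact ⟨_, pm1_mem ⟨g, hg⟩, Or.inl (congrArg QuotientGroup.mk (e ▸ pmC_conj_sgC ⟨g, hg⟩ hc))⟩
    · obtain ⟨g, hg, e⟩ := dodecad_trans0 ⟨hc, h⟩
      exact ⟨_, pm1_mem ⟨g, hg⟩, Or.inr (congrArg QuotientGroup.mk (e ▸ pmC_conj_sgC ⟨g, hg⟩ hc))⟩
  rcases card_CW hc with h | h | h | h | h
  · exact absurd (by rw [Finset.card_eq_zero.1 h, sgC_empty]; rfl) h1
  · exact k c hc (Or.inl h)
  · exact k c hc (Or.inr h)
  · rw [← mk_negC_mul, negC_mul_sgC hc]
    exact k _ (compl_mem_CW hc) (Or.inl (by rw [Finset.card_univ_sdiff, card_golayPt, h]))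
  · exact absurd (mk_eq_one_iff.2 (Or.inr (by rw [Finset.eq_univ_of_card c (h.trans card_golayPt.symm)]; rfl))) h1

/-- Let G be a finite group of Conway type (involution z with generalized Fitting subgroup Q of its centralizer C extraspecial of order 2^9, C/Q the commutator subgroup of the isometry group of the hyperbolic quadratic form in dimension 8 over the field with two elements, z not weakly closed in Q). Then G has an elementary abelian subgroup A of order 2^11 containing z whose normalizer N is a split extension of A with N/A isomorphic to the automorphism group of the length-24 code built from the squares modulo 23, and N has exactly two orbits on the non-identity elements of A. -/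
theorem result {G : Type*} [Group G] [Finite G] (z : G) (hz : orderOf z = 2) (Q : Subgroup (Subgroup.centralizer ({z} : Set G))) [Q.Normal] (hF : Cfsg.generalizedFittingSubgroup (Subgroup.centralizer ({z} : Set G)) = Q) (hQ : Cfsg.IsExtraspecial 2 Q) (hcard : Nat.card Q = 2 ^ 9) (e : (Subgroup.centralizer ({z} : Set G)) ⧸ Q ≃* Cfsg.Omega (ZMod 2) (Cfsg.quadFormPlus 4 (ZMod 2))) (hnwc : ∃ g : G, (∃ hq : g * z * g⁻¹ ∈ Subgroup.centralizer ({z} : Set G), (⟨g * z * g⁻¹, hq⟩ : Subgroup.centralizer ({z} : Set G)) ∈ Q) ∧ g * z * g⁻¹ ≠ z) : ∃ A : Subgroup G, Cfsg.IsElementaryAbelian 2 A ∧ Nat.card A = 2 ^ 11 ∧ z ∈ A ∧ ∃ _ : (A.subgroupOf (Subgroup.normalizer (A : Set G))).Normal, Nonempty (↥(Subgroup.normalizer (A : Set G)) ⧸ A.subgroupOf (Subgroup.normalizer (A : Set G)) ≃* ↥Cfsg.M24) ∧ (∃ K : Subgroup ↥(Subgroup.normalizer (A : Set G)), (A.subgroupOf (Subgroup.normalizer (A : Set G))).IsComplement' K) ∧ ∃ a ∈ A, ∃ b ∈ A, a ≠ 1 ∧ b ≠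 1 ∧ (∀ n ∈ Subgroup.normalizer (A : Set G), n * a * n⁻¹ ≠ b) ∧ ∀ c ∈ A, c ≠ 1 → ∃ n ∈ Subgroup.normalizer (A : Set G), n * c * n⁻¹ = a ∨ n * c * n⁻¹ = b := by
  obtain ⟨f, hf, -⟩ := conway_type ⟨hz, hF, hQ, hcard, hnwc⟩ e
  have hO := fs_mem_octads (m := O0) (by decide +kernel)
  have hA : ∀ x, x ∈ E1.comap f.symm.toMonoidHom ↔ f.symm x ∈ E1 := fun _ => Iff.rfl
  have hN : ∀ x, x ∈ normalizer (E1.comap f.symm.toMonoidHom : Set G) ↔ f.symm x ∈ N1 := fun x => by
    rw [← comap_normalizer_eq_of_surjective _ f.symm.surjective, norm_E1]; rfl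
  have hc : Nat.card (E1.comap f.symm.toMonoidHom) = 2 ^ 11 := by
    rw [comap_equiv_eq_map_symm', card_map_of_injective f.symm.symm.injective, card_E1]
  generalize E1.comap f.symm.toMonoidHom = A at hA hN hc
  let ρ : normalizer (A : Set G) →* M24 :=
    rho.comp ((f.symm.toMonoidHom.comp (Subgroup.subtype _)).codRestrict N1 fun x => (hN _).1 x.2)
  let s : M24 →* normalizer (A : Set G) :=
    (f.toMonoidHom.comp pm1).codRestrict _ fun σ => (hN _).2 (by simpa using pm1_mem σ)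
  have h1 : ∀ σ, ρ (s σ) = σ := fun σ => (pel_of_mem rho _).symm.trans
    ((congrArg _ (f.symm_apply_apply _)).trans (pel_rho_pm1 σ))
  have h2 : ρ.ker = A.subgroupOf (normalizer (A : Set G)) := Subgroup.ext fun x => by
    rw [mem_subgroupOf, hA, E1, mem_pker, pel_of_mem rho ((hN _).1 x.2), and_iff_right ((hN _).1 x.2)]; rfl
  have h3 : ∀ {c}, c ∈ CW → f (sgC c : Co0) ∈ A := fun hc => (hA _).2 (by simpa using mem_E1.2 ⟨_, hc, rfl⟩)
  refine ⟨A, ⟨⟨⟨fun a b => Subtype.ext (f.symm.injective ?_)⟩⟩, fun a ha => f.symm.injective ?_⟩, hc,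
    (hA _).2 (by rw [← hf, f.symm_apply_apply]; exact z_mem_E1), inferInstance,
    ⟨(QuotientGroup.quotientMulEquivOfEq h2.symm).trans (QuotientGroup.quotientKerEquivOfSurjective ρ fun σ => ⟨_, h1 σ⟩)⟩,
    ⟨s.range, h2 ▸ isComplement'_of_disjoint_and_mul_eq_univ (disjoint_def.2 ?_) (Set.eq_univ_of_forall fun x =>
      ⟨x * (s (ρ x))⁻¹, by simp [h1], s (ρ x), ⟨_, rfl⟩, inv_mul_cancel_right _ _⟩)⟩,
    _, h3 hO.1, _, h3 D0_mem.1, (map_ne_one_iff _ f.injective).2 (mk_sgC_ne hO.1 (Or.inl hO.2)),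
    (map_ne_one_iff _ f.injective).2 (mk_sgC_ne D0_mem.1 (Or.inr D0_mem.2)), fun n _ k => ?_, fun c hc k => ?_⟩
  · simpa using E1_comm ((hA _).1 a.2) ((hA _).1 b.2)
  · simpa [_root_.sq] using E1_sq ((hA _).1 ha)
  · rintro _ k ⟨σ, rfl⟩
    rw [← h1 σ, show ρ (s σ) = 1 from k, map_one]
  · have := (conj_a_iff hO D0_mem.1).1 (isConj_iff.2 ⟨f.symm n, by simpa using congrArg f.symm k⟩)
    have := D0_mem.2
    omega
  · obtain ⟨n, hn, e⟩ := orbits ((hA _).1 hc) ((map_ne_one_iff _ f.symm.injective).2 k)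
    exact ⟨f n, (hN _).2 (by simpa using hn), e.imp (fun e => by simp [← e]) fun e => by simp [← e]⟩

end Cfsg.Agent.S5397
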