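import Cfsg.Statements.S5401
import Cfsg.Agent.Lib.Fi.Types

set_option autoImplicit false
open Cfsg

namespace Cfsg.Agent.S5401

/-- Existence of the Fischer 3-transposition groups: there exist finite groups generated by a conjugacy class of 3-transpositions on which they act primitively that are of type M(22), of type M(23), and of type M(24) respectively. -/
theorem result : (∃ (X : Type) (_ : Group X) (_ : Finite X) (E : Set X), Cfsg.IsThreeTranspositionClass E ∧ Cfsg.IsPrimitiveUnderConj E ∧ Cfsg.IsOfTypeM22 X E) ∧ (∃ (X : Type) (_ : Group X) (_ : Finite X) (E : Set X), Cfsg.IsThreeTranspositionClass E ∧ Cfsg.IsPrimitiveUnderConj E ∧ Cfsg.IsOfTypeM23 X E) ∧ (∃ (X : Type) (_ : Group X) (_ : Finite X) (E : Set X), Cfsg.IsThreeTranspositionClass E ∧ Cfsg.IsPrimitiveUnderConj E ∧ Cfsg.IsOfTypeM24 X E) := by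
  obtain ⟨t, h⟩ := CA.Fi.exists22
  obtain ⟨u, k⟩ := CA.Fi.exists23
  obtain ⟨v, l⟩ := CA.Fi.exists24
  exact ⟨⟨_, _, h.ok.finite_pg, _, h.cls22, h.prim22, h.type22⟩,
    ⟨_, _, k.ok.finite_pg, _, k.cls23, k.prim23, k.type23⟩,
    ⟨_, _, l.ok.finite_pg, _, l.cls24, l.prim24, l.type24⟩⟩

end Cfsg.Agent.S5401
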