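import Cfsg.Statements.S5408
import Cfsg.Agent.Lib.Co.MType

set_option autoImplicit false
open Cfsg

namespace Cfsg.Agent.S5408

open CA CA.Co CA.Ex2 Subgroup

/-- Let G be a finite group of Monster type at the involution z with Q the extraspecial normal subgroup of order 2^25 of C = C_G(z) (so C/Q is identified with the first Conway group with Q modulo its centre the Leech lattice modulo 2, and z is not weakly closed in Q). Then Q is of plus type: it contains an elementary abelian subgroup of order 2^13. -/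
theorem result {G : Type*} [Group G] [Finite G] (z : G) (Q : Subgroup (Subgroup.centralizer ({z} : Set G))) [Q.Normal] (hM : Cfsg.IsOfMonsterType z Q) : ∃ E : Subgroup Q, Cfsg.IsElementaryAbelian 2 E ∧ Nat.card E = 2 ^ 13 := by
  obtain ⟨hS, e, ψ, hψ⟩ := hM
  have h := mt_of hS hψ
  obtain ⟨k, h1, h2⟩ := h.ex
  obtain ⟨g, hg⟩ := h.exists_twist_frame h1 (isConj_iff.2 ⟨k, rfl⟩) h2
  have h3 := ((h.twist g).frame_main hg).2.1
  have h4 := (h.lq.tri h1 h2).elemAb_E
  set E := Q.map (𝐂[z]).subtype ⊓ cj k (Q.map (𝐂[z]).subtype)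
  let f : Q →* G := (𝐂[z]).subtype.comp Q.subtype
  have hf : Function.Injective f := (subtype_injective _).comp (subtype_injective _)
  have hE : (E.comap f).map f = E := map_comap_eq_self (by
    rintro _ ⟨⟨x, hx, rfl⟩, -⟩; exact ⟨⟨x, hx⟩, rfl⟩)
  refine ⟨E.comap f, ⟨(PG.comm_map_iff hf).1 (hE.symm ▸ h4.1), fun a ha => hf ?_⟩, ?_⟩
  · rw [map_pow, map_one]; exact h4.2 _ ha
  · rw [← card_map_of_injective' hf, hE, h3]

end Cfsg.Agent.S5408
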