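import Cfsg.Statements.S5410
import Cfsg.Agent.Lib.Co.MType

set_option autoImplicit false
open Cfsg

namespace Cfsg.Agent.S5410

open CA CA.Co CA.Ex2 Subgroup

/-- Let G be a finite group of Monster type at the involution z with Q the extraspecial normal subgroup of order 2^25 of C = C_G(z) (so C/Q is identified with the first Conway group with Q modulo its centre the Leech lattice modulo 2, and z is not weakly closed in Q). Let g in G with s = g z g⁻¹ a member of Q other than z, let X be the image in C/Q of the centralizer of s in C, and let E be the image in C/Q of the intersection of g Q g⁻¹ with C. Then E is a normal subgroup of X, elementary abelian of order 2^11, and it has a complement in X isomorphic to the Mathieu group of degree 24 (the automorphism group of the length-24 binary Golay code). -/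
theorem result {G : Type*} [Group G] [Finite G] (z : G) (Q : Subgroup (Subgroup.centralizer ({z} : Set G))) [Q.Normal] (hM : Cfsg.IsOfMonsterType z Q) (s : G) (hsQ : ∃ hsc : s ∈ Subgroup.centralizer ({z} : Set G), (⟨s, hsc⟩ : Subgroup.centralizer ({z} : Set G)) ∈ Q) (hs : IsConj z s) (hs1 : s ≠ z) (g : G) (hg : g * z * g⁻¹ = s) (X E : Subgroup ((Subgroup.centralizer ({z} : Set G)) ⧸ Q)) (hX : X = ((Subgroup.centralizer ({z} : Set G) ⊓ Subgroup.centralizer ({s} : Set G)).subgroupOf (Subgroup.centralizer ({z} : Set G))).map (QuotientGroup.mk' Q)) (hE : E = (((Q.map (Subgroup.centralizer ({z} : Set G)).subtype).map (MulAut.conj g).toMonoidHom ⊓ Subgroup.centralizer ({z} : Set G)).subgroupOf (Subgroup.centralizer ({z} : Set G))).map (QuotientGroup.mk' Q)) : E ≤ X ∧ (∀ x ∈ X, ∀ y ∈ E, x * y * x⁻¹ ∈ E) ∧ Cfsg.IsElementaryAbelian 2 E ∧ Nat.card E = 2 ^ 11 ∧ ∃ K : Subgroup ((Subgroup.centralizer ({z} : Set G)) ⧸ Q), K ≤ X ∧ E ⊓ K = ⊥ ∧ E ⊔ K = X ∧ Nonempty (K ≃* Cfsg.M24) := by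
  obtain ⟨hS, e, ψ, hψ⟩ := hM
  have h := mt_of hS hψ
  subst hg
  obtain ⟨k, hk⟩ := h.exists_twist_frame (mem_map_iff.2 hsQ) hs hs1
  obtain ⟨h1, -, h2⟩ := (h.twist k).frame_main hk
  have h3 := (h.twist k).pmap_cent_frame hk
  let ε := e.trans (MulAut.conj (k : Spor.Co1))
  have key : ∀ Y : Subgroup G, pmap ((MulAut.conj (k : Spor.Co1)).toMonoidHom.comp (piOf Q e)) Y =
      ((Y.subgroupOf 𝐂[z]).map (QuotientGroup.mk' Q)).map ε.toMonoidHom := fun Y => by
    rw [map_map]; rfl
  rw [key] at h1 h3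
  have hX' : X.map ε.toMonoidHom = N1 := hX ▸ h3
  have hE' : E.map ε.toMonoidHom = E1 := hE ▸ h1
  have hi : Function.Injective ε.toMonoidHom := ε.injective
  have mX : ∀ x, x ∈ X ↔ ε x ∈ N1 := fun x => by rw [← hX']; exact (mem_map_iff_mem hi).symm
  have mE : ∀ x, x ∈ E ↔ ε x ∈ E1 := fun x => by rw [← hE']; exact (mem_map_iff_mem hi).symm
  have hK : (pm1.range.comap ε.toMonoidHom).map ε.toMonoidHom = pm1.range :=
    map_comap_eq_self_of_surjective ε.surjective _
  refine ⟨fun x hx => (mX x).2 (E1_le ((mE x).1 hx)), fun x hx y hy => (mE _).2 ?_,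
    ⟨abelian_of_sq fun a ha => ε.injective ?_, fun a ha => ε.injective ?_⟩, ?_, pm1.range.comap ε.toMonoidHom,
    ?_, ?_, ?_, ?_⟩
  · rw [map_mul, map_mul, map_inv]
    exact conj_mem_of_mem_normalizer (E1_normalIn.2 ((mX x).1 hx)) ((mE y).1 hy)
  · rw [map_mul, map_one]; exact E1_sq ((mE a).1 ha)
  · rw [pow_two, map_mul, map_one]; exact E1_sq ((mE a).1 ha)
  · rw [← card_map_of_injective' hi, hE', h2]
  · intro x hx
    obtain ⟨σ, hσ⟩ := hx
    exact (mX x).2 (by rw [show ε x = pm1 σ from hσ.symm]; exact pm1_mem σ)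
  · apply map_injective hi
    rw [map_inf _ _ _ hi, hE', hK, E1_inf_range, Subgroup.map_bot]
  · apply map_injective hi
    rw [Subgroup.map_sup, hE', hK, E1_sup_range, hX']
  · exact ⟨(((pm1.range.comap ε.toMonoidHom).equivMapOfInjective _ hi).trans (MulEquiv.subgroupCongr hK)).trans
      (MonoidHom.ofInjective pm1_injective).symm⟩

end Cfsg.Agent.S5410
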