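import Cfsg.Statements.S5429
import Cfsg.Agent.Lib.Extra2.Quot

set_option autoImplicit false
open Cfsg

namespace Cfsg.Agent.S5429

open CA CA.Ex2 Subgroup

/-- Let z be an involution of the finite group G with centralizer C whose generalized Fitting subgroup Q is extraspecial of width at least 3 (order 2^(2w+1), w ≥ 3); let g be an element of G with g z g⁻¹ in Q but outside the centre Z of Q, and t an involution lying in both Q and g Q g⁻¹ that is not conjugate to z; write P for the centralizer of t in Q and suppose that the elements of C acting trivially by conjugation on P modulo the subgroup generated by t and z are exactly the elements of Q. Then the image of P in the centralizer of t modulo the subgroup generated by t is a large extraspecial 2-subgroup there, and g z g⁻¹ is conjugate to z inside the subgroup generated by P and the centralizer of t in g Q g⁻¹. -/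
theorem result {G : Type*} [Group G] [Finite G] (z : G) (hz : orderOf z = 2) (Q : Subgroup G) (hQC : Q ≤ Subgroup.centralizer ({z} : Set G)) (hF : (Cfsg.generalizedFittingSubgroup ↥(Subgroup.centralizer ({z} : Set G))).map (Subgroup.centralizer ({z} : Set G)).subtype = Q) (hQ : Cfsg.IsExtraspecial 2 ↥Q) (w : ℕ) (hw : 3 ≤ w) (hcard : Nat.card ↥Q = 2 ^ (2 * w + 1)) (g : G) (hgQ : g * z * g⁻¹ ∈ Q) (hgZ : g * z * g⁻¹ ∉ ((Subgroup.center ↥Q).map Q.subtype)) (t : G) (ht : orderOf t = 2) (htQ : t ∈ Q ⊓ (Q).map (MulAut.conj g).toMonoidHom) (htz : ¬ IsConj z t) (P : Subgroup G) (hP : P = Q ⊓ Subgroup.centralizer ({t} : Set G)) (hCP : ∀ c ∈ Subgroup.centralizer ({z} : Set G), (∀ x ∈ P, ∃ y ∈ Subgroup.closure ({t, z} : Set G), c * x * c⁻¹ = x * y) ↔ c ∈ Q) [hn : ((Subgroup.zpowers t).subgroupOf (Subgroup.centralizer ({t} : Set G))).Normal] : Cfsg.IsLargeExtraspecial ((P.subgroupOf (Subgroup.centralizer ({t} : Set G))).map (QuotientGroup.mk'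 ((Subgroup.zpowers t).subgroupOf (Subgroup.centralizer ({t} : Set G))))) ∧ ∃ x ∈ P ⊔ ((Q).map (MulAut.conj g).toMonoidHom ⊓ Subgroup.centralizer ({t} : Set G)), x * (g * z * g⁻¹) * x⁻¹ = z := by
  have h := lq_of_fstar hz hF hQ
  rw [center_eq_map, h.cen] at hgZ
  have hxz : g * z * g⁻¹ ≠ z := fun e => hgZ (by rw [e]; exact mem_zpowers z)
  have hT := h.tri hgQ hxz
  have ht2 := Inv.mul_self_of_orderOf ht
  have ht1 := Inv.ne_one_of_orderOf ht
  have htQ1 : t ∈ Q := htQ.1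
  have htP : t ∈ cj g Q := htQ.2
  have hzx : IsConj z (g * z * g⁻¹) := isConj_iff.2 ⟨g, rfl⟩
  set x := g * z * g⁻¹ with hx
  have htz' : t ∉ zpowers z := not_mem_zp2 h.ez.sq ht1 fun e => htz (e ▸ IsConj.refl _)
  have hzt : ¬ IsConj z (z * t) := fun e => htz (by
    obtain ⟨q, -, e1⟩ := h.ez.exists_conj htQ1 htz'
    exact e.trans (isConj_iff.2 ⟨q, e1.trans (h.ez.comm htQ1)⟩).symm)
  have hxt : ¬ IsConj z (x * t) := fun e => htz (by
    obtain ⟨q, -, e1⟩ := hT.r.ez.exists_conj htP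
      (not_mem_zp2 hT.xsq ht1 fun e => htz (e ▸ hzx))
    exact e.trans (isConj_iff.2 ⟨q, e1.trans (hT.r.ez.comm htP)⟩).symm)
  obtain ⟨q, hq, hqt, e1⟩ := h.ez.exists_conj_cent1 htQ1 hgQ fun e => by
    rcases (mem_V h.ez.sq ht2 (h.ez.comm htQ1)).1 e with e | e | e | e
    · exact hT.r.ez.ne_one e
    · exact hxz e
    · exact htz (e ▸ hzx)
    · exact hzt (e ▸ hzx)
  obtain ⟨c, hc, hct, e2⟩ := hT.r.ez.exists_conj_cent1 htP hT.mem' fun e => by
    rcases (mem_V hT.xsq ht2 (hT.r.ez.comm htP)).1 e with e | e | e | e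
    · exact h.ez.ne_one e
    · exact hxz e.symm
    · exact htz (e ▸ IsConj.refl _)
    · exact hxt (e ▸ IsConj.refl _)
  have e3 := swap_of h.ez.sq hT.xsq hT.xz (h.ez.conj_z hq) e1 (hT.r.ez.conj_z hc) e2
  have hqP : q ∈ P := hP ▸ mem_inf.2 ⟨hq, mem_cent1_iff.2 hqt⟩
  have hcP : c ∈ cj g Q ⊓ 𝐂[t] := mem_inf.2 ⟨hc, mem_cent1_iff.2 hct⟩
  have hy : c * q * c⁻¹ ∈ P ⊔ (cj g Q ⊓ 𝐂[t]) :=
    mul_mem (mul_mem (mem_sup_right hcP) (mem_sup_left hqP)) (inv_mem (mem_sup_right hcP))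
  refine ⟨?_, _, hy, e3⟩
  let f := QuotientGroup.mk' ((zpowers t).subgroupOf 𝐂[t])
  have hk : pker f = zpowers t := pker_mk' (zpowers_le.2 (self_mem_cent1 t))
  have hPQ : P ≤ Q := hP ▸ inf_le_left
  have hPC : P ≤ 𝐂[t] := hP ▸ inf_le_right
  have hzP : z ∈ P := hP ▸ mem_inf.2 ⟨h.ez.mem, mem_cent1_iff.2 (h.ez.comm htQ1).symm⟩
  have hxP : x ∈ P := hP ▸ mem_inf.2 ⟨hgQ, mem_cent1_iff.2 (hT.r.ez.comm htP).symm⟩
  have hzt' : z ∉ zpowers t := not_mem_zp2 ht2 h.ez.ne_one fun e => htz (e ▸ IsConj.refl _)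
  have hm : ∀ m, m * z * m⁻¹ * z⁻¹ ∈ zpowers t → m ∈ 𝐂[z] := fun m hm => by
    rcases (mem_zp2 ht2).1 hm with e | e
    · exact conj_eq_iff_mem_cent1.1 (mul_inv_eq_one.1 e)
    · exact absurd (isConj_iff.2 ⟨m, by rw [← h.ez.comm htQ1, ← e]; group⟩) hzt
  have hl : LQ (pmap f P) (pel f z) := by
    refine lq_pmap f (QuotientGroup.mk'_surjective _) h.ez hPQ hPC hzP (by rwa [hk]) (fun e => ?_)
      (fun m hmt hc => ?_) (fun m hmt hc => ?_)
    · rw [abelian_iff'.1 e q hqP x hxP, mul_inv_cancel_right] at e1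
      exact h.ez.ne_one (by simpa using e1)
    · rw [hk] at hc ⊢
      have hmQ : m ∈ Q := (hCP m (hm m (hc z hzP))).1 fun r hr => by
        refine ⟨r⁻¹ * (m * r * m⁻¹ * r⁻¹) * r, ?_, by group⟩
        have := conj_inv_mem_of_mem_normalizer (norms_zpowers_of_cent1 hPC hr) (hc r hr)
        exact zpowers_le.2 (subset_closure (by simp)) this
      have h1 := h.ez.cent_cent (U := zpowers t ⊔ zpowers z) (mem_sup_right (mem_zpowers z))
        (sup_le (zpowers_le.2 htQ1) h.ez.zp_le)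
      rw [cent_V, inf_comm 𝐂[t], ← inf_assoc, inf_eq_left.2 h.ez.le_cent1, ← hP] at h1
      rw [← h1]
      refine mem_inf.2 ⟨hmQ, mem_cent_iff'.2 fun r hr => ?_⟩
      refine (h.ez.comm_or hmQ (hPQ hr)).resolve_right fun e => hzt' ?_
      have := hc r hr
      rwa [e, h.ez.comm (hPQ hr), mul_inv_cancel_right] at this
    · rw [hk] at hc
      exact ⟨m, ⟨hmt, hP ▸ norms_inf (zpowers_le.2 (h.le_norm (hm m hc)))
        (norms_self_of_le (zpowers_le.2 hmt)) (mem_zpowers m)⟩, rfl⟩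
  refine large_pmap f hl (hPC hzP) hxP (sup_le hPC inf_le_right hy) e3 ?_
  rw [hk]
  refine not_mem_zp2 ht2 (fun e => hxz (mul_inv_eq_one.1 e)) fun e => hzt ?_
  rw [← e, h.ez.inv, hT.xz, Inv.mul_mul_cancel h.ez.sq]
  exact hzx

end Cfsg.Agent.S5429
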