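import Cfsg.Statements.S5412
import Cfsg.Agent.Lib.Co.MType2
import Cfsg.Agent.S5429

set_option autoImplicit false
open Cfsg

namespace Cfsg.Agent.S5412

open CA CA.Co CA.Ex2 CA.Gol CA.Core Subgroup
open scoped commutatorElement

theorem co2_le : Spor.Co2 ≤ Co0 := inf_le_left

/-- the embedding of `Co2` in `Co1` -/
def iota : Spor.Co2 →* Spor.Co1 := (QuotientGroup.mk' _).comp (inclusion co2_le)

theorem iota_injective : Function.Injective iota := by
  rw [injective_iff_map_eq_one]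
  intro a ha
  rcases mk_eq_one_iff.1 ha with e | e
  · exact inclusion_injective _ (e.trans (map_one _).symm)
  · have h1 : (inclusion co2_le a : Co0) • UU = UU := a.2.2
    rw [e, negC_smul] at h1
    exact absurd (congrArg Subtype.val h1) (by decide +kernel)

section
variable {G : Type*} [Group G] [Finite G] {Q : Subgroup G} {z t : G} {π : ↥𝐂[z] →* Spor.Co1} {r : G → LL → Prop}

theorem exists_conj_mem (h : MT Q z π r) (ht : r t UU) : ∃ g, g * z * g⁻¹ ∈ Q ∧ g * z * g⁻¹ ≠ z ∧ t ∈ cj g Q := by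
  obtain ⟨k, h1, h2⟩ := h.ex
  obtain ⟨g, hg⟩ := h.exists_twist_frame h1 (isConj_iff.2 ⟨k, rfl⟩) h2
  have h' := h.twist g
  have hT := h.lq.tri h1 h2
  have hc : fs 0x49f002 ∈ CW := fs_mem_CW (by decide +kernel)
  obtain ⟨y, hy, e⟩ := (mem_pmap_of_le inf_le_right).1 ((h'.frame_main hg).1.ge (mem_E1.2 ⟨_, hc, rfl⟩))
  set v : LL := ⟨_, two_iz_mem (c := fs 0x371804) (fs_mem_CW (by decide +kernel))⟩ with hv
  obtain ⟨x, hx⟩ := h'.r_ex' v
  have hx' : x ∈ Q ⊓ 𝐂[k * z * k⁻¹] := ⟨h'.r_mem hx, mem_cent1_iff.2 ((h'.comm_iff hx hg).2 (by decide +kernel))⟩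
  have h3 := hT.der_R (commutator_mem_commutator (mem_sup_left hy) (mem_sup_right hx'))
  have h4 := h'.r_cg (v' := sgC (fs 0x49f002) • v - v) (h'.r_mul (h'.equi hy.2 e hx) (h'.r_inv hx)) (cg_sub_add v.2)
  obtain ⟨a, ha, e1⟩ := h.conj_type2 h4 ht (by
    rw [co_norm, AddSubgroupClass.coe_sub, sgC_smul hc]; decide +kernel) norm_UU
  have haz := conj_eq_iff_mem_cent1.2 ha
  refine ⟨a * k, ?_, fun e2 => h2 ?_, ?_⟩
  · rw [show a * k * z * (a * k)⁻¹ = a * (k * z * k⁻¹) * a⁻¹ by group]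
    exact conj_mem_of_mem_normalizer (h.lq.le_norm ha) h1
  · rw [show a * k * z * (a * k)⁻¹ = a * (k * z * k⁻¹) * a⁻¹ by group] at e2
    exact (MulAut.conj a).injective (e2.trans haz.symm)
  · rw [cj_mul, ← e1, conj_mem_cj]; exact h3.2

theorem trivial_on_perp (h : MT Q z π r) (ht : r t UU) {c : G} (hc : c ∈ 𝐂[z])
    (hx : ∀ x ∈ Q ⊓ 𝐂[t], c * x * c⁻¹ * x⁻¹ ∈ zpowers z ⊔ zpowers t) : c ∈ Q := by
  obtain ⟨g, e⟩ := MT.exists_co π c
  have key : ∀ g : Co0, pel π c = g → ∀ v : LL, 16 ∣ dotInt (v : ZV) UU → KU ((g • v : LL) - v) := fun g e v hv => by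
    obtain ⟨x, hx'⟩ := h.r_ex' v
    exact ((h.memV_iff ht (h.r_mul (h.equi hc e hx') (h.r_inv hx'))).1
      (hx x ⟨h.r_mem hx', mem_cent1_iff.2 ((h.comm_iff hx' ht).2 hv)⟩)).of_cg (cg_sub_add v.2)
  have h1 : Cg (g • UU : LL) UU := by
    rcases key g e UU (by decide +kernel) with k | k
    · exact cg_iff_sub.2 k
    · have : Cg (g • UU : LL) 0 := by simpa using (k.add (Cg.refl (UU : ZV))).trans (cg_add_self UU.2)
      exact absurd ((cg_co_zero g).1 this) MT.not_cg_UU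
  refine h.mem_of_pel hc ?_
  rcases h1.eq_or UU.2 (by rw [co_norm, norm_UU]; norm_num) (by rw [norm_UU]; norm_num) with k | k
  · rw [e, co2_faithful (Subtype.ext k) (key g e)]; rfl
  · have e' : pel π c = (negC * g : Co0) := by rw [mk_negC_mul, e]
    rw [e', co2_faithful (by rw [mul_smul, negC_smul, neg_eq_iff_eq_neg]; exact Subtype.ext k) (key _ e')]; rfl

theorem pmap_eq_range (h : MT Q z π r) (ht : r t UU) : pmap π (𝐂[z] ⊓ 𝐂[t]) = iota.range := by
  ext x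
  rw [mem_pmap_of_le inf_le_left]
  constructor
  · rintro ⟨y, hy, rfl⟩
    obtain ⟨g, e1, e2⟩ := h.exists_fix ht (by rw [norm_UU]; norm_num) hy
    exact ⟨⟨g.1, g.2, e2⟩, e1.symm⟩
  · rintro ⟨g, rfl⟩
    exact h.lift_cent ht MT.not_cg_UU (g := inclusion co2_le g) (Cg.of_eq (congrArg Subtype.val g.2.2))

theorem main (h : MT Q z π r) (ht : r t UU) (ht2 : orderOf t = 2) (hc : ¬ IsConj z t)
    [hn : ((zpowers t).subgroupOf 𝐂[t]).Normal] : IsOfBabyMonsterType (↥𝐂[t] ⧸ (zpowers t).subgroupOf 𝐂[t]) := by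
  obtain ⟨g, h1, h2, h3⟩ := exists_conj_mem h ht
  have htQ := h.r_mem ht
  have htt := Inv.mul_self_of_orderOf ht2
  have hO : oP 2 𝐂[z] ≤ Q := h.oP_le
  obtain ⟨k1, x, hx, k2⟩ := Cfsg.Agent.S5429.result z h.ez.ord Q h.le_C (fstar_eq_of_lq h.lq hO)
    (isExtraspecial_iff.2 h.ez.es) 12 (by norm_num) h.card g h1
    (by rw [center_eq_map, h.ez.cen]; exact (h.lq.tri h1 h2).not_mem) t ht2 ⟨htQ, h3⟩ hc _ rfl fun c hc => by
      rw [closure_pair_eq, sup_comm]
      refine ⟨fun k => trivial_on_perp h ht hc fun x hx => ?_, fun k x hx => ?_⟩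
      · obtain ⟨y, hy, e⟩ := k x hx
        rw [e]
        exact conj_mem_of_mem_normalizer (norms_sup (norms_zpowers_of_cent1 (inf_le_left.trans h.le_C))
          (norms_zpowers_of_cent1 inf_le_right) hx) hy
      · rcases h.ez.conj_or k hx.1 with e | e
        · exact ⟨1, one_mem _, by rw [e, mul_one]⟩
        · exact ⟨z, mem_sup_left (mem_zpowers z), e⟩
  set f := QuotientGroup.mk' ((zpowers t).subgroupOf 𝐂[t]) with hf
  have hk : pker f = zpowers t := pker_mk' (zpowers_le.2 (self_mem_cent1 t))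
  have hzt : z ∈ 𝐂[t] := mem_cent1_iff.2 (h.ez.comm htQ).symm
  have hzP : z ∈ Q ⊓ 𝐂[t] := ⟨h.ez.mem, hzt⟩
  have hzt' : z ∉ zpowers t := not_mem_zp2 htt h.ez.ne_one fun e => hc (e ▸ IsConj.refl _)
  have hl : LQ (pmap f (Q ⊓ 𝐂[t])) (pel f z) := lq_of_large_of_mem k1 (pel_mem_pmap f hzP)
    (pmap_cent f _ (pel_mem_pmap f (cent_mono inf_le_left h.ez.memC)))
    fun e => hzt' (hk ▸ mem_pker.2 ⟨hzt, e⟩)
  have hnc : ¬ IsConj z (t * z) := h.not_conj_of_type2 (h.r_z ht) norm_UU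
  have hC : pmap f (𝐂[z] ⊓ 𝐂[t]) = 𝐂[pel f z] := by
    refine le_antisymm ((pmap_mono f inf_le_left).trans (pmap_cent1 f hzt)) fun y hy => ?_
    obtain ⟨m, hm, rfl⟩ := exists_pel f (QuotientGroup.mk'_surjective _) y
    refine pel_mem_pmap f ⟨?_, hm⟩
    have := (pel_comm_iff f hm hzt).1 (mem_cent1_iff.1 hy)
    rw [hk] at this
    rcases (mem_zp2 htt).1 this with e | e
    · exact conj_eq_iff_mem_cent1.1 (mul_inv_eq_one.1 e)
    · exact absurd (isConj_iff.2 ⟨m, by rw [← e]; group⟩) hnc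
  have hPk : pker f ≤ Q ⊓ 𝐂[t] := by rw [hk]; exact zpowers_le.2 (mem_inf.2 ⟨htQ, self_mem_cent1 t⟩)
  have hmem : ∀ y ∈ 𝐂[t], pel f y ∈ pmap f (Q ⊓ 𝐂[t]) ↔ y ∈ Q := fun y hy => by
    have := pcomap_pmap_of_ker_le (f := f) inf_le_right hPk
    exact ⟨fun k => (this.le (mem_pcomap.2 ⟨hy, k⟩)).1, fun k => pel_mem_pmap f ⟨k, hy⟩⟩
  haveI := hl.normalIn.normal_subgroupOf
  let θ : ↥(𝐂[z] ⊓ 𝐂[t]) →* Spor.Co2 := (MonoidHom.ofInjective iota_injective).symm.toMonoidHom.comp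
    ((MulEquiv.subgroupCongr (pmap_eq_range h ht)).toMonoidHom.comp (pmapHom π inf_le_left))
  have hθ : ∀ y : ↥(𝐂[z] ⊓ 𝐂[t]), iota (θ y) = pel π y := fun y =>
    (MonoidHom.apply_ofInjective_symm iota_injective _).trans (pmapHom_apply π inf_le_left y)
  obtain ⟨e, he⟩ := exists_quot_equiv f inf_le_right hC (S := pmap f (Q ⊓ 𝐂[t])) θ
    ((MonoidHom.ofInjective iota_injective).symm.surjective.comp
      ((MulEquiv.subgroupCongr (pmap_eq_range h ht)).surjective.comp (pmapHom_surjective π inf_le_left)))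
    fun y => by
      rw [hmem y y.2.2, ← iota_injective.eq_iff, hθ, map_one]
      exact ⟨h.pel_eq_one, h.mem_of_pel y.2.1⟩
  have hO' : oP 2 𝐂[pel f z] ≤ pmap f (Q ⊓ 𝐂[t]) := by
    have a1 := (oP_normalIn 2 𝐂[pel f z]).pcomap f
    have a2 : pcomap f 𝐂[pel f z] = 𝐂[z] ⊓ 𝐂[t] := by
      rw [← hC]; exact pcomap_pmap_of_ker_le inf_le_right (hPk.trans (inf_le_inf_right _ h.le_C))
    rw [a2] at a1
    have a3 : IsPGroup 2 (pcomap f (oP 2 𝐂[pel f z])) :=
      (IsPGroup.comap_of_ker_isPGroup (oP_isPGroup 2 _) f (by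
        rw [← pker_subgroupOf, hk]; exact (isPGroup_two_zpowers htt).comap_subtype)).map _
    have a4 := h.le_of_normal ht a1 a3
    rw [← pmap_pcomap_of_le (f := f) (U := oP 2 𝐂[pel f z])
      (by rw [MonoidHom.range_eq_top.2 (QuotientGroup.mk'_surjective _)]; exact le_top)]
    exact pmap_mono f (le_inf a4 (pcomap_le_dom _ _))
  have hxt : x ∈ 𝐂[t] := (sup_le inf_le_right (by rw [← cj_def]; exact inf_le_right) : _ ≤ 𝐂[t]) hx
  have hsP : g * z * g⁻¹ ∈ Q ⊓ 𝐂[t] := ⟨h1, mem_cent1_iff.2 ((h.lq.tri h1 h2).r.ez.comm h3).symm⟩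
  have hcard : Nat.card (pmap f (Q ⊓ 𝐂[t])) = 2 ^ (2 * 11 + 1) := by
    have a1 := card_pmap_mul f (X := Q ⊓ 𝐂[t]) inf_le_right
    have a2 := h.ez.card_cent1 htQ (fun k => MT.not_cg_UU ((h.r_iff ht).1 k))
    rw [inf_eq_left.2 hPk, hk, card_zp2 ht2] at a1
    rw [h.card] at a2
    omega
  refine ⟨pel f z, _, inferInstance, setting_of_lq hl hO' hcard ⟨(pel f x)⁻¹, ?_, fun e1 => ?_⟩, e, ?_⟩
  · rw [inv_inv, ← k2, pel_conj f hxt hsP.2]; simpa [mul_assoc] using pel_mem_pmap f hsP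
  · rw [inv_inv] at e1
    conv_lhs at e1 => rw [← k2, pel_conj f hxt hsP.2]
    have e2 : pel f (g * z * g⁻¹) = pel f z := by simpa [mul_assoc] using e1
    rw [pel_eq_iff f hsP.2 hzt, hk] at e2
    rcases (mem_zp2 htt).1 e2 with e3 | e3
    · exact h2 (mul_inv_eq_one.1 e3)
    · exact hnc (isConj_iff.2 ⟨g, by rw [← e3]; group⟩)
  have hP : ∀ {q} {v : leechPerpU}, r q v → q ∈ Q ⊓ 𝐂[t] := fun {q v} hq =>
    ⟨h.r_mem hq, mem_cent1_iff.2 ((h.comm_iff hq ht).2 v.2)⟩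
  let j : ↥(Q ⊓ 𝐂[t]) →* (pmap f (Q ⊓ 𝐂[t])).subgroupOf 𝐂[pel f z] :=
    (subgroupOfEquivOfLe hl.ez.le_cent1).symm.toMonoidHom.comp (pmapHom f inf_le_right)
  have hj : ∀ q, ((j q : ↥𝐂[pel f z]) : _) = pel f q := fun q => pmapHom_apply f inf_le_right q
  have hjs : Function.Surjective j :=
    (subgroupOfEquivOfLe hl.ez.le_cent1).symm.surjective.comp (pmapHom_surjective f inf_le_right)
  let κ := (QuotientGroup.mk' (center _)).comp j
  have hκ : ∀ q, κ q = 1 ↔ (q : G) ∈ zpowers z ⊔ zpowers t := fun q => by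
    rw [MonoidHom.comp_apply, QuotientGroup.mk'_apply, QuotientGroup.eq_one_iff,
      mem_center_iff_zp (by rw [PG.map_subtype_subgroupOf hl.ez.le_cent1]; exact hl.ez), hj, ← pmap_zpowers f hzt,
      show zpowers z ⊔ zpowers t = pcomap f (pmap f (zpowers z)) by
        rw [pcomap_pmap f (zpowers_le.2 hzt), hk, sup_comm], mem_pcomap]
    exact ⟨fun k => ⟨q.2.2, k⟩, fun k => k.2⟩
  have hκ' : ∀ {q q' : ↥(Q ⊓ 𝐂[t])} {v v' : LL}, r q v → r q' v' → (κ q = κ q' ↔ KU ((v : ZV) + v')) :=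
    fun {q q' v v'} a b => by
      rw [← mul_inv_eq_one, ← map_inv, ← map_mul, hκ]
      exact h.memV_iff ht (h.r_mul a (h.r_inv b))
  choose F hF using h.r_ex'
  let ψ : leechPerpU → _ := fun v => κ ⟨F v, hP (hF v)⟩
  have hψ : ∀ {q : ↥(Q ⊓ 𝐂[t])} {v : leechPerpU}, r q v → ψ v = κ q := fun {q v} a =>
    (hκ' (q := ⟨F v, hP (hF v)⟩) (hF v) a).2 (Or.inl (cg_add_self v.1.2))
  refine ⟨ψ, fun v w => ?_, fun y => ?_, fun v => ?_, fun y g0 e1 v w e2 q e3 => ?_⟩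
  · rw [← map_mul]
    exact hψ (h.r_mul (hF v) (hF w))
  · obtain ⟨y, rfl⟩ := QuotientGroup.mk_surjective y
    obtain ⟨q, rfl⟩ := hjs y
    obtain ⟨v, hv⟩ := h.r_ex q.2.1
    exact ⟨⟨v, (h.comm_iff hv ht).1 (mem_cent1_iff.1 q.2.2)⟩, hψ hv⟩
  · rw [hκ, h.memV_iff ht (hF v), KU, cg_zero_iff, cg_iff_sub, ← AddSubgroupClass.coe_sub, cg_zero_iff]
    simp only [sub_eq_iff_eq_add']
  · obtain ⟨m, hm, e4⟩ := (mem_pmap_of_le inf_le_right).1 (hC.ge y.2)
    obtain ⟨p, rfl⟩ := hjs q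
    obtain ⟨u, hu⟩ := h.r_ex p.2.1
    have e5 : pel π m = (inclusion co2_le g0 : Co0) := by
      rw [← hθ ⟨m, hm⟩, ← he ⟨m, hm⟩ (e4 ▸ y.2), show (⟨pel f m, e4 ▸ y.2⟩ : ↥𝐂[pel f z]) = y from Subtype.ext e4, e1]
      rfl
    have hp' : m * p * m⁻¹ ∈ Q ⊓ 𝐂[t] := conj_mem_of_mem_normalizer
      (norms_inf (inf_le_left.trans h.lq.le_norm) (norms_cent1 inf_le_right) hm) p.2
    have e6 := (hκ' (q := ⟨F v, hP (hF v)⟩) (hF v) hu).1 e3
    have e7 := KU.co (v := v + u) e6 (g := inclusion co2_le g0) g0.2.2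
    rw [co_add, show (inclusion co2_le g0 : Co0) • (v : LL) = w from e2] at e7
    refine ((hκ' (q := ⟨F w, hP (hF w)⟩) (q' := ⟨_, hp'⟩) (hF w) (h.equi hm.1 e5 hu)).2 e7).trans ?_
    refine congrArg QuotientGroup.mk (Subtype.ext (Subtype.ext ?_))
    rw [hj]
    show pel f (m * p * m⁻¹) = y * (j p : ↥𝐂[pel f z]) * y⁻¹
    rw [pel_conj f hm.2 p.2.2, e4, ← hj]; rfl

end

/-- Let G be a finite group of Monster type at the involution z with Q the extraspecial normal subgroup of order 2^25 of C = C_G(z) (so C/Q is identified with the first Conway group with Q modulo its centre the Leech lattice modulo 2, and z is not weakly closed in Q). Let t be an involution of Q not conjugate to z in G. Then the centralizer of t modulo the subgroup generated by t is a group of Baby Monster type (an involution whose centralizer D has generalized Fitting subgroup R extraspecial of order 2^23 with D/R identified with the second Conway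 group acting on R modulo its centre as on the vectors of the Leech lattice modulo 2 orthogonal to a short vector, modulo that vector; the involution not weakly closed in R). -/
theorem result {G : Type*} [Group G] [Finite G] (z : G) (Q : Subgroup (Subgroup.centralizer ({z} : Set G))) [Q.Normal] (hM : Cfsg.IsOfMonsterType z Q) (t : G) (htQ : ∃ htc : t ∈ Subgroup.centralizer ({z} : Set G), (⟨t, htc⟩ : Subgroup.centralizer ({z} : Set G)) ∈ Q) (ht2 : orderOf t = 2) (ht : ¬ IsConj z t) [hn : ((Subgroup.zpowers t).subgroupOf (Subgroup.centralizer ({t} : Set G))).Normal] : Cfsg.IsOfBabyMonsterType (↥(Subgroup.centralizer ({t} : Set G)) ⧸ (Subgroup.zpowers t).subgroupOf (Subgroup.centralizer ({t} : Set G))) := by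
  obtain ⟨hS, e, ψ, hψ⟩ := hM
  have h := mt_of hS hψ
  obtain ⟨k, hk⟩ := h.exists_twist_UU (mem_map_iff.2 htQ) ht2 ht
  exact main (h.twist k) hk ht2 ht

end Cfsg.Agent.S5412
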