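import Cfsg.Statements.S5413
import Cfsg.Agent.Lib.Co.Three
import Cfsg.Agent.Lib.Co.C5

set_option autoImplicit false
open Cfsg

namespace Cfsg.Agent.S5413

open CA CA.Co

/-- Let G be a finite group of Monster type at the involution z with Q the extraspecial normal subgroup of order 2^25 of C = C_G(z) (so C/Q is identified with the first Conway group with Q modulo its centre the Leech lattice modulo 2, and z is not weakly closed in Q). Let s be a conjugate of z in Q other than z and let B be a Sylow 5-subgroup of the joint centralizer of z and s. Then the centralizer of B modulo B is a group of Harada–Norton type (an involution whose centralizer D has generalized Fitting subgroup R extraspecial of order 2^9 with D/R the wreath product of the alternating group of degree 5 by a group of order 2, the involution not weakly closed in R). -/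
theorem result {G : Type*} [Group G] [Finite G] (z : G) (Q : Subgroup (Subgroup.centralizer ({z} : Set G))) [Q.Normal] (hM : Cfsg.IsOfMonsterType z Q) (s : G) (hsQ : ∃ hsc : s ∈ Subgroup.centralizer ({z} : Set G), (⟨s, hsc⟩ : Subgroup.centralizer ({z} : Set G)) ∈ Q) (hs : IsConj z s) (hs1 : s ≠ z) (B : Subgroup G) (hB : B ≤ Subgroup.centralizer ({z, s} : Set G)) (hBp : Nat.card B = 5 ^ (Nat.card ↥(Subgroup.centralizer ({z, s} : Set G))).factorization 5) [hn : (B.subgroupOf (Subgroup.centralizer (B : Set G))).Normal] : Cfsg.IsOfHaradaNortonType (↥(Subgroup.centralizer (B : Set G)) ⧸ B.subgroupOf (Subgroup.centralizer (B : Set G))) := by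
  obtain ⟨Q', π, r, h, hr⟩ := exists_mt_frame hM hsQ hs hs1
  obtain ⟨b, π', r', rfl, ho, hr'⟩ := h.exists_os_sylow hr Nat.prime_five (by decide)
    (by rw [Nat.factorization_def _ Nat.prime_five]; decide +kernel) hB hBp C5.order
  obtain ⟨hc, θ, h1, h2⟩ := C5.main
  obtain ⟨y, R, hR, k1, k2, -⟩ := ho.section hr' hc θ h1 h2 (hn := hn)
  exact ⟨y, R, hR, k1, k2⟩

end Cfsg.Agent.S5413
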