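import Cfsg.Statements.S5414
import Cfsg.Agent.Lib.Co.Three

set_option autoImplicit false
open Cfsg

namespace Cfsg.Agent.S5414

open CA CA.Co

/-- Let G be a finite group of Monster type at the involution z with Q the extraspecial normal subgroup of order 2^25 of C = C_G(z) (so C/Q is identified with the first Conway group with Q modulo its centre the Leech lattice modulo 2, and z is not weakly closed in Q). Let s be a conjugate of z in Q other than z and let Y be a subgroup of order 3 of the joint centralizer L of z and s that is not 3-central in L (Y lies in the centre of no Sylow 3-subgroup of L). Then the centralizer of Y modulo Y is a group of Thompson type (an involution whose centralizer D has generalized Fitting subgroup R extraspecial of order 2^9 with D/R the alternating group of degree 9, the involution not weakly closed in R). -/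
theorem result {G : Type*} [Group G] [Finite G] (z : G) (Q : Subgroup (Subgroup.centralizer ({z} : Set G))) [Q.Normal] (hM : Cfsg.IsOfMonsterType z Q) (s : G) (hsQ : ∃ hsc : s ∈ Subgroup.centralizer ({z} : Set G), (⟨s, hsc⟩ : Subgroup.centralizer ({z} : Set G)) ∈ Q) (hs : IsConj z s) (hs1 : s ≠ z) (Y : Subgroup G) (hY : Y ≤ Subgroup.centralizer ({z, s} : Set G)) (hY3 : Nat.card Y = 3) (hnc : ∀ P : Sylow 3 ↥(Subgroup.centralizer ({z, s} : Set G)), ¬ Y.subgroupOf (Subgroup.centralizer ({z, s} : Set G)) ≤ (Subgroup.center ↥(P : Subgroup ↥(Subgroup.centralizer ({z, s} : Set G)))).map (P : Subgroup ↥(Subgroup.centralizer ({z, s} : Set G))).subtype) [hn : (Y.subgroupOf (Subgroup.centralizer (Y : Set G))).Normal] : Cfsg.IsOfThompsonType (↥(Subgroup.centralizer (Y : Set G)) ⧸ Y.subgroupOf (Subgroup.centralizer (Y : Set G))) := by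
  obtain ⟨Q', π, r, h, hr⟩ := exists_mt_frame hM hsQ hs hs1
  obtain ⟨b, π', r', rfl, ho, hr'⟩ := h.exists_os_three hr hY hY3 (σ := C3B.σ) (τ := C3A.σ)
    (fun g hg => (class_three' g hg).imp fun _ => Or.symm) (by
      rintro b rfl e
      rw [C3A.card_cent, fact3_1080] at e
      obtain ⟨P, hP⟩ := (central_iff3 h hr hY hY3).2 e
      exact hnc P hP)
  obtain ⟨hc, θ, h1, h2⟩ := C3B.main
  obtain ⟨y, R, hR, k1, k2, -⟩ := ho.section hr' hc θ h1 h2 (hn := hn)
  exact ⟨y, R, hR, k1, k2⟩

end Cfsg.Agent.S5414
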