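import Cfsg.Statements.S5418
import Cfsg.Agent.Lib.Co.Three
import Cfsg.Agent.Lib.Co.C7b
import Cfsg.Agent.Lib.Extra2.Struct

set_option autoImplicit false
open Cfsg

namespace Cfsg.Agent.S5418

open CA CA.Co CA.Ex2 CA.Gol CA.Core CA.FStar Subgroup
open scoped commutatorElement

section
variable {G : Type*} [Group G] [Finite G]

omit [Finite G] in
theorem simple_cases {M N : Subgroup G} (hs : IsSimpleGroup M) (h : N ⊴ M) : N = ⊥ ∨ N = M := by
  rcases hs.eq_bot_or_eq_top_of_normal _ h.normal_subgroupOf with e | e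
  · exact Or.inl (by rw [← inf_eq_left.2 h.1]; exact disjoint_iff.1 (subgroupOf_eq_bot.1 e))
  · exact Or.inr (le_antisymm h.1 (subgroupOf_eq_top.1 e))

omit [Finite G] in
theorem le_lay {H : Type*} [Group H] {D : Subgroup G} (f : D →* H) (hf : Function.Surjective f)
    (ha : IsMulCommutative (pker f)) (hk : pker f ≤ 𝐂(D)) {M : Subgroup H} [M.Normal] (hs : IsSimpleGroup M)
    (hM : ¬ IsMulCommutative M) : pcomap f M ≤ pker f ⊔ lay D := by
  have hr : f.range = ⊤ := MonoidHom.range_eq_top.2 hf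
  have h0 := pcomap_le_dom f M
  have h1 : pmap f (pcomap f M) = M := pmap_pcomap_of_le (hr ▸ le_top)
  have h2 : ⁅M, M⁆ = M := (simple_cases hs (der_normalIn M)).resolve_left fun e =>
    hM (abelian_iff.2 (commutator_eq_bot_iff_le_centralizer.1 e))
  have h3 : (pcomap f M) ⊴ D := by simpa using (normalIn_top M).pcomap f
  have h4 := h3.commutator h3
  set L := ⁅pcomap f M, pcomap f M⁆ with hL
  have h5 : pmap f L = M := by rw [hL, pmap_commutator f h0 h0, h1, h2]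
  have key : ∀ N ≤ D, pmap f N = M → L ≤ ⁅N, N⁆ := fun N hN e => by
    rw [hL, ← e, pcomap_pmap f hN, sup_comm, der_sup_of_cents (hk.trans (cent_mono hN)),
      commutator_eq_bot_iff_le_centralizer.2 (abelian_iff.1 ha), sup_bot_eq]
  have h6 : CompIn L D := ⟨h4.subnormalIn, le_antisymm (der_le L) (key L h4.1 h5), fun e => hM (by
    rw [← h5, e, pmap_eq_bot_of_le bot_le]; infer_instance), fun N hN => by
      rcases simple_cases hs (h5 ▸ hN.pmap f) with e | e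
      · exact Or.inl (((pmap_eq_bot_iff (hN.1.trans h4.1)).1 e).trans (hk.trans (cent_mono h4.1)))
      · exact Or.inr (le_antisymm hN.1 ((key N (hN.1.trans h4.1) e).trans (der_le N)))⟩
  rw [← h5, pcomap_pmap f h4.1]
  exact sup_le_sup_left h6.le_lay _

variable {Q : Subgroup G} {z s b : G} {π : ↥𝐂[z] →* Spor.Co1} {r : G → LL → Prop} {β : Co0}

theorem mem_lay {H : Type*} [Group H] {D : Subgroup G} {f : D →* H} (hD : D = 𝐂[b]) (hf : Function.Surjective f)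
    (hk : pker f = zpowers b) (h : OS Q z π r β b) (hs : r s (E8 (pt 0))) {p w : ℕ} (hc : CD β p (2 * w))
    (hv : ∃ v : LL, Cg (β • v : LL) v ∧ sqNorm (v : ZV) = 64 ∧ ¬ 16 ∣ dotInt (v : ZV) (E8 (pt 0))) :
    z ∈ lay D ∧ s ∈ lay D := by
  haveI : Finite H := Finite.of_surjective f hf
  have hB : zpowers b ≤ D := hk ▸ pker_le_dom f
  have hl := h.lq hD hf hk hc hs
  have hS := h.setting hD hf hk hc hs
  have hR : Q ⊓ 𝐂[b] ≤ D := hD ▸ inf_le_right
  have hz : pel f z ∈ normalClosure {pel f z} := subset_normalClosure (Set.mem_singleton _)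
  have hm : ∀ {q : G} {v : LL}, r q v → Cg (β • v : LL) v → sqNorm (v : ZV) = 64 →
      q ∈ Q ⊓ 𝐂[b] ∧ pel f q ∈ normalClosure {pel f z} := fun {q v} h1 h2 h3 => by
    have a : q ∈ Q ⊓ 𝐂[b] := ⟨h.mt.r_mem h1, (h.cent_iff h1).2 h2⟩
    obtain ⟨x, hx⟩ := isConj_iff.1 ((h.isConj_iff' hD hf hk a).2 (h.mt.conj_of_type4 h1 h3).1)
    exact ⟨a, by rw [← hx]; exact normalClosure_normal.conj_mem _ hz x⟩
  obtain ⟨v, v1, v2, v3⟩ := hv
  obtain ⟨q, hq⟩ := h.mt.r_ex' v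
  obtain ⟨q1, q2⟩ := hm hq v1 v2
  obtain ⟨s1, s2⟩ := hm hs ((mem_N0_iff (pt 0) (pt 0)).1 hc.mem) (norm_e8 _)
  have hna : ¬ IsMulCommutative (normalClosure {pel f z}) := fun k => by
    have e := (pel_comm_iff f (hR q1) (hR s1)).1 (mem_cent_iff.1 (abelian_iff.1 k s2) _ q2)
    rw [hk] at e
    have e' : q * s * q⁻¹ * s⁻¹ ∈ Q ⊓ zpowers b :=
      mem_inf.2 ⟨mul_mem (mul_mem (mul_mem q1.1 s1.1) (inv_mem q1.1)) (inv_mem s1.1), e⟩
    rw [h.inf_B, mem_bot, mul_inv_eq_one, mul_inv_eq_iff_eq_mul] at e'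
    exact v3 ((h.mt.comm_iff hq hs).1 e')
  obtain ⟨g, g1, g2⟩ := hS.2.2.2.2
  have hO : pmap f (Q ⊓ 𝐂[b]) = oP 2 𝐂[pel f z] := le_antisymm hl.le_oP (by
    have := oP_le_fstar (p := 2) Nat.prime_two 𝐂[pel f z]
    rwa [FStar.fstar, hS.2.1, map_subgroupOf_eq_of_le hl.normalIn.1] at this)
  have hle := le_lay f hf (hk ▸ abelian_zpowers b) (by rw [hk, hD, ← cent_zpowers]; exact le_cent_cent _) (M := normalClosure {pel f z})
    (by
      rcases hl.structure_thm (hl.large_of_conj (g := g) (by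
        obtain ⟨a, a'⟩ := g1; exact a') g2) rfl with k | k | ⟨-, L, u, k⟩
      · exact absurd k.1 hna
      · exact k.2.1
      · obtain ⟨-, -, -, -, -, -, z₁, -, -, -, -, k⟩ := k
        exact absurd hO k) hna
  rw [hk] at hle
  have fin : ∀ x ∈ Q ⊓ 𝐂[b], x * x = 1 → pel f x ∈ normalClosure {pel f z} → x ∈ lay D :=
    fun x h1 h2 h3 => by
      obtain ⟨a, ha, l, hl', rfl⟩ := (mem_sup_of_norm_left (hB.trans (lay_normalIn _).2)).1
        (hle (mem_pcomap.2 ⟨hR h1, h3⟩))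
      obtain ⟨k, hk⟩ := h.oddB
      have c : Commute a l := mem_cent_iff.1 ((hD.trans (cent_zpowers b).symm).le (lay_le _ hl')) a ha
      have e1 : a ^ (2 * k + 1) = 1 := by
        rw [← hk]; exact congrArg Subtype.val (pow_card_eq_one' (x := (⟨a, ha⟩ : zpowers b)))
      have e2 : (a * l) ^ (2 * k + 1) = a * l := by rw [pow_succ, pow_mul, pow_two, h2, one_pow, one_mul]
      rw [← e2, c.mul_pow, e1, one_mul]
      exact pow_mem hl' _
  exact ⟨fin z ⟨h.mt.ez.mem, h.zb⟩ h.mt.ez.sq hz,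
    fin s s1 ((h.mt.sq_iff hs).2 (by rw [coe_E8, norm_e8]; norm_num)) s2⟩

omit [Finite G] in
theorem mem_sup_of_pel (h : OS Q z π r β b) {y : G} (hy : y ∈ 𝐂[z]) (k : ℤ) (e : pel π y = (β : Spor.Co1) ^ k) :
    y ∈ Q ⊔ zpowers b := by
  have : y * (b ^ k)⁻¹ ∈ Q := h.mt.mem_of_pel (mul_mem hy (inv_mem (zpow_mem h.bz k))) (by
    rw [pel_mul _ hy (inv_mem (zpow_mem h.bz k)), pel_inv _ (zpow_mem h.bz k), pel_zpow _ h.bz, h.pb, e,
      mul_inv_cancel])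
  simpa using mul_mem (mem_sup_left this) (mem_sup_right (zpow_mem (mem_zpowers b) k))

theorem exists_conj_pow (h : OS Q z π r β b) {g : Co0} {k : ℤ} (e : g * β * g⁻¹ = β ^ k) : ∃ y, y * b * y⁻¹ = b ^ k := by
  obtain ⟨y, hy, e1⟩ := h.mt.exists_lift g
  have e2 : pel π (y * b * y⁻¹) = (β : Spor.Co1) ^ k := by
    rw [pel_conj π hy h.bz, e1, h.pb, ← QuotientGroup.mk_zpow, ← e]; rfl
  have hc := conj_mem_of_mem_normalizer (le_normalizer hy) h.bz
  obtain ⟨x, hx, e3⟩ := h.cop.cj_le (B := zpowers (y * b * y⁻¹)) (zpowers_le.2 (mem_sup_of_pel h hc k e2))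
    (coprime_of_odd h.mt.ez.pg (by
      rw [Nat.card_zpowers, show orderOf (y * b * y⁻¹) = orderOf b from (MulAut.conj y).orderOf_eq b]; exact h.odd))
  have e4 := e3 (conj_mem_cj.2 (mem_zpowers _))
  have hx' := h.mt.le_C hx
  have hc' := conj_mem_of_mem_normalizer (le_normalizer hx') hc
  refine ⟨x * y, ?_⟩
  rw [show x * y * b * (x * y)⁻¹ = x * (y * b * y⁻¹) * x⁻¹ by group]
  refine mul_inv_eq_one.1 (mem_bot.1 (h.inf_B ▸ mem_inf.2 ⟨h.mt.mem_of_pel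
    (mul_mem hc' (inv_mem (zpow_mem h.bz k))) ?_, mul_mem e4 (inv_mem (zpow_mem (mem_zpowers b) k))⟩))
  rw [pel_mul _ hc' (inv_mem (zpow_mem h.bz k)), pel_conj π hx' hc, h.mt.pel_eq_one hx, e2,
    pel_inv _ (zpow_mem h.bz k), pel_zpow _ h.bz, h.pb]
  simp

theorem lift_sign (h : MT Q z π r) (hs : r s (E8 (pt 0))) {c : Finset GolayPt} (hc : c ∈ CW) :
    ∃ y ∈ 𝐂[z], y * y = 1 ∧ pel π y = (sgC c : Co0) := by
  obtain ⟨k, rfl⟩ := isConj_iff.1 (h.conj_of_type4 hs (norm_e8 _)).1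
  have hT := h.lq.tri (h.r_mem hs) (h.conj_of_type4 hs (norm_e8 _)).2
  obtain ⟨a1, a2, -⟩ := h.frame_main hs
  obtain ⟨y, hy, e⟩ := (mem_pmap_of_le inf_le_right).1 (a1.ge (mem_E1.2 ⟨c, hc, rfl⟩))
  have hE := hT.elemAb_E
  have hsq : ∀ x ∈ Q ⊓ cj k Q, x * x = 1 := fun x hx => by rw [← pow_two]; exact hE.2 x hx
  rcases hT.r.ez.sq_or hy.1 with e1 | e1
  · exact ⟨y, hy.2, e1, e⟩
  by_cases hyc : y ∈ 𝐂(Q ⊓ cj k Q)
  · have a3 := hT.r.ez.card_mul_card_cent (U := Q ⊓ cj k Q) ⟨hT.mem, hT.r.ez.mem⟩ inf_le_right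
    rw [a2, card_cj, h.card] at a3
    have a4 : Q ⊓ cj k Q = cj k Q ⊓ 𝐂(Q ⊓ cj k Q) :=
      eq_of_le_of_card_le (le_inf inf_le_right (abelian_iff.1 hE.1)) (by omega)
    exact ⟨y, hy.2, hsq y (a4.ge ⟨hy.1, hyc⟩), e⟩
  · rw [mem_cent_iff] at hyc
    push Not at hyc
    obtain ⟨x, hx, e2⟩ := hyc
    have e3 := (hT.r.ez.comm_or hy.1 hx.2).resolve_left fun k => e2 k.symm
    refine ⟨y * x, mul_mem hy.2 (h.le_C hx.1), ?_, by rw [pel_mul _ hy.2 (h.le_C hx.1), h.pel_eq_one hx.1, mul_one, e]⟩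
    rw [show y * x * (y * x) = y * x * y⁻¹ * (y * y) * x by group, e3, e1, mul_assoc x, hT.xsq, mul_one, hsq x hx]

theorem exists_invol (h : OS Q z π r β b) (h7 : orderOf b = 7) {t : G} (ht : t ∈ 𝐂[z]) (h2 : t * t = 1) {g : Co0}
    (e : pel π t = g) (hg : g * β = β⁻¹ * g) : ∃ u : G, u * u = 1 ∧ u * b * u⁻¹ = b⁻¹ := by
  have hw : t * (b * t * b⁻¹) ∈ 𝐂[z] := mul_mem ht (conj_mem_of_mem_normalizer (le_normalizer h.bz) ht)
  have hβ : (β : Spor.Co1) ^ 7 = 1 := by rw [← h.pb, ← pel_pow _ h.bz, ← h7, pow_orderOf_eq_one, pel_one]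
  have e1 : pel π (t * (b * t * b⁻¹)) = (β : Spor.Co1) ^ (-2 : ℤ) := by
    have a1 : (g : Spor.Co1) * g = 1 := by rw [← e, ← pel_mul _ ht ht, h2, pel_one]
    have a2 : (g : Spor.Co1) * β = (β : Spor.Co1)⁻¹ * g := congrArg (fun x : Co0 => (x : Spor.Co1)) hg
    rw [pel_mul _ ht (conj_mem_of_mem_normalizer (le_normalizer h.bz) ht), pel_conj π h.bz ht, e, h.pb,
      ← mul_assoc, ← mul_assoc, a2, mul_assoc _ (g : Spor.Co1) (g : Spor.Co1), a1]
    group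
  set w := t * (b * t * b⁻¹)
  have e2 : t * w * t⁻¹ = w⁻¹ := by
    have : t⁻¹ = t := inv_eq_of_mul_eq_one_right h2
    simp only [w, mul_inv_rev, inv_inv, this, ← mul_assoc, h2, one_mul]
  have e3 : w ^ 7 ∈ Q := h.mt.mem_of_pel (pow_mem hw 7) (by
    rw [pel_pow _ hw, e1, ← zpow_natCast, ← zpow_mul, mul_comm, zpow_mul, zpow_natCast, hβ, one_zpow])
  have e4 : (w ^ 2 ^ 25) ^ 7 = 1 := by
    rw [← pow_mul, mul_comm, pow_mul, ← h.mt.card]
    exact congrArg Subtype.val (pow_card_eq_one' (x := (⟨_, e3⟩ : Q)))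
  have e5 : pel π (w ^ 2 ^ 25) = (β : Spor.Co1) ^ (-2 * 2 ^ 25 : ℤ) := by
    rw [pel_pow _ hw, e1, ← zpow_natCast, ← zpow_mul]; norm_num
  have e6 : w ^ 2 ^ 25 ≠ 1 := fun k => by
    rw [k, pel_one, ← h.pb, ← pel_zpow _ h.bz] at e5
    have := mem_bot.1 (h.inf_B ▸ mem_inf.2 ⟨h.mt.mem_of_pel (zpow_mem h.bz _) e5.symm, zpow_mem (mem_zpowers b) _⟩)
    rw [← orderOf_dvd_iff_zpow_eq_one, h7] at this
    norm_num at this
  have e7 : t * w ^ 2 ^ 25 * t⁻¹ = (w ^ 2 ^ 25)⁻¹ := by rw [← conj_pow, e2, inv_pow]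
  have e8 : w ^ 2 ^ 25 ∈ Q ⊔ zpowers b := mem_sup_of_pel h (pow_mem hw _) _ e5
  generalize w ^ 2 ^ 25 = c at e4 e6 e7 e8
  haveI : Fact (Nat.Prime 7) := ⟨by norm_num⟩
  obtain ⟨x, -, e9⟩ := h.cop.cj_le (B := zpowers c) (zpowers_le.2 e8) (coprime_of_odd h.mt.ez.pg (by
    rw [Nat.card_zpowers, orderOf_eq_prime e4 e6]; decide))
  obtain ⟨j, hj⟩ := (eq_zpowers_of_prime_card (by rw [Nat.card_zpowers, h7]; norm_num)
    (e9 (conj_mem_cj.2 (mem_zpowers c))) (by simpa using e6)).le (mem_zpowers b)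
  refine ⟨x * t * x⁻¹, by rw [conj_mul, h2]; simp, ?_⟩
  beta_reduce at hj
  rw [← hj, ← conj_zpow, ← inv_zpow, show x * t * x⁻¹ * (x * c * x⁻¹) * (x * t * x⁻¹)⁻¹ = x * (t * c * t⁻¹) * x⁻¹ by
    group, e7]
  simp [mul_assoc]

theorem relIndex_six {b u : G} (h7 : orderOf b = 7) (hu : u * b * u⁻¹ = b ^ 5) :
    𝐂(zpowers b).relIndex 𝐍(zpowers b) = 6 := by
  have h1 : b ≠ 1 := fun e => by simp [e] at h7
  have hn : u ∈ 𝐍(zpowers b) := mem_normalizer_of_cj_le (by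
    rw [cj_zpowers, hu]; exact zpowers_le.2 (pow_mem (mem_zpowers b) 5))
  have hi : ∀ i : ℕ, u ^ i * b * (u ^ i)⁻¹ = b ^ 5 ^ i := fun i => by
    induction i with
    | zero => simp
    | succ i ih => rw [pow_succ 5, pow_mul, ← ih, conj_pow, ← hu, pow_succ u]; group
  rw [cent_zpowers, relIndex_cent1_eq_ncard, show {y | ∃ h ∈ 𝐍(zpowers b), h * b * h⁻¹ = y} =
    (zpowers b : Set G) \ {1} from ?_, Set.ncard_sdiff_singleton_of_mem (one_mem _), ← Nat.card_coe_set_eq]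
  · rw [show Nat.card (zpowers b : Set G) = 7 from (Nat.card_zpowers b).trans h7]
  ext y
  constructor
  · rintro ⟨g, hg, rfl⟩
    exact ⟨conj_mem_of_mem_normalizer hg (mem_zpowers b), by simpa using h1⟩
  · rintro ⟨hy, hy1⟩
    obtain ⟨m, rfl⟩ := (mem_powers_iff_mem_zpowers.2 hy)
    have : ∀ m < 7, m ≠ 0 → ∃ i < 6, 5 ^ i % 7 = m := by decide
    obtain ⟨i, -, e⟩ := this (m % 7) (Nat.mod_lt _ (by norm_num)) fun e => hy1 (by
      show b ^ m = 1
      rw [← pow_mod_orderOf, h7, e, pow_zero])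
    refine ⟨u ^ i, pow_mem hn i, ?_⟩
    show _ = b ^ m
    rw [hi, ← pow_mod_orderOf, h7, e, ← h7, pow_mod_orderOf]

theorem not_inv (h : OS Q z π r (pmC C7.σ) b) (hs : r s (E8 (pt 0))) {u : G} (hu : u ∈ 𝐂[z] ⊓ 𝐂[s]) :
    u * b * u⁻¹ ≠ b⁻¹ := fun e => by
  obtain ⟨g, e1⟩ := MT.exists_co π u
  have e2 := congrArg (pel π) e
  rw [pel_conj π hu.1 h.bz, pel_inv _ h.bz, h.pb, e1] at e2
  have e3 : g * pmC C7.σ * g⁻¹ = (pmC C7.σ)⁻¹ := eq_of_mk_eq (by rw [orderOf_inv]; exact h.oddβ)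
    (by rw [orderOf_inv]; exact (MulAut.conj g).orderOf_eq _) e2.symm
  obtain ⟨k, hk⟩ := conj_of_N0 ((mem_N0_iff (pt 0) (pt 0)).2 (h.mt.cg_of_cent hs hu e1)) (σ := C7.σ) (τ := C7.σ⁻¹)
    (by rw [map_inv, ← e3, inv_mul_cancel_right])
  exact C7.not_real k hk

end

/-- Let G be a finite group of Monster type at the involution z with Q the extraspecial normal subgroup of order 2^25 of C = C_G(z) (so C/Q is identified with the first Conway group with Q modulo its centre the Leech lattice modulo 2, and z is not weakly closed in Q). Let s be a conjugate of z in Q other than z and let B be a Sylow 7-subgroup of the joint centralizer of z and s. Then the centralizer of B has index 6 in the normalizer of B; and some involution inverting B induces, by conjugation, a non-inner automorphism of the layer of the centralizer of B. -/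
theorem result {G : Type*} [Group G] [Finite G] (z : G) (Q : Subgroup (Subgroup.centralizer ({z} : Set G))) [Q.Normal] (hM : Cfsg.IsOfMonsterType z Q) (s : G) (hsQ : ∃ hsc : s ∈ Subgroup.centralizer ({z} : Set G), (⟨s, hsc⟩ : Subgroup.centralizer ({z} : Set G)) ∈ Q) (hs : IsConj z s) (hs1 : s ≠ z) (B : Subgroup G) (hB : B ≤ Subgroup.centralizer ({z, s} : Set G)) (hBp : Nat.card B = 7 ^ (Nat.card ↥(Subgroup.centralizer ({z, s} : Set G))).factorization 7) : (Subgroup.centralizer (B : Set G)).relIndex (Subgroup.normalizer (B : Set G)) = 6 ∧ ∃ t : G, orderOf t = 2 ∧ (∀ b ∈ B, t * b * t⁻¹ = b⁻¹) ∧ (∀ x ∈ (Cfsg.layer ↥(Subgroup.centralizer (B : Set G))).map (Subgroup.centralizer (B : Set G)).subtype, t * x * t⁻¹ ∈ (Cfsg.layer ↥(Subgroup.centralizer (B : Set G))).map (Subgroup.centralizer (B : Set G)).subtype) ∧ ¬ ∃ l ∈ (Cfsg.layer ↥(Subgroup.centralizer (B : Set G))).map (Subgroup.centralizer (B : Set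 G)).subtype, ∀ x ∈ (Cfsg.layer ↥(Subgroup.centralizer (B : Set G))).map (Subgroup.centralizer (B : Set G)).subtype, t * x * t⁻¹ = l * x * l⁻¹ := by
  obtain ⟨Q', π, r, h, hr⟩ := exists_mt_frame hM hsQ hs hs1
  obtain ⟨b, π', r', rfl, ho, hr'⟩ := h.exists_os_sylow hr (by norm_num) (by decide)
    (by rw [Nat.factorization_def _ (by norm_num)]; decide +kernel) hB hBp C7.order
  have h7 : orderOf b = 7 := ho.ob.symm.trans ((orderOf_injective pmC pmC_injective _).trans C7.order)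
  obtain ⟨g, c, hc, e⟩ := C7.exists_sign
  obtain ⟨y, hy, y2, e1⟩ := lift_sign ho.mt hr' hc
  obtain ⟨x, hx, e2⟩ := ho.mt.exists_lift g⁻¹
  obtain ⟨t, t2, ht⟩ := exists_invol ho h7 (t := x * y * x⁻¹) (conj_mem_of_mem_normalizer (le_normalizer hx) hy)
    (by rw [conj_mul, y2]; simp) (g := g⁻¹ * sgC c * g) (by rw [pel_conj π' hx hy, e1, e2]; rfl) e
  obtain ⟨k, hk⟩ := C7.conj_sq
  obtain ⟨a, ha⟩ := exists_conj_pow ho (g := pmC k) (k := 2) (by
    rw [← map_inv, ← map_mul, ← map_mul, hk, map_pow]; rfl)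
  have hb7 : b ^ 7 = 1 := h7 ▸ pow_orderOf_eq_one b
  have hB' : zpowers b ≤ 𝐂(zpowers b) := abelian_iff.1 (abelian_zpowers b)
  haveI : ((zpowers b).subgroupOf 𝐂(zpowers b)).Normal :=
    (show zpowers b ⊴ 𝐂(zpowers b) from ⟨hB', centralizer_le_normalizer _⟩).normal_subgroupOf
  obtain ⟨l1, l2⟩ := mem_lay (cent_zpowers b) (QuotientGroup.mk'_surjective _) (pker_mk' hB') ho hr' C7.main.1
    C7.exists_odd
  have htn : t ∈ 𝐍(zpowers b) := mem_normalizer_of_cj_le (by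
    rw [cj_zpowers, ht]; exact zpowers_le.2 (inv_mem (mem_zpowers b)))
  refine ⟨relIndex_six h7 (u := a * t) ?_, t, orderOf_eq_prime (by rw [pow_two, t2]) fun e => ?_, ?_,
    fun x hx => conj_mem_of_mem_normalizer (norm_le_norm_lay _ (normalizer_le_normalizer_centralizer _ htn)) hx, ?_⟩
  · rw [show a * t * b * (a * t)⁻¹ = a * (t * b * t⁻¹) * a⁻¹ by group, ht, ← conj_inv, ha, inv_eq_iff_mul_eq_one,
      ← hb7]
    group
  · rw [e, one_mul, inv_one, mul_one, eq_inv_iff_mul_eq_one, ← pow_two, ← orderOf_dvd_iff_pow_eq_one, h7] at ht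
    norm_num at ht
  · rintro _ ⟨j, rfl⟩
    simp only [← conj_zpow, ht, inv_zpow]
  · rintro ⟨l, hl, e3⟩
    have hl' : l * b = b * l := mem_cent1_iff.1 ((cent_zpowers b).le (lay_le _ hl))
    have k : ∀ x ∈ lay 𝐂(zpowers b), l⁻¹ * t ∈ 𝐂[x] := fun x hx => conj_eq_iff_mem_cent1.1 (by
      rw [show l⁻¹ * t * x * (l⁻¹ * t)⁻¹ = l⁻¹ * (t * x * t⁻¹) * l by group, e3 x hx]; group)
    refine not_inv ho hr' ⟨k z l1, k s l2⟩ ?_
    rw [show l⁻¹ * t * b * (l⁻¹ * t)⁻¹ = l⁻¹ * (t * b * t⁻¹) * l by group, ht, mul_assoc,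
      ← (Commute.inv_right hl').eq, inv_mul_cancel_left]

end Cfsg.Agent.S5418
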