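import Cfsg.Statements.S5424
import Cfsg.Agent.Lib.Extra2.Affine

set_option autoImplicit false
open Cfsg

namespace Cfsg.Agent.S5424

open CA CA.Ex2 Matrix

section
variable {ι : Type} [Fintype ι] [DecidableEq ι]

theorem det_one {A B : Matrix ι ι (ZMod 2)} (h : A * B = 1) : A.det = 1 := by
  have key : ∀ a b : ZMod 2, a * b = 1 → a = 1 := by decide
  exact key _ B.det (by rw [← det_mul, h, Matrix.det_one])

theorem sl_gl : Nonempty (GeneralLinearGroup ι (ZMod 2) ≃* SpecialLinearGroup ι (ZMod 2)) :=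
  ⟨(MulEquiv.ofBijective SpecialLinearGroup.toGL ⟨SpecialLinearGroup.toGL_injective, fun g =>
    ⟨⟨g.val, det_one g.val_inv⟩, Units.ext rfl⟩⟩).symm⟩

/-- the underlying matrix -/
def mat (g : SpecialLinearGroup ι (ZMod 2)) : Matrix ι ι (ZMod 2) := g.val

theorem mat_mul (g h : SpecialLinearGroup ι (ZMod 2)) : mat (g * h) = mat g * mat h := rfl
theorem mat_one : mat (1 : SpecialLinearGroup ι (ZMod 2)) = 1 := rfl
theorem mat_inj {g h : SpecialLinearGroup ι (ZMod 2)} (e : mat g = mat h) : g = h := Subtype.ext e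

/-- elementary matrices -/
def T (o : ι) (f : ι → ZMod 2) : Matrix ι ι (ZMod 2) := 1 + vecMulVec (Pi.single o 1) f

theorem T_mul {o : ι} {f : ι → ZMod 2} (hf : f o = 0) (g : ι → ZMod 2) : T o f * T o g = T o (f + g) := by
  simp only [T, add_mul, mul_add, one_mul, mul_one, vecMulVec_mul_vecMulVec, dotProduct_single, hf,
    vecMulVec_add, zero_smul, vecMulVec_zero, add_zero]
  abel

theorem T_zero (o : ι) : T o 0 = 1 := by simp [T]

theorem add_self' (f : ι → ZMod 2) : f + f = 0 := by ext i; exact CharTwo.add_self_eq_zero _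

theorem T_sq {o : ι} {f : ι → ZMod 2} (hf : f o = 0) : T o f * T o f = 1 := by
  rw [T_mul hf, add_self', T_zero]

theorem vecMul_T (o : ι) (f : ι → ZMod 2) : Pi.single o 1 ᵥ* T o f = Pi.single o 1 + f := by
  rw [T, vecMul_add, vecMul_one, vecMul_vecMulVec]; simp

theorem T_mulVec {o : ι} {f : ι → ZMod 2} (hf : f o = 0) : T o f *ᵥ Pi.single o 1 = Pi.single o 1 := by
  rw [T, add_mulVec, one_mulVec, vecMulVec_mulVec]; simp [hf]

theorem T_inj {o : ι} {f g : ι → ZMod 2} (h : T o f = T o g) : f = g :=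
  add_left_cancel (by rw [← vecMul_T, ← vecMul_T, h])

/-- the transvection as an element of `SL` -/
def uu (o : ι) (f : ι → ZMod 2) (hf : f o = 0) : SpecialLinearGroup ι (ZMod 2) := ⟨T o f, det_one (T_sq hf)⟩

/-- transvections with centre `e_o` -/
def U (o : ι) : Subgroup (SpecialLinearGroup ι (ZMod 2)) where
  carrier := {g | ∃ f hf, g = uu o f hf}
  one_mem' := ⟨0, rfl, Subtype.ext (T_zero o).symm⟩
  mul_mem' := by
    rintro _ _ ⟨f, hf, rfl⟩ ⟨g, hg, rfl⟩
    exact ⟨f + g, by simp [hf, hg], Subtype.ext (T_mul hf g)⟩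
  inv_mem' := by
    rintro _ ⟨f, hf, rfl⟩
    exact ⟨f, hf, Inv.inv_eq_self (Subtype.ext (T_sq hf))⟩

theorem inv_mulVec {g : SpecialLinearGroup ι (ZMod 2)} {v : ι → ZMod 2} (h : mat g *ᵥ v = v) :
    mat g⁻¹ *ᵥ v = v := by
  conv_lhs => rw [← h]
  rw [mulVec_mulVec, ← mat_mul, inv_mul_cancel, mat_one, one_mulVec]

theorem vecMul_inv {g : SpecialLinearGroup ι (ZMod 2)} {v : ι → ZMod 2} (h : v ᵥ* mat g = v) :
    v ᵥ* mat g⁻¹ = v := by
  conv_lhs => rw [← h]
  rw [vecMul_vecMul, ← mat_mul, mul_inv_cancel, mat_one, vecMul_one]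

/-- the Levi complement -/
def M (o : ι) : Subgroup (SpecialLinearGroup ι (ZMod 2)) where
  carrier := {g | Pi.single o 1 ᵥ* mat g = Pi.single o 1 ∧ mat g *ᵥ Pi.single o 1 = Pi.single o 1}
  one_mem' := ⟨vecMul_one _, one_mulVec _⟩
  mul_mem' := fun {a b} ha hb => ⟨by rw [mat_mul, ← vecMul_vecMul, ha.1, hb.1],
    by rw [mat_mul, ← mulVec_mulVec, hb.2, ha.2]⟩
  inv_mem' := fun ha => ⟨vecMul_inv ha.1, inv_mulVec ha.2⟩

theorem vecMul_apply {o : ι} {A : Matrix ι ι (ZMod 2)} (h : A *ᵥ Pi.single o 1 = Pi.single o 1)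
    (f : ι → ZMod 2) : (f ᵥ* A) o = f o := by
  have := dotProduct_mulVec f A (Pi.single o 1)
  rw [h] at this
  simpa using this.symm

theorem conj_uu {o : ι} {m : SpecialLinearGroup ι (ZMod 2)} (hm : m ∈ M o) (f : ι → ZMod 2) (hf : f o = 0) :
    m * uu o f hf * m⁻¹ = uu o (f ᵥ* mat m⁻¹) ((vecMul_apply (inv_mulVec hm.2) f).trans hf) := by
  apply Subtype.ext
  show mat m * T o f * mat m⁻¹ = T o _
  rw [T, T, mul_add, add_mul, mul_one, ← mat_mul, mul_inv_cancel,
    mat_one, mul_vecMulVec, hm.2, vecMulVec_mul]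

/-- the functional of a transvection -/
def rr (o : ι) (g : SpecialLinearGroup ι (ZMod 2)) : ι → ZMod 2 := Pi.single o 1 + Pi.single o 1 ᵥ* mat g

theorem mat_uu (o : ι) (f : ι → ZMod 2) (hf : f o = 0) : mat (uu o f hf) = T o f := rfl

theorem uu_congr {o : ι} {f g : ι → ZMod 2} {hf : f o = 0} {hg : g o = 0} (h : f = g) :
    uu o f hf = uu o g hg := by subst h; rfl

theorem rr_uu (o : ι) (f : ι → ZMod 2) (hf : f o = 0) : rr o (uu o f hf) = f := by
  rw [rr, mat_uu, vecMul_T, ← add_assoc, add_self', zero_add]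

theorem rr_apply {o : ι} {g : SpecialLinearGroup ι (ZMod 2)} (hg : g ∈ U o) : rr o g o = 0 := by
  obtain ⟨f, hf, rfl⟩ := hg
  rw [rr_uu, hf]

theorem uu_rr {o : ι} {g : SpecialLinearGroup ι (ZMod 2)} (hg : g ∈ U o) : uu o (rr o g) (rr_apply hg) = g := by
  obtain ⟨f, hf, rfl⟩ := hg
  simp only [rr_uu]

theorem uu_eq {o : ι} {f : ι → ZMod 2} {hf : f o = 0} {g : SpecialLinearGroup ι (ZMod 2)} (hg : g ∈ U o)
    (h : f = rr o g) : uu o f hf = g := by subst h; exact uu_rr hg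

theorem rr_mul {o : ι} {g h : SpecialLinearGroup ι (ZMod 2)} (hg : g ∈ U o) (hh : h ∈ U o) :
    rr o (g * h) = rr o g + rr o h := by
  obtain ⟨f, hf, rfl⟩ := hg
  obtain ⟨k, hk, rfl⟩ := hh
  rw [show uu o f hf * uu o k hk = uu o (f + k) (by simp [hf, hk]) from Subtype.ext (T_mul hf k)]
  simp only [rr_uu]

/-- projection to the transvection group -/
def pu (o : ι) (f : ι → ZMod 2) : U o :=
  ⟨uu o (f + f o • Pi.single o 1) (by simp [CharTwo.add_self_eq_zero]), _, _, rfl⟩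

theorem pu_add (o : ι) (f g : ι → ZMod 2) : pu o (f + g) = pu o f * pu o g := by
  refine Subtype.ext (Subtype.ext ?_)
  show T o _ = T o _ * T o _
  rw [T_mul (by simp [CharTwo.add_self_eq_zero])]
  congr 1
  simp only [Pi.add_apply, add_smul]; abel

theorem pu_rr {o : ι} (g : U o) (a : ZMod 2) : pu o (a • Pi.single o 1 + rr o g) = g := by
  refine Subtype.ext (uu_eq (hf := by simp [CharTwo.add_self_eq_zero]) g.2 ?_)
  simp only [Pi.add_apply, Pi.smul_apply, Pi.single_eq_same, rr_apply g.2, smul_eq_mul, mul_one, add_zero]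
  rw [add_comm (a • _), add_assoc, add_self', add_zero]

/-- the linear map induced by an automorphism -/
def psi (o : ι) (φ : U o ≃* U o) : (ι → ZMod 2) →ₗ[ZMod 2] (ι → ZMod 2) :=
  AddMonoidHom.toZModLinearMap 2 (AddMonoidHom.mk' (fun f => f o • Pi.single o 1 + rr o (φ (pu o f)))
    fun f g => by
      rw [pu_add, map_mul, Subgroup.coe_mul, rr_mul (Subtype.prop _) (Subtype.prop _), Pi.add_apply, add_smul]
      abel)

theorem psi_apply (o : ι) (φ : U o ≃* U o) (f : ι → ZMod 2) :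
    psi o φ f = f o • Pi.single o 1 + rr o (φ (pu o f)) := rfl

theorem psi_psi (o : ι) (φ : U o ≃* U o) (f : ι → ZMod 2) : psi o φ.symm (psi o φ f) = f := by
  rw [psi_apply, psi_apply, pu_rr, MulEquiv.symm_apply_apply]
  simp only [Pi.add_apply, Pi.smul_apply, Pi.single_eq_same, rr_apply (Subtype.prop _), smul_eq_mul,
    mul_one, add_zero]
  rw [pu, rr_uu, add_comm f, ← add_assoc, add_self', zero_add]

theorem vecMul_psi (o : ι) (φ : U o ≃* U o) (f : ι → ZMod 2) :
    f ᵥ* (LinearMap.toMatrix' (psi o φ))ᵀ = psi o φ f := by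
  rw [vecMul_transpose, LinearMap.toMatrix'_mulVec]

theorem aff (o : ι) : Aff (U o) (M o) := by
  refine ⟨⟨abelian_of_sq ?_, fun a ha => ?_⟩, fun m hm => mem_normalizer_of_cj_le (cj_le_iff'.2 ?_),
    fun m hm h => ?_, fun φ => ?_⟩
  · rintro _ ⟨f, hf, rfl⟩
    exact Subtype.ext (T_sq hf)
  · obtain ⟨f, hf, rfl⟩ := ha
    rw [pow_two]; exact Subtype.ext (T_sq hf)
  · rintro _ ⟨f, hf, rfl⟩
    exact ⟨_, _, conj_uu hm f hf⟩
  · rw [← inv_eq_one]
    refine mat_inj (ext_of_single_vecMul fun i => ?_)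
    rw [mat_one, vecMul_one]
    by_cases hi : i = o
    · rw [hi]; exact vecMul_inv hm.1
    · have := h _ ⟨Pi.single i 1, by simp [Ne.symm hi], rfl⟩
      rw [conj_uu hm] at this
      exact T_inj (congrArg Subtype.val this)
  · have h1 : (LinearMap.toMatrix' (psi o φ))ᵀ * (LinearMap.toMatrix' (psi o φ.symm))ᵀ = 1 :=
      ext_of_single_vecMul fun i => by rw [← vecMul_vecMul, vecMul_psi, vecMul_psi, psi_psi, vecMul_one]
    let k : SpecialLinearGroup ι (ZMod 2) := ⟨_, det_one h1⟩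
    have hk : k ∈ M o := by
      constructor
      · show _ ᵥ* (LinearMap.toMatrix' (psi o φ))ᵀ = _
        have h0 : rr o ((1 : U o) : SpecialLinearGroup ι (ZMod 2)) = 0 := by
          rw [rr, Subgroup.coe_one, mat_one, vecMul_one, add_self']
        have : pu o (Pi.single o 1) = 1 := by simpa only [h0, one_smul, add_zero] using pu_rr (1 : U o) 1
        rw [vecMul_psi, psi_apply, this, map_one, h0]
        simp
      · ext i
        have := vecMul_psi o φ (Pi.single i 1)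
        rw [single_one_vecMul] at this
        rw [mulVec_single_one]
        refine (congrFun this o).trans ?_
        rw [psi_apply]
        simp only [Pi.add_apply, Pi.smul_apply, Pi.single_eq_same, rr_apply (Subtype.prop _), smul_eq_mul,
          mul_one, add_zero, Pi.single_apply, eq_comm]
    refine ⟨k⁻¹, inv_mem hk, ?_⟩
    rintro ⟨_, f, hf, rfl⟩
    refine (uu_rr (Subtype.prop (φ _))).symm.trans ((uu_congr ?_).trans (conj_uu (inv_mem hk) f hf).symm)
    rw [inv_inv]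
    show _ = _ ᵥ* (LinearMap.toMatrix' (psi o φ))ᵀ
    have : pu o f = ⟨uu o f hf, _, _, rfl⟩ := Subtype.ext (uu_congr
      (hf := by simp [CharTwo.add_self_eq_zero]) (hg := hf) (by rw [hf, zero_smul, add_zero]))
    rw [vecMul_psi, psi_apply, this]
    simp [hf]

theorem cent_le {o j : ι} (h : (Pi.single j 1 : ι → ZMod 2) o = 0) :
    𝐂[uu o (Pi.single j 1) h] ≤ U o ⊔ M o := fun g hg => by
  have h1 : mat g * T o (Pi.single j 1) = T o (Pi.single j 1) * mat g :=
    congrArg mat (mem_cent1_iff.1 hg)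
  rw [T, mul_add, add_mul, mul_one, one_mul, add_right_inj, mul_vecMulVec, vecMulVec_mul] at h1
  have h2 : mat g *ᵥ Pi.single o 1 = (Pi.single j 1 ᵥ* mat g) j • Pi.single o 1 := by
    ext i
    have := congrFun (congrFun h1 i) j
    simpa [vecMulVec_apply, mul_comm] using this
  have h3 : mat g *ᵥ Pi.single o 1 = Pi.single o 1 := by
    have key : ∀ a : ZMod 2, a = 0 ∨ a = 1 := by decide
    rcases key ((Pi.single j 1 ᵥ* mat g) j) with e | e
    · rw [e, zero_smul] at h2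
      have h4 : mat g⁻¹ *ᵥ (mat g *ᵥ Pi.single o 1) = Pi.single o 1 := by
        rw [mulVec_mulVec, ← mat_mul, inv_mul_cancel, mat_one,
          one_mulVec]
      rw [h2, mulVec_zero] at h4
      simpa using congrFun h4 o
    · rwa [e, one_smul] at h2
  have h4 : rr o g⁻¹ o = 0 := by
    rw [rr, Pi.add_apply, vecMul_apply (inv_mulVec h3)]; exact CharTwo.add_self_eq_zero _
  have h5 : uu o _ h4 * g ∈ M o := by
    constructor
    · show _ ᵥ* (T o _ * mat g) = _
      rw [← vecMul_vecMul, vecMul_T, rr, ← add_assoc, add_self', zero_add, vecMul_vecMul,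
        ← mat_mul, inv_mul_cancel, mat_one, vecMul_one]
    · show (T o _ * mat g) *ᵥ _ = _
      rw [← mulVec_mulVec, h3, T_mulVec h4]
  simpa using mul_mem (Subgroup.mem_sup_left (inv_mem (show uu o _ h4 ∈ U o from ⟨_, _, rfl⟩)))
    (Subgroup.mem_sup_right h5)

theorem card_U (n : ℕ) : Nat.card (U (0 : Fin (n + 1))) = 2 ^ n := by
  have e : U (0 : Fin (n + 1)) ≃ (Fin n → ZMod 2) :=
    ⟨fun g => Fin.tail (rr 0 g.val), fun f => ⟨uu 0 (Fin.cons 0 f) rfl, _, _, rfl⟩,
      fun g => Subtype.ext (uu_eq (o := 0) (f := Fin.cons 0 (Fin.tail (rr 0 g.val))) (hf := rfl) g.2 (by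
        conv_rhs => rw [← Fin.cons_self_tail (rr 0 g.val), rr_apply g.2])),
      fun f => (congrArg Fin.tail (rr_uu 0 (Fin.cons 0 f) rfl)).trans (Fin.tail_cons _ _)⟩
  rw [Nat.card_congr e, Nat.card_fun, Nat.card_zmod, Nat.card_fin]

end

/-- Let G be the special linear group of degree n + 2 over the field with two elements, n ≥ 2, let z be a transvection, and let Q be the largest normal 2-subgroup of the centralizer C of z. Then Q is extraspecial of order 2^(2n+1) with an elementary abelian subgroup of order 2^(n+1) (plus type), Q is a large extraspecial 2-subgroup of G, and C is the split extension of Q by the special linear group of degree n over the field with two elements. -/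
theorem result (n : ℕ) (hn : 2 ≤ n) (z : Matrix.SpecialLinearGroup (Fin (n + 2)) (ZMod 2)) (hz : (z : Matrix (Fin (n + 2)) (Fin (n + 2)) (ZMod 2)) = Matrix.transvection 0 1 1) (Q : Subgroup (Matrix.SpecialLinearGroup (Fin (n + 2)) (ZMod 2))) (hQ : Q = (Cfsg.pCore 2 ↥(Subgroup.centralizer ({z} : Set (Matrix.SpecialLinearGroup (Fin (n + 2)) (ZMod 2))))).map (Subgroup.centralizer ({z} : Set (Matrix.SpecialLinearGroup (Fin (n + 2)) (ZMod 2)))).subtype) : Cfsg.IsExtraspecial 2 ↥Q ∧ Nat.card ↥Q = 2 ^ (2 * n + 1) ∧ (∃ E : Subgroup (Matrix.SpecialLinearGroup (Fin (n + 2)) (ZMod 2)), E ≤ Q ∧ Cfsg.IsElementaryAbelian 2 E ∧ Nat.card ↥E = 2 ^ (n + 1)) ∧ Cfsg.IsLargeExtraspecial Q ∧ ∃ K : Subgroup (Matrix.SpecialLinearGroup (Fin (n + 2)) (ZMod 2)), K ≤ Subgroup.centralizer ({z} : Set (Matrix.SpecialLinearGroup (Fin (n + 2)) (ZMod 2))) ∧ Q ⊓ K = ⊥ ∧ Q ⊔ K = Subgroup.centralizer ({z} : Set (Matrix.SpecialLinearGroup (Fin (n + 2)) (ZMod 2))) ∧ Nonempty (↥K ≃*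 Matrix.SpecialLinearGroup (Fin n) (ZMod 2)) := by
  have h0 : (Pi.single 1 1 : Fin (n + 2) → ZMod 2) 0 = 0 := by simp
  obtain rfl : z = uu 0 (Pi.single 1 1) h0 := Subtype.ext (by
    rw [hz, transvection, single_eq_single_vecMulVec_single]; rfl)
  have h1 : uu 0 (Pi.single 1 1) h0 ≠ 1 := fun e => by
    have := T_inj ((congrArg Subtype.val e).trans (T_zero _).symm)
    simpa using congrFun this 1
  obtain ⟨a, b, c, d, K, h2, h3, h4, ⟨e⟩⟩ := (aff (0 : Fin (n + 2))).main_thm ⟨_, _, rfl⟩ h1 (cent_le h0)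
    (by omega : 1 ≤ n) (card_U (n + 1)) hQ
  obtain ⟨e'⟩ := sl_gl (ι := Fin n)
  exact ⟨a, b, c, d, K, h2, h3, h4, ⟨e.trans e'⟩⟩

end Cfsg.Agent.S5424
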