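import Cfsg.Statements.S5425
import Cfsg.Agent.Lib.Golay.Misc
import Cfsg.Agent.Lib.Golay.Fam
import Cfsg.Agent.Lib.Extra2.Basic

set_option autoImplicit false
open Cfsg

namespace Cfsg.Agent.S5425
open CA.Gol
open scoped Pointwise

open CA CA.Ex2 CA.Core
open scoped commutatorElement

/-- the representative -/
noncomputable def z0 : M24 := ⟨perm r2A, perm_mem_M24 r2A_in⟩

theorem z0_val : z0.1 = perm r2A := rfl

attribute [irreducible] z0

theorem code_z0 : code z0.1 = r2A := by rw [z0_val, code_perm' r2A_in]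

/-- test for commuting with the representative -/
def cm (c : ℕ) : Bool := allL [3, 4, 5, 23, 0, 1, 2] fun i => Nat.beq (ap c (ap r2A i)) (ap r2A (ap c i))

theorem ap_z {g : M24} (hg : g ∈ 𝐂[z0]) {i : ℕ} (hi : i < 24) :
    ap (code g.1) (ap r2A i) = ap r2A (ap (code g.1) i) := by
  have := ap_comm (g := g.1) (h := z0.1) (k := z0.1)
    (congrArg Subtype.val (Subgroup.mem_centralizer_singleton_iff.1 hg)) hi
  rwa [code_z0] at this

theorem mem_C0 {g : M24} : g ∈ 𝐂[z0] ↔ cm (code g.1) = true := by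
  rw [cm, allL_iff]
  have hb : ∀ i ∈ [3, 4, 5, 23, 0, 1, 2], i < 24 := by decide
  refine ⟨fun h i hi => beq_iff.2 (ap_z h (hb i hi)), fun h => ?_⟩
  have := chain7 ((z0 * g)⁻¹ * (g * z0)).1 ((z0 * g)⁻¹ * (g * z0)).2 fun b hb' => by
    have h1 : b ∈ [3, 4, 5, 23, 0, 1, 2] := by revert b; decide
    have h2 := beq_iff.1 (h b h1)
    rw [← code_z0, ← ap_mul_code _ _ (hb b h1), ← ap_mul_code _ _ (hb b h1), ap_code _ (hb b h1),
      ap_code _ (hb b h1)] at h2
    rw [Subgroup.coe_mul, Subgroup.coe_inv, Equiv.Perm.mul_apply, Equiv.Perm.inv_eq_iff_eq]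
    exact ix_inj h2
  exact Subgroup.mem_centralizer_singleton_iff.2 (inv_mul_eq_one.1 (Subtype.ext this)).symm

/-- pruning -/
def ok (f : ℕ → Bool) : List ℕ → Bool
  | [y1] => f y1
  | [y2, y1] => Nat.beq y2 (ap r2A y1)
  | [_, _, _] => true
  | [y4, y3, _, _] => Nat.beq y4 (ap r2A y3)
  | y :: _ => !(Nat.beq (ap r2A y) y)
  | _ => true

theorem pass_ok {g : M24} (hg : g ∈ 𝐂[z0]) {f : ℕ → Bool} (hf : f (ap (code g.1) 23) = true) :
    Pass (ok f) Ls24 (code g.1) [] := by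
  have a1 := ap_z hg (i := 23) (by norm_num)
  have a2 := ap_z hg (i := 1) (by norm_num)
  have a3 : ∀ i < 24, ap r2A i ≠ i → (!(Nat.beq (ap r2A (ap (code g.1) i)) (ap (code g.1) i))) = true := by
    intro i hi h
    have h1 : ap r2A i < 24 := by rw [← code_z0]; exact ap_code_lt _ hi
    rw [Bool.not_eq_true', beq_false_iff, ← ap_z hg hi, ap_code _ h1, ap_code _ hi]
    exact fun e => h (pt_inj h1 hi (g.1.injective (ix_inj e)))
  rw [show ap r2A 23 = 0 by decide +kernel] at a1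
  rw [show ap r2A 1 = 2 by decide +kernel] at a2
  rw [pass24]
  exact ⟨hf, beq_iff.2 a1, rfl, beq_iff.2 a2, a3 3 (by norm_num) (by decide +kernel),
    a3 4 (by norm_num) (by decide +kernel), a3 5 (by norm_num) (by decide +kernel)⟩

theorem all_of {f t : ℕ → Bool} (h : searchAll (ok f) (fun c => !(cm c) || t c) Ls24 oneC [] = true) {g : M24}
    (hg : g ∈ 𝐂[z0]) (hf : f (ap (code g.1) 23) = true) : t (code g.1) = true := by
  have := chain0.forall_of_searchAll h g.2 (fixes_nil _) (pass_ok hg hf)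
  rwa [mem_C0.1 hg] at this

theorem card_of_list {H : Subgroup M24} {L : List ℕ} (hL : incr L = true) (h1 : ∀ g ∈ H, code g.1 ∈ L)
    (h2 : ∀ c ∈ L, ∃ g ∈ H, code g.1 = c) : Nat.card H = L.length := by
  rw [← List.toFinset_card_of_nodup (incr_sound hL).nodup, ← Set.ncard_coe_finset,
    ← Set.ncard_congr (s := (H : Set M24)) (fun g _ => code g.1) (fun g hg => by simpa using h1 g hg)
      (fun a b _ _ e => Subtype.ext (code_injective e))
      (fun c hc => by obtain ⟨g, hg, e⟩ := h2 c (by simpa using hc); exact ⟨g, hg, e⟩), ← Nat.card_coe_set_eq]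
  rfl

/-- three code words fixed by the representative -/
def ws (j : Fin 3) : ℕ := ![0x293e00, 0x5aa06, 0x908607] j
/-- three points of the fixed octad -/
def ps (i : Fin 3) : ℕ := ![12, 18, 20] i

/-- coordinate functionals -/
def ph (x : GolayPt) (w : Finset GolayPt) : ZMod 2 := ind w x + ind w (pt 8)

theorem fix_z0 : fixS z0.1 = fs 0x149f00 := by
  rw [z0_val, fixS_perm r2A_in]; exact congrArg fs (by decide +kernel)

theorem key {w : Finset GolayPt} (hw : w ∈ CW) (hz : z0.1 • w = w) {x : GolayPt} (hx : x ∈ fs 0x149f00) :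
    ph x w = ∑ k, ph x (fs (ws k)) * ph (pt (ps k)) w := by
  have h1 : allLt (fun i => !(Nat.beq (apM r2A (enc i)) (enc i)) || memL (Nat.land (enc i) 0x149f00)
    [0x0, 0x1e00, 0x8d00, 0x9300, 0x40700, 0x41900, 0x48a00, 0x49400, 0x100b00, 0x101500, 0x108600, 0x109800,
      0x140c00, 0x141200, 0x148100, 0x149f00]) 4096 = true := by decide +kernel
  have h2 : ∀ m ∈ [0x0, 0x1e00, 0x8d00, 0x9300, 0x40700, 0x41900, 0x48a00, 0x49400, 0x100b00, 0x101500, 0x108600,
      0x109800, 0x140c00, 0x141200, 0x148100, 0x149f00], ∀ x ∈ fs 0x149f00,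
      ph x (fs m) = ∑ k, ph x (fs (ws k)) * ph (pt (ps k)) (fs m) := by decide +kernel
  obtain ⟨i, hi, rfl⟩ := exists_enc hw
  have h3 := allLt_iff.1 h1 i hi
  rw [smul_fs_eq_iff _ (enc_lt hi) (enc_lt hi), code_z0] at hz
  rw [beq_iff.2 hz, Bool.not_true, Bool.false_or, memL_iff] at h3
  have h4 : ∀ y ∈ fs 0x149f00, ph y (fs (Nat.land (enc i) 0x149f00)) = ph y (fs (enc i)) := fun y hy => by
    have : pt 8 ∈ fs 0x149f00 := by decide +kernel
    simp only [ph, ind, fs_land, Finset.mem_inter, hy, this, and_true]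
  have h5 : ∀ k, pt (ps k) ∈ fs 0x149f00 := by decide +kernel
  rw [← h4 x hx, h2 _ h3 x hx]
  exact Finset.sum_congr rfl fun k _ => by rw [h4 _ (h5 k)]

theorem ws_mem (j : Fin 3) : fs (ws j) ∈ CW ∧ z0.1 • fs (ws j) = fs (ws j) := by
  have h : ∀ j, ws j < 2 ^ 24 ∧ isCode (ws j) = true ∧ apM r2A (ws j) = ws j := by decide +kernel
  exact ⟨fs_mem_CW (h j).2.1, (smul_fs_eq_iff _ (h j).1 (h j).1).2 (by rw [code_z0, (h j).2.2])⟩

theorem inv_mem_O {g : M24} (hg : g ∈ 𝐂[z0]) {x : GolayPt} (hx : x ∈ fs 0x149f00) : g.1⁻¹ x ∈ fs 0x149f00 := by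
  rw [← mem_smul_iff, ← fix_z0, smul_fixS_of_commute
    (congrArg Subtype.val (Subgroup.mem_centralizer_singleton_iff.1 hg)), fix_z0]
  exact hx

theorem ph_smul (g : Equiv.Perm GolayPt) (x : GolayPt) (w : Finset GolayPt) :
    ph x (g • w) = ph (g⁻¹ x) w + ph (g⁻¹ (pt 8)) w := by
  rw [ph, ph, ph, ind_smul, add_add_add_comm, CharTwo.add_self_eq_zero, add_zero]; rfl

/-- the action on the quotient -/
noncomputable def rho : 𝐂[z0] →* Matrix (Fin 3) (Fin 3) (ZMod 2) where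
  toFun g := Matrix.of fun i j => ph (pt (ps i)) (g.1.1 • fs (ws j))
  map_one' := by
    show (Matrix.of fun i j => ph (pt (ps i)) ((1 : Equiv.Perm GolayPt) • fs (ws j))) = 1
    simp only [one_smul]
    decide +kernel
  map_mul' g h := by
    ext i j
    have h1 := smul_mem_CW h.1.2 (ws_mem j).1
    have h2 : z0.1 • h.1.1 • fs (ws j) = h.1.1 • fs (ws j) := by
      rw [smul_smul, ← show h.1.1 * z0.1 = z0.1 * h.1.1 from
        congrArg Subtype.val (Subgroup.mem_centralizer_singleton_iff.1 h.2), mul_smul, (ws_mem j).2]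
    have h5 : ∀ k, pt (ps k) ∈ fs 0x149f00 := by decide +kernel
    show ph _ ((g.1.1 * h.1.1) • _) = _
    rw [mul_smul, ph_smul, key h1 h2 (inv_mem_O g.2 (h5 i)), key h1 h2 (inv_mem_O g.2 (by decide +kernel)),
      ← Finset.sum_add_distrib, Matrix.mul_apply]
    refine Finset.sum_congr rfl fun k _ => ?_
    rw [← add_mul, ← ph_smul]; rfl

theorem rho_apply (g : 𝐂[z0]) (i j : Fin 3) : rho g i j = ph (pt (ps i)) (g.1.1 • fs (ws j)) := rfl

attribute [irreducible] rho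

/-- the three coordinates of a point -/
def cv (x : ℕ) : ℕ := fld 4 0x401412036031357000000664 x

/-- test for the kernel -/
def qT (c : ℕ) : Bool :=
  force (cv (ap c 8)) fun a => Nat.beq (Nat.xor (cv (ap c 12)) a) 1 && Nat.beq (Nat.xor (cv (ap c 18)) a) 2 &&
    Nat.beq (Nat.xor (cv (ap c 20)) a) 4

theorem cv_iff : ∀ (i : Fin 3) (x y : GolayPt), Nat.xor (cv (ix x)) (cv (ix y)) = 2 ^ i.val ↔
    ∀ j, ind (fs (ws j)) x + ind (fs (ws j)) y = (1 : Matrix (Fin 3) (Fin 3) (ZMod 2)) i j := by decide +kernel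

/-- the extraspecial group -/
noncomputable def Q0 : Subgroup M24 := rho.ker.map (𝐂[z0]).subtype

theorem mem_Q0' {g : M24} (h : g ∈ 𝐂[z0]) : g ∈ Q0 ↔ rho ⟨g, h⟩ = 1 := by
  constructor
  · rintro ⟨x, hx, e⟩
    rwa [show (⟨g, h⟩ : 𝐂[z0]) = x from Subtype.ext e.symm]
  · intro h2
    exact ⟨⟨g, h⟩, h2, rfl⟩

theorem Q0_le : Q0 ≤ 𝐂[z0] := Subgroup.map_subtype_le _

theorem Q0_normal : Q0 ⊴ 𝐂[z0] := normalIn_map_subtype _

attribute [irreducible] Q0

theorem mem_Q0 (g : M24) : g ∈ Q0 ↔ g ∈ 𝐂[z0] ∧ qT (code g.1) = true := by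
  have k : ∀ h : g ∈ 𝐂[z0], g ∈ Q0 ↔ qT (code g.1) = true := by
    intro h
    rw [← inv_mem_iff, mem_Q0' (inv_mem h), ← Matrix.ext_iff]
    simp only [qT, force_eq, Bool.and_eq_true, beq_iff, rho_apply, ph, ind_smul]
    rw [ap_code _ (by norm_num), ap_code _ (by norm_num), ap_code _ (by norm_num), ap_code _ (by norm_num),
      Fin.forall_fin_succ, Fin.forall_fin_two, and_assoc]
    exact and_congr (cv_iff 0 _ _).symm (and_congr (cv_iff 1 _ _).symm (cv_iff 2 _ _).symm)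
  exact ⟨fun h => ⟨Q0_le h, (k (Q0_le h)).1 h⟩, fun h => (k h.1).2 h.2⟩

/-- the complement -/
noncomputable def K0 : Subgroup M24 := 𝐂[z0] ⊓ (MulAction.stabilizer M24 (pt 23) ⊓ MulAction.stabilizer M24 (pt 8))

/-- test for the complement -/
def kT (c : ℕ) : Bool := Nat.beq (ap c 23) 23 && Nat.beq (ap c 8) 8

theorem mem_K0 (g : M24) : g ∈ K0 ↔ g ∈ 𝐂[z0] ∧ kT (code g.1) = true := by
  rw [kT, Bool.and_eq_true, beq_iff, beq_iff, ← apply_pt_eq_iff (by norm_num) (by norm_num),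
    ← apply_pt_eq_iff (by norm_num) (by norm_num)]
  rfl

/-- the elementary abelian subgroup -/
noncomputable def E0 : Subgroup M24 := Q0 ⊓ fixingSubgroup M24 (fs 0x149f00 : Set GolayPt)

theorem card_K0 : Nat.card K0 = 168 := by
  rw [show 168 = searchCount (ok (Nat.beq 23)) (fun c => cm c && kT c) Ls24 oneC [] by decide +kernel,
    ← chain0.card_eq_searchCount _ _ (Subtype.val '' (K0 : Set M24)),
    Set.ncard_image_of_injective _ Subtype.val_injective, ← Nat.card_coe_set_eq]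
  · rfl
  · rintro _ ⟨g, hg, rfl⟩
    have := (mem_K0 g).1 hg
    exact ⟨g.2, fixes_nil _, pass_ok this.1 (beq_iff.2 (beq_iff.1 (Bool.and_eq_true_iff.1 this.2).1).symm),
      by rw [mem_C0.1 this.1, this.2]; rfl⟩
  · intro g hg _ hl
    rw [Bool.and_eq_true] at hl
    exact ⟨⟨g, hg⟩, (mem_K0 _).2 ⟨mem_C0.2 hl.1, hl.2⟩, rfl⟩

/-- the elements of the extraspecial group -/
def LQ0 : List ℕ := [0x126caa4b05b9b47a24a39a3618837, 0x1274ac8ad78e0c5a92831e3670457, 0x12a89be3090daa4b17431cb670837, 0x12aa9ae2d4ba08951ec398b618457, 0x5a69ab230539b243e8b31ca418457, 0x5a72ad22d40e0952d8f398a470837, 0x5aab9a8ad63a0fa490931e2418837, 0x5aaf9a0b0a0dab6255239a2470457, 0xb4cb3a8766448fa4909acdd02dc02, 0xb4cf3a064a16cb625529d5d0882e2, 0xb4e9331c4546d243e8bacc70282e2, 0xb4f2351d64148952d8f9d4708dc02, 0xc0c83bdc4916ca4b174acc6d8dc02, 0xc0ca3add64c488951ec9d46d282e2, 0xc0ec324645c6d47a24a9d5cd2dc02, 0xc0f4348767948c5a928acdcd882e2, 0x134cc3a5d6594947a24aacc70882e1,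 0x134d43c9c47c6cc5a9289d4702dc01, 0x134e833c769448a4b1749d5d0282e1, 0x134ea32c64496c8951ecacdd08dc01, 0x140c93b0765149243e8b9d5cd8dc01, 0x140d23d064446c952d8facdcd282e1, 0x140eb329c4616cfa49099d46d882e1, 0x140ef321d6a448b62552acc6d2dc01, 0x199ac824355de747a24ab1047044ae, 0x199b484833782ac5a92825847b962e, 0x19a086bc559026a4b17425827bc4ae, 0x19a0a6ac534dea8951ecb10270162e, 0x19da98305555e7243e8b258260162e, 0x19db285053402a952d8fb1026bc4ae, 0x19e0b6a83365eafa490925846044ae, 0x19e0f6a035a026b62552b1046b962e, 0x200a88be619184a4b1741bab73b616, 0x200aa8ae6249c28951ec70eb7341b6, 0x2022c2a6a159c547a24a70e7733616, 0x202342caa27982c5a9281ba773c1b6, 0x25cab8aaa261c2fa49091ba6033616, 0x25caf8a2a1a184b6255270e603c1b6, 0x25e292b26151c5243e8b1baa0341b6, 0x25e322d2624182952d8f70ea03b616, 0x2cc8bb2807608cfa4909836f50b871, 0x2cc8fb2006a04eb625526c2f510dd1, 0x2cec9232e6508f243e8b8341508dd1, 0x2ced2252e7404c952d8f6c01513871, 0x2d488b3ee6904ea4b1748341313871,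 0x2d48ab2ee7488c8951ec6c01308dd1, 0x2d6cc22406588f47a24a6c2f30b871, 0x2d6d424807784cc5a928836f310dd1, 0x30c2813da59122a4b17405e0eb4ea7, 0x30c2a12db14d8a8951ecb820e25667, 0x30c4c0a6055da347a24ab81ae24ea7, 0x30c540ca11790ac5a92805daeb5667, 0x3382b12a11658afa490905da324ea7, 0x3382f12205a122b62552b81a3b5667, 0x338490b1a555a3243e8b05e0325667, 0x338520d1b1410a952d8fb8203b4ea7, 0x38c2913211510b243e8bb81aeb4ea6, 0x38c321520545a2952d8f05dae25666, 0x38c4b0a9a56122fa4909b820eb5666, 0x38c4f0a1b1a58ab6255205e0e24ea6, 0x3b82c125b1590b47a24a05e03b5666, 0x3b834149a57da2c5a928b820324ea6, 0x3b8480be11958aa4b174b81a325666, 0x3b84a0ae0549228951ec05da3b4ea6, 0x68469730d75541243e8b894e29d890, 0x68472750c044ee952d8f2c4e2a92d0, 0x685cb1a8e0656efa4909894c2992d0, 0x685cf1a0f7a4c0b625522c4c2ad890, 0x6886c724f75d4147a24a2c4c1992d0, 0x68874748e07ceec5a928894c1ad890, 0x689c81bcd794c0a4b174894e1a92d0, 0x689ca1acc04d6e8951ec2c4e19d890, 0x719ab828556026fa4909b1027b9623,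 0x719af82053a5eab6255225827044a3, 0x71a096b033502b243e8bb1047bc4a3, 0x71a126d03545e6952d8f2584701623, 0x71da883c3395eaa4b174b104601623, 0x71daa82c3548268951ec25846bc4a3, 0x71e0c6a453582b47a24a25826b9623, 0x71e146c8557de6c5a928b1026044a3, 0x8046873ce0956ea4b1742c4c29d88d, 0x8046a72cf74cc08951ec894c2a92cd, 0x805cc1a4c05cef47a24a894e2ad88d, 0x805d41c8d77d40c5a9282c4e2992cd, 0x8086b728d764c0fa49092c4e1ad88d, 0x8086f720c0a56eb62552894e1992cd, 0x809c91b0e054ef243e8b2c4c1a92cd, 0x809d21d0f74540952d8f894c19d88d, 0x8cc8cb26e7584d47a24a8341510dc5, 0x8cc94b4ae6788ec5a9286c0150b865, 0x8cec823c07908ca4b1746c2f508dc5, 0x8ceca22c06484e8951ec836f513865, 0x8d489b3007504d243e8b6c2f313865, 0x8d492b5006408e952d8f836f308dc5, 0x8d6cb22ae6604efa49096c01310dc5, 0x8d6cf222e7a08cb62552834130b865, 0x99409bb08e5407243e8b106d169cd5, 0x99412bd083435c952d8f08ad1818f5, 0x996eb02ac3641cfa490910491698f5, 0x996ef022cea346b625520889181cd5, 0x9c40cba6ce5c0747a24a08885698f5,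 0x9c414bcac37b5cc5a9281048581cd5, 0x9c6e803c8e9346a4b174106c5818f5, 0x9c6ea02c834c1c8951ec08ac569cd5, 0xa9408bbec3941ca4b1740889169cd3, 0xa940abaece4b468951ec10491818f3, 0xa96ec024835b5d47a24a106d181cd3, 0xa96f40488e7c06c5a92808ad1698f3, 0xac40bba88e6346fa490908ac581cd3, 0xac40fba083a41cb62552106c5698f3, 0xac6e9032c3535d243e8b08885818f3, 0xac6f2052ce4406952d8f1048569cd3, 0xb00a98b2a25183243e8b70e773b604, 0xb00b28d2a141c4952d8f1ba77341a4, 0xb022b2aa616184fa490970eb73c1a4, 0xb022f2a262a1c2b625521bab733604, 0xb5cac8a662598347a24a1baa03c1a4, 0xb5cb48ca6179c4c5a92870ea033604, 0xb5e282bea291c2a4b17470e60341a4, 0xb5e2a2aea149848951ec1ba603b604, 0xb926baaa3060dafa4909398b670440, 0xb926faa22da3a0b6255231cb618820, 0xb92a99b0ad50e1243e8b39a3670820, 0xb92b29d0b0439a952d8f31e3618440, 0xbda68abcad93a0a4b17439a2418440, 0xbda6aaacb048da8951ec31e2470820, 0xbdaac9a62d58e147a24a31ca470440, 0xbdab49ca307b9ac5a928398a418820]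
/-- the elements of the elementary abelian group -/
def LE0 : List ℕ := [0x1274ac8ad78e0c5a92831e3670457, 0xc0f4348767948c5a928acdcd882e2, 0x134d43c9c47c6cc5a9289d4702dc01, 0x199b484833782ac5a92825847b962e, 0x202342caa27982c5a9281ba773c1b6, 0x2d6d424807784cc5a928836f310dd1, 0x30c540ca11790ac5a92805daeb5667, 0x3b834149a57da2c5a928b820324ea6, 0x68874748e07ceec5a928894c1ad890, 0x71e146c8557de6c5a928b1026044a3, 0x805d41c8d77d40c5a9282c4e2992cd, 0x8cc94b4ae6788ec5a9286c0150b865, 0x9c414bcac37b5cc5a9281048581cd5, 0xa96f40488e7c06c5a92808ad1698f3, 0xb5cb48ca6179c4c5a92870ea033604, 0xbdab49ca307b9ac5a928398a418820]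

/-- generators of the extraspecial group -/
def qs : List ℕ := [0x126caa4b05b9b47a24a39a3618837, 0xac6f2052ce4406952d8f1048569cd3, 0x19db285053402a952d8fb1026bc4ae, 0x2d48ab2ee7488c8951ec6c01308dd1, 0x719af82053a5eab6255225827044a3, 0x199b484833782ac5a92825847b962e]
/-- conjugating elements and their inverses -/
def hs : List (ℕ × ℕ) := [(0xb9489b3ea264032a296839a716b860, 0xbce2b2b08e9086f4aa8839ad50c1a0), (0xb9cb48bda290c2b5258825a0675660, 0xb98540be6590e2962d48b12a7741a0), (0xb91b482c4549a2a7b24870c363d660, 0xb90540a5b359eaa931e81ba16344a0), (0xbd9cc1a4d57c26a95168088e46c4a0, 0xbda0a6ac4e7d4744b2482c424998e0)]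

/-- the combined test -/
def bigT (c : ℕ) : Bool :=
  (!(allL qs fun q => allL [23] fun i => Nat.beq (ap c (ap q i)) (ap q (ap c i))) || memL c [oneC, r2A]) &&
    (!(qT c) || memL c LQ0)

theorem big {g : M24} (hg : g ∈ 𝐂[z0]) : bigT (code g.1) = true :=
  all_of (f := fun _ => true) (by decide +kernel) hg rfl

/-- the test for the complement -/
def smallT (c : ℕ) : Bool := !(kT c) || Nat.beq c oneC || anyL hs fun h =>
  force (mul c (mul h.1 (mul c h.2))) fun x => ordIs x 3 || ordIs x 7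

theorem small {g : M24} (hg : g ∈ K0) : smallT (code g.1) = true :=
  all_of (f := Nat.beq 23) (by decide +kernel) hg.1
    (beq_iff.2 (beq_iff.1 (Bool.and_eq_true_iff.1 ((mem_K0 g).1 hg).2).1).symm)

theorem LQ0_ok : allL LQ0 (fun c => (inM24 c && cm c && qT c) && memL (mul c c) [oneC, r2A] &&
    (!(kT c) || Nat.beq c oneC) && (!(Nat.beq (Nat.land 0x149f00 (fixM c)) 0x149f00) || memL c LE0)) = true := by
  decide +kernel

theorem LE0_ok : allL LE0 (fun c => (inM24 c && cm c && qT c) && Nat.beq (mul c c) oneC &&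
    Nat.beq (Nat.land 0x149f00 (fixM c)) 0x149f00) = true := by decide +kernel

theorem mem_LQ0 {g : M24} (hg : g ∈ Q0) : code g.1 ∈ LQ0 := by
  have h1 := (mem_Q0 g).1 hg
  have h2 := big h1.1
  simp only [bigT, Bool.and_eq_true, Bool.or_eq_true, Bool.not_eq_true', h1.2, memL_iff] at h2
  exact h2.2.resolve_left (by simp)

theorem mem_LE0 {g : M24} (hg : g ∈ E0) : code g.1 ∈ LE0 := by
  have h := allL_iff.1 LQ0_ok _ (mem_LQ0 hg.1)
  simp only [Bool.and_eq_true, Bool.or_eq_true, Bool.not_eq_true', memL_iff] at h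
  refine h.2.resolve_left ?_
  rw [Bool.not_eq_false, beq_iff, ← fix_fs_iff (by norm_num)]
  exact (mem_fixingSubgroup_iff _).1 hg.2

theorem code_mem {g : M24} (h : memL (code g.1) [oneC, r2A] = true) : g ∈ Subgroup.zpowers z0 := by
  rw [memL_iff, List.mem_pair, code_eq_one_iff, ← code_z0, code_injective.eq_iff] at h
  rcases h with h | h
  · rw [show g = 1 from Subtype.ext h]; exact one_mem _
  · rw [show g = z0 from Subtype.ext h]; exact Subgroup.mem_zpowers _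

theorem mk_mem {c : ℕ} (h : (inM24 c && cm c && qT c) = true) : ∃ g ∈ Q0, code g.1 = c := by
  simp only [Bool.and_eq_true] at h
  exact ⟨⟨perm c, perm_mem_M24 h.1.1⟩, (mem_Q0 _).2 ⟨mem_C0.2 (by rw [code_perm' h.1.1]; exact h.1.2),
    by rw [code_perm' h.1.1]; exact h.2⟩, code_perm' h.1.1⟩

theorem card_Q0 : Nat.card Q0 = 2 ^ 7 := by
  rw [show 2 ^ 7 = LQ0.length by decide +kernel]
  exact card_of_list (L := LQ0) (by decide +kernel) (fun _ => mem_LQ0) fun c hc => by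
    have h := allL_iff.1 LQ0_ok _ hc
    simp only [Bool.and_eq_true (_ && _ && _ && _), Bool.and_eq_true (_ && _ && _ && _ && _),
      Bool.and_eq_true (_ && _ && _)] at h
    exact mk_mem h.1.1.1

theorem card_E0 : Nat.card E0 = 2 ^ 4 :=
  card_of_list (L := LE0) (by decide +kernel) (fun _ => mem_LE0) fun c hc => by
    have h := allL_iff.1 LE0_ok _ hc
    rw [Bool.and_eq_true, Bool.and_eq_true] at h
    obtain ⟨g, hg, e⟩ := mk_mem h.1.1
    refine ⟨g, ⟨hg, (mem_fixingSubgroup_iff _).2 ?_⟩, e⟩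
    exact (fix_fs_iff (by norm_num)).2 (by rw [e]; exact beq_iff.1 h.2)

theorem z0_ord : orderOf z0 = 2 := by rw [← Subgroup.orderOf_coe, z0_val]; exact r2A_order

theorem z0_mem : z0 ∈ Q0 := by
  obtain ⟨g, hg, e⟩ := mk_mem (c := r2A) (by decide +kernel)
  rwa [← show g = z0 from Subtype.ext (code_injective (e.trans code_z0.symm))]

theorem cent_Q0 : 𝐂(Q0) ≤ Subgroup.zpowers z0 := by
  intro g hg
  have h1 : g ∈ 𝐂[z0] := Subgroup.centralizer_le (Set.singleton_subset_iff.2 z0_mem) hg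
  have h2 := big h1
  simp only [bigT, Bool.and_eq_true, Bool.or_eq_true, Bool.not_eq_true'] at h2
  refine code_mem (h2.1.resolve_left ?_)
  rw [Bool.not_eq_false, allL_iff]
  intro q hq
  obtain ⟨k, hk, rfl⟩ := mk_mem (allL_iff.1 (by decide +kernel :
    allL qs (fun c => inM24 c && cm c && qT c) = true) q hq)
  rw [allL_iff]
  intro i hi
  exact beq_iff.2 (ap_comm (congrArg Subtype.val (hg k hk)).symm (by revert i; decide))

theorem sq_Q0 {g : M24} (hg : g ∈ Q0) : g * g ∈ Subgroup.zpowers z0 ∧ (g ∈ E0 → g * g = 1) ∧ (g ∈ K0 → g = 1) := by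
  have h := allL_iff.1 LQ0_ok _ (mem_LQ0 hg)
  simp only [Bool.and_eq_true, Bool.or_eq_true, Bool.not_eq_true', beq_iff] at h
  refine ⟨code_mem (by rw [Subgroup.coe_mul, code_mul]; exact h.1.1.2), fun h' => ?_, fun h' => ?_⟩
  · have h4 := allL_iff.1 LE0_ok _ (mem_LE0 h')
    simp only [Bool.and_eq_true, beq_iff, ← code_mul, code_eq_one_iff] at h4
    exact Subtype.ext h4.1.2
  · have h5 := h.1.2
    rw [((mem_K0 g).1 h').2, code_eq_one_iff] at h5
    exact Subtype.ext (h5.resolve_left (by simp))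

theorem inf_QK : Q0 ⊓ K0 = ⊥ := eq_bot_iff.2 fun _ hg => (sq_Q0 hg.1).2.2 hg.2

theorem card_SL : Nat.card (Matrix.SpecialLinearGroup (Fin 3) (ZMod 2)) = 168 := by
  have e : Matrix.SpecialLinearGroup (Fin 3) (ZMod 2) ≃ GL (Fin 3) (ZMod 2) :=
    Equiv.ofBijective Matrix.SpecialLinearGroup.toGL ⟨Matrix.SpecialLinearGroup.toGL_injective, fun A =>
      ⟨⟨A.1, by
        have := (Matrix.isUnit_iff_isUnit_det _).1 A.isUnit
        revert this
        generalize A.1.det = a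
        revert a; decide⟩, Units.ext rfl⟩⟩
  rw [Nat.card_congr e, Matrix.card_GL_field]
  simp [Fin.prod_univ_three]

theorem iso_K0 : ∃ f : K0 ≃* Matrix.SpecialLinearGroup (Fin 3) (ZMod 2), ∀ k, (f k).1 = rho ⟨k.1, k.2.1⟩ := by
  let r : K0 →* Matrix (Fin 3) (Fin 3) (ZMod 2) := rho.comp (Subgroup.inclusion inf_le_left)
  let f : K0 →* Matrix.SpecialLinearGroup (Fin 3) (ZMod 2) :=
    { toFun := fun k => ⟨r k, by
        have := (Matrix.isUnit_iff_isUnit_det _).1 ((Group.isUnit k).map r)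
        revert this
        generalize (r k).det = a
        revert a; decide⟩
      map_one' := Subtype.ext r.map_one
      map_mul' := fun a b => Subtype.ext (r.map_mul a b) }
  refine ⟨MulEquiv.ofBijective f ((Nat.bijective_iff_injective_and_card f).2 ⟨?_, by rw [card_K0, card_SL]⟩), fun _ => rfl⟩
  rw [injective_iff_map_eq_one]
  intro k hk
  exact Subtype.ext ((sq_Q0 ((mem_Q0' k.2.1).2 (congrArg Subtype.val hk))).2.2 k.2)

theorem decomp {g : M24} (hg : g ∈ 𝐂[z0]) : ∃ q ∈ Q0, ∃ k ∈ K0, g = q * k := by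
  obtain ⟨f, hf⟩ := iso_K0
  obtain ⟨k, hk⟩ := f.surjective ⟨rho ⟨g, hg⟩, by
    have := (Matrix.isUnit_iff_isUnit_det _).1 ((Group.isUnit (⟨g, hg⟩ : 𝐂[z0])).map rho)
    revert this
    generalize (rho _).det = a
    revert a; decide⟩
  have h1 := hf k
  rw [hk] at h1
  refine ⟨g * k.1⁻¹, (mem_Q0' (mul_mem hg (inv_mem k.2.1))).2 ?_, k, k.2, by group⟩
  rw [show (⟨g * k.1⁻¹, mul_mem hg (inv_mem k.2.1)⟩ : 𝐂[z0]) = ⟨g, hg⟩ * (⟨k.1, k.2.1⟩ : 𝐂[z0])⁻¹ from rfl, map_mul]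
  simp only at h1
  rw [h1, ← map_mul, mul_inv_cancel, map_one]

theorem pg_Q0 : IsPGroup 2 Q0 := IsPGroup.of_card card_Q0

theorem oP_eq : oP 2 𝐂[z0] = Q0 := by
  have hle : Q0 ≤ oP 2 𝐂[z0] := Core.le_oP Q0_normal pg_Q0
  refine le_antisymm (fun g hg => ?_) hle
  obtain ⟨q, hq, k, hk, rfl⟩ := decomp (oP_le _ _ hg)
  have h1 : k ∈ oP 2 𝐂[z0] := (mul_mem_cancel_left (hle hq)).1 hg
  have h2 := small hk
  simp only [smallT, Bool.or_eq_true, Bool.not_eq_true', ((mem_K0 k).1 hk).2, beq_iff] at h2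
  rcases h2 with (h | h) | h
  · simp at h
  · rw [show k = 1 from Subtype.ext (code_eq_one_iff.1 h), mul_one]; exact hq
  · exfalso
    obtain ⟨h, hh, h3⟩ := anyL_iff.1 h
    have h4 := allL_iff.1 (by decide +kernel :
      allL hs (fun h => inM24 h.1 && cm h.1 && inM24 h.2 && Nat.beq (mul h.1 h.2) oneC) = true) h hh
    simp only [Bool.and_eq_true, beq_iff] at h4
    let a : M24 := ⟨perm h.1, perm_mem_M24 h4.1.1.1⟩
    have ha : a ∈ 𝐂[z0] := mem_C0.2 (by rw [code_perm' h4.1.1.1]; exact h4.1.1.2)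
    have hb : a.1⁻¹ = perm h.2 := inv_eq_of_mul_eq_one_right (code_eq_one_iff.1 (by
      rw [code_mul, code_perm' h4.1.1.1, code_perm' h4.1.2, h4.2]))
    have h5 : k * (a * k * a⁻¹) ∈ oP 2 𝐂[z0] :=
      mul_mem h1 ((Subgroup.mem_normalizer_iff.1 ((oP_normalIn 2 _).2 ha) k).1 h1)
    have h6 : code (k * (a * k * a⁻¹)).1 = mul (code k.1) (mul h.1 (mul (code k.1) h.2)) := by
      rw [mul_assoc, Subgroup.coe_mul, Subgroup.coe_mul, Subgroup.coe_mul, Subgroup.coe_inv, hb, code_mul, code_mul,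
        code_mul, code_perm' h4.1.1.1, code_perm' h4.1.2]
    obtain ⟨n, hn⟩ := (IsPGroup.iff_orderOf.1 (oP_isPGroup 2 𝐂[z0])) ⟨_, h5⟩
    rw [← Subgroup.orderOf_coe, ← Subgroup.orderOf_coe] at hn
    rw [force_eq, ← h6, Bool.or_eq_true, ordIs_iff Nat.prime_three, ordIs_iff (by norm_num), hn] at h3
    rcases h3 with h3 | h3
    · have := Nat.prime_three.dvd_of_dvd_pow h3.symm.dvd; omega
    · have := (show Nat.Prime 7 by norm_num).dvd_of_dvd_pow h3.symm.dvd; omega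

theorem lq0 : LQ Q0 z0 := by
  have hz : 𝐙(Q0) = Subgroup.zpowers z0 := le_antisymm (inf_le_right.trans cent_Q0)
    (Subgroup.zpowers_le.2 ⟨z0_mem, mem_cent_iff_le_cent1.2 Q0_le⟩)
  have hzQ : Subgroup.zpowers z0 ≤ Q0 := Subgroup.zpowers_le.2 z0_mem
  refine ⟨⟨extraspecial_of_le_center pg_Q0 (fun hc => ?_) (phi_le_of_der_of_pow (p := 2) ?_ fun x hx => ?_)
    (by rw [hz, Nat.card_zpowers, z0_ord]), hz⟩, cent_Q0.trans hzQ, Q0_normal.2⟩
  · have h1 : Q0 ≤ Subgroup.zpowers z0 := (abelian_iff.1 hc).trans cent_Q0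
    have := Subgroup.card_le_of_le h1
    rw [card_Q0, Nat.card_zpowers, z0_ord] at this
    omega
  · rw [Subgroup.commutator_le]
    intro x hx y hy
    have k1 := hz ▸ (sq_Q0 hx).1
    have k2 := hz ▸ (sq_Q0 hy).1
    have k3 := hz ▸ (sq_Q0 (mul_mem hx hy)).1
    have e : ⁅x, y⁆ = x * y * (x * y) * (y * y)⁻¹ * (x * x)⁻¹ := by
      have c1 : y * (x * x) = x * x * y := k1.2 y hy
      have c2 : x * (y * y) = y * y * x := k2.2 x hx
      rw [commutatorElement_def]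
      calc x * y * x⁻¹ * y⁻¹ = x * y * x * ((x * x)⁻¹ * y⁻¹) := by group
        _ = x * y * x * (y⁻¹ * (x * x)⁻¹) := by rw [← mul_inv_rev, c1, mul_inv_rev]
        _ = _ := by group
    rw [e]
    exact mul_mem (mul_mem k3 (inv_mem k2)) (inv_mem k1)
  · rw [hz, sq]; exact (sq_Q0 hx).1

theorem large0 (k : M24) : IsLargeExtraspecial (cj k Q0) := by
  have hg : inM24 0x33e8d4048e9b075808b105ed252d27 = true := by decide +kernel
  let g : M24 := ⟨_, perm_mem_M24 hg⟩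
  obtain ⟨y, hy, e⟩ := mk_mem (c := 0x12a89be3090daa4b17431cb670837) (by decide +kernel)
  have h1 : g * z0 * g⁻¹ = y := by
    rw [mul_inv_eq_iff_eq_mul]
    apply Subtype.ext
    apply code_injective
    rw [Subgroup.coe_mul, Subgroup.coe_mul, code_mul, code_mul, e, code_z0, code_perm' hg]
    decide +kernel
  have h2 : y ≠ z0 := fun h => by
    rw [h, code_z0] at e
    revert e; decide +kernel
  refine (lq0.cj k).large_of_conj (g := k * g * k⁻¹) ?_ fun h => h2 ?_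
  · rw [mem_cj, show k⁻¹ * (k * g * k⁻¹ * (k * z0 * k⁻¹) * (k * g * k⁻¹)⁻¹) * k = g * z0 * g⁻¹ by group, h1]
    exact hy
  · rw [← h1]
    have : k * (g * z0 * g⁻¹) * k⁻¹ = k * z0 * k⁻¹ := by rw [← h]; group
    simpa using this


/-- In the Mathieu group of degree 24 (the automorphism group of the length-24 binary Golay code, acting on the 24 coordinates), let z be an involution whose fixed points form an octad (the support of a code word of weight 8), and let Q be the largest normal 2-subgroup of the centralizer C of z. Then Q is extraspecial of order 2^7 with an elementary abelian subgroup of order 16 (plus type), Q is a large extraspecial 2-subgroup, and C is the split extension of Q by the special linear group of degree 3 over the field with two elements. -/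
theorem result (z : ↥Cfsg.M24) (hz : orderOf z = 2) (hfix : (Finset.univ.filter fun p : Cfsg.GolayPt => (z : Equiv.Perm Cfsg.GolayPt) p = p) ∈ Cfsg.octads) (Q : Subgroup ↥Cfsg.M24) (hQ : Q = (Cfsg.pCore 2 ↥(Subgroup.centralizer ({z} : Set ↥Cfsg.M24))).map (Subgroup.centralizer ({z} : Set ↥Cfsg.M24)).subtype) : Cfsg.IsExtraspecial 2 ↥Q ∧ Nat.card ↥Q = 2 ^ 7 ∧ (∃ E : Subgroup ↥Cfsg.M24, E ≤ Q ∧ Cfsg.IsElementaryAbelian 2 E ∧ Nat.card ↥E = 2 ^ 4) ∧ Cfsg.IsLargeExtraspecial Q ∧ ∃ K : Subgroup ↥Cfsg.M24, K ≤ Subgroup.centralizer ({z} : Set ↥Cfsg.M24) ∧ Q ⊓ K = ⊥ ∧ Q ⊔ K = Subgroup.centralizer ({z} : Set ↥Cfsg.M24) ∧ Nonempty (↥K ≃* Matrix.SpecialLinearGroup (Fin 3) (ZMod 2)) := by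
  obtain ⟨k', hk, e⟩ := class_2A z.2 (by rw [Subgroup.orderOf_coe, hz]) (by rw [hfix.2]; norm_num)
  let k : M24 := ⟨k', hk⟩⁻¹
  have hz0 : z = k * z0 * k⁻¹ := by
    have : (⟨k', hk⟩ : M24) * z * ⟨k', hk⟩⁻¹ = z0 := Subtype.ext (e.trans z0_val.symm)
    rw [← this]; simp only [k]; group
  have hQ' : Q = cj k Q0 := by rw [hQ, ← oP_eq, LQ.cj_oP_cent, ← hz0]; rfl
  have hC : Subgroup.centralizer ({z} : Set M24) = cj k 𝐂[z0] := by rw [cj_centralizer_singleton, ← hz0]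
  rw [hQ', hC]
  refine ⟨(large0 k).1, by rw [card_cj, card_Q0], ⟨cj k E0, cj_mono k inf_le_left, ?_, by rw [card_cj, card_E0]⟩,
    large0 k, cj k K0, cj_mono k inf_le_left, by rw [← cj_inf, inf_QK, cj_bot], ?_, ?_⟩
  · have h : ∀ x ∈ cj k E0, x * x = 1 := fun x hx => by
      obtain ⟨y, hy, rfl⟩ := mem_cj'.1 hx
      have := (sq_Q0 hy.1).2.1 hy
      calc k * y * k⁻¹ * (k * y * k⁻¹) = k * (y * y) * k⁻¹ := by group
        _ = 1 := by rw [this]; group
    refine ⟨⟨⟨fun a b => Subtype.ext ?_⟩⟩, fun x hx => by rw [sq, h x hx]⟩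
    have h1 := h _ (mul_mem a.2 b.2)
    show a.1 * b.1 = b.1 * a.1
    rw [← inv_eq_of_mul_eq_one_right h1, mul_inv_rev, inv_eq_of_mul_eq_one_right (h _ a.2),
      inv_eq_of_mul_eq_one_right (h _ b.2)]
  · rw [← cj_sup]
    congr 1
    refine le_antisymm (sup_le Q0_le inf_le_left) fun g hg => ?_
    obtain ⟨q, hq, l, hl, rfl⟩ := decomp hg
    exact Subgroup.mul_mem_sup hq hl
  · obtain ⟨f, -⟩ := iso_K0
    exact ⟨(cjEquiv k K0).symm.trans f⟩

end Cfsg.Agent.S5425
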