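import Cfsg.Statements.S5427
import Cfsg.Agent.Lib.Extra2.Struct

set_option autoImplicit false
open Cfsg

namespace Cfsg.Agent.S5427

open CA CA.Ex2

/-- Let z be an involution of the finite group G whose centralizer C has generalized Fitting subgroup Q, an extraspecial 2-group of width at least 2 (order 2^(2w+1), w ≥ 2). Let K be a subgroup of G such that the subgroup U generated by the K-conjugates of z is abelian and C is generated by the C-conjugates of U. Suppose that either some K-conjugate of z other than z lies in Q, or some element u of U ∩ Q outside the subgroup generated by z has z in the largest normal 2-subgroup of its centralizer. Then G is simple and Q is a large extraspecial 2-subgroup of G. -/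
theorem result {G : Type*} [Group G] [Finite G] (z : G) (hz : orderOf z = 2) (Q : Subgroup G) (hQC : Q ≤ Subgroup.centralizer ({z} : Set G)) (hF : (Cfsg.generalizedFittingSubgroup ↥(Subgroup.centralizer ({z} : Set G))).map (Subgroup.centralizer ({z} : Set G)).subtype = Q) (hQ : Cfsg.IsExtraspecial 2 ↥Q) (w : ℕ) (hw : 2 ≤ w) (hcard : Nat.card ↥Q = 2 ^ (2 * w + 1)) (K U : Subgroup G) (hU : U = Subgroup.closure {x : G | ∃ k ∈ K, x = k * z * k⁻¹}) (hUab : IsMulCommutative ↥U) (hgen : Subgroup.closure {x : G | ∃ c ∈ Subgroup.centralizer ({z} : Set G), ∃ u ∈ U, x = c * u * c⁻¹} = Subgroup.centralizer ({z} : Set G)) (h3 : (∃ k ∈ K, k * z * k⁻¹ ∈ Q ∧ k * z * k⁻¹ ≠ z) ∨ ∃ u ∈ U ⊓ Q, u ∉ Subgroup.zpowers z ∧ (∃ hz' : z ∈ Subgroup.centralizer ({u} : Set G), (⟨z, hz'⟩ : ↥(Subgroup.centralizer ({u} : Set G))) ∈ Cfsg.pCore 2 ↥(Subgroup.centralizer ({u} : Set G)))) : IsSimpleGroup G ∧ Cfsg.IsLargeExtraspecial Q := by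
  rw [← FStar.fstar_def] at hF
  have h := lq_of_fstar hz hF hQ
  have hl : IsLargeExtraspecial Q := by
    rcases h3 with ⟨k, -, h1, h2⟩ | ⟨u, hu, h1, h2⟩
    · exact h.large_of_conj h1 h2
    · refine h.large_of_invol hu.2 h1 ?_ (Core.mem_oP.2 h2)
      have hu1 : u ∈ U := hu.1
      have key : ∀ x ∈ Subgroup.closure {x : G | ∃ k ∈ K, x = k * z * k⁻¹}, x * x = 1 := fun x hx => by
        induction hx using Subgroup.closure_induction with
        | mem x hx => obtain ⟨k, -, rfl⟩ := hx; exact Inv.conj_mul_self h.ez.sq k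
        | one => simp
        | mul a b ha hb iha ihb =>
          calc a * b * (a * b) = a * (b * a) * b := by group
            _ = a * a * (b * b) := by rw [abelian_iff'.1 hUab b (hU ▸ hb) a (hU ▸ ha)]; group
            _ = 1 := by rw [iha, ihb, mul_one]
        | inv a ha iha => rw [Inv.inv_eq_self iha, iha]
      exact key u (hU ▸ hu1)
  refine ⟨h.simple_of_le hl (hF ▸ FStar.fstar_eq_oP Nat.prime_two (hF ▸ h.ez.pg)) ?_, hl⟩
  rw [← hgen, Subgroup.closure_le]
  rintro _ ⟨c, -, u, hu, rfl⟩
  refine (Subgroup.normalClosure_normal (s := {z})).conj_mem _ ?_ c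
  rw [hU] at hu
  refine (Subgroup.closure_le _).2 ?_ hu
  rintro _ ⟨k, -, rfl⟩
  exact (Subgroup.normalClosure_normal (s := {z})).conj_mem _ (Subgroup.subset_normalClosure rfl) k

end Cfsg.Agent.S5427
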