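import Cfsg.Statements.S5428
import Cfsg.Agent.Lib.Extra2.Quot

set_option autoImplicit false
open Cfsg

namespace Cfsg.Agent.S5428

open CA CA.Ex2 Subgroup

/-- Let z be an involution of the finite group G whose centralizer C has generalized Fitting subgroup Q extraspecial (as a 2-group), let A be a subgroup of C of odd order, and let R be the centralizer of A in Q; suppose R has order at least 32, the largest normal subgroup of odd order of the centralizer of the subgroup generated by A and R lies in A, the order of that centralizer is not divisible by 4, and g is an element of G with g z g⁻¹ in R but outside the centre Z of Q. Let M be the subgroup generated by A and the centralizer of A (A is normal in it). Then: the centralizer in M of the subgroup generated by R and A, joined with A, equals the subgroup generated by A and Z; the image of R in M/A is a large extraspecial 2-subgroup of M/A; and g z g⁻¹ is conjugate to z inside the subgroup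 generated by R and the centralizer of A in g Q g⁻¹. -/
theorem result {G : Type*} [Group G] [Finite G] (z : G) (hz : orderOf z = 2) (Q : Subgroup G) (hQC : Q ≤ Subgroup.centralizer ({z} : Set G)) (hF : (Cfsg.generalizedFittingSubgroup ↥(Subgroup.centralizer ({z} : Set G))).map (Subgroup.centralizer ({z} : Set G)).subtype = Q) (hQ : Cfsg.IsExtraspecial 2 ↥Q) (A : Subgroup G) (hA : A ≤ Subgroup.centralizer ({z} : Set G)) (hAodd : Odd (Nat.card ↥A)) (R : Subgroup G) (hR : R = Q ⊓ Subgroup.centralizer (A : Set G)) (hR32 : 32 ≤ Nat.card ↥R) (hO : (Cfsg.oddCore ↥(Subgroup.centralizer ((A ⊔ R : Subgroup G) : Set G))).map (Subgroup.centralizer ((A ⊔ R : Subgroup G) : Set G)).subtype ≤ A) (h4 : ¬ 4 ∣ Nat.card ↥(Subgroup.centralizer ((A ⊔ R : Subgroup G) : Set G))) (g : G) (hgR : g * z * g⁻¹ ∈ R) (hgZ : g * z * g⁻¹ ∉ ((Subgroup.center ↥Q).map Q.subtype)) (M : Subgroup G) (hM : M = Subgroup.centralizer (A : Set G) ⊔ A) [hn : (A.subgroupOf M).Normal]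 : (M ⊓ Subgroup.centralizer ((R ⊔ A : Subgroup G) : Set G)) ⊔ A = A ⊔ ((Subgroup.center ↥Q).map Q.subtype) ∧ Cfsg.IsLargeExtraspecial ((R.subgroupOf M).map (QuotientGroup.mk' (A.subgroupOf M))) ∧ ∃ x ∈ R ⊔ ((Q).map (MulAut.conj g).toMonoidHom ⊓ Subgroup.centralizer (A : Set G)), x * (g * z * g⁻¹) * x⁻¹ = z := by
  have h := lq_of_fstar hz hF hQ
  rw [center_eq_map, h.cen] at hgZ ⊢
  have hxz : g * z * g⁻¹ ≠ z := fun e => hgZ (by rw [e]; exact mem_zpowers z)
  have hRQ : R ≤ Q := hR ▸ inf_le_left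
  have hRA : R ≤ 𝐂(A) := hR ▸ inf_le_right
  have ht := h.tri (hRQ hgR) hxz
  have hzA : z ∈ 𝐂(A) := mem_cent_iff_le_cent1.2 hA
  have hR' : EZ R z := hR ▸ (h.ez.odd_cent_or (hA.trans h.le_norm) hAodd).resolve_left fun e =>
    hgZ (e ▸ hR ▸ hgR)
  have hP' : EZ (cj g Q ⊓ 𝐂(A)) (g * z * g⁻¹) := (ht.r.ez.odd_cent_or
    ((mem_cent_iff_le_cent1.1 (hRA hgR)).trans ht.r.le_norm) hAodd).resolve_left fun e =>
    ht.symm.not_mem (e ▸ mem_inf.2 ⟨ht.mem', hzA⟩)
  obtain ⟨c, hc, e1⟩ := hP'.exists_conj (mem_inf.2 ⟨ht.mem', hzA⟩) ht.symm.not_mem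
  obtain ⟨q, hq, -, e2⟩ := LQ.exists_swap hR' hgR hgZ (hP'.conj_z hc) hP'.sq e1
  have hy : c * q * c⁻¹ ∈ R ⊔ (cj g Q ⊓ 𝐂(A)) :=
    mul_mem (mul_mem (mem_sup_right hc) (mem_sup_left hq)) (inv_mem (mem_sup_right hc))
  have hzD : z ∈ 𝐂(A ⊔ R) := cents_sup (zpowers_le.2 hzA) (zpowers_le.2 hR'.memC) (mem_zpowers z)
  have hD : 𝐂(A ⊔ R) ≤ A ⊔ zpowers z :=
    (le_sup_of_not_four hz hzD h4).trans (sup_le_sup_right hO _)
  have hCM : 𝐂(A) ≤ M := hM ▸ le_sup_left
  have hAM : A ≤ M := hM ▸ le_sup_right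
  have hdec : ∀ m ∈ M, ∃ c ∈ 𝐂(A), ∃ a ∈ A, c * a = m := fun m hm =>
    (mem_sup_of_norm_left (centralizer_le_normalizer _)).1 (hM ▸ hm)
  refine ⟨le_antisymm (sup_le (inf_le_right.trans (sup_comm A R ▸ hD)) le_sup_left)
    (sup_le le_sup_right (zpowers_le.2 (mem_sup_left ⟨hCM hzA, sup_comm A R ▸ hzD⟩))), ?_, _, hy, e2⟩
  let f := QuotientGroup.mk' (A.subgroupOf M)
  have hk : pker f = A := pker_mk' hAM
  have hQA := inf_eq_bot_of_odd h.ez.pg hAodd
  have hcop : ∀ B, B ≤ R → CopAct A B := fun B hB => copAct_right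
    (norms_of_cents (hB.trans hRA)) (coprime_of_odd (hR'.pg.to_le hB) hAodd).symm
    (solvable_of_pgroup Nat.prime_two (hR'.pg.to_le hB))
  have hl : LQ (pmap f R) (pel f z) := by
    refine lq_pmap f (QuotientGroup.mk'_surjective _) h.ez hRQ (hRA.trans hCM) hR'.mem ?_
      hR'.not_abelian (fun m hm hc => ?_) (fun m hm hc => ?_)
    · rw [hk]; exact fun e => h.ez.ne_one (mem_bot.1 (hQA ▸ mem_inf.2 ⟨h.ez.mem, e⟩))
    · rw [hk] at hc ⊢
      obtain ⟨a, ha, d, hd, rfl⟩ := (hcop R le_rfl).exists_cent_mul hc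
      obtain ⟨c, hc', b, hb, rfl⟩ := hdec d (by simpa using mul_mem (inv_mem (hAM ha)) hm)
      have : c ∈ 𝐂(R) := by simpa using mul_mem hd (inv_mem (cents_symm hRA hb))
      exact mul_mem (mem_sup_left ha) (mul_mem (hD (by rw [cent_sup]; exact ⟨hc', this⟩)) (mem_sup_left hb))
    · rw [hk] at hc
      obtain ⟨a, ha, d, hd, rfl⟩ := (hcop _ (zpowers_le.2 hR'.mem)).exists_cent_mul (x := m) (by
        intro a ha
        rcases h.ez.mem_zp.1 ha with rfl | rfl
        · simp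
        · exact hc)
      rw [cent_zpowers] at hd
      obtain ⟨c, hc', b, hb, rfl⟩ := hdec d (by simpa using mul_mem (inv_mem (hAM ha)) hm)
      have : c ∈ 𝐂[z] := by simpa using mul_mem hd (inv_mem (hA hb))
      refine ⟨c, ⟨hCM hc', hR ▸ norms_inf (zpowers_le.2 (h.le_norm this))
        (norms_self_of_le (zpowers_le.2 hc')) (mem_zpowers c)⟩, ?_⟩
      rw [pel_mul f (hAM ha) (mul_mem (hCM hc') (hAM hb)), pel_mul f (hCM hc') (hAM hb),
        (mem_pker.1 (hk.ge ha)).2, (mem_pker.1 (hk.ge hb)).2, one_mul, mul_one]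
  refine large_pmap f hl (hCM hzA) hgR (hCM (sup_le hRA inf_le_right hy)) e2 ?_
  rw [hk]
  intro e
  have := hQA ▸ mem_inf.2 ⟨mul_mem (hRQ hgR) (inv_mem h.ez.mem), e⟩
  exact hxz (mul_inv_eq_one.1 (mem_bot.1 this))

end Cfsg.Agent.S5428
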