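import Cfsg.Statements.S5431
import Cfsg.Agent.Lib.Extra2.Pair

set_option autoImplicit false
open Cfsg

namespace Cfsg.Agent.S5431

open CA CA.Ex2

/-- Let Q be a large extraspecial 2-subgroup of the finite group G (extraspecial; centralizer equal to its centre; normal in the centralizer of its centre; normalizing no non-trivial subgroup of odd order) with centre generated by z, an involution, of width w ≥ 2 (order 2^(2w+1)); let g be an element outside the centralizer H of z with g z g⁻¹ in Q; write V for the subgroup generated by z and g z g⁻¹, X for the subgroup generated by Q and g Q g⁻¹, R for the subgroup generated by the centralizer of z in g Q g⁻¹ and the centralizer of g z g⁻¹ in Q, and E for the intersection of Q and g Q g⁻¹. Then V is the centre of R, E lies in the second centre of R, R is nilpotent of class at most 3, E and R/E are elementary abelian, R/E is the direct product of the images of the centralizer of g z g⁻¹ in Q and of the centralizer of z in g Q g⁻¹ (R is their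 product and they meet in E), and the commutator subgroup of X and E lies in V. -/
theorem result {G : Type*} [Group G] [Finite G] (Q : Subgroup G) (hQ : Cfsg.IsLargeExtraspecial Q) (z : G) (hz : ((Subgroup.center ↥Q).map Q.subtype) = Subgroup.zpowers z) (hz2 : orderOf z = 2) (w : ℕ) (hw : 2 ≤ w) (hcard : Nat.card ↥Q = 2 ^ (2 * w + 1)) (g : G) (hgH : g ∉ Subgroup.centralizer ({z} : Set G)) (hgQ : g * z * g⁻¹ ∈ Q) (V X R E : Subgroup G) (hV : V = Subgroup.closure ({z, g * z * g⁻¹} : Set G)) (hX : X = Q ⊔ (Q).map (MulAut.conj g).toMonoidHom) (hR : R = ((Q).map (MulAut.conj g).toMonoidHom ⊓ Subgroup.centralizer ({z} : Set G)) ⊔ (Q ⊓ Subgroup.centralizer ({g * z * g⁻¹} : Set G))) (hE : E = Q ⊓ (Q).map (MulAut.conj g).toMonoidHom) : (Subgroup.center ↥R).map R.subtype = V ∧ E ≤ (Subgroup.upperCentralSeries ↥R 2).map R.subtype ∧ Subgroup.upperCentralSeries ↥R 3 = ⊤ ∧ Cfsg.IsElementaryAbelian 2 E ∧ (∀ x ∈ R, ∀ y ∈ R, x * y * x⁻¹ * y⁻¹ ∈ E ∧ x ^ 2 ∈ E) ∧ ((Q).map (MulAut.conj g).toMonoidHom ⊓ Subgroup.centralizer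 ({z} : Set G)) ⊓ (Q ⊓ Subgroup.centralizer ({g * z * g⁻¹} : Set G)) = E ∧ ⁅X, E⁆ ≤ V := by
  have h := (lq_of_large hQ hz).tri hgQ fun e => hgH (conj_eq_iff_mem_cent1.1 e)
  rw [closure_pair_eq] at hV
  rw [← cj_def] at hX hE
  rw [← cj_def] at hR ⊢
  have h1 : E ≤ ucn 2 R := by
    rw [le_ucn_two_iff, hR, h.center_R, hE, Subgroup.commutator_comm]
    exact ⟨h.inf_eq_E.ge.trans (inf_le_left.trans le_sup_left),
      (Subgroup.commutator_mono h.R_leX le_rfl).trans h.comm_XE⟩
  have h2 : R ≤ ucn 3 R := le_ucn_succ_iff.2 ⟨le_rfl, le_trans (by rw [hR, hE]; exact h.der_R) h1⟩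
  refine ⟨by rw [center_eq_map, hR, h.center_R, hV], h1, ?_, hE ▸ h.elemAb_E,
    fun x hx y hy => ?_, hE ▸ h.inf_eq_E, by rw [hX, hE, hV]; exact h.comm_XE⟩
  · rw [eq_top_iff]
    intro x _
    obtain ⟨y, hy, e⟩ := h2 x.2
    obtain rfl : y = x := Subtype.ext e
    exact hy
  · subst hR hE
    exact ⟨h.der_R (comm_mem hx hy), h.sq_R hx⟩

end Cfsg.Agent.S5431
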