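import Cfsg.Statements.S5432
import Cfsg.Agent.Lib.Classical.ExtraOut

set_option autoImplicit false
open Cfsg

namespace Cfsg.Agent.S5432

/-- Let E be an extraspecial 2-group of order 2^(2n+1), n ≥ 1. If E contains an elementary abelian subgroup of order 2^(n+1) (plus type), then its outer automorphism group is isomorphic to the full isometry group of the hyperbolic quadratic form in dimension 2n over the field with two elements; otherwise (minus type) it is isomorphic to the full isometry group of the elliptic quadratic form in dimension 2n over that field. -/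
theorem result {E : Type*} [Group E] [Finite E] (hE : Cfsg.IsExtraspecial 2 E) (n : ℕ) (hn : 1 ≤ n) (hcard : Nat.card E = 2 ^ (2 * n + 1)) : ((∃ A : Subgroup E, Cfsg.IsElementaryAbelian 2 A ∧ Nat.card ↥A = 2 ^ (n + 1)) → Nonempty (Cfsg.Out E ≃* Cfsg.isometryGroup (ZMod 2) (Cfsg.quadFormPlus n (ZMod 2)))) ∧ ((¬ ∃ A : Subgroup E, Cfsg.IsElementaryAbelian 2 A ∧ Nat.card ↥A = 2 ^ (n + 1)) → Nonempty (Cfsg.Out E ≃* Cfsg.isometryGroup (ZMod 2) (Cfsg.quadFormMinus (n - 1) (ZMod 2) 1 1))) := by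
  obtain ⟨V, _, _, D, hc⟩ := CA.ExOut.exists_data hE
  have : Finite V := Finite.of_surjective _ D.surj
  have hV : Module.finrank (ZMod 2) V = 2 * n := D.finrank_eq hcard
  constructor
  · rintro ⟨A, hA, hAc⟩
    obtain ⟨W, hW, hWn⟩ := D.exists_singular hA hAc
    obtain ⟨φ, hφ⟩ := (CA.Orth.isom_plus_of_singular n V D.Q (D.nd hc) hV W hW hWn).symm
    exact ⟨(D.outEquiv hc).trans (CA.Orth.isoO _ ((CA.Orth.plusEquiv _ n).trans φ) fun v => by
      rw [LinearEquiv.trans_apply, hφ, CA.Orth.Qm_plusEquiv]).symm⟩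
  · intro hA
    obtain ⟨m, rfl⟩ : ∃ m, n = m + 1 := ⟨n - 1, by omega⟩
    obtain ⟨φ, hφ⟩ := ((CA.Orth.isom_plus_or_minus m V D.Q (D.nd hc) hV).resolve_left
      fun h => hA (D.exists_elemAb h hcard)).symm
    exact ⟨(D.outEquiv hc).trans (CA.Orth.isoO _ ((CA.Orth.minusEquiv _ m).trans φ) fun v => by
      rw [LinearEquiv.trans_apply, hφ, CA.Orth.Qm_minusEquiv]; rfl).symm⟩

end Cfsg.Agent.S5432
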