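import Cfsg.Statements.S5435
import Cfsg.Agent.Lib.Extra2.Thompson

set_option autoImplicit false
open Cfsg

namespace Cfsg.Agent.S5435

open CA CA.Ex2

/-- Let L be a finite non-abelian simple group with an involution z whose centralizer R is a Sylow 2-subgroup of L whose Frattini subgroup is the subgroup generated by z. Then R is dihedral of order 8. -/
theorem result {L : Type*} [Group L] [Finite L] [IsSimpleGroup L] (hL : ¬ IsMulCommutative L) (z : L) (hz : orderOf z = 2) (R : Sylow 2 L) (hR : (R : Subgroup L) = Subgroup.centralizer ({z} : Set L)) (hΦ : (frattini ↥(R : Subgroup L)).map (R : Subgroup L).subtype = Subgroup.zpowers z) : Nonempty (↥(R : Subgroup L) ≃* DihedralGroup 4) := by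
  have h1 := sylowIn_top R
  change phi (R : Subgroup L) = _ at hΦ
  rw [hR] at h1 hΦ ⊢
  exact dihedral_of_phi (commutator_eq_top_of_simple hL) hz h1 hΦ

end Cfsg.Agent.S5435
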