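import Cfsg.Statements.S5436
import Cfsg.Agent.Lib.Extra2.Struct

set_option autoImplicit false
open Cfsg

namespace Cfsg.Agent.S5436

open CA CA.Ex2

/-- Let z be an involution of the finite group G with centralizer H whose generalized Fitting subgroup Q is extraspecial of width at least 2 (order 2^(2w+1), w ≥ 2); suppose some conjugate of z other than z lies in Q, H/Q is a non-abelian simple group, H acts irreducibly by conjugation on Q modulo the subgroup generated by z (the only H-invariant subgroups of Q containing z are that subgroup and Q), and Q is not the subgroup generated by the conjugates of z lying in H. Then G is simple. -/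
theorem result {G : Type*} [Group G] [Finite G] (z : G) (hz : orderOf z = 2) (Q : Subgroup (Subgroup.centralizer ({z} : Set G))) [Q.Normal] (hF : Cfsg.generalizedFittingSubgroup ↥(Subgroup.centralizer ({z} : Set G)) = Q) (hQ : Cfsg.IsExtraspecial 2 ↥Q) (w : ℕ) (hw : 2 ≤ w) (hcard : Nat.card ↥Q = 2 ^ (2 * w + 1)) (hnwc : ∃ g : G, (∃ hq : g * z * g⁻¹ ∈ Subgroup.centralizer ({z} : Set G), (⟨g * z * g⁻¹, hq⟩ : Subgroup.centralizer ({z} : Set G)) ∈ Q) ∧ g * z * g⁻¹ ≠ z) (hsimp : IsSimpleGroup (↥(Subgroup.centralizer ({z} : Set G)) ⧸ Q)) (hna : ¬ IsMulCommutative (↥(Subgroup.centralizer ({z} : Set G)) ⧸ Q)) (hirr : ∀ W : Subgroup (Subgroup.centralizer ({z} : Set G)), W.Normal → W ≤ Q → (W = Q ∨ ∀ x ∈ W, (x : G) ∈ Subgroup.zpowers z)) (hwcl : Subgroup.closure {x : Subgroup.centralizer ({z} : Set G) | IsConj z (x : G)} ≠ Q) : IsSimpleGroup G := by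
  have hF' : FStar.fstar 𝐂[z] = Q.map 𝐂[z].subtype := by rw [FStar.fstar_def, hF]
  have h := lq_of_fstar hz hF' (isExtraspecial_iff.2
    ((isExtraspecial_iff.1 hQ).map (Subgroup.subtype_injective _)))
  obtain ⟨g, ⟨hq, hgQ⟩, hg⟩ := hnwc
  have hl := h.large_of_conj ⟨_, hgQ, rfl⟩ hg
  refine h.simple_of_le hl (hF' ▸ FStar.fstar_eq_oP Nat.prime_two (hF' ▸ h.ez.pg)) ?_
  set W := Subgroup.closure {x : 𝐂[z] | IsConj z (x : G)} with hW
  haveI hWn : W.Normal := Core.closure_normal_of_conj fun k x hx =>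
    IsConj.trans hx (isConj_iff.2 ⟨k, rfl⟩)
  have hQW : Q ≤ W := by
    rcases hirr (W ⊓ Q) inferInstance inf_le_right with e | e
    · exact inf_eq_right.1 e
    · have := e _ ⟨Subgroup.subset_closure (isConj_iff.2 ⟨g, rfl⟩), hgQ⟩
      exact absurd this (not_mem_zp2 h.ez.sq (h.cj g).ez.ne_one hg)
  have hWt : W = ⊤ := by
    rcases hsimp.eq_bot_or_eq_top_of_normal (W.map (QuotientGroup.mk' Q))
      (hWn.map _ (QuotientGroup.mk'_surjective Q)) with e | e
    · rw [Subgroup.map_eq_bot_iff, QuotientGroup.ker_mk'] at e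
      exact absurd (le_antisymm e hQW) hwcl
    · have := congrArg (Subgroup.comap (QuotientGroup.mk' Q)) e
      rwa [Subgroup.comap_map_eq, QuotientGroup.ker_mk', sup_eq_left.2 hQW, Subgroup.comap_top] at this
  intro c hc
  have h1 : W ≤ (Subgroup.normalClosure ({z} : Set G)).subgroupOf 𝐂[z] := by
    rw [hW, Subgroup.closure_le]
    intro x hx
    obtain ⟨k, hk⟩ := isConj_iff.1 hx
    show (x : G) ∈ Subgroup.normalClosure ({z} : Set G)
    rw [← hk]
    exact (Subgroup.normalClosure_normal (s := {z})).conj_mem _ (Subgroup.subset_normalClosure rfl) k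
  exact h1 (hWt ▸ Subgroup.mem_top (⟨c, hc⟩ : 𝐂[z]))

end Cfsg.Agent.S5436
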