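import Cfsg.Statements.S5437
import Cfsg.Agent.Lib.FStar.Invol

set_option autoImplicit false
open Cfsg

namespace Cfsg.Agent.S5437

/-- Let I be a set of involutions of the finite group G closed under conjugation, and H a subgroup of G. The following are equivalent: (1) for every member x of I lying in H, the conjugates of x lying in H form a single H-class and the centralizer of x lies in H; (2) for every g outside H, no member of I lies in both H and g H g⁻¹; (3) every member of I lying in H fixes exactly one coset in the action of G on the cosets of H. -/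
theorem result {G : Type*} [Group G] [Finite G] (I : Set G) (hI : ∀ x ∈ I, orderOf x = 2) (hIc : ∀ g : G, ∀ x ∈ I, g * x * g⁻¹ ∈ I) (H : Subgroup G) : ((∀ x ∈ I, x ∈ H → (∀ g : G, g * x * g⁻¹ ∈ H → ∃ h ∈ H, h * x * h⁻¹ = g * x * g⁻¹) ∧ Subgroup.centralizer ({x} : Set G) ≤ H) ↔ (∀ g : G, g ∉ H → ∀ x ∈ I, ¬ (x ∈ H ∧ x ∈ (H : Subgroup G).map (MulAut.conj g).toMonoidHom))) ∧ ((∀ g : G, g ∉ H → ∀ x ∈ I, ¬ (x ∈ H ∧ x ∈ (H : Subgroup G).map (MulAut.conj g).toMonoidHom)) ↔ ∀ x ∈ I, x ∈ H → ∃! c : G ⧸ H, x • c = c) := by
  have hmem : ∀ g x : G, x ∈ (H : Subgroup G).map (MulAut.conj g).toMonoidHom ↔ g⁻¹ * x * g ∈ H := by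
    intro g x
    constructor
    · rintro ⟨y, hy, rfl⟩
      simpa [mul_assoc] using hy
    · intro h
      exact ⟨_, h, by simp [mul_assoc]⟩
  have hfix : ∀ x g : G, x • (g : G ⧸ H) = g ↔ g⁻¹ * x * g ∈ H := by
    intro x g
    rw [MulAction.Quotient.smul_coe, smul_eq_mul, eq_comm, QuotientGroup.eq, mul_assoc]
  constructor
  · constructor
    · rintro h g hg x hx ⟨hxH, hxg⟩
      rw [hmem] at hxg
      obtain ⟨h1, h2⟩ := h x hx hxH
      obtain ⟨k, hk, hk2⟩ := h1 g⁻¹ (by simpa using hxg)
      have : g * k ∈ Subgroup.centralizer ({x} : Set G) := by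
        rw [Subgroup.mem_centralizer_singleton_iff]
        calc g * k * x = g * (k * x * k⁻¹) * k := by group
          _ = x * (g * k) := by rw [hk2]; group
      apply hg
      have := H.mul_mem (h2 this) (H.inv_mem hk)
      simpa using this
    · intro h x hx hxH
      constructor
      · intro g hg
        by_cases hgH : g ∈ H
        · exact ⟨g, hgH, rfl⟩
        · exact absurd ⟨hg, by rw [hmem]; simpa [mul_assoc] using hxH⟩ (h g hgH _ (hIc g x hx))
      · intro c hc
        by_contra hcH
        rw [Subgroup.mem_centralizer_singleton_iff] at hc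
        refine h c hcH x hx ⟨hxH, ?_⟩
        rw [hmem, mul_assoc, ← hc]
        simpa using hxH
  · constructor
    · intro h x hx hxH
      refine ⟨((1 : G) : G ⧸ H), ?_, ?_⟩
      · show x • ((1 : G) : G ⧸ H) = _
        rw [hfix]; simpa using hxH
      · intro c hc
        induction c using QuotientGroup.induction_on with
        | H g =>
          rw [hfix] at hc
          rw [eq_comm, QuotientGroup.eq, inv_one, one_mul]
          by_contra hg
          exact h g hg x hx ⟨hxH, (hmem g x).2 hc⟩
    · rintro h g hg x hx ⟨hxH, hxg⟩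
      rw [hmem] at hxg
      obtain ⟨c, -, hc⟩ := h x hx hxH
      have h1 := hc ((1 : G) : G ⧸ H) (by
        show x • ((1 : G) : G ⧸ H) = _
        rw [hfix]; simpa using hxH)
      have h2 := hc (g : G ⧸ H) ((hfix x g).2 hxg)
      have h3 := h1.trans h2.symm
      rw [QuotientGroup.eq, inv_one, one_mul] at h3
      exact hg h3

end Cfsg.Agent.S5437
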