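import Cfsg.Statements.S5438
import Cfsg.Agent.Lib.FStar.Core

set_option autoImplicit false
open Cfsg

namespace Cfsg.Agent.S5438

/-- Let z be a 2-central involution of the finite group G (an involution central in some Sylow 2-subgroup) and H a subgroup containing z such that the coset H is the only coset of H fixed by z (in the action of G on the cosets of H). Then H has odd index in G, and for every 2-element x of H the conjugates of x lying in H form a single H-class. -/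
theorem result {G : Type*} [Group G] [Finite G] (z : G) (hz : Cfsg.IsTwoCentralInvolution z) (H : Subgroup G) (hzH : z ∈ H) (hfix : ∀ g : G, g⁻¹ * z * g ∈ H → g ∈ H) : Odd H.index ∧ ∀ x ∈ H, (∃ k : ℕ, orderOf x = 2 ^ k) → ∀ g : G, g * x * g⁻¹ ∈ H → ∃ h ∈ H, h * x * h⁻¹ = g * x * g⁻¹ := by
  have hfx : ∀ x g : G, x • (g : G ⧸ H) = g ↔ g⁻¹ * x * g ∈ H := by
    intro x g
    rw [MulAction.Quotient.smul_coe, smul_eq_mul, eq_comm, QuotientGroup.eq, mul_assoc]
  have hz2 : z * z = 1 := CA.Inv.mul_self_of_orderOf hz.1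
  obtain ⟨-, P, hzP, hP⟩ := hz
  have : Fact (Nat.Prime 2) := ⟨Nat.prime_two⟩
  have hodd : Odd H.index := by
    have h1 := (CA.Core.isPGroup_two_zpowers hz2).card_modEq_card_fixedPoints (G ⧸ H)
    have h2 : Nat.card (MulAction.fixedPoints (Subgroup.zpowers z) (G ⧸ H)) = 1 := by
      rw [Nat.card_eq_one_iff_unique]
      refine ⟨⟨?_⟩, ⟨⟨((1 : G) : G ⧸ H), ?_⟩⟩⟩
      · have key : ∀ c : MulAction.fixedPoints (Subgroup.zpowers z) (G ⧸ H), c.1 = ((1 : G) : G ⧸ H) := by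
          rintro ⟨c, hc⟩
          induction c using QuotientGroup.induction_on with
          | H g =>
            have := hc ⟨z, Subgroup.mem_zpowers z⟩
            have := hfix g ((hfx z g).1 this)
            show (g : G ⧸ H) = _
            rw [eq_comm, QuotientGroup.eq]; simpa using this
        intro a b
        exact Subtype.ext ((key a).trans (key b).symm)
      · rintro ⟨x, hx⟩
        show x • ((1 : G) : G ⧸ H) = _
        rw [hfx]; simpa using (Subgroup.zpowers_le.2 hzH) hx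
    rw [h2] at h1
    rw [Nat.odd_iff]
    exact h1
  refine ⟨hodd, ?_⟩
  have hPH : (P : Subgroup G) ≤ H := by
    intro c hc
    apply hfix
    rw [mul_assoc, ← hP c hc]; simpa using hzH
  -- every 2-element of `H` centralizes an `H`-conjugate of `z`
  have key : ∀ x ∈ H, (∃ k : ℕ, x ^ 2 ^ k = 1) → ∃ h ∈ H, x * (h * z * h⁻¹) = (h * z * h⁻¹) * x := by
    rintro x hx ⟨k, hk⟩
    obtain ⟨h, hh, hle⟩ := CA.Core.exists_cj_le_of_max (K := H) P.isPGroup' hPH
      (fun R hR h _ => P.is_maximal' hR h) (CA.Core.isPGroup_zpowers hk) (Subgroup.zpowers_le.2 hx)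
    have := hP _ (hle (CA.conj_mem_cj.2 (Subgroup.mem_zpowers x)))
    refine ⟨h⁻¹, H.inv_mem hh, ?_⟩
    calc x * (h⁻¹ * z * h⁻¹⁻¹) = h⁻¹ * (h * x * h⁻¹ * z) * h := by group
      _ = _ := by rw [this]; group
  rintro x hx ⟨k, hk⟩ g hg
  have hk' : x ^ 2 ^ k = 1 := hk ▸ pow_orderOf_eq_one x
  obtain ⟨h₁, hh₁, e₁⟩ := key x hx ⟨k, hk'⟩
  obtain ⟨h₂, hh₂, e₂⟩ := key _ hg ⟨k, by rw [conj_pow, hk']; simp⟩
  -- two conjugates of `z` in `C(x)`
  set z₁ := h₁ * z * h₁⁻¹ with hz₁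
  set z₂ := (g⁻¹ * h₂) * z * (g⁻¹ * h₂)⁻¹ with hz₂
  have c₁ : z₁ ∈ Subgroup.centralizer ({x} : Set G) := CA.mem_cent1_iff.2 e₁.symm
  have c₂ : z₂ ∈ Subgroup.centralizer ({x} : Set G) := by
    rw [CA.mem_cent1_iff, hz₂]
    calc (g⁻¹ * h₂) * z * (g⁻¹ * h₂)⁻¹ * x = g⁻¹ * (h₂ * z * h₂⁻¹ * (g * x * g⁻¹)) * g := by group
      _ = _ := by rw [← e₂]; group
  obtain ⟨c, hc, hS⟩ := CA.Core.exists_cj_sup_isPGroup (p := 2)
    (CA.Core.isPGroup_two_zpowers (CA.Inv.conj_mul_self hz2 h₁))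
    (CA.Core.isPGroup_two_zpowers (CA.Inv.conj_mul_self hz2 (g⁻¹ * h₂)))
    (Subgroup.zpowers_le.2 c₁) (Subgroup.zpowers_le.2 c₂)
  obtain ⟨w, hw⟩ := hS.nonempty_fixed_point_of_prime_not_dvd_card (G ⧸ H)
    (fun h => (Nat.not_even_iff_odd.2 hodd) (even_iff_two_dvd.2 h))
  induction w using QuotientGroup.induction_on with
  | H w =>
    have f₁ := (hfx _ w).1 (hw ⟨z₁, Subgroup.mem_sup_left (Subgroup.mem_zpowers _)⟩)
    have f₂ := (hfx _ w).1 (hw ⟨c * z₂ * c⁻¹, Subgroup.mem_sup_right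
      (CA.conj_mem_cj.2 (Subgroup.mem_zpowers _))⟩)
    have g₁ : h₁⁻¹ * w ∈ H := hfix _ (by simpa [hz₁, mul_assoc] using f₁)
    have g₂ : (c * (g⁻¹ * h₂))⁻¹ * w ∈ H := hfix _ (by simpa [hz₂, mul_assoc] using f₂)
    have g₃ : w ∈ H := by simpa using H.mul_mem hh₁ g₁
    have g₄ : g * c⁻¹ ∈ H := by
      have := H.mul_mem hh₂ (H.mul_mem g₂ (H.inv_mem g₃))
      simpa [mul_assoc] using this
    refine ⟨_, g₄, ?_⟩
    rw [CA.mem_cent1_iff] at hc
    calc g * c⁻¹ * x * (g * c⁻¹)⁻¹ = g * c⁻¹ * (x * c) * g⁻¹ := by group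
      _ = _ := by rw [← hc]; group

end Cfsg.Agent.S5438
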