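import Cfsg.Statements.S5439
import Cfsg.Agent.Lib.FStar.Invol

set_option autoImplicit false
open Cfsg

namespace Cfsg.Agent.S5439

/-- Let I and J be two different conjugacy classes of involutions of the finite group G and H a subgroup such that every member of I ∪ J fixes exactly one coset in the action on the cosets of H, and such that for every a in I ∩ H and every b in (I ∪ J) ∩ H different from a and commuting with it, the centralizer of a b lies in H. Then H = G. -/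
theorem result {G : Type*} [Group G] [Finite G] (I J : Set G) (a₀ b₀ : G) (ha₀ : orderOf a₀ = 2) (hb₀ : orderOf b₀ = 2) (hI : I = {x | IsConj a₀ x}) (hJ : J = {x | IsConj b₀ x}) (hIJ : I ≠ J) (H : Subgroup G) (hfix : ∀ x ∈ I ∪ J, ∃! c : G ⧸ H, x • c = c) (hcent : ∀ a ∈ I, a ∈ H → ∀ b ∈ I ∪ J, b ∈ H → a ≠ b → a * b = b * a → Subgroup.centralizer ({a * b} : Set G) ≤ H) : H = ⊤ := by
  have hfx : ∀ x g : G, x • (g : G ⧸ H) = g ↔ g⁻¹ * x * g ∈ H := by
    intro x g
    rw [MulAction.Quotient.smul_coe, smul_eq_mul, eq_comm, QuotientGroup.eq, mul_assoc]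
  have hIc : ∀ g : G, ∀ x ∈ I, g * x * g⁻¹ ∈ I := by
    intro g x hx; rw [hI] at hx ⊢; exact IsConj.trans hx (isConj_iff.2 ⟨g, rfl⟩)
  have hJc : ∀ g : G, ∀ x ∈ J, g * x * g⁻¹ ∈ J := by
    intro g x hx; rw [hJ] at hx ⊢; exact IsConj.trans hx (isConj_iff.2 ⟨g, rfl⟩)
  have hI2 : ∀ x ∈ I, x * x = 1 := by
    intro x hx; rw [hI] at hx
    obtain ⟨c, rfl⟩ := isConj_iff.1 hx
    exact CA.Inv.conj_mul_self (CA.Inv.mul_self_of_orderOf ha₀) c
  have hJ2 : ∀ x ∈ J, x * x = 1 := by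
    intro x hx; rw [hJ] at hx
    obtain ⟨c, rfl⟩ := isConj_iff.1 hx
    exact CA.Inv.conj_mul_self (CA.Inv.mul_self_of_orderOf hb₀) c
  have ha₀I : a₀ ∈ I := by rw [hI]; exact IsConj.refl _
  have hb₀J : b₀ ∈ J := by rw [hJ]; exact IsConj.refl _
  -- a member of `I` in `H`
  obtain ⟨a, haI, haH⟩ : ∃ a ∈ I, a ∈ H := by
    obtain ⟨c, hc, -⟩ := hfix a₀ (Or.inl ha₀I)
    induction c using QuotientGroup.induction_on with
    | H g =>
      refine ⟨g⁻¹ * a₀ * g, ?_, (hfx _ _).1 hc⟩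
      simpa using hIc g⁻¹ a₀ ha₀I
  have hJH : ∀ b ∈ J, b ∈ H := by
    intro b hb
    have ho : ¬ Odd (orderOf (a * b)) := by
      intro ho
      obtain ⟨k, hk⟩ := CA.Inv.conj_of_odd (hI2 a haI) (hJ2 b hb) ho
      apply hIJ
      have h1 : IsConj a₀ b₀ := by
        have e1 : IsConj a₀ a := by rw [hI] at haI; exact haI
        have e2 : IsConj b₀ b := by rw [hJ] at hb; exact hb
        exact (e1.trans (isConj_iff.2 ⟨_, hk⟩)).trans e2.symm
      rw [hI, hJ]
      ext x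
      exact ⟨fun h => h1.symm.trans h, fun h => h1.trans h⟩
    obtain ⟨z, -, hz2, hz1, haz, hbz, h3, -⟩ :=
      CA.Inv.exists_central_of_even (hI2 a haI) (hJ2 b hb) ho
    have hza : z * a ∈ I ∪ J := by
      rcases h3 with ⟨k, hk⟩ | ⟨k, hk⟩
      · exact Or.inl (hk ▸ hIc _ _ haI)
      · exact Or.inr (hk ▸ hJc _ _ hb)
    have hzH : z ∈ H := by
      obtain ⟨c, -, hc⟩ := hfix a (Or.inl haI)
      have h1 := hc ((1 : G) : G ⧸ H) (by
        show a • ((1 : G) : G ⧸ H) = _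
        rw [hfx]; simpa using haH)
      have h2 := hc (z : G ⧸ H) ((hfx a z).2 (by rw [mul_assoc, haz.eq]; simpa using haH))
      have h3 := h1.trans h2.symm
      rwa [QuotientGroup.eq, inv_one, one_mul] at h3
    have := hcent a haI haH (z * a) hza (H.mul_mem hzH haH) (fun h => hz1 (by simpa using h.symm))
      (haz.mul_right (Commute.refl a))
    apply this
    rw [Subgroup.mem_centralizer_singleton_iff, ← haz.eq, CA.Inv.mul_mul_cancel (hI2 a haI)]
    exact hbz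
  rw [eq_top_iff]
  intro g _
  obtain ⟨c, -, hc⟩ := hfix b₀ (Or.inr hb₀J)
  have h1 := hc ((1 : G) : G ⧸ H) (by
    show b₀ • ((1 : G) : G ⧸ H) = _
    rw [hfx]; simpa using hJH _ hb₀J)
  have h2 := hc (g : G ⧸ H) ((hfx b₀ g).2 (hJH _ (by simpa using hJc g⁻¹ b₀ hb₀J)))
  have h3 := h1.trans h2.symm
  rwa [QuotientGroup.eq, inv_one, one_mul] at h3

end Cfsg.Agent.S5439
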