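import Cfsg.Statements.S5440
import Cfsg.Agent.Lib.F24.Loc
-- import your own Cfsg.Agent.* helpers here

set_option autoImplicit false
open Cfsg

namespace Cfsg.Agent.S5440

open CA CA.F24 CA.Ex2 CA.Fi Subgroup Equiv in
/-- Let G be a finite group of large Fischer type at the involution z: the generalized Fitting subgroup Q of H = C_G(z) is extraspecial of order 2^13, H has normal subgroups Q ≤ H₁ ≤ H₂ with H₁/Q of order 3, H₂/H₁ the projective special unitary group of dimension 4 over the field with nine elements and H₂ of index 2 in H, and some conjugate of z other than z lies in Q. Then H has exactly two orbits, under conjugation, on the involutions of Q other than z. -/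
theorem result {G : Type*} [Group G] [Finite G] (z : G) (Q : Subgroup (Subgroup.centralizer ({z} : Set G))) [Q.Normal] (hF : Cfsg.IsOfLargeFischerTypeAt z Q) : ∃ s t : Subgroup.centralizer ({z} : Set G), s ∈ Q ∧ t ∈ Q ∧ orderOf s = 2 ∧ orderOf t = 2 ∧ (s : G) ≠ z ∧ (t : G) ≠ z ∧ (¬ ∃ h : Subgroup.centralizer ({z} : Set G), h * s * h⁻¹ = t) ∧ ∀ x : Subgroup.centralizer ({z} : Set G), x ∈ Q → orderOf x = 2 → (x : G) ≠ z → (∃ h : Subgroup.centralizer ({z} : Set G), h * s * h⁻¹ = x) ∨ ∃ h : Subgroup.centralizer ({z} : Set G), h * t * h⁻¹ = x := by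
  obtain ⟨π, c, h⟩ := ft_of hF
  obtain ⟨_, ⟨s, hs, rfl⟩, e1⟩ := h.sur s0
  obtain ⟨_, ⟨t, ht, rfl⟩, e2⟩ := h.sur r0
  have m : ∀ {x}, x ∈ Q → x.1 ∈ Q.map (𝐂[z]).subtype := fun hx => ⟨_, hx, rfl⟩
  have o : ∀ x ∈ Q, Iso (c x.1) → orderOf x = 2 ∧ x.1 ≠ z := fun x hx e =>
    ⟨orderOf_eq_prime (Subtype.ext ((pow_two x.1).trans ((h.sq (m hx)).2 e.1)))
      fun f => e.2 (by rw [f]; exact h.c_one), fun f => e.2 (by rw [f]; exact h.c_z)⟩
  have o1 := o s hs (e1 ▸ iso_s0)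
  have o2 := o t ht (e2 ▸ rt_r0.iso)
  refine ⟨s, t, hs, ht, o1.1, o2.1, o1.2, o2.2, ?_, fun x hx h2 hz => ?_⟩
  · rintro ⟨y, rfl⟩
    refine h.not_conj_r0 (m ht) e2 ((h.conj_of_S (m hs) (e1 ▸ ⟨iso_s0, not_rt_s0⟩)).trans ?_)
    exact isConj_iff.2 ⟨y, rfl⟩
  · have i : Iso (c x.1) := h.iso_of (m hx) (by
        have := pow_orderOf_eq_one x
        rw [h2, pow_two] at this
        exact congrArg Subtype.val this) fun f => (h.ez.mem_zp.1 f).elim
          (fun f => by rw [show x = 1 from Subtype.ext f] at h2; simp at h2) hz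
    by_cases e : Rt (c x.1)
    · obtain ⟨y, hy, -, f⟩ := h.conj_R (m ht) (m hx) (e2 ▸ rt_r0) e
      exact Or.inr ⟨⟨y, hy⟩, Subtype.ext f⟩
    · obtain ⟨y, hy, -, f⟩ := h.conj_S (m hs) (m hx) (e1 ▸ ⟨iso_s0, not_rt_s0⟩) ⟨i, e⟩
      exact Or.inl ⟨⟨y, hy⟩, Subtype.ext f⟩

end Cfsg.Agent.S5440
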