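import Cfsg.Statements.S5442
import Cfsg.Agent.Lib.F24.Loc
import Cfsg.Agent.Lib.Extra2.Sing
-- import your own Cfsg.Agent.* helpers here

set_option autoImplicit false
open Cfsg

namespace Cfsg.Agent.S5442

open CA CA.F24 CA.Ex2 CA.Fi Subgroup Equiv in
/-- Let G be a finite group of large Fischer type at the involution z: the generalized Fitting subgroup Q of H = C_G(z) is extraspecial of order 2^13, H has normal subgroups Q ≤ H₁ ≤ H₂ with H₁/Q of order 3, H₂/H₁ the projective special unitary group of dimension 4 over the field with nine elements and H₂ of index 2 in H, and some conjugate of z other than z lies in Q. Let s = g z g⁻¹ be a conjugate of z lying in Q and different from z. Then the intersection of Q and g Q g⁻¹ (as subgroups of G) is elementary abelian of order 2^7; and in H/Q, writing X for the image of the centralizer of s in H and E for the image of the intersection of g Q g⁻¹ with H, E is a normal subgroup of X, elementary abelian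 of order 32, with X/E isomorphic to the alternating group of degree 6. -/
theorem result {G : Type*} [Group G] [Finite G] (z : G) (Q : Subgroup (Subgroup.centralizer ({z} : Set G))) [Q.Normal] (hF : Cfsg.IsOfLargeFischerTypeAt z Q) (s : G) (hsQ : ∃ hsc : s ∈ Subgroup.centralizer ({z} : Set G), (⟨s, hsc⟩ : Subgroup.centralizer ({z} : Set G)) ∈ Q) (hs : IsConj z s) (hs1 : s ≠ z) (g : G) (hg : g * z * g⁻¹ = s) (X E : Subgroup ((Subgroup.centralizer ({z} : Set G)) ⧸ Q)) (hX : X = ((Subgroup.centralizer ({z} : Set G) ⊓ Subgroup.centralizer ({s} : Set G)).subgroupOf (Subgroup.centralizer ({z} : Set G))).map (QuotientGroup.mk' Q)) (hE : E = ((((Q.map (Subgroup.centralizer ({z} : Set G)).subtype)).map (MulAut.conj g).toMonoidHom ⊓ Subgroup.centralizer ({z} : Set G)).subgroupOf (Subgroup.centralizer ({z} : Set G))).map (QuotientGroup.mk' Q)) : Cfsg.IsElementaryAbelian 2 ((Q.map (Subgroup.centralizer ({z} : Set G)).subtype) ⊓ ((Q.map (Subgroup.centralizer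 ({z} : Set G)).subtype)).map (MulAut.conj g).toMonoidHom) ∧ Nat.card ↥((Q.map (Subgroup.centralizer ({z} : Set G)).subtype) ⊓ ((Q.map (Subgroup.centralizer ({z} : Set G)).subtype)).map (MulAut.conj g).toMonoidHom) = 2 ^ 7 ∧ E ≤ X ∧ (∀ x ∈ X, ∀ y ∈ E, x * y * x⁻¹ ∈ E) ∧ Cfsg.IsElementaryAbelian 2 E ∧ Nat.card E = 32 ∧ ∃ _ : (E.subgroupOf X).Normal, Nonempty (↥X ⧸ E.subgroupOf X ≃* alternatingGroup (Fin 6)) := by
  obtain ⟨π, c, h⟩ := ft_of hF
  subst hg
  obtain ⟨k, hk, e⟩ := h.exists_s0 (mem_map_sub.2 hsQ) hs hs1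
  replace h := h.twist hk
  obtain ⟨h0, h1, h2⟩ := h.main_s0 (mem_map_sub.2 hsQ) e
  have h3 := h.pmap_cent (mem_map_sub.2 hsQ) (e ▸ iso_s0.2)
  obtain ⟨ε, hi, key⟩ := h.exists_eps
  have hX' : X.map ε = Hs ⊓ St s0 := by rw [hX, key, ← h0, ← e]; exact h3
  have hE' : E.map ε = E5 := by rw [hE, key]; exact h1
  have mX : ∀ x, x ∈ X ↔ ε x ∈ Hs ⊓ St s0 := fun x => by rw [← hX']; exact (mem_map_iff_mem hi).symm
  have mE : ∀ x, x ∈ E ↔ ε x ∈ E5 := fun x => by rw [← hE']; exact (mem_map_iff_mem hi).symm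
  let θ : X →* Perm (Fin 6) := phS.comp ((ε.comp X.subtype).codRestrict _ fun x => stabH_le ((mX x).1 x.2))
  have θ1 : ∀ x, θ x = pel phS (ε x) := fun x => (pel_of_mem phS (stabH_le ((mX x).1 x.2))).symm
  have θ2 : E.subgroupOf X = θ.ker := by
    ext x
    rw [mem_subgroupOf, mE, MonoidHom.mem_ker, θ1]
    exact ⟨fun h => (mem_pker.1 h.1).2, fun h => ⟨mem_pker.2 ⟨stabH_le ((mX x).1 x.2), h⟩, (mX x).1 x.2⟩⟩
  have θ3 : θ.range = alternatingGroup (Fin 6) := by
    rw [← phS_Hs, ← hX']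
    ext s
    rw [mem_pmap_of_le (hX' ▸ stabH_le)]
    exact ⟨by rintro ⟨x, rfl⟩; exact ⟨_, ⟨x, x.2, rfl⟩, (θ1 x).symm⟩,
      by rintro ⟨_, ⟨x, hx, rfl⟩, rfl⟩; exact ⟨⟨x, hx⟩, θ1 _⟩⟩
  have hn : (E.subgroupOf X).Normal := θ2 ▸ inferInstance
  have le : E ≤ X := fun x hx => (mX x).2 ((mE x).1 hx).2
  refine ⟨(h.tri_s0 (mem_map_sub.2 hsQ) e).elemAb_E, h2, le, fun x hx y hy => hn.conj_mem ⟨y, le hy⟩ hy ⟨x, hx⟩,
    ⟨abelian_of_sq fun a ha => hi ?_, fun a ha => hi ?_⟩, ?_, hn,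
    ⟨((QuotientGroup.quotientMulEquivOfEq θ2).trans (QuotientGroup.quotientKerEquivRange θ)).trans
      (MulEquiv.subgroupCongr θ3)⟩⟩
  · rw [map_mul, map_one]; exact E5_sq ((mE a).1 ha)
  · rw [pow_two, map_mul, map_one]; exact E5_sq ((mE a).1 ha)
  · rw [← card_map_of_injective' hi, hE', card_E5]

end Cfsg.Agent.S5442
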