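import Cfsg.Statements.S5443
import Cfsg.Agent.Lib.F24.O6
-- import your own Cfsg.Agent.* helpers here

set_option autoImplicit false
open Cfsg

namespace Cfsg.Agent.S5443

open CA CA.F24 CA.Ex2 CA.Fi Subgroup Equiv in
/-- Let G be a finite group of large Fischer type at the involution z: the generalized Fitting subgroup Q of H = C_G(z) is extraspecial of order 2^13, H has normal subgroups Q ≤ H₁ ≤ H₂ with H₁/Q of order 3, H₂/H₁ the projective special unitary group of dimension 4 over the field with nine elements and H₂ of index 2 in H, and some conjugate of z other than z lies in Q. Let t be an involution of Q not conjugate to z in G, and S the set of elements of H conjugating t to t or to t z (the stabilizer of the image of t in Q modulo its centre). Then the image of S in H/Q is isomorphic to the full isometry group of the elliptic quadratic form in dimension 6 over the field with two elements. -/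
theorem result {G : Type*} [Group G] [Finite G] (z : G) (Q : Subgroup (Subgroup.centralizer ({z} : Set G))) [Q.Normal] (hF : Cfsg.IsOfLargeFischerTypeAt z Q) (t : Subgroup.centralizer ({z} : Set G)) (htQ : t ∈ Q) (ht2 : orderOf t = 2) (ht : ¬ IsConj z (t : G)) (S : Subgroup (Subgroup.centralizer ({z} : Set G))) (hS : ∀ h : Subgroup.centralizer ({z} : Set G), h ∈ S ↔ (h * t * h⁻¹ = t ∨ ((h * t * h⁻¹ : Subgroup.centralizer ({z} : Set G)) : G) = t * z)) : Nonempty (↥(S.map (QuotientGroup.mk' Q)) ≃* Cfsg.isometryGroup (ZMod 2) (Cfsg.quadFormMinus 2 (ZMod 2) 1 1)) := by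
  obtain ⟨π, c, h⟩ := ft_of hF
  have m : ∀ {x}, x ∈ Q → x.1 ∈ Q.map (𝐂[z]).subtype := fun hx => ⟨_, hx, rfl⟩
  obtain ⟨k, hk, e⟩ := orb_R (h.R_of_not_conj (m htQ) (by
    have := pow_orderOf_eq_one t
    rw [ht2, pow_two] at this
    exact congrArg Subtype.val this) (fun f => by rw [show t = 1 from Subtype.ext f] at ht2; simp at ht2) ht)
  replace h := h.twist hk
  obtain ⟨ε, hi, key⟩ := h.exists_eps
  have : (S.map (QuotientGroup.mk' Q)).map ε = Hs ⊓ St r0 := by
    rw [key, ← h.range_eq]
    have a : ∀ y, y ∈ S ↔ (MulAut.conj k).toMonoidHom.comp π y ∈ St r0 := fun y => by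
      rw [hS, mem_St, ← e, ← pel_coe, ← h.equi y.2 (m htQ), eq_comm (b := k _), h.c_eq_iff (m htQ) (h.conj_mem y.2 (m htQ)),
        Subtype.ext_iff]
      rfl
    ext g
    exact ⟨by rintro ⟨y, hy, rfl⟩; exact ⟨⟨y, rfl⟩, (a y).1 hy⟩, by rintro ⟨⟨y, rfl⟩, hy⟩; exact ⟨y, (a y).2 hy, rfl⟩⟩
  obtain ⟨e'⟩ := stab_r0_iso
  exact ⟨((Subgroup.equivMapOfInjective _ ε hi).trans (MulEquiv.subgroupCongr this)).trans e'⟩

end Cfsg.Agent.S5443
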