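import Cfsg.Statements.S5444
import Cfsg.Agent.Lib.F24.AA
-- import your own Cfsg.Agent.* helpers here

set_option autoImplicit false
open Cfsg

namespace Cfsg.Agent.S5444

open CA CA.F24 CA.Ex2 CA.Fi Subgroup Equiv in
/-- Let G be a finite group of large Fischer type at the involution z: the generalized Fitting subgroup Q of H = C_G(z) is extraspecial of order 2^13, H has normal subgroups Q ≤ H₁ ≤ H₂ with H₁/Q of order 3, H₂/H₁ the projective special unitary group of dimension 4 over the field with nine elements and H₂ of index 2 in H, and some conjugate of z other than z lies in Q. Let T be a Sylow 2-subgroup of H. Then T has exactly one elementary abelian subgroup A of largest order; A has order 2^11, it meets Q in a subgroup of order 2^7, and its image in H/Q has order 16. -/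
theorem result {G : Type*} [Group G] [Finite G] (z : G) (Q : Subgroup (Subgroup.centralizer ({z} : Set G))) [Q.Normal] (hF : Cfsg.IsOfLargeFischerTypeAt z Q) (T : Sylow 2 ↥(Subgroup.centralizer ({z} : Set G))) : ∃ A : Subgroup ↥(T : Subgroup (Subgroup.centralizer ({z} : Set G))), Cfsg.maxElementaryAbelianSubgroups 2 ↥(T : Subgroup (Subgroup.centralizer ({z} : Set G))) = {A} ∧ Nat.card A = 2 ^ 11 ∧ Nat.card ↥(A.map (T : Subgroup (Subgroup.centralizer ({z} : Set G))).subtype ⊓ Q) = 2 ^ 7 ∧ Nat.card ↥((A.map (T : Subgroup (Subgroup.centralizer ({z} : Set G))).subtype).map (QuotientGroup.mk' Q)) = 16 := by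
  obtain ⟨π, c, h⟩ := ft_of hF
  obtain ⟨ε, hi, key⟩ := h.exists_eps
  have h1 := sylowIn_map T
  obtain ⟨g, hg, e⟩ := h1.exists_cj_le ((pg_of_sq fun _ => h.AA_sq).piGrp Nat.prime_two) h.AA_le
  let ι := (𝐂[z]).subtype.comp (T : Subgroup ↥𝐂[z]).subtype
  have hι : Function.Injective ι := (subtype_injective _).comp (subtype_injective _)
  have r : ι.range = (T : Subgroup ↥𝐂[z]).map (𝐂[z]).subtype := by rw [MonoidHom.range_comp, range_subtype]
  obtain ⟨A, hA⟩ : ∃ A, Subgroup.map ι A = cj g (AA _ c) := ⟨_, map_comap_eq_self (r ▸ e)⟩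
  have cA : Nat.card A = 2 ^ 11 := by rw [← card_map_of_injective' hι, hA, card_cj, h.card_AA]
  have sq : ∀ a ∈ A, a * a = 1 := fun a ha => hι (by rw [map_mul, map_one]; exact h.cj_sq (hA ▸ mem_map_of_mem ι ha))
  have u : ∀ B, IsElementaryAbelian 2 B → 2 ^ 11 ≤ Nat.card B → B = A := fun B h2 h3 => map_injective hι
    (hA ▸ h.eq_of_pg (h1.isPGroup Nat.prime_two) (r ▸ map_le_range _ _)
      (by rintro _ ⟨b, hb, rfl⟩; rw [← map_mul, ← pow_two, h2.2 b hb, map_one]) (by rwa [card_map_of_injective' hι])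
      e (fun _ => h.cj_sq) (by rw [card_cj, h.card_AA]))
  have hA' : A.map (T : Subgroup ↥𝐂[z]).subtype = (cj g (AA (Q.map (𝐂[z]).subtype) c)).subgroupOf 𝐂[z] := by
    rw [← hA, ← map_map]; exact (comap_map_eq_self_of_injective (subtype_injective _) _).symm
  refine ⟨A, Set.ext fun B => ⟨fun hB => u B hB.1 (cA ▸ hB.2 A ⟨abelian_of_sq sq, fun a ha => by rw [pow_two, sq a ha]⟩),
    ?_⟩, cA, ?_, ?_⟩
  · rintro rfl
    exact ⟨⟨abelian_of_sq sq, fun a ha => by rw [pow_two, sq a ha]⟩, fun C hC =>
      (le_total _ _).elim id fun f => (u C hC (cA ▸ f)) ▸ le_rfl⟩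
  · rw [← card_map_subtype, map_inf _ _ _ (subtype_injective _), map_map, hA,
      ← cj_eq_of_mem_normalizer (h.lq.le_norm hg), ← cj_inf, card_cj, cj_eq_of_mem_normalizer (h.lq.le_norm hg),
      inf_comm, h.card_QA]
  · rw [← card_map_of_injective' hi, key, hA']
    change Nat.card (pmap π _) = _
    rw [pmap_cj _ hg, card_cj, h.pmap_AA, card_AU]

end Cfsg.Agent.S5444
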