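import Cfsg.Statements.S5448
import Cfsg.Agent.Lib.F24.JT
-- import your own Cfsg.Agent.* helpers here

set_option autoImplicit false
open scoped Pointwise
open Cfsg

namespace Cfsg.Agent.S5448

open CA CA.F24 CA.Ex2 CA.Fi Subgroup Equiv in
/-- Let G be a finite group of large Fischer type at the involution z: the generalized Fitting subgroup Q of H = C_G(z) is extraspecial of order 2^13, H has normal subgroups Q ≤ H₁ ≤ H₂ with H₁/Q of order 3, H₂/H₁ the projective special unitary group of dimension 4 over the field with nine elements and H₂ of index 2 in H, and some conjugate of z other than z lies in Q. Let T be a Sylow 2-subgroup of G, A its Thompson subgroup, M = N_G(A) its normalizer, and t an involution of A not conjugate to z in G. Then the centralizer of t in M, modulo A, is isomorphic to the setwise stabilizer of a two-element subset of the 24 points in the Mathieu group of degree 24 (the automorphism group of the smaller Mathieu group on 22 points). -/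
theorem result {G : Type*} [Group G] [Finite G] (z : G) (Q : Subgroup (Subgroup.centralizer ({z} : Set G))) [Q.Normal] (hF : Cfsg.IsOfLargeFischerTypeAt z Q) (T : Sylow 2 G) (A M : Subgroup G) (hA : A = Cfsg.thompsonSubgroupOf 2 (T : Subgroup G)) (hM : M = Subgroup.normalizer (A : Set G)) (t : G) (htA : t ∈ A) (ht2 : orderOf t = 2) (ht : ¬ IsConj z t) : ∃ _ : (A.subgroupOf (M ⊓ Subgroup.centralizer ({t} : Set G))).Normal, Nonempty (↥(M ⊓ Subgroup.centralizer ({t} : Set G)) ⧸ A.subgroupOf (M ⊓ Subgroup.centralizer ({t} : Set G)) ≃* ↥(Cfsg.M24 ⊓ MulAction.stabilizer (Equiv.Perm Cfsg.GolayPt) ({none, some 0} : Set Cfsg.GolayPt))) := by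
  obtain ⟨ν, h⟩ := big_J hF T
  rw [← hA] at h
  subst hM
  obtain ⟨μ, h1, h2, h3⟩ := h.exists_mu
  obtain ⟨s, hs, rfl⟩ := h.rep_D htA (fun e => by simp [e] at ht2) ht
  obtain ⟨k, ⟨e⟩⟩ := quot_pmap μ (inf_le_left (b := 𝐂[ν s])) h2
  obtain ⟨g, hg, f⟩ := Gol.exists_smul_eq (s := s) (t := {none, some 0}) (by omega) (by rw [hs]; decide)
  rw [h.pmap_cent h1 h3 hs] at e
  refine ⟨k, ⟨e.trans ((cjEquiv g _).trans (MulEquiv.subgroupCongr ?_))⟩⟩
  rw [cj_stab g hg, ← Finset.coe_smul_finset, f]
  simp

end Cfsg.Agent.S5448
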