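import Cfsg.Statements.S5449
import Cfsg.Agent.Lib.F24.U6
-- import your own Cfsg.Agent.* helpers here

set_option autoImplicit false
open Cfsg

namespace Cfsg.Agent.S5449

open CA CA.F24 CA.Ex2 CA.Fi Subgroup Equiv in
/-- Let G be a finite group of large Fischer type at the involution z: the generalized Fitting subgroup Q of H = C_G(z) is extraspecial of order 2^13, H has normal subgroups Q ≤ H₁ ≤ H₂ with H₁/Q of order 3, H₂/H₁ the projective special unitary group of dimension 4 over the field with nine elements and H₂ of index 2 in H, and some conjugate of z other than z lies in Q. Then Q contains a four-group E, not containing z and containing an involution not conjugate to z in G, whose centralizer in G is quasisimple with quotient by E isomorphic to the projective special unitary group of dimension 6 over the field with four elements. -/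
theorem result {G : Type*} [Group G] [Finite G] (z : G) (Q : Subgroup (Subgroup.centralizer ({z} : Set G))) [Q.Normal] (hF : Cfsg.IsOfLargeFischerTypeAt z Q) : ∃ E : Subgroup G, E ≤ (Q.map (Subgroup.centralizer ({z} : Set G)).subtype) ∧ Cfsg.IsElementaryAbelian 2 E ∧ Nat.card E = 4 ∧ z ∉ E ∧ (∃ t ∈ E, orderOf t = 2 ∧ ¬ IsConj z t) ∧ Cfsg.IsQuasisimple ↥(Subgroup.centralizer (E : Set G)) ∧ ∃ (_ : (E.subgroupOf (Subgroup.centralizer (E : Set G))).Normal) (K : Type) (_ : Field K) (_ : Fintype K), Fintype.card K = 4 ∧ Nonempty (↥(Subgroup.centralizer (E : Set G)) ⧸ E.subgroupOf (Subgroup.centralizer (E : Set G)) ≃* Cfsg.PSU 6 K 2) := by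
  obtain ⟨π, c, h⟩ := ft_of hF
  obtain ⟨x, σ, h⟩ := h.exists_fs
  obtain ⟨d, h⟩ := h.exists_fd
  obtain ⟨h1, h2, F, _, _, hF, ⟨e⟩⟩ := h.u6
  refine ⟨EE σ, h.EE_Q, h.todd.elem.mono h.EE_A, h.card_EE, fun hz => ?_,
    ⟨_, h.mem_EE.2 ⟨1, by decide, rfl⟩, orderOf_eq_prime (by rw [pow_two, h.toFT.AA_sq (h.io_mem 1)]) fun k =>
      absurd (h.io_inj (by decide) (by decide) (k.trans h.io_zero.symm)) (by decide),
      (h.zb_false (by decide)).1 (by decide +kernel)⟩, ?_⟩
  · obtain ⟨e, he, f⟩ := h.mem_EE.1 hz
    have := h.io_inj (by omega) (by decide) (f.trans h.io_64.symm)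
    omega
  rw [cent_EE]
  have : ((EE σ).subgroupOf (YY σ)).Normal := h2 ▸ inferInstance
  exact ⟨h1, this, F, _, _, hF, ⟨(QuotientGroup.quotientMulEquivOfEq h2.symm).trans e⟩⟩

end Cfsg.Agent.S5449
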