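import Cfsg.Statements.S5450
import Cfsg.Agent.Lib.F24.K22
import Cfsg.Agent.Lib.TC.F22
import Cfsg.Agent.Lib.Fi.TwLine
import Cfsg.Agent.Lib.Fi.Tw24
-- import your own Cfsg.Agent.* helpers here

set_option autoImplicit false
open Cfsg

namespace Cfsg.Agent.S5450

open CA CA.F24 CA.Ex2 CA.Fi Subgroup Equiv in
/-- Let G be a finite group of large Fischer type at the involution z: the generalized Fitting subgroup Q of H = C_G(z) is extraspecial of order 2^13, H has normal subgroups Q ≤ H₁ ≤ H₂ with H₁/Q of order 3, H₂/H₁ the projective special unitary group of dimension 4 over the field with nine elements and H₂ of index 2 in H, and some conjugate of z other than z lies in Q. Let t be an involution of Q not conjugate to z in G, and K the generalized Fitting subgroup of the centralizer of t. Then K is quasisimple of index 2 in the centralizer of t, contains t, and the centralizer of t modulo the subgroup generated by t is isomorphic to the full automorphism group of the Fischer group Fi₂₂ (as presented).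 -/
theorem result {G : Type*} [Group G] [Finite G] (z : G) (Q : Subgroup (Subgroup.centralizer ({z} : Set G))) [Q.Normal] (hF : Cfsg.IsOfLargeFischerTypeAt z Q) (t : G) (htQ : ∃ htc : t ∈ Subgroup.centralizer ({z} : Set G), (⟨t, htc⟩ : Subgroup.centralizer ({z} : Set G)) ∈ Q) (ht2 : orderOf t = 2) (ht : ¬ IsConj z t) (K : Subgroup ↥(Subgroup.centralizer ({t} : Set G))) (hK : K = Cfsg.generalizedFittingSubgroup ↥(Subgroup.centralizer ({t} : Set G))) [hn : ((Subgroup.zpowers t).subgroupOf (Subgroup.centralizer ({t} : Set G))).Normal] : Cfsg.IsQuasisimple ↥K ∧ K.index = 2 ∧ (∃ htc : t ∈ Subgroup.centralizer ({t} : Set G), (⟨t, htc⟩ : ↥(Subgroup.centralizer ({t} : Set G))) ∈ K) ∧ Nonempty (↥(Subgroup.centralizer ({t} : Set G)) ⧸ (Subgroup.zpowers t).subgroupOf (Subgroup.centralizer ({t} : Set G)) ≃* MulAut Cfsg.Spor.Fi22) := by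
  obtain ⟨π, c, h⟩ := ft_of hF
  obtain ⟨htc, htQ⟩ := htQ
  obtain ⟨π, c, x, σ, d, h, rfl⟩ := h.exists_fd_t (t := t) ⟨_, htQ, rfl⟩ (by rw [← pow_two, ← ht2, pow_orderOf_eq_one])
    (fun e => by simp [e] at ht2) ht
  obtain ⟨L, k⟩ := h.exists_K
  have : (L.subgroupOf 𝐂[σ (av 0)]).Normal := normal_of_index_eq_two k.idx
  have a1 := qs_congr (subgroupOfEquivOfLe k.le).symm (k.qs h)
  obtain rfl : K = L.subgroupOf _ := hK.trans (gfit_eq_of_qs a1 fun g hg => zpowers_le.2 (k.t_mem h)
    ((k.cent h).le fun a ha => congrArg Subtype.val (hg ⟨a, k.le ha⟩ ha))).2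
  obtain ⟨P, _, ρ, hs, hk⟩ := k.exists_rho h
  have : Finite P := Finite.of_surjective _ hs
  obtain ⟨θ, b1, b2, -⟩ := k.exists_theta h hs hk
  obtain ⟨c1, c2, c3⟩ := k.type22 h hs hk
  exact ⟨a1, k.idx, ⟨self_mem_cent1 _, k.t_mem h⟩, ⟨((QuotientGroup.quotientMulEquivOfEq b2.symm).trans
    (QuotientGroup.quotientKerEquivOfSurjective θ b1)).trans
      (MulAut.congr (isoFi22_of_type (TT.class_group c1) c2 c3).some)⟩⟩

end Cfsg.Agent.S5450
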