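import Cfsg.Statements.S5451
import Cfsg.Agent.Lib.F24.C0
-- import your own Cfsg.Agent.* helpers here

set_option autoImplicit false
open Cfsg

namespace Cfsg.Agent.S5451

open CA CA.F24 CA.Ex2 CA.Fi Subgroup Equiv in
/-- Let G be a finite group of large Fischer type at the involution z: the generalized Fitting subgroup Q of H = C_G(z) is extraspecial of order 2^13, H has normal subgroups Q ≤ H₁ ≤ H₂ with H₁/Q of order 3, H₂/H₁ the projective special unitary group of dimension 4 over the field with nine elements and H₂ of index 2 in H, and some conjugate of z other than z lies in Q. Let X be a subgroup of H of order 3 whose product with Q is normal in H (X maps onto the normal subgroup of order 3 of H/Q). Then the centralizer of X in H is quasisimple with cyclic centre of order 6 and central quotient isomorphic to the projective special unitary group of dimension 4 over the field with nine elements. -/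
theorem result {G : Type*} [Group G] [Finite G] (z : G) (Q : Subgroup (Subgroup.centralizer ({z} : Set G))) [Q.Normal] (hF : Cfsg.IsOfLargeFischerTypeAt z Q) (X : Subgroup (Subgroup.centralizer ({z} : Set G))) (hX : Nat.card X = 3) (hXQ : (X ⊔ Q).Normal) : Cfsg.IsQuasisimple ↥(Subgroup.centralizer ((X : Subgroup (Subgroup.centralizer ({z} : Set G))) : Set (Subgroup.centralizer ({z} : Set G)))) ∧ IsCyclic ↥(Subgroup.center ↥(Subgroup.centralizer ((X : Subgroup (Subgroup.centralizer ({z} : Set G))) : Set (Subgroup.centralizer ({z} : Set G))))) ∧ Nat.card ↥(Subgroup.center ↥(Subgroup.centralizer ((X : Subgroup (Subgroup.centralizer ({z} : Set G))) : Set (Subgroup.centralizer ({z} : Set G))))) = 6 ∧ ∃ (K : Type) (_ : Field K) (_ : Fintype K), Fintype.card K = 9 ∧ Nonempty (↥(Subgroup.centralizer ((X : Subgroup (Subgroup.centralizer ({z} : Set G))) : Set (Subgroup.centralizer ({z} : Set G)))) ⧸ Subgroup.center ↥(Subgroup.centralizer ((X : Subgroup (Subgroup.centralizer ({z} :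 Set G))) : Set (Subgroup.centralizer ({z} : Set G)))) ≃* Cfsg.PSU 4 K 3) := by
  obtain ⟨π, c, h⟩ := ft_of hF
  have : Fact (Nat.Prime 3) := ⟨by decide⟩
  obtain ⟨y, rfl⟩ : ∃ y, X = zpowers y := by
    obtain ⟨y, hy⟩ := (Subgroup.isCyclic_iff_exists_zpowers_eq_top X).1 (isCyclic_of_prime_card hX)
    exact ⟨y, hy.symm⟩
  have a0 : ∀ q, q ∈ Q ↔ π q = 1 := fun q => by
    rw [← pel_coe, ← mem_map_iff_mem (subtype_injective _), ← h.ker, mem_pker]
    exact and_iff_right q.2
  have a1 : orderOf y = 3 := (Nat.card_zpowers y).symm.trans hX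
  have a2 : y ^ 3 = 1 := a1 ▸ pow_orderOf_eq_one y
  have a3 : π y ≠ 1 := fun e => by
    have := card_dvd_of_le (zpowers_le.2 (mem_map_of_mem (𝐂[z]).subtype ((a0 y).2 e)))
    rw [h.card, Nat.card_zpowers, coe_subtype, orderOf_coe, a1] at this
    omega
  have a4 : Hs ≤ 𝐍(zpowers (π y)) := by
    have e : (zpowers y ⊔ Q).map π = zpowers (π y) := by
      rw [Subgroup.map_sup, MonoidHom.map_zpowers, (Subgroup.map_eq_bot_iff _).2 fun q hq => (a0 q).1 hq, sup_bot_eq]
    rw [← h.range_eq, ← e]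
    rintro _ ⟨k, rfl⟩
    exact le_normalizer_map π ⟨k, by rw [normalizer_eq_top]; trivial, rfl⟩
  obtain ⟨x, hx, e⟩ : ∃ x, zpowers x = zpowers y ∧ π x = sc 1 := by
    rcases sc_of_normal (h.range_eq ▸ ⟨y, rfl⟩) (by rw [← map_pow, a2, map_one]) a3 a4 with e | e
    · exact ⟨y, rfl, e⟩
    · exact ⟨y⁻¹, zpowers_inv, by rw [map_inv, e]⟩
  rw [← hx] at hX ⊢
  obtain ⟨σ, h⟩ := h.fs_of x.2 (by rw [pel_coe, e]) (by
    rw [← coe_pow, ← hX, Nat.card_zpowers, pow_orderOf_eq_one, coe_one])
  obtain ⟨d, h⟩ := h.exists_fd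
  obtain ⟨b1, b2, b3, ⟨b4⟩⟩ := h.c0 ((𝐂[z]).subtype.comp 𝐂(zpowers x).subtype)
    ((subtype_injective _).comp (subtype_injective _)) (by
      ext g
      rw [MonoidHom.mem_range, mem_inf]
      refine ⟨fun ⟨k, e⟩ => e ▸ ⟨k.1.2, mem_centralizer_singleton_iff.2
        (congrArg Subtype.val (k.2 x (mem_zpowers x)).symm)⟩, fun ⟨h1, h2⟩ => ⟨⟨⟨g, h1⟩, ?_⟩, rfl⟩⟩
      exact le_centralizer_iff.1 (zpowers_le.2 (mem_centralizer_iff.2 fun k hk => by
        obtain ⟨n, rfl⟩ := mem_zpowers_iff.1 hk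
        exact ((show Commute (⟨g, h1⟩ : 𝐂[z]) x from
          Subtype.ext (mem_centralizer_singleton_iff.1 h2)).zpow_left n).eq)) (mem_zpowers _))
  obtain ⟨-, N, M, -, -, -, -, -, ⟨K, i1, i2, hK, -⟩, -⟩ := hF
  exact ⟨b1, b2, b3, K, i1, i2, hK, ⟨b4.trans (U43_iso hK).some⟩⟩

end Cfsg.Agent.S5451
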