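import Cfsg.Statements.S5454
import Cfsg.Agent.Lib.Tilde.Comp
import Cfsg.Agent.Lib.Tilde.JT

set_option autoImplicit false
open Cfsg

namespace Cfsg.Agent.S5454

/-- Let G be a finite group with an involution d whose centralizer C is quasisimple with C modulo the subgroup generated by d isomorphic to the projective special unitary group of dimension 6 over the field with four elements, and suppose some conjugate of d other than d commutes with d. Let S be a Sylow 2-subgroup of C and A the Thompson subgroup of S (generated by the elementary abelian subgroups of S of largest order), regarded as a subgroup of G. Then A is elementary abelian of order 2^10, exactly 22 conjugates of d lie in A, and the normalizer of A permutes them transitively. -/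
theorem result {G : Type*} [Group G] [Finite G] (d : G) (hd : orderOf d = 2) (hq : Cfsg.IsQuasisimple ↥(Subgroup.centralizer ({d} : Set G))) [hzn : ((Subgroup.zpowers d).subgroupOf (Subgroup.centralizer ({d} : Set G))).Normal] (K : Type) [Field K] [Fintype K] (hK : Fintype.card K = 4) (e : ↥(Subgroup.centralizer ({d} : Set G)) ⧸ (Subgroup.zpowers d).subgroupOf (Subgroup.centralizer ({d} : Set G)) ≃* Cfsg.PSU 6 K 2) (hnwc : ∃ g : G, g * d * g⁻¹ ∈ Subgroup.centralizer ({d} : Set G) ∧ g * d * g⁻¹ ≠ d) (S : Sylow 2 ↥(Subgroup.centralizer ({d} : Set G))) (A : Subgroup G) (hA : A = (Cfsg.thompsonSubgroupOf 2 (S : Subgroup ↥(Subgroup.centralizer ({d} : Set G)))).map (Subgroup.centralizer ({d} : Set G)).subtype) : Cfsg.IsElementaryAbelian 2 A ∧ Nat.card A = 2 ^ 10 ∧ Set.ncard {x : G | x ∈ A ∧ IsConj d x} = 22 ∧ ∀ x ∈ A, ∀ y ∈ A, IsConj d x → IsConj d y → ∃ n ∈ Subgroup.normalizer (A : Set G), n * x * n⁻¹ = y := by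
  obtain ⟨h1, h2, h3⟩ := CA.Tl.type22_of_cent hd hq.1 ⟨K, inferInstance, inferInstance, hK, ⟨e⟩⟩ hnwc
  have hT := CA.Fi.t22_of (CA.TT.class_group h1) h2 h3
  obtain ⟨B, hB, e1, e2, e3, e4⟩ := CA.Tl.thompson_cent (n := 1) h1 h3.1 hT.invK
    (hT.norel.mono (by norm_num)) hT.thr hT.uq (by rw [hT.width]; norm_num) hT.tr S
  rw [hA, e1]
  exact ⟨e2, CA.Tl.T22.card_base (CA.TT.class_group h1) h3.1 hB hT, by rw [e3, hT.base_card hB], e4⟩

end Cfsg.Agent.S5454
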