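import Cfsg.Statements.S5459
import Cfsg.Agent.Lib.ThreeT.Prim

set_option autoImplicit false
open Cfsg

namespace Cfsg.Agent.S5459

open Subgroup CA CA.TT

/-- Let G be a finite group with a quasisimple normal subgroup L and an involution d such that G is generated by L and d, the centre of L has odd order, and d inverts every element of the centre of L. If the commuting graph on the conjugacy class of the image of d in G modulo the centre of L is connected, then the commuting graph on the conjugacy class of d is connected. -/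
theorem result {G : Type*} [Group G] [Finite G] (L : Subgroup G) [L.Normal] (hL : Cfsg.IsQuasisimple ↥L) (d : G) (hd : orderOf d = 2) (hgen : L ⊔ Subgroup.zpowers d = ⊤) (hodd : Odd (Nat.card ↥(Subgroup.center ↥L))) (hinv : ∀ c ∈ (Subgroup.center ↥L).map L.subtype, d * c * d⁻¹ = c⁻¹) [hn : ((Subgroup.center ↥L).map L.subtype).Normal] (hconn : (Cfsg.commutingGraph (conjugatesOf (QuotientGroup.mk d : G ⧸ (Subgroup.center ↥L).map L.subtype))).Connected) : (Cfsg.commutingGraph (conjugatesOf d)).Connected := by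
  have hq := FStar.isQuasisimple_iff.1 hL
  have d2 := Inv.mul_self_of_orderOf hd
  have hZ := center_eq_map L
  have hroot : ∀ c ∈ (center L).map L.subtype, ∃ w ∈ (center L).map L.subtype, w * w = c := by
    intro c hc
    have h1 : Odd (orderOf c) := hodd.of_dvd_nat (by
      rw [← card_map_subtype]; exact orderOf_dvd_card_of_mem hc)
    obtain ⟨k, hk⟩ := h1
    refine ⟨c ^ (k + 1), pow_mem hc _, ?_⟩
    rw [← pow_add, show k + 1 + (k + 1) = (2 * k + 1) + 1 by ring, pow_succ, ← hk, pow_orderOf_eq_one, one_mul]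
  generalize (center L).map L.subtype = Z at *
  have hc : ∀ g : G, ∀ x ∈ conjugatesOf d, g * x * g⁻¹ ∈ conjugatesOf d :=
    fun g x hx => IsConj.trans hx (isConj_iff.2 ⟨g, rfl⟩)
  have sq : ∀ x ∈ conjugatesOf d, x * x = 1 := fun x hx => by
    obtain ⟨g, rfl⟩ := isConj_iff.1 hx
    exact Inv.conj_mul_self d2 g
  have inv : ∀ x ∈ conjugatesOf d, ∀ c ∈ Z, x * c * x⁻¹ = c⁻¹ := fun x hx c hc => by
    obtain ⟨g, rfl⟩ := isConj_iff.1 hx
    have := hinv _ (hn.conj_mem c hc g⁻¹)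
    calc _ = g * (d * (g⁻¹ * c * g⁻¹⁻¹) * d⁻¹) * g⁻¹ := by group
      _ = _ := by rw [this]; group
  have fib : ∀ x ∈ conjugatesOf d, ∀ c ∈ Z, ∃ w ∈ Z, x * c = w * x * w⁻¹ := fun x hx c hc => by
    obtain ⟨w, hw, rfl⟩ := hroot c hc
    refine ⟨w⁻¹, inv_mem hw, ?_⟩
    rw [inv_inv, ← inv x hx w hw]; group
  let R : G → G → Prop := fun x y => ∃ (hx : x ∈ conjugatesOf d) (hy : y ∈ conjugatesOf d),
    (commutingGraph (conjugatesOf d)).Reachable ⟨x, hx⟩ ⟨y, hy⟩
  have hR : InvRel (conjugatesOf d) R := by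
    refine ⟨fun x hx => ⟨hx, hx, SimpleGraph.Reachable.refl _⟩, fun ⟨h1, h2, h3⟩ => ⟨h2, h1, h3.symm⟩,
      fun ⟨h1, _, h3⟩ ⟨_, h2, h4⟩ => ⟨h1, h2, h3.trans h4⟩, fun g ⟨h1, h2, h3⟩ => ⟨hc g _ h1, hc g _ h2, ?_⟩⟩
    let f : commutingGraph (conjugatesOf d) →g commutingGraph (conjugatesOf d) :=
      ⟨fun x => ⟨g * x * g⁻¹, hc g x x.2⟩, by
      intro x y h
      simp only [commutingGraph, SimpleGraph.fromRel_adj, commute_conj_iff, ne_eq, Subtype.ext_iff,
        conj_inj] at h ⊢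
      exact h⟩
    exact h3.map f
  have lift : ∀ (u v : conjugatesOf (d : G ⧸ Z)) (w : (commutingGraph (conjugatesOf (d : G ⧸ Z))).Walk u v),
      ∀ x ∈ conjugatesOf d, (x : G ⧸ Z) = u → ∃ y ∈ conjugatesOf d, (y : G ⧸ Z) = v ∧ R x y := by
    intro u v w
    induction w with
    | nil => exact fun x hx h => ⟨x, hx, h, hR.refl x hx⟩
    | cons h _ ih =>
      rename_i u v w _
      intro x hx h1
      have h2 : Commute (u : G ⧸ Z) v := ((SimpleGraph.fromRel_adj ..).1 h).2.elim id Commute.symm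
      obtain ⟨g, hg⟩ := isConj_iff.1 v.2
      obtain ⟨g, rfl⟩ := QuotientGroup.mk_surjective g
      have hy := hc g d (IsConj.refl d)
      have h3 : ((g * d * g⁻¹ : G) : G ⧸ Z) = v := hg
      generalize g * d * g⁻¹ = y at hy h3
      have h4 : (x * y * (x * y))⁻¹ ∈ Z := by
        rw [inv_mem_iff, ← QuotientGroup.eq_one_iff, QuotientGroup.mk_mul, QuotientGroup.mk_mul, h1, h3,
          ← pow_two, h2.mul_pow, ← h1, ← h3, pow_two, pow_two, ← QuotientGroup.mk_mul, ← QuotientGroup.mk_mul,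
          sq x hx, sq y hy]
        simp
      obtain ⟨z, hz, h5⟩ := hroot _ h4
      obtain ⟨w, hw, h6⟩ := fib y hy z hz
      have h7 : y * z ∈ conjugatesOf d := h6 ▸ hc w y hy
      have h8 : Commute x (y * z) := by
        rw [Inv.commute_iff_sq (sq x hx) (sq _ h7)]
        have h9 : x * y * z * (x * y)⁻¹ = z := by
          rw [show x * y * z * (x * y)⁻¹ = x * (y * z * y⁻¹) * x⁻¹ by group, inv y hy z hz,
            inv x hx _ (inv_mem hz), inv_inv]
        have h10 : Commute (x * y) z := mul_inv_eq_iff_eq_mul.1 h9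
        rw [← mul_assoc, h10.mul_pow, pow_two, pow_two, h5, mul_inv_cancel]
      have h9 : ((y * z : G) : G ⧸ Z) = v := by
        rw [QuotientGroup.mk_mul, (QuotientGroup.eq_one_iff z).2 hz, mul_one, h3]
      obtain ⟨t, ht, h10, h11⟩ := ih _ h7 h9
      refine ⟨t, ht, h10, hR.trans ⟨hx, h7, SimpleGraph.Adj.reachable
        ((SimpleGraph.fromRel_adj ..).2 ⟨fun h12 => h.ne (Subtype.ext ?_), Or.inl h8⟩)⟩ h11⟩
      rw [← h1, ← h9, show x = y * z from congrArg Subtype.val h12]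
  let N : Subgroup G :=
    { carrier := {g | R d (g * d * g⁻¹)}
      one_mem' := by simpa using hR.refl d (IsConj.refl d)
      mul_mem' := fun {x y} hx hy => by
        have := hR.trans hx (hR.conj x hy)
        rwa [show x * (y * d * y⁻¹) * x⁻¹ = x * y * d * (x * y)⁻¹ by group] at this
      inv_mem' := fun {x} hx => by
        have := hR.conj x⁻¹ (hR.symm hx)
        rwa [show x⁻¹ * (x * d * x⁻¹) * x⁻¹⁻¹ = d by group] at this }
  have h1 : ∀ g : G, ∃ w ∈ Z, w * g ∈ N := fun g => by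
    obtain ⟨w⟩ := hconn.preconnected ⟨d, IsConj.refl _⟩ ⟨((g * d * g⁻¹ : G) : G ⧸ Z), isConj_iff.2 ⟨g, rfl⟩⟩
    obtain ⟨y, hy, h2, h3⟩ := lift _ _ w d (IsConj.refl d) rfl
    obtain ⟨w, hw, h4⟩ := fib _ (hc g d (IsConj.refl d)) _ (QuotientGroup.eq.1 h2.symm)
    refine ⟨w, hw, ?_⟩
    show R d _
    rwa [show w * g * d * (w * g)⁻¹ = w * (g * d * g⁻¹) * w⁻¹ by group, ← h4, mul_inv_cancel_left]
  have h2 : L ≤ N := by
    have h3 : L ≤ (L ⊓ N) ⊔ Z := fun l hl => by
      obtain ⟨w, hw, h4⟩ := h1 l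
      have := mul_mem (mem_sup_right (inv_mem hw)) (mem_sup_left (S := L ⊓ N) (T := Z)
        ⟨mul_mem (hZ.le hw).1 hl, h4⟩)
      rwa [inv_mul_cancel_left] at this
    have h4 := der_mono h3
    rw [hq.der, der_sup_of_cents (hZ.le.trans (inf_le_right.trans (cent_mono inf_le_left))), hZ,
      abelian_iff_der.1 (abelian_center L), sup_bot_eq] at h4
    exact h4.trans ((der_le _).trans inf_le_right)
  have h3 : ∀ g, g ∈ N := fun g => (sup_le h2 (zpowers_le.2 (by
    show R d _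
    simpa using hR.refl d (IsConj.refl d)))) (hgen.ge (mem_top g))
  have : Nonempty (conjugatesOf d) := ⟨⟨d, IsConj.refl d⟩⟩
  refine ⟨fun x y => ?_⟩
  obtain ⟨x, hx⟩ := x
  obtain ⟨y, hy⟩ := y
  obtain ⟨g, rfl⟩ := isConj_iff.1 hx
  obtain ⟨k, rfl⟩ := isConj_iff.1 hy
  exact (hR.trans (hR.symm (h3 g)) (h3 k)).2.2

end Cfsg.Agent.S5459
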