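import Cfsg.Statements.S5462
import Cfsg.Agent.Lib.Fi.TwInv

set_option autoImplicit false
open Cfsg

namespace Cfsg.Agent.S5462

/-- Let G be a finite group with trivial centre generated by a conjugation-invariant set D of 3-transpositions on which it acts primitively, such that for some d in D the subgroup generated by the members of D other than d commuting with d has central largest normal 2- and 3-subgroups, and suppose G with D is of type M(22). Then every automorphism of G of order 2 fixes some member of D. -/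
theorem result {G : Type*} [Group G] [Finite G] {D : Set G} (hD : Cfsg.IsThreeTranspositionGroup D) (hprim : Cfsg.IsPrimitiveUnderConj D) (d₀ : G) (hd₀ : d₀ ∈ D) (h3 : Cfsg.pCore 3 ↥(Subgroup.closure {y : G | y ∈ D ∧ y ≠ d₀ ∧ Commute d₀ y}) ≤ Subgroup.center ↥(Subgroup.closure {y : G | y ∈ D ∧ y ≠ d₀ ∧ Commute d₀ y})) (h2 : Cfsg.pCore 2 ↥(Subgroup.closure {y : G | y ∈ D ∧ y ≠ d₀ ∧ Commute d₀ y}) ≤ Subgroup.center ↥(Subgroup.closure {y : G | y ∈ D ∧ y ≠ d₀ ∧ Commute d₀ y})) (h22 : Cfsg.IsOfTypeM22 G D) (φ : MulAut G) (hφ : orderOf φ = 2) : ∃ d ∈ D, φ d = d := by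
  have h := CA.Fi.t22_of hD hprim h22
  have hc := CA.Fi.cov_of_equiv φ h.cl
  obtain ⟨a, ha⟩ := h.par.nonempty
  have e : φ '' D = D := by
    refine CA.Fi.eq_of_class hD h22.1 h.invK h.a4K (by norm_num) h.tr
      ⟨hc.cl'.set, ⟨φ a, ⟨a, ha, rfl⟩, ?_⟩, ?_⟩
    · ext y
      constructor
      · rintro ⟨x, hx, rfl⟩
        obtain ⟨g, rfl⟩ := hprim.1 a ha x hx
        exact isConj_iff.2 ⟨φ g, by simp⟩
      · intro hy
        obtain ⟨g, rfl⟩ := isConj_iff.1 hy
        exact ⟨_, hD.2.1 (φ.symm g) a ha, by simp⟩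
    · have := (φ : G →* G).map_closure D
      rw [hD.2.2, ← MonoidHom.range_eq_map, MonoidHom.range_eq_top.2 φ.surjective] at this
      exact this.symm
  rw [e] at hc
  refine h.fix hc fun x _ => ?_
  have h1 : φ * φ = 1 := by rw [← pow_two, ← hφ, pow_orderOf_eq_one]
  exact DFunLike.congr_fun h1 x

end Cfsg.Agent.S5462
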