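import Cfsg.Statements.S5463
import Cfsg.Agent.Lib.Fi.TwInv

set_option autoImplicit false
open Cfsg

namespace Cfsg.Agent.S5463

/-- Let G be a finite group with trivial centre generated by a conjugation-invariant set D of 3-transpositions on which it acts primitively, such that for some d in D the subgroup generated by the members of D other than d commuting with d has central largest normal 2- and 3-subgroups, and suppose G with D is of type M(22). A product j of two distinct commuting members of D determines the pair: any two 2-element sets of commuting members of D with product j coincide. A product j of three distinct pairwise commuting members of D arises from exactly two such 3-element sets. -/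
theorem result {G : Type*} [Group G] [Finite G] {D : Set G} (hD : Cfsg.IsThreeTranspositionGroup D) (hprim : Cfsg.IsPrimitiveUnderConj D) (d₀ : G) (hd₀ : d₀ ∈ D) (h3 : Cfsg.pCore 3 ↥(Subgroup.closure {y : G | y ∈ D ∧ y ≠ d₀ ∧ Commute d₀ y}) ≤ Subgroup.center ↥(Subgroup.closure {y : G | y ∈ D ∧ y ≠ d₀ ∧ Commute d₀ y})) (h2 : Cfsg.pCore 2 ↥(Subgroup.closure {y : G | y ∈ D ∧ y ≠ d₀ ∧ Commute d₀ y}) ≤ Subgroup.center ↥(Subgroup.closure {y : G | y ∈ D ∧ y ≠ d₀ ∧ Commute d₀ y})) (h22 : Cfsg.IsOfTypeM22 G D) : (∀ (j : G) (l l' : List G), (l.Nodup ∧ l.length = 2 ∧ (∀ a ∈ l, a ∈ D) ∧ (∀ a ∈ l, ∀ b ∈ l, Commute a b) ∧ l.prod = j) → (l'.Nodup ∧ l'.length = 2 ∧ (∀ a ∈ l', a ∈ D) ∧ (∀ a ∈ l', ∀ b ∈ l', Commute a b) ∧ l'.prod = j) → (∀ x : G, x ∈ l ↔ x ∈ l')) ∧ ∀ (j : G) (l₀ : List G), (l₀.Nodup ∧ l₀.length = 3 ∧ (∀ a ∈ l₀, a ∈ D) ∧ (∀ a ∈ l₀, ∀ b ∈ l₀, Commute a b) ∧ l₀.prod = j)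 → ∃ l₁ l₂ : List G, (l₁.Nodup ∧ l₁.length = 3 ∧ (∀ a ∈ l₁, a ∈ D) ∧ (∀ a ∈ l₁, ∀ b ∈ l₁, Commute a b) ∧ l₁.prod = j) ∧ (l₂.Nodup ∧ l₂.length = 3 ∧ (∀ a ∈ l₂, a ∈ D) ∧ (∀ a ∈ l₂, ∀ b ∈ l₂, Commute a b) ∧ l₂.prod = j) ∧ ¬ (∀ x : G, x ∈ l₁ ↔ x ∈ l₂) ∧ ∀ l : List G, (l.Nodup ∧ l.length = 3 ∧ (∀ a ∈ l, a ∈ D) ∧ (∀ a ∈ l, ∀ b ∈ l, Commute a b) ∧ l.prod = j) → ((∀ x : G, x ∈ l ↔ x ∈ l₁) ∨ (∀ x : G, x ∈ l ↔ x ∈ l₂)) := by
  have h := CA.Fi.t22_of hD hprim h22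
  refine ⟨?_, ?_⟩
  · rintro j l l' ⟨c1, c2, c3, c4, c5⟩ ⟨d1, d2, d3, d4, d5⟩
    exact h.norel.iff_of_eq hD h22.1 ⟨c1, c3, c4⟩ ⟨d1, d3, d4⟩ (by omega) (by omega)
      (c5.trans d5.symm)
  · rintro j l₀ ⟨c1, c2, c3, c4, c5⟩
    have c : CA.Fi.Cq D l₀ := ⟨c1, c3, c4⟩
    obtain ⟨a, ha, hr⟩ := h.thr l₀ c c2
    have e : a.prod = j := by
      have := hr.prod_eq hD h22.1
      rw [List.prod_append, mul_eq_one_iff_inv_eq, c.prod_inv h.cl] at this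
      rw [← this, c5]
    refine ⟨l₀, a, ⟨c1, c2, c3, c4, c5⟩, ⟨hr.1.right.nodup, ha, hr.1.right.mem, hr.1.right.comm, e⟩,
      fun hx => ?_, ?_⟩
    · obtain ⟨x, hx'⟩ := List.exists_mem_of_length_pos (l := l₀) (by omega)
      exact hr.1.disj x hx' ((hx x).1 hx')
    · rintro l ⟨d1, d2, d3, d4, d5⟩
      have c' : CA.Fi.Cq D l := ⟨d1, d3, d4⟩
      have hp : l₀.prod * l.prod ∈ Subgroup.centralizer D := by
        rw [c5, ← d5, c'.prod_sq h.cl]; exact one_mem _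
      rcases h.norel.iff_or_rl h.cl c c' (c.cross_of_prod h.cl c' c2.le hp) (by omega) hp with e | e
      · exact Or.inl fun x => (e x).symm
      · exact Or.inr (h.uq l₀ l a c2 d2 ha e hr)

end Cfsg.Agent.S5463
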