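import Cfsg.Statements.S5465
import Cfsg.Agent.Lib.Fi.Tw24
import Cfsg.Agent.Lib.TC.F22

set_option autoImplicit false
open Cfsg

namespace Cfsg.Agent.S5465

open Subgroup CA.Fi

/-- Let G be a finite group with trivial centre generated by a conjugation-invariant set D of 3-transpositions on which it acts primitively, such that for some d in D the subgroup generated by the members of D other than d commuting with d has central largest normal 2- and 3-subgroups, and suppose G with D is of type M(24), and let L be the commutator subgroup of G. Let d₁, d₂ be distinct commuting members of D and j = d₁ d₂. Then K, the joint centralizer of d₁ and d₂ in L, is quasisimple, is the generalized Fitting subgroup of the centralizer of j in L, has index 2 in it and contains j, and the centralizer of j in L modulo the subgroup generated by j is isomorphic to the full automorphism group of the Fischer group Fi₂₂ (as presented). -/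
theorem result {G : Type*} [Group G] [Finite G] {D : Set G} (hD : Cfsg.IsThreeTranspositionGroup D) (hprim : Cfsg.IsPrimitiveUnderConj D) (d₀ : G) (hd₀ : d₀ ∈ D) (h3 : Cfsg.pCore 3 ↥(Subgroup.closure {y : G | y ∈ D ∧ y ≠ d₀ ∧ Commute d₀ y}) ≤ Subgroup.center ↥(Subgroup.closure {y : G | y ∈ D ∧ y ≠ d₀ ∧ Commute d₀ y})) (h2 : Cfsg.pCore 2 ↥(Subgroup.closure {y : G | y ∈ D ∧ y ≠ d₀ ∧ Commute d₀ y}) ≤ Subgroup.center ↥(Subgroup.closure {y : G | y ∈ D ∧ y ≠ d₀ ∧ Commute d₀ y})) (h24 : Cfsg.IsOfTypeM24 G D) (L : Subgroup G) (hL : L = commutator G) (d₁ d₂ : G) (h₁ : d₁ ∈ D) (h₂ : d₂ ∈ D) (hne : d₁ ≠ d₂) (hc : Commute d₁ d₂) (K CL : Subgroup G) (hK : K = L ⊓ Subgroup.centralizer ({d₁, d₂} : Set G)) (hCL : CL = L ⊓ Subgroup.centralizer ({d₁ * d₂} : Set G)) [hn : ((Subgroup.zpowers (d₁ * d₂)).subgroupOf CL).Normal] : Cfsg.IsQuasisimple ↥K ∧ K = (Cfsg.generalizedFittingSubgroup ↥CL).map CL.subtype ∧ K ≤ CL ∧ (K.subgroupOf CL).index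 = 2 ∧ d₁ * d₂ ∈ K ∧ Nonempty (↥CL ⧸ (Subgroup.zpowers (d₁ * d₂)).subgroupOf CL ≃* MulAut Cfsg.Spor.Fi22) := by
  have h := t24_of hD hprim h24
  have hZ := h24.1
  obtain ⟨ε, hε, hk, -⟩ := exists_sign24 hD hprim h24
  have hx : d₂ ∈ Dd D d₁ := ⟨h₂, hne.symm, hc⟩
  obtain ⟨G₂, _, _, D₂, φ, g1, g2, g3, cv⟩ := m24_cov_two hD hprim h24 h₁ hx
  have := simple_m22 g1 g2 g3
  obtain ⟨e⟩ := isoFi22_of_type g1 g2 g3
  have n4 := h.norel.mono (n' := 4) (by norm_num)
  obtain ⟨ρ, r1, r2, r3⟩ := exists_hom_two hD hZ h₁ hx n4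
    (h.transK.mono (h.ext.mono (by norm_num)) (by norm_num))
  obtain ⟨m1, m2⟩ := h.mem_two hD hZ h₁ hx
  have c1 := h.cent_two hD hZ h₁ hx
  have c2 := h.cent_dd2 hD hZ h₁ hx
  have hle := cent_le_prod_two (a := d₁) (b := d₂)
  rw [hL, ← hk] at hK hCL
  obtain ⟨ρ', s1, s2⟩ := exists_restrict ε ρ r1 r2 (hε _ h₁) (c1 ▸ m1) (hle (c1 ▸ m1))
  have i2 : (K.subgroupOf CL).index = 2 := by
    subst hK hCL
    rw [← s2, index_ker, MonoidHom.range_eq_top.2 s1, card_top, Nat.card_perm]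
    simp
  have eE : zpowers (d₁ * d₂) = ε.ker ⊓ centralizer (Dd (Dd D d₁) d₂) := by
    rw [c2, ker_inf_closure ε (by simpa using hε _ h₂) (hε _ h₁) (h.cl.sq' h₁) (by simpa using hc),
      Set.image_singleton, zpowers_eq_closure]
  obtain ⟨q1, -, q3, -, _, ⟨q4⟩⟩ := cv.master g1.2.2 g3.1 (tr_of_primitive g1 g2) hD hZ n4 ε hε h₁
    (fun _ h => h.1) m1 (C := centralizer {d₁ * d₂}) (fun g hg t ht => by
      have := norm_of_perm hD (f := ![d₁, d₂]) (by simp [h₁, h₂]) (r3 ⟨g, hg⟩)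
        (x := t) (Fin.forall_fin_two.2 ⟨ht.1, ht.1.1, ht.2⟩)
      exact ⟨this 0, (this 1).2⟩) (c1 ▸ hle)
    (c2 ▸ (closure_le _).2 (by rintro _ (rfl | rfl); exacts [m1, m2])) (c1 ▸ hK) hCL eE
    (by rw [i2, card_m22 g1 g2 g3, mul_comm]; exact card_aut_m22 g1 g2 g3)
  exact ⟨q1, q3.symm, hK ▸ hCL ▸ inf_le_inf_left _ hle, i2,
    hK ▸ ⟨(eE.le (mem_zpowers _)).1, c1 ▸ mul_mem m1 m2⟩, ⟨q4.trans (MulAut.congr e)⟩⟩

end Cfsg.Agent.S5465
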