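import Cfsg.Statements.S5466
import Cfsg.Agent.Lib.Fi.Tw24

set_option autoImplicit false
open Cfsg

namespace Cfsg.Agent.S5466

open Subgroup CA.Fi

/-- Let G be a finite group with trivial centre generated by a conjugation-invariant set D of 3-transpositions on which it acts primitively, such that for some d in D the subgroup generated by the members of D other than d commuting with d has central largest normal 2- and 3-subgroups, and suppose G with D is of type M(24), and let L be the commutator subgroup of G. Let d₁, d₂, d₃ be distinct pairwise commuting members of D, j their product, E the subgroup generated by d₁ d₂ and d₁ d₃ (a four-group lying in L), CL the centralizer of j in L and K its generalized Fitting subgroup. Then K is quasisimple with centre E, K is the centralizer of E in L, K modulo E is isomorphic to the projective special unitary group of dimension 6 over the field with four elements,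 CL/K is isomorphic to the symmetric group of degree 3, and CL modulo E is isomorphic to the full automorphism group of that unitary group. -/
theorem result {G : Type*} [Group G] [Finite G] {D : Set G} (hD : Cfsg.IsThreeTranspositionGroup D) (hprim : Cfsg.IsPrimitiveUnderConj D) (d₀ : G) (hd₀ : d₀ ∈ D) (h3 : Cfsg.pCore 3 ↥(Subgroup.closure {y : G | y ∈ D ∧ y ≠ d₀ ∧ Commute d₀ y}) ≤ Subgroup.center ↥(Subgroup.closure {y : G | y ∈ D ∧ y ≠ d₀ ∧ Commute d₀ y})) (h2 : Cfsg.pCore 2 ↥(Subgroup.closure {y : G | y ∈ D ∧ y ≠ d₀ ∧ Commute d₀ y}) ≤ Subgroup.center ↥(Subgroup.closure {y : G | y ∈ D ∧ y ≠ d₀ ∧ Commute d₀ y})) (h24 : Cfsg.IsOfTypeM24 G D) (L : Subgroup G) (hL : L = commutator G) (d₁ d₂ d₃ : G) (h₁ : d₁ ∈ D) (h₂ : d₂ ∈ D) (h₃ : d₃ ∈ D) (h12 : d₁ ≠ d₂) (h13 : d₁ ≠ d₃) (h23 : d₂ ≠ d₃) (c12 : Commute d₁ d₂) (c13 : Commute d₁ d₃) (c23 : Commute d₂ d₃) (E CL K : Subgroup G) (hE : E = Subgroup.closure ({d₁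 * d₂, d₁ * d₃} : Set G)) (hCL : CL = L ⊓ Subgroup.centralizer ({d₁ * d₂ * d₃} : Set G)) (hK : K = (Cfsg.generalizedFittingSubgroup ↥CL).map CL.subtype) : Cfsg.IsQuasisimple ↥K ∧ (Subgroup.center ↥K).map K.subtype = E ∧ K = L ⊓ Subgroup.centralizer (E : Set G) ∧ (∃ (_ : (E.subgroupOf K).Normal) (F : Type) (_ : Field F) (_ : Fintype F), Fintype.card F = 4 ∧ Nonempty (↥K ⧸ E.subgroupOf K ≃* Cfsg.PSU 6 F 2)) ∧ ∃ _ : (K.subgroupOf CL).Normal, Nonempty (↥CL ⧸ K.subgroupOf CL ≃* Equiv.Perm (Fin 3)) ∧ E ≤ CL ∧ ∃ (_ : (E.subgroupOf CL).Normal) (F : Type) (_ : Field F) (_ : Fintype F), Fintype.card F = 4 ∧ Nonempty (↥CL ⧸ E.subgroupOf CL ≃* MulAut (Cfsg.PSU 6 F 2)) := by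
  have h := t24_of hD hprim h24
  have hZ := h24.1
  obtain ⟨ε, hε, hk, -⟩ := exists_sign24 hD hprim h24
  have hx : d₂ ∈ Dd D d₁ := ⟨h₂, h12.symm, c12⟩
  have hy : d₃ ∈ Dd (Dd D d₁) d₂ := ⟨⟨h₃, h13.symm, c13⟩, h23.symm, c23⟩
  obtain ⟨φ, cv⟩ := ((h.loc _ h₁).loc _ hx).loc _ hy
  have iu : IsU6 (PSU 6 F4 2) := ⟨F4, _, _, F4.card, ⟨MulEquiv.refl _⟩⟩
  obtain ⟨e⟩ := iu.nonempty
  have : IsSimpleGroup (PU h6) := (iu.congr e).simple
  have n4 := h.norel.mono (n' := 4) (by norm_num)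
  obtain ⟨ρ, r1, r2, r3⟩ := exists_hom_three hD hZ h₁ hx hy (h.norel.mono (by norm_num))
    (h.transK.mono (h.ext.mono (by norm_num)) (by norm_num))
  obtain ⟨m1, m2, m3⟩ := h.mem_three hD hZ h₁ hx hy
  have c1 := h.cent_three hD hZ h₁ hx hy
  have c2 := h.cent_dd3 hD hZ h₁ hx hy
  have hle := cent_le_prod_three (a := d₁) (b := d₂) (c := d₃)
  rw [hL, ← hk] at hCL ⊢
  obtain ⟨ρ', s1, s2⟩ := exists_restrict ε ρ r1 r2 (hε _ h₁) (c1 ▸ m1) (hle (c1 ▸ m1))
  rw [c1] at s2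
  have eE : E = ε.ker ⊓ centralizer (Dd (Dd (Dd D d₁) d₂) d₃) := by
    rw [c2, ker_inf_closure ε (by simpa using ⟨hε _ h₂, hε _ h₃⟩) (hε _ h₁) (h.cl.sq' h₁)
      (by simpa using ⟨c12, c13⟩), Set.image_pair, hE]
  obtain ⟨q1, q2, q3, ⟨n1, ⟨q4⟩⟩, n2, ⟨q5⟩⟩ := cv.master grp6.2.2 center6 (tr_of_primitive grp6 prim6) hD hZ
    n4 ε hε h₁ (fun _ h => h.1.1) m1 (C := centralizer {d₁ * d₂ * d₃}) (fun g hg t ht => by
      have := norm_of_perm hD (f := ![d₁, d₂, d₃]) (by simp [Fin.forall_fin_succ, h₁, h₂, h₃])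
        (r3 ⟨g, hg⟩) (x := t) (Fin.forall_fin_succ.2 ⟨ht.1.1, Fin.forall_fin_two.2
          ⟨⟨ht.1.1.1, ht.1.2⟩, ht.1.1.1, ht.2⟩⟩)
      exact ⟨⟨this 0, (this 1).2⟩, (this 2).2⟩) (c1 ▸ hle)
    (c2 ▸ (closure_le _).2 (by rintro _ (rfl | rfl | rfl); exacts [m1, m2, m3])) rfl hCL eE
    (by
      subst hCL
      rw [← s2, index_ker, MonoidHom.range_eq_top.2 s1, card_top, Nat.card_perm, card_PU6, mul_comm]
      simpa [Nat.factorial] using card_aut_PU6)
  rw [q3] at hK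
  subst hK hCL
  have n3 : ((ε.ker ⊓ closure (Dd (Dd (Dd D d₁) d₂) d₃)).subgroupOf
    (ε.ker ⊓ centralizer {d₁ * d₂ * d₃})).Normal := s2 ▸ ρ'.normal_ker
  refine ⟨q1, q2, ?_, ⟨n1, F4, _, _, F4.card, ⟨q4.trans e.symm⟩⟩, n3,
    ⟨(QuotientGroup.quotientMulEquivOfEq s2.symm).trans
      (QuotientGroup.quotientKerEquivOfSurjective ρ' s1)⟩,
    eE ▸ inf_le_inf_left _ (c2 ▸ (closure_le _).2 ?_), n2, F4, _, _, F4.card,
    ⟨q5.trans (MulAut.congr e.symm)⟩⟩
  · rw [← c1, hE]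
    congr 1
    ext g
    rw [centralizer_closure, mem_cent_iff, mem_cent_iff]
    simp only [Set.mem_insert_iff, Set.mem_singleton_iff, forall_eq_or_imp, forall_eq]
    refine ⟨fun k => ⟨k.1.mul_right k.2.1, k.1.mul_right k.2.2⟩, fun k => ?_⟩
    have k1 := n4.commute_of_prods hD hZ (cq_three.2 ⟨h₁, hx, hy⟩) k.1 k.2
    exact ⟨k1, by simpa using k1.inv_right.mul_right k.1, by simpa using k1.inv_right.mul_right k.2⟩
  · rintro _ (rfl | rfl | rfl)
    exacts [hle (c1 ▸ m1), hle (c1 ▸ m2), hle (c1 ▸ m3)]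

end Cfsg.Agent.S5466
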