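import Cfsg.Statements.S5468
import Cfsg.Agent.Lib.Fi.TwCent

set_option autoImplicit false
open Cfsg

namespace Cfsg.Agent.S5468

open Subgroup CA.Fi

/-- Let G be a finite group with trivial centre generated by a conjugation-invariant set D of 3-transpositions on which it acts primitively, such that for some d in D the subgroup generated by the members of D other than d commuting with d has central largest normal 2- and 3-subgroups, and suppose G with D is of type M(23). Let d₁, d₂ be distinct commuting members of D, j = d₁ d₂, K the joint centralizer of d₁ and d₂ and C the centralizer of j. Then K has index 2 in C, the centre of K is the subgroup generated by d₁ and d₂, K is quasisimple with K modulo its centre isomorphic to the projective special unitary group of dimension 6 over the field with four elements, and C modulo the subgroup generated by d₁ and d₂ has trivial centre (so it is that unitary group extended by an outer involution). -/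
theorem result {G : Type*} [Group G] [Finite G] {D : Set G} (hD : Cfsg.IsThreeTranspositionGroup D) (hprim : Cfsg.IsPrimitiveUnderConj D) (d₀ : G) (hd₀ : d₀ ∈ D) (h3 : Cfsg.pCore 3 ↥(Subgroup.closure {y : G | y ∈ D ∧ y ≠ d₀ ∧ Commute d₀ y}) ≤ Subgroup.center ↥(Subgroup.closure {y : G | y ∈ D ∧ y ≠ d₀ ∧ Commute d₀ y})) (h2 : Cfsg.pCore 2 ↥(Subgroup.closure {y : G | y ∈ D ∧ y ≠ d₀ ∧ Commute d₀ y}) ≤ Subgroup.center ↥(Subgroup.closure {y : G | y ∈ D ∧ y ≠ d₀ ∧ Commute d₀ y})) (h23 : Cfsg.IsOfTypeM23 G D) (d₁ d₂ : G) (h₁ : d₁ ∈ D) (h₂ : d₂ ∈ D) (hne : d₁ ≠ d₂) (hc : Commute d₁ d₂) (K C V : Subgroup G) (hK : K = Subgroup.centralizer ({d₁, d₂} : Set G)) (hC : C = Subgroup.centralizer ({d₁ * d₂} : Set G)) (hV : V = Subgroup.closure ({d₁, d₂} : Set G)) [hn : (V.subgroupOf C).Normal] : K ≤ C ∧ (K.subgroupOf C).index = 2 ∧ (Subgroup.center ↥K).map K.subtype = V ∧ Cfsg.IsQuasisimple ↥K ∧ (∃ (F : Type) (_ : Field F) (_ : Fintype F), Fintype.card F = 4 ∧ Nonempty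 (↥K ⧸ Subgroup.center ↥K ≃* Cfsg.PSU 6 F 2)) ∧ Subgroup.center (↥C ⧸ V.subgroupOf C) = ⊥ := by
  have h := t23_of hD hprim h23
  have hZ := h23.1
  have hx : d₂ ∈ Dd D d₁ := ⟨h₂, hne.symm, hc⟩
  have m1 := (h.inMod h₁ hx).1.mem hD hZ
  have m2 := (h.inMod h₁ hx).2.mem hD hZ
  have hT := (h.loc _ h₁).loc _ hx
  have hKT := cent_two_eq hD hZ h.tw num23 h.stab h.rel h₁ hx (h.loc _ h₁).stab m1 m2
  have c1 : d₁ ∈ centralizer (Dd (Dd D d₁) d₂) := dd_cent _ self_cent_dd
  have cz : ∀ g ∈ centralizer (Dd (Dd D d₁) d₂), g ∈ closure ({d₁, d₂} : Set G) := fun g hg =>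
    cent_dd_two hD hZ h.tw num23 h₁ hx (h.loc _ h₁).tw num22 hg (commute_of_cent hg m1)
  have hle := cent_le_prod_two (a := d₁) (b := d₂)
  subst hK hC hV
  refine ⟨hle, index_two hD hZ h₁ hx (h.norel.mono (by norm_num))
    (h.transK.mono (h.ext.mono (by norm_num)) (by norm_num)), ?_, ?_, ?_, ?_⟩
  · rw [hKT, map_center_closure]
    refine le_antisymm (fun g hg => cz g hg.2) ((closure_le _).2 ?_)
    rintro _ (rfl | rfl)
    exacts [⟨m1, c1⟩, ⟨m2, self_cent_dd⟩]
  · rw [hKT]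
    obtain ⟨l, l1, l2, l3⟩ := h.odd h₁ hx
    exact ⟨perfect_of_odd hT.cl hT.tr l1 l2 ((cent_iff_of_group hD hZ).1 l3), hT.isU6.simple⟩
  · rw [hKT]; exact hT.isU6
  · rw [eq_bot_iff]
    intro c hc'
    obtain ⟨c, rfl⟩ := QuotientGroup.mk_surjective c
    rw [mem_bot, QuotientGroup.eq_one_iff, mem_subgroupOf]
    refine cz _ (mem_cent_iff.2 fun y hy => commute_of_conj ?_)
    have hy' : y ∈ centralizer {d₁ * d₂} := hle (hKT ▸ subset_closure hy)
    have e := mem_center_iff.1 hc' (QuotientGroup.mk ⟨y, hy'⟩)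
    rw [← QuotientGroup.mk_mul, ← QuotientGroup.mk_mul, QuotientGroup.eq, mem_subgroupOf] at e
    have hv : ((y * c)⁻¹ * (c * y) : G) ∈ closure ({d₁, d₂} : Set G) := e
    have hw := hD.2.1 (c : G)⁻¹ y hy.1.1
    have e1 : ((y * c)⁻¹ * (c * y) : G) * y = (c : G)⁻¹ * y * (c : G)⁻¹⁻¹ := by
      rw [mul_inv_rev, h.cl.inv' hy.1.1, mul_assoc _ _ y, mul_assoc _ y y, h.cl.sq' hy.1.1]; group
    have key : ∀ l : List G, Cq D (l ++ [y]) → l.length ≤ 2 → l.prod = (y * c)⁻¹ * (c * y) →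
        l = [] := fun l l1 l2 l3 => h.norel.eq_of_mul hD hZ l1 (by omega) hw (l3 ▸ e1)
    rcases mem_closure_two (h.cl.sq' h₁) (h.cl.sq' h₂) hc hv with e | e | e | e
    · rw [inv_mul_eq_one] at e
      exact conj_of_commute e.symm
    · exact absurd (key [d₁] (cq_two.2 ⟨h₁, hy.1⟩) (by simp) (by rw [e]; simp)) (by simp)
    · exact absurd (key [d₂] (cq_two.2 ⟨h₂, hy.1.1, hy.2⟩) (by simp) (by rw [e]; simp)) (by simp)
    · exact absurd (key [d₁, d₂] (cq_three.2 ⟨h₁, hx, hy⟩) (by simp) (by rw [e]; simp)) (by simp)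

end Cfsg.Agent.S5468
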