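import Cfsg.Statements.S5469
import Cfsg.Agent.Lib.Fi.J22

set_option autoImplicit false
open Cfsg

namespace Cfsg.Agent.S5469

open Subgroup CA CA.Fi CA.Fs CA.Ex2

/-- Let G be a finite group with trivial centre generated by a conjugation-invariant set D of 3-transpositions on which it acts primitively, such that for some d in D the subgroup generated by the members of D other than d commuting with d has central largest normal 2- and 3-subgroups, and suppose G with D is of type M(22). Let d₁, d₂ be distinct commuting members of D, j = d₁ d₂, K the joint centralizer of d₁ and d₂, C the centralizer of j and V the subgroup generated by d₁ and d₂. Then K has index 2 in C, V is the centre of K, and C has a normal subgroup E containing V with E/V elementary abelian of order 2^8 and C/E isomorphic to the full automorphism group of the projective special unitary group of dimension 4 over the field with four elements. -/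
theorem result {G : Type*} [Group G] [Finite G] {D : Set G} (hD : Cfsg.IsThreeTranspositionGroup D) (hprim : Cfsg.IsPrimitiveUnderConj D) (d₀ : G) (hd₀ : d₀ ∈ D) (h3 : Cfsg.pCore 3 ↥(Subgroup.closure {y : G | y ∈ D ∧ y ≠ d₀ ∧ Commute d₀ y}) ≤ Subgroup.center ↥(Subgroup.closure {y : G | y ∈ D ∧ y ≠ d₀ ∧ Commute d₀ y})) (h2 : Cfsg.pCore 2 ↥(Subgroup.closure {y : G | y ∈ D ∧ y ≠ d₀ ∧ Commute d₀ y}) ≤ Subgroup.center ↥(Subgroup.closure {y : G | y ∈ D ∧ y ≠ d₀ ∧ Commute d₀ y})) (h22 : Cfsg.IsOfTypeM22 G D) (d₁ d₂ : G) (h₁ : d₁ ∈ D) (h₂ : d₂ ∈ D) (hne : d₁ ≠ d₂) (hc : Commute d₁ d₂) (K C V : Subgroup G) (hK : K = Subgroup.centralizer ({d₁, d₂} : Set G)) (hC : C = Subgroup.centralizer ({d₁ * d₂} : Set G)) (hV : V = Subgroup.closure ({d₁, d₂} : Set G)) : K ≤ C ∧ (K.subgroupOf C).index = 2 ∧ (Subgroup.center ↥K).map K.subtype = V ∧ ∃ E : Subgroup G, V ≤ E ∧ E ≤ C ∧ (∀ c ∈ C, ∀ x ∈ E, c * x * c⁻¹ ∈ E) ∧ Nat.card E = 2 ^ 10 ∧ (∀ x ∈ E, ∀ y ∈ E, x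 * y * x⁻¹ * y⁻¹ ∈ V ∧ x ^ 2 ∈ V) ∧ ∃ (_ : (E.subgroupOf C).Normal) (F : Type) (_ : Field F) (_ : Fintype F), Fintype.card F = 4 ∧ Nonempty (↥C ⧸ E.subgroupOf C ≃* MulAut (Cfsg.PSU 4 F 2)) := by
  have hx : d₂ ∈ Dd D d₁ := ⟨h₂, hne.symm, hc⟩
  obtain ⟨t, h, rfl, rfl⟩ := model22_two hD hprim h22 h₁ hx
  have h' := t22_of hD hprim h22
  obtain ⟨E, ez, -, c2, c4, -, k, a1, φ, a2, a3, -, a5⟩ :=
    j_main h (card_m22 hD hprim h22) (card_cent_two22 hD hprim h22 h₁ hx).le
  have s4 := h'.cl.sq' h₁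
  have m4 : t 4 ∈ V := hV ▸ subset_closure (by simp)
  have m7 : t 7 ∈ V := hV ▸ subset_closure (by simp)
  have zV : zpowers (t 4 * t 7) ≤ V := zpowers_le.2 (mul_mem m4 m7)
  have na := mem_norm_of_cent c4
  have EK : E ≤ centralizer {t 4, t 7} := fun x hx => Fi.mem_cent_iff.2 (by
    have c := (Fi.mem_cent_iff.1 c4 x hx).symm
    rintro _ (rfl | rfl)
    · exact c
    · simpa using c.inv_right.mul_right (mem_cent_one.1 (ez.le_cent1 hx)))
  subst hK hC
  have hN : ((E ⊔ zpowers (t 4)).subgroupOf (centralizer {t 4 * t 7})).Normal := a3 ▸ φ.normal_ker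
  refine ⟨cent_le_prod_two, index_two hD h22.1 h₁ hx (h'.norel.mono (by norm_num)) (tr2_m22 hD hprim h22),
    le_antisymm ?_ ?_, E ⊔ zpowers (t 4), ?_, a1, fun c hc x hx => hN.conj_mem ⟨x, a1 hx⟩ hx ⟨c, hc⟩, k,
    (c2.sup_zp c4 s4).mono zV, hN, F4, inferInstance, inferInstance, rfl, ?_⟩
  · rintro _ ⟨x, hx, rfl⟩
    have h1 : (x : G) ∈ centralizer (centralizer {t 4, t 7} : Set G) := Fi.mem_cent_iff.2 fun y hy =>
      (congrArg Subtype.val (mem_center_iff.1 hx ⟨y, hy⟩)).symm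
    have h2 : (x : G) ∈ E ⊔ zpowers (t 4) := a3.le (a5 ⟨x, cent_le_prod_two x.2⟩ h1)
    have h3 : (x : G) ∈ centralizer (E : Set G) := centralizer_le EK h1
    rcases (mem_sup_zp na (s4 ▸ one_mem _)).1 h2 with e | e
    · exact zV (ez.mem_zp_of_cent e h3)
    · simpa using mul_mem (zV (ez.mem_zp_of_cent e (mul_mem h3 (inv_mem c4)))) m4
  · rw [hV, closure_le]
    intro x hx'
    have : x ∈ centralizer ({t 4, t 7} : Set G) := Fi.mem_cent_iff.2 (by
      rcases hx' with rfl | rfl <;> rintro _ (rfl | rfl)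
      exacts [Commute.refl _, hc, hc.symm, Commute.refl _])
    exact ⟨⟨x, this⟩, mem_center_iff.2 fun y => Subtype.ext (Fi.mem_cent_iff.1 y.2 x hx'), rfl⟩
  · rw [hV, closure_le]
    rintro _ (rfl | rfl)
    · exact mem_sup_right (mem_zpowers _)
    · simpa using mul_mem (inv_mem (mem_sup_right (mem_zpowers (t 4)) : _ ∈ E ⊔ _)) (mem_sup_left ez.mem)
  · exact ⟨(QuotientGroup.quotientMulEquivOfEq a3.symm).trans ((QuotientGroup.quotientKerEquivOfSurjective φ
      a2).trans (MulAut.congr (psuEquiv F4.hK 4).symm))⟩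

end Cfsg.Agent.S5469
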