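import Cfsg.Statements.S5471
import Cfsg.Agent.Lib.Fi.TwCent

set_option autoImplicit false
open Cfsg

namespace Cfsg.Agent.S5471

/-- Let G be a finite group with trivial centre generated by a conjugation-invariant set D of 3-transpositions on which it acts primitively, such that for some d in D the subgroup generated by the members of D other than d commuting with d has central largest normal 2- and 3-subgroups, and suppose G with D is of type M(23). Let d₁, d₂, d₃ be distinct pairwise commuting members of D and j their product. Then the joint centralizer of d₁, d₂, d₃ is normal in the centralizer of j with quotient isomorphic to the symmetric group of degree 3. -/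
theorem result {G : Type*} [Group G] [Finite G] {D : Set G} (hD : Cfsg.IsThreeTranspositionGroup D) (hprim : Cfsg.IsPrimitiveUnderConj D) (d₀ : G) (hd₀ : d₀ ∈ D) (h3 : Cfsg.pCore 3 ↥(Subgroup.closure {y : G | y ∈ D ∧ y ≠ d₀ ∧ Commute d₀ y}) ≤ Subgroup.center ↥(Subgroup.closure {y : G | y ∈ D ∧ y ≠ d₀ ∧ Commute d₀ y})) (h2 : Cfsg.pCore 2 ↥(Subgroup.closure {y : G | y ∈ D ∧ y ≠ d₀ ∧ Commute d₀ y}) ≤ Subgroup.center ↥(Subgroup.closure {y : G | y ∈ D ∧ y ≠ d₀ ∧ Commute d₀ y})) (h23 : Cfsg.IsOfTypeM23 G D) (d₁ d₂ d₃ : G) (h₁ : d₁ ∈ D) (h₂ : d₂ ∈ D) (h₃ : d₃ ∈ D) (h12 : d₁ ≠ d₂) (h13 : d₁ ≠ d₃) (h23 : d₂ ≠ d₃) (c12 : Commute d₁ d₂) (c13 : Commute d₁ d₃) (c23 : Commute d₂ d₃) (K C : Subgroup G) (hK : K = Subgroup.centralizer ({d₁, d₂, d₃} : Set G)) (hC : C = Subgroup.centralizer ({d₁ * d₂ * d₃} : Set G)) : K ≤ C ∧ ∃ _ : (K.subgroupOf C).Normal, Nonempty (↥C ⧸ K.subgroupOf C ≃* Equiv.Perm (Fin 3)) := by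
  rename_i h23'
  have h := CA.Fi.t23_of hD hprim h23'
  subst hK hC
  obtain ⟨ρ, h1, h2, -⟩ := CA.Fi.exists_hom_three hD h23'.1 h₁ ⟨h₂, h12.symm, c12⟩
    ⟨⟨h₃, h13.symm, c13⟩, h23.symm, c23⟩ h.norel
    (h.transK.mono (h.ext.mono (by norm_num)) (by norm_num))
  have hn : ((Subgroup.centralizer {d₁, d₂, d₃}).subgroupOf
    (Subgroup.centralizer {d₁ * d₂ * d₃})).Normal := h2 ▸ ρ.normal_ker
  exact ⟨CA.Fi.cent_le_prod_three, hn,
    ⟨(QuotientGroup.quotientMulEquivOfEq h2.symm).trans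
      (QuotientGroup.quotientKerEquivOfSurjective ρ h1)⟩⟩

end Cfsg.Agent.S5471
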