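import Cfsg.Statements.S5519
import Cfsg.Agent.Lib.Fi.J22

set_option autoImplicit false
open Cfsg

namespace Cfsg.Agent.S5519

open Subgroup CA CA.Fi CA.Fs CA.Ex2

/-- Let G be a finite group with trivial centre generated by a conjugation-invariant set D of 3-transpositions on which it acts primitively, such that for some d in D the subgroup generated by the members of D other than d commuting with d has central largest normal 2- and 3-subgroups, and suppose G with D is of type M(22). Let d₁, d₂ be distinct commuting members of D and C the centralizer of their product. Then the generalized Fitting subgroup of C is the direct product of a group of order 2 and an extraspecial 2-group of order 2^9, and C modulo it is isomorphic to the full isometry group of the elliptic quadratic form in dimension 6 over the field with two elements. -/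
theorem result {G : Type*} [Group G] [Finite G] {D : Set G} (hD : Cfsg.IsThreeTranspositionGroup D) (hprim : Cfsg.IsPrimitiveUnderConj D) (d₀ : G) (hd₀ : d₀ ∈ D) (h3 : Cfsg.pCore 3 ↥(Subgroup.closure {y : G | y ∈ D ∧ y ≠ d₀ ∧ Commute d₀ y}) ≤ Subgroup.center ↥(Subgroup.closure {y : G | y ∈ D ∧ y ≠ d₀ ∧ Commute d₀ y})) (h2 : Cfsg.pCore 2 ↥(Subgroup.closure {y : G | y ∈ D ∧ y ≠ d₀ ∧ Commute d₀ y}) ≤ Subgroup.center ↥(Subgroup.closure {y : G | y ∈ D ∧ y ≠ d₀ ∧ Commute d₀ y})) (h22 : Cfsg.IsOfTypeM22 G D) (d₁ d₂ : G) (h₁ : d₁ ∈ D) (h₂ : d₂ ∈ D) (hne : d₁ ≠ d₂) (hc : Commute d₁ d₂) (C : Subgroup G) (hC : C = Subgroup.centralizer ({d₁ * d₂} : Set G)) [hn : (Cfsg.generalizedFittingSubgroup ↥C).Normal] : (∃ (E : Type) (_ : Group E) (_ : Finite E), Cfsg.IsExtraspecial 2 E ∧ Nat.card E = 2 ^ 9 ∧ Nonempty (↥(Cfsg.generalizedFittingSubgroup ↥C) ≃* Multiplicative (ZMod 2) × E)) ∧ Nonempty (↥C ⧸ Cfsg.generalizedFittingSubgroup ↥C ≃* Cfsg.isometryGroup (ZMod 2) (Cfsg.quadFormMinus 2 (ZMod 2) 1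 1)) := by
  have hx : d₂ ∈ Dd D d₁ := ⟨h₂, hne.symm, hc⟩
  obtain ⟨t, h, rfl, rfl⟩ := model22_two hD hprim h22 h₁ hx
  obtain ⟨E, ez, k, -, c4, n4, -, a1, φ, a2, a3, a4, -⟩ :=
    j_main h (card_m22 hD hprim h22) (card_cent_two22 hD hprim h22 h₁ hx).le
  have s4 := (t22_of hD hprim h22).cl.sq' h₁
  subst hC
  obtain ⟨e1⟩ := nonempty_O6
  obtain ⟨e2⟩ := nonempty_O6'
  let f := (Shrink.mulEquiv.{0} (α := G)).symm
  have o : Nat.card (zpowers (t 4)) = 2 :=
    card_zpowers_prime Nat.prime_two ((pow_two _).trans s4) fun e => n4 (e ▸ one_mem _)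
  have hc : ∀ (x : zpowers (t 4)) (y : E), Commute ((zpowers (t 4)).subtype x) (E.subtype y) := by
    rintro ⟨_, k, rfl⟩ y
    exact (Fi.mem_cent_iff.1 c4 y y.2).zpow_left k
  have h1 := (MonoidHom.noncommCoprod_injective _ _ hc).2 ⟨subtype_injective _, subtype_injective _, by
    rw [range_subtype, range_subtype, disjoint_iff, eq_bot_iff]
    intro x hx
    exact ((mem_zp2 s4).1 hx.1).resolve_right fun e => n4 (e ▸ hx.2)⟩
  have h2 := MonoidHom.noncommCoprod_range _ _ hc
  rw [range_subtype, range_subtype, sup_comm] at h2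
  refine ⟨⟨E.map f.toMonoidHom, inferInstance, inferInstance, isExtraspecial_iff.2 (ez.es.map f.injective),
    (card_map_of_injective f.injective).trans k, ⟨?_⟩⟩, ⟨(QuotientGroup.quotientMulEquivOfEq a4).trans
      ((QuotientGroup.quotientKerEquivOfSurjective φ a2).trans (e1.symm.trans e2))⟩⟩
  exact (MulEquiv.subgroupCongr (a4.trans a3)).trans ((subgroupOfEquivOfLe a1).trans
    ((MulEquiv.subgroupCongr h2.symm).trans ((MonoidHom.ofInjective h1).symm.trans
      ((mulEquivOfPrimeCardEq o (by simp)).prodCongr (f.subgroupMap E)))))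

end Cfsg.Agent.S5519
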