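import Cfsg.Statements.S5520
import Cfsg.Agent.Lib.F24.Three
-- import your own Cfsg.Agent.* helpers here

set_option autoImplicit false
open Cfsg

namespace Cfsg.Agent.S5520

open CA in
/-- In the special unitary group of dimension 6 over the field with four elements (determinant-one matrices preserving the standard Hermitian form), the subgroups K whose centre has order 3 with K modulo its centre isomorphic to the projective special unitary group of dimension 4 over the field with nine elements fall into exactly three conjugacy classes. -/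
theorem result (F : Type) [Field F] [Fintype F] (hF : Fintype.card F = 4) (F9 : Type) [Field F9] [Fintype F9] (hF9 : Fintype.card F9 = 9) : ∃ K₁ K₂ K₃ : Subgroup ↥(Cfsg.SU 6 F 2), (∀ K ∈ [K₁, K₂, K₃], Nat.card ↥(Subgroup.center ↥K) = 3 ∧ Nonempty (↥K ⧸ Subgroup.center ↥K ≃* Cfsg.PSU 4 F9 3)) ∧ (¬ ∃ g : ↥(Cfsg.SU 6 F 2), K₁.map (MulAut.conj g).toMonoidHom = K₂) ∧ (¬ ∃ g : ↥(Cfsg.SU 6 F 2), K₁.map (MulAut.conj g).toMonoidHom = K₃) ∧ (¬ ∃ g : ↥(Cfsg.SU 6 F 2), K₂.map (MulAut.conj g).toMonoidHom = K₃) ∧ ∀ K : Subgroup ↥(Cfsg.SU 6 F 2), Nat.card ↥(Subgroup.center ↥K) = 3 → Nonempty (↥K ⧸ Subgroup.center ↥K ≃* Cfsg.PSU 4 F9 3) → ∃ g : ↥(Cfsg.SU 6 F 2), K.map (MulAut.conj g).toMonoidHom = K₁ ∨ K.map (MulAut.conj g).toMonoidHom = K₂ ∨ K.map (MulAut.conj g).toMonoidHom = K₃ := by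
  obtain ⟨θ⟩ := CA.F24.exists_su F hF
  obtain ⟨K, h1, h2, h3⟩ := CA.F24.three_classes θ
  obtain ⟨e⟩ := CA.F24.U43_iso hF9
  obtain ⟨f⟩ := CA.F24.K0_quot
  have h4 : ∀ c, Nat.card ↥(Subgroup.center ↥(K c)) = 3 ∧
      Nonempty (↥(K c) ⧸ Subgroup.center ↥(K c) ≃* Cfsg.PSU 4 F9 3) := fun c => by
    obtain ⟨k⟩ := h1 c
    exact ⟨by rw [Nat.card_congr (Subgroup.centerCongr k).toEquiv, CA.F24.center_K0, CA.F24.card_ker_phi],
      ⟨(CA.Cl.centerQuotCongr k).trans (f.trans e)⟩⟩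
  refine ⟨K 0, K 1, K 2, by simp only [List.forall_mem_cons]; exact ⟨h4 0, h4 1, h4 2, by simp⟩,
    fun ⟨g, hg⟩ => absurd (h2 _ _ g hg) (by decide), fun ⟨g, hg⟩ => absurd (h2 _ _ g hg) (by decide),
    fun ⟨g, hg⟩ => absurd (h2 _ _ g hg) (by decide), fun H a ⟨b⟩ => ?_⟩
  obtain ⟨g, c, hg⟩ := h3 H a ⟨b.trans e.symm⟩
  refine ⟨g, ?_⟩
  fin_cases c
  exacts [Or.inl hg, Or.inr (Or.inl hg), Or.inr (Or.inr hg)]

end Cfsg.Agent.S5520
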