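import Cfsg.Statements.S5541


set_option autoImplicit false
open Cfsg

namespace Cfsg.Agent.S5541

/-- Let ρ be a representation of a group H on a finite-dimensional real vector space U whose only ρ-invariant subspaces are the zero subspace and U, and suppose U carries a non-zero ρ-invariant symmetric bilinear form. Then the following are equivalent: (1) there is a non-zero ρ-equivariant commutative bilinear product on U of which every ρ-equivariant bilinear product is a scalar multiple; (2) there is a non-zero ρ-invariant trilinear form on U that is symmetric under all permutations of its arguments and of which every ρ-invariant trilinear form is a scalar multiple. -/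
theorem result {H : Type*} [Group H] {U : Type*} [AddCommGroup U] [Module ℝ U] [FiniteDimensional ℝ U] (ρ : Representation ℝ H U) (hirr : ∀ W : Submodule ℝ U, (∀ g : H, W.map (ρ g) ≤ W) → W = ⊥ ∨ W = ⊤) (B : LinearMap.BilinForm ℝ U) (hB0 : B ≠ 0) (hBs : ∀ u v, B u v = B v u) (hBi : ∀ (g : H) (u v : U), B (ρ g u) (ρ g v) = B u v) : (∃ m : U →ₗ[ℝ] U →ₗ[ℝ] U, m ≠ 0 ∧ (∀ u v, m u v = m v u) ∧ (∀ (g : H) (u v : U), m (ρ g u) (ρ g v) = ρ g (m u v)) ∧ ∀ m' : U →ₗ[ℝ] U →ₗ[ℝ] U, (∀ (g : H) (u v : U), m' (ρ g u) (ρ g v) = ρ g (m' u v)) → ∃ c : ℝ, m' = c • m) ↔ (∃ t : U →ₗ[ℝ] U →ₗ[ℝ] U →ₗ[ℝ] ℝ, t ≠ 0 ∧ (∀ u v w, t u v w = t v u w ∧ t u v w = t u w v) ∧ (∀ (g : H) (u v w : U), t (ρ g u) (ρ g v) (ρ g w) = t u v w) ∧ ∀ t' : U →ₗ[ℝ] U →ₗ[ℝ] U →ₗ[ℝ] ℝ, (∀ (g : H) (u v w : U), t' (ρ g u) (ρ g v) (ρ g w) = t' u v w) → ∃ c : ℝ, t' = c • t) := by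
  have surj : ∀ (g : H) (w : U), ∃ w', ρ g w' = w := fun g w =>
    ⟨ρ g⁻¹ w, by rw [← Module.End.mul_apply, ← map_mul, mul_inv_cancel, map_one, Module.End.one_apply]⟩
  have hl : ∀ u, (∀ v, B u v = 0) → u = 0 := by
    refine (hirr (LinearMap.ker B) (fun g => ?_)).elim (fun h => ?_) (fun h => ?_)
    rotate_left
    · intro u hu
      have : u ∈ LinearMap.ker B := LinearMap.ext hu
      rwa [h] at this
    · exact absurd (LinearMap.ker_eq_top.1 h) hB0
    · rintro _ ⟨u, hu, rfl⟩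
      refine LinearMap.ext fun v => ?_
      obtain ⟨w, rfl⟩ := surj g v
      rw [hBi, show B u = 0 from hu]; rfl
  have hnd : B.Nondegenerate := ⟨hl, fun u hu => hl u fun v => by rw [hBs]; exact hu v⟩
  have ext : ∀ u v, (∀ w, B u w = B v w) → u = v := fun u v h =>
    sub_eq_zero.1 (hl _ fun w => by simp [h w])
  have toM : ∀ t : U →ₗ[ℝ] U →ₗ[ℝ] U →ₗ[ℝ] ℝ, ∃ m : U →ₗ[ℝ] U →ₗ[ℝ] U, ∀ u v w, B (m u v) w = t u v w :=
    fun t => ⟨t.compr₂ (B.toDual hnd).symm.toLinearMap, fun u v w => by simp⟩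
  have eqv : ∀ (m : U →ₗ[ℝ] U →ₗ[ℝ] U) (t : U →ₗ[ℝ] U →ₗ[ℝ] U →ₗ[ℝ] ℝ), (∀ u v w, B (m u v) w = t u v w) →
      ((∀ (g : H) (u v : U), m (ρ g u) (ρ g v) = ρ g (m u v)) ↔
        ∀ (g : H) (u v w : U), t (ρ g u) (ρ g v) (ρ g w) = t u v w) := by
    intro m t h
    constructor
    · intro h1 g u v w
      rw [← h, h1, hBi, h]
    · intro h1 g u v
      refine ext _ _ fun w => ?_
      obtain ⟨w, rfl⟩ := surj g w
      rw [h, h1, hBi, h]
  constructor
  · rintro ⟨m, h0, h1, h2, h3⟩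
    have ht : ∀ u v w, B (m u v) w = m.compr₂ B u v w := fun _ _ _ => rfl
    generalize m.compr₂ B = t at ht
    have h4 : ∀ t' : U →ₗ[ℝ] U →ₗ[ℝ] U →ₗ[ℝ] ℝ,
        (∀ (g : H) (u v w : U), t' (ρ g u) (ρ g v) (ρ g w) = t' u v w) → ∃ c : ℝ, t' = c • t := by
      intro t' h
      obtain ⟨m', h5⟩ := toM t'
      obtain ⟨c, rfl⟩ := h3 m' ((eqv m' t' h5).2 h)
      exact ⟨c, by ext u v w; simp [← h5, ht]⟩
    have h5 := (eqv m t ht).1 h2
    have h6 : ∀ u v w, t u v w = t v u w := fun u v w => by rw [← ht, h1, ht]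
    refine ⟨t, fun h => h0 ?_, fun u v w => ⟨h6 u v w, ?_⟩, h5, h4⟩
    · ext u v
      exact hl _ fun w => by simp [ht, h]
    · obtain ⟨c, hc⟩ := h4 (LinearMap.lflip.toLinearMap ∘ₗ t) fun g u v w => h5 g u w v
      have h7 : ∀ u v w, t u w v = c * t u v w := fun u v w => by
        simpa using congrArg (fun s : U →ₗ[ℝ] U →ₗ[ℝ] U →ₗ[ℝ] ℝ => s u v w) hc
      have e1 := h7 u v w
      have e2 := h7 u w v
      have e3 := h7 w u v
      have e4 := h7 v w u
      rw [h6 w u v, h6 w v u] at e3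
      rw [h6 v u w] at e4
      -- x = t u v w, y = t u w v, z = t v w u : y = c x, x = c y, z = c y, x = c z
      have h8 : t u v w = c * c * t u v w := by linear_combination e2 + c * e1
      have h9 : t u v w = c * c * c * t u v w := by linear_combination e4 + c * e3 + c * c * e1
      linear_combination h9 - e1 - c * h8
  · rintro ⟨t, h0, h1, h2, h3⟩
    obtain ⟨m, ht⟩ := toM t
    refine ⟨m, fun h => h0 ?_, fun u v => ext _ _ fun w => by rw [ht, ht, (h1 u v w).1],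
      (eqv m t ht).2 h2, fun m' h => ?_⟩
    · ext u v w
      simp [← ht, h]
    · obtain ⟨c, hc⟩ := h3 (m'.compr₂ B) ((eqv m' _ fun _ _ _ => rfl).1 h)
      refine ⟨c, ?_⟩
      ext u v
      refine ext _ _ fun w => ?_
      simpa [ht] using congrArg (fun s : U →ₗ[ℝ] U →ₗ[ℝ] U →ₗ[ℝ] ℝ => s u v w) hc

end Cfsg.Agent.S5541
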