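import Cfsg.Statements.S5543
import Cfsg.Agent.Lib.Axial.Majorana

set_option autoImplicit false
open Cfsg

namespace Cfsg.Agent.S5543

/-- Let V be a finite-dimensional real vector space with a commutative bilinear product and a positive-definite symmetric bilinear form that associates with the product and satisfies the Norton inequality (the Majorana setting of the definitions). Let X be a group of linear automorphisms of V in which every element squares to the identity, and suppose every non-identity element x of X is a Majorana involution with an axial vector a(x) of squared length 1, such that for any two distinct non-identity x, y the product a(x) ∘ a(y) equals (1/8)(a(x) + a(y) − a(xy)) (the dihedral subalgebra of type 2A whose third axis belongs to the involution xy). Then X has order at most 4. -/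
theorem result {V : Type*} [AddCommGroup V] [Module ℝ V] [FiniteDimensional ℝ V] (mul : V →ₗ[ℝ] V →ₗ[ℝ] V) (B : LinearMap.BilinForm ℝ V) (hV : Cfsg.Axial.IsMajoranaAmbient mul B) (X : Subgroup (V ≃ₗ[ℝ] V)) (hX : ∀ x ∈ X, x * x = 1) (ax : (V ≃ₗ[ℝ] V) → V) (hax : ∀ x ∈ X, x ≠ 1 → Cfsg.Axial.IsMajoranaPair mul B x (ax x)) (h1 : ∀ x ∈ X, x ≠ 1 → B (ax x) (ax x) = 1) (h2A : ∀ x ∈ X, ∀ y ∈ X, x ≠ 1 → y ≠ 1 → x ≠ y → mul (ax x) (ax y) = (1 / 8 : ℝ) • (ax x + ax y - ax (x * y))) : Nat.card ↥X ≤ 4 := by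
  by_contra hc
  have hfin : Finite X := Nat.finite_of_card_ne_zero (by omega)
  have comm : ∀ x ∈ X, ∀ y ∈ X, x * y = y * x := fun x hx y hy => by
    have h1 := hX _ (mul_mem hx hy)
    rw [← inv_eq_of_mul_eq_one_right h1, mul_inv_rev, inv_eq_of_mul_eq_one_right (hX x hx),
      inv_eq_of_mul_eq_one_right (hX y hy)]
  have ex : ∀ s : Finset (V ≃ₗ[ℝ] V), s.card ≤ 4 → ∃ x ∈ X, x ∉ s := fun s hs => by
    by_contra h
    push Not at h
    have : (X : Set (V ≃ₗ[ℝ] V)).ncard ≤ (s : Set (V ≃ₗ[ℝ] V)).ncard := Set.ncard_le_ncard h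
    rw [Set.ncard_coe_finset, ← Nat.card_coe_set_eq] at this
    exact hc (this.trans hs)
  classical
  obtain ⟨x, hx, h2⟩ := ex {1} (by simp)
  obtain ⟨y, hy, h3⟩ := ex {1, x} (Finset.card_le_two.trans (by norm_num))
  obtain ⟨z, hz, h4⟩ := ex {1, x, y, x * y} Finset.card_le_four
  simp only [Finset.mem_insert, Finset.mem_singleton, not_or] at h2 h3 h4
  have ne1 : ∀ u ∈ X, ∀ v, v ≠ u → u * v ≠ 1 := fun u hu v h h' =>
    h (mul_left_cancel (h'.trans (hX u hu).symm))
  have ne2 : ∀ u v : V ≃ₗ[ℝ] V, v ≠ 1 → u ≠ u * v := fun u v h h' => h (by simpa using h')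
  have canc : ∀ u ∈ X, ∀ v, u * (u * v) = v := fun u hu v => by rw [← mul_assoc, hX u hu, one_mul]
  have eig : ∀ y ∈ X, y ≠ 1 → y ≠ x → mul (ax x) (ax y - ax (x * y)) = (1 / 4 : ℝ) • (ax y - ax (x * y)) := by
    intro y hy h5 h6
    rw [map_sub, h2A x hx y hy h2 h5 h6.symm, h2A x hx _ (mul_mem hx hy) h2 (ne1 x hx y h6) (ne2 x y h5),
      canc x hx]
    module
  have n1 : y * z ≠ 1 := ne1 y hy z h4.2.2.1
  have n2 : y * z ≠ x := fun h => h4.2.2.2 (by rw [← h, comm y hy z hz, mul_assoc, hX y hy, mul_one])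
  obtain ⟨c, hc⟩ := CA.Maj.fusbb' (hax x hx h2) (eig y hy h3.1 h3.2) (eig z hz h4.1 h4.2.1)
  have e : mul (ax y - ax (x * y)) (ax z - ax (x * z)) = (-1 / 4 : ℝ) • (ax (y * z) - ax (x * (y * z))) := by
    have e1 : y * (x * z) = x * (y * z) := by rw [← mul_assoc, comm y hy x hx, mul_assoc]
    have e2 : x * y * (x * z) = y * z := by rw [mul_assoc, e1, canc x hx]
    simp only [map_sub, LinearMap.sub_apply]
    rw [h2A y hy z hz h3.1 h4.1 (Ne.symm h4.2.2.1),
      h2A y hy _ (mul_mem hx hz) h3.1 (ne1 x hx z h4.2.1) (fun h => h4.2.2.2 (by rw [h, canc x hx])),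
      h2A _ (mul_mem hx hy) z hz (ne1 x hx y h3.2) h4.1 (Ne.symm h4.2.2.2),
      h2A _ (mul_mem hx hy) _ (mul_mem hx hz) (ne1 x hx y h3.2) (ne1 x hx z h4.2.1)
        (fun h => h4.2.2.1 (mul_left_cancel h).symm), e1, e2, mul_assoc x y z]
    module
  have h5 := eig _ (mul_mem hy hz) n1 n2
  rw [e, map_smul, h5] at hc
  have h6 := congrArg (mul (ax x)) hc
  rw [map_smul, map_smul, map_smul, h5, CA.Maj.idem (hax x hx h2), ← hc] at h6
  have h7 : ax (y * z) = ax (x * (y * z)) := by
    linear_combination (norm := module) (64 / 3 : ℝ) • h6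
  have h8 := CA.Maj.eq_of_axis (hax _ (mul_mem hy hz) n1)
    (h7 ▸ hax _ (mul_mem hx (mul_mem hy hz)) (ne1 x hx _ n2))
  exact h2 (by simpa using h8.symm)

end Cfsg.Agent.S5543
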