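import Cfsg.Statements.S5545
import Cfsg.Agent.Lib.Axial.Majorana

set_option autoImplicit false
open Cfsg

namespace Cfsg.Agent.S5545

/-- Let V be a finite-dimensional real vector space with a commutative bilinear product and a positive-definite symmetric bilinear form that associates with the product and satisfies the Norton inequality (the Majorana setting of the definitions). Let μ₀, μ₁ be commuting Majorana involutions with distinct axial vectors a₀ ≠ a₁ of squared length 1, each involution having no other axial vector. Then either a₀ and a₁ are orthogonal with a₀ ∘ a₁ = 0 (type 2B), or their inner product is 1/8 and, with a₂ = a₀ + a₁ − 8 a₀ ∘ a₁, the vector a₂ is an idempotent and a₀ ∘ a₂ = (1/8)(a₀ + a₂ − a₁), a₁ ∘ a₂ = (1/8)(a₁ + a₂ − a₀) (type 2A: the three idempotents span a subalgebra with aᵢ ∘ aⱼ = (1/8)(aᵢ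 + aⱼ − aₖ)). -/
theorem result {V : Type*} [AddCommGroup V] [Module ℝ V] [FiniteDimensional ℝ V] (mul : V →ₗ[ℝ] V →ₗ[ℝ] V) (B : LinearMap.BilinForm ℝ V) (hV : Cfsg.Axial.IsMajoranaAmbient mul B) (μ₀ μ₁ : V ≃ₗ[ℝ] V) (a₀ a₁ : V) (h₀ : Cfsg.Axial.IsMajoranaPair mul B μ₀ a₀) (h₁ : Cfsg.Axial.IsMajoranaPair mul B μ₁ a₁) (hu₀ : ∀ a : V, Cfsg.Axial.IsMajoranaPair mul B μ₀ a → a = a₀) (hu₁ : ∀ a : V, Cfsg.Axial.IsMajoranaPair mul B μ₁ a → a = a₁) (hn₀ : B a₀ a₀ = 1) (hn₁ : B a₁ a₁ = 1) (hc : μ₀ * μ₁ = μ₁ * μ₀) (hne : a₀ ≠ a₁) : (B a₀ a₁ = 0 ∧ mul a₀ a₁ = 0) ∨ (B a₀ a₁ = 1 / 8 ∧ mul (a₀ + a₁ - (8 : ℝ) • mul a₀ a₁) (a₀ + a₁ - (8 : ℝ) • mul a₀ a₁) = a₀ + a₁ - (8 : ℝ) • mul a₀ a₁ ∧ mul a₀ (a₀ + a₁ - (8 : ℝ) • mul a₀ a₁) = (1 / 8 : ℝ) • (a₀ + (a₀ + a₁ - (8 : ℝ) • mul a₀ a₁) - a₁) ∧ mul a₁ (a₀ + a₁ - (8 : ℝ) • mul a₀ a₁) = (1 / 8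 : ℝ) • (a₁ + (a₀ + a₁ - (8 : ℝ) • mul a₀ a₁) - a₀)) := by
  have key : ∀ (μ₀ μ₁ : V ≃ₗ[ℝ] V) (a₀ a₁ : V), Cfsg.Axial.IsMajoranaPair mul B μ₀ a₀ →
      Cfsg.Axial.IsMajoranaPair mul B μ₁ a₁ → (∀ a : V, Cfsg.Axial.IsMajoranaPair mul B μ₁ a → a = a₁) →
      B a₀ a₀ = 1 → μ₀ * μ₁ = μ₁ * μ₀ →
      mul a₀ (mul a₀ a₁) = (1 / 4 : ℝ) • mul a₀ a₁ + (3 / 4 * B a₀ a₁) • a₀ ∧
      mul (a₁ + (3 * B a₀ a₁) • a₀ - (4 : ℝ) • mul a₀ a₁) ((4 : ℝ) • mul a₀ a₁ - (4 * B a₀ a₁) • a₀) =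
        (1 / 2 - B a₀ a₁ / 4) • ((4 : ℝ) • mul a₀ a₁ - (4 * B a₀ a₁) • a₀) := by
    intro μ₀ μ₁ a₀ a₁ h₀ h₁ hu₁ hn₀ hc
    have h2 := CA.Maj.conj h₁ μ₀ h₀.1 h₀.2.1
    rw [hc, mul_inv_cancel_right] at h2
    obtain ⟨-, h3, h4⟩ := CA.Maj.eigvecs hV h₀ hn₀ a₁
    rw [hu₁ _ h2] at h3 h4
    have e1 : (-4 : ℝ) • (mul a₀ a₁ - (1 / 32 : ℝ) • (a₀ + a₁)) + (3 * B a₀ a₁ - 1 / 8) • a₀
      + (7 / 16 : ℝ) • (a₁ + a₁) = a₁ + (3 * B a₀ a₁) • a₀ - (4 : ℝ) • mul a₀ a₁ := by module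
    have e2 : (4 : ℝ) • (mul a₀ a₁ - (1 / 32 : ℝ) • (a₀ + a₁)) + (1 / 8 - 4 * B a₀ a₁) • a₀
      + (1 / 16 : ℝ) • (a₁ + a₁) = (1 / 4 : ℝ) • a₁ + ((4 : ℝ) • mul a₀ a₁ - (4 * B a₀ a₁) • a₀)
        - (1 / 4 : ℝ) • a₁ + (0 : ℝ) • a₁ + (1 / 8 - 1 / 8 : ℝ) • a₁ := by module
    rw [e1] at h3
    have h5 : mul a₀ (mul a₀ a₁) = (1 / 4 : ℝ) • mul a₀ a₁ + (3 / 4 * B a₀ a₁) • a₀ := by
      simp only [map_add, map_sub, map_smul, CA.Maj.idem h₀] at h3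
      linear_combination (norm := module) (-1 / 4 : ℝ) • h3
    refine ⟨h5, ?_⟩
    generalize hα : a₁ + (3 * B a₀ a₁) • a₀ - (4 : ℝ) • mul a₀ a₁ = α at h3 ⊢
    have h6 : mul a₀ ((4 : ℝ) • mul a₀ a₁ - (4 * B a₀ a₁) • a₀) =
        (1 / 4 : ℝ) • ((4 : ℝ) • mul a₀ a₁ - (4 * B a₀ a₁) • a₀) := by
      simp only [map_sub, map_smul, CA.Maj.idem h₀, h5]; module
    generalize hβ : (4 : ℝ) • mul a₀ a₁ - (4 * B a₀ a₁) • a₀ = β at h6 ⊢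
    have h7 : a₁ = B a₀ a₁ • a₀ + α + β := by rw [← hα, ← hβ]; module
    generalize B a₀ a₁ = l at h7 ⊢
    have h8 := CA.Maj.idem h₁
    rw [h7] at h8
    simp only [map_add, map_smul, LinearMap.add_apply, LinearMap.smul_apply, CA.Maj.idem h₀, h3, h6,
      hV.1 α a₀, hV.1 β a₀, hV.1 β α] at h8
    have h9 := CA.Maj.fus00 h₀ h3 h3
    have h10 := CA.Maj.fus0b h₀ h3 h6
    obtain ⟨c, h11⟩ := CA.Maj.fusbb' h₀ h6 h6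
    have h12 := congrArg (mul a₀) h8
    simp only [map_add, map_smul, CA.Maj.idem h₀, h3, h6, h9, h10, h11, map_zero] at h12
    have h13 := congrArg (mul a₀) h12
    simp only [map_add, map_smul, CA.Maj.idem h₀, h3, h6, h9, h10, h11, map_zero] at h13
    linear_combination (norm := module) (8 / 3 : ℝ) • h12 - (8 / 3 : ℝ) • h13
  obtain ⟨k1, k2⟩ := key μ₀ μ₁ a₀ a₁ h₀ h₁ hu₁ hn₀ hc
  obtain ⟨k3, k4⟩ := key μ₁ μ₀ a₁ a₀ h₁ h₀ hu₀ hn₁ hc.symm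
  rw [hV.1 a₁ a₀, hV.2.1 a₁ a₀] at k3 k4
  have i0 := CA.Maj.idem h₀
  have i1 := CA.Maj.idem h₁
  have b1 : B a₁ (mul a₀ a₁) = B a₀ a₁ := by rw [hV.1 a₀ a₁, hV.2.2.2.1, i1, hV.2.1]
  have b2 : B (mul a₀ a₁) (mul a₀ a₁) = B a₁ (mul a₀ (mul a₀ a₁)) := by
    rw [hV.2.2.2.1 a₁, hV.1 a₁ a₀]
  have c1 := hV.1 a₁ a₀
  have c2 := hV.1 (mul a₀ a₁) a₀
  have c3 := hV.1 (mul a₀ a₁) a₁
  have b3 := hV.2.1 a₁ a₀
  generalize hp : mul a₀ a₁ = p at *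
  generalize B a₀ a₁ = l at *
  simp only [map_add, map_sub, map_smul, LinearMap.add_apply, LinearMap.sub_apply, LinearMap.smul_apply,
    i0, i1, hp, c1, c2, c3, k1, k3] at k2 k4 ⊢
  have h2 : (8 * l ^ 2 - l) • (a₀ - a₁) = 0 := by linear_combination (norm := module) k2 - k4
  have h3 : l * (8 * l - 1) = 0 := by
    have := (smul_eq_zero.1 h2).resolve_right (sub_ne_zero.2 hne)
    linarith
  rcases mul_eq_zero.1 h3 with rfl | h4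
  · left
    refine ⟨rfl, ?_⟩
    by_contra h5
    have := hV.2.2.1 p h5
    rw [b2, k1] at this
    simp [b1] at this
  · right
    obtain rfl : l = 1 / 8 := by linarith
    refine ⟨rfl, ?_, by module, by module⟩
    linear_combination (norm := module) (-4 : ℝ) • k2

end Cfsg.Agent.S5545
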