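import Cfsg.Statements.S5546
import Cfsg.Agent.Lib.Golay.Leech2

set_option autoImplicit false
open Cfsg

namespace Cfsg.Agent.S5546
open CA.Gol
open scoped Pointwise

instance instFactPrime13 : Fact (Nat.Prime 13) := ⟨by norm_num⟩

/-- reduction modulo 13 -/
def red (x : ZV) : GolayPt → ZMod 13 := fun p => (x p : ZMod 13)

/-- the vectors `8 e_q` -/
def e8 (q : GolayPt) : leechLattice := ⟨_, eight_mem (iz {q})⟩

/-- the matrix of an automorphism modulo 13 -/
def mat (g : Co0) : Matrix GolayPt GolayPt (ZMod 13) := fun p q => 5 * red (g • e8 q : leechLattice) p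

theorem mat_mulVec (g : Co0) (v : leechLattice) : (mat g).mulVec (red v) = red (g • v : leechLattice) := by
  have h1 : (8 : ℤ) • v = ∑ q, v.1 q • e8 q := by
    apply Subtype.ext
    funext p
    rw [AddSubgroup.val_finsetSum, Finset.sum_apply,
      Finset.sum_eq_single p (fun b _ hb => by simp [e8, iz, hb.symm]) (by simp)]
    simp [e8, iz, mul_comm]
  have h2 : (8 : ℤ) • (g • v) = ∑ q, v.1 q • (g • e8 q) := by
    rw [← co_zsmul, h1]
    refine (map_sum (coHom g) _ _).trans (Finset.sum_congr rfl fun q _ => co_zsmul g _ _)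
  funext p
  have h3 := congrArg (fun w : leechLattice => (w.1 p : ZMod 13)) h2
  simp only [AddSubgroup.val_finsetSum, Finset.sum_apply, AddSubgroupClass.coe_zsmul, Pi.smul_apply, smul_eq_mul,
    Int.cast_sum, Int.cast_mul] at h3
  simp only [Matrix.mulVec, dotProduct, mat, red, mul_assoc, ← Finset.mul_sum]
  simp only [mul_comm _ ((v.1 _ : ℤ) : ZMod 13)]
  rw [← h3, ← mul_assoc, show (5 : ZMod 13) * ((8 : ℤ) : ZMod 13) = 1 by decide, one_mul]

theorem red_surj (w : GolayPt → ZMod 13) : ∃ v : leechLattice, red v = w := by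
  refine ⟨⟨_, eight_mem fun p => 5 * ((w p).val : ℤ)⟩, funext fun p => ?_⟩
  simp only [red, Pi.smul_apply, smul_eq_mul]
  push_cast
  rw [ZMod.natCast_zmod_val, ← mul_assoc, show (8 : ZMod 13) * 5 = 1 by decide, one_mul]

/-- the representation modulo 13 -/
def rho : Co0 →* Module.End (ZMod 13) (GolayPt → ZMod 13) where
  toFun g := Matrix.mulVecLin (mat g)
  map_one' := LinearMap.ext fun w => by
    obtain ⟨v, rfl⟩ := red_surj w
    rw [Matrix.mulVecLin_apply, mat_mulVec, one_smul]; rfl
  map_mul' g k := LinearMap.ext fun w => by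
    obtain ⟨v, rfl⟩ := red_surj w
    rw [Module.End.mul_apply, Matrix.mulVecLin_apply, Matrix.mulVecLin_apply, Matrix.mulVecLin_apply, mat_mulVec,
      mat_mulVec, mat_mulVec, mul_smul]

theorem rho_red (g : Co0) (v : leechLattice) : rho g (red v) = red (g • v : leechLattice) := mat_mulVec g v

theorem rho_inj {g : Co0} (h : rho g = 1) : g = 1 := by
  apply Subtype.ext
  apply Equiv.ext
  refine eq_top_of_short (H := (coHom g).eqLocus (AddMonoidHom.id _)) fun v hv _ => ?_
  have h1 := rho_red g v
  rw [h, Module.End.one_apply] at h1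
  have h2 : (g • v : leechLattice).1 - v.1 = (13 : ℤ) • fun p => ((g • v : leechLattice).1 p - v.1 p) / 13 := by
    funext p
    have := (ZMod.intCast_eq_intCast_iff' _ _ 13).1 (congrFun h1 p)
    simp only [Pi.smul_apply, Pi.sub_apply, smul_eq_mul]
    push_cast at this
    omega
  have h3 := sqNorm_sub (g • v : leechLattice).1 v.1
  have h4 := sqNorm_add (g • v : leechLattice).1 v.1
  have h5 := sqNorm_nonneg ((g • v : leechLattice).1 + v.1)
  have h6 := sqNorm_nonneg fun p => ((g • v : leechLattice).1 p - v.1 p) / 13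
  have h7 := congrArg sqNorm h2
  rw [sqNorm_smul] at h7
  rw [co_norm, hv] at h3 h4
  have h8 : sqNorm ((g • v : leechLattice).1 - v.1) = 0 := by omega
  exact Subtype.ext (sub_eq_zero.1 (sqNorm_eq_zero h8))

/-- inner product with the short vector -/
def lam : (GolayPt → ZMod 13) →ₗ[ZMod 13] ZMod 13 where
  toFun w := ∑ p, w p * red Spor.vecU p
  map_add' a b := by simp only [add_mul, Finset.sum_add_distrib, Pi.add_apply]
  map_smul' a b := by simp only [Finset.mul_sum, mul_assoc, Pi.smul_apply, smul_eq_mul, RingHom.id_apply]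

theorem lam_red (x : ZV) : lam (red x) = (dotInt x Spor.vecU : ℤ) := by
  simp [lam, red, dotInt]

theorem lam_u : lam (red Spor.vecU) = 6 := by rw [lam_red]; decide +kernel

theorem finrank_ker : Module.finrank (ZMod 13) (LinearMap.ker lam) = 23 := by
  have h1 := lam.finrank_range_add_finrank_ker
  have h2 : LinearMap.range lam = ⊤ := by
    rw [LinearMap.range_eq_top]
    intro a
    exact ⟨(a * 11) • red Spor.vecU, by
      rw [map_smul, lam_u, smul_eq_mul, mul_assoc, show (11 : ZMod 13) * 6 = 1 by decide, mul_one]⟩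
  rw [h2, finrank_top, Module.finrank_self, Module.finrank_fintype_fun_eq_card, card_golayPt] at h1
  omega

theorem lam_rho (g : Co0) (hg : g • Spor.leechU = Spor.leechU) (w : GolayPt → ZMod 13) : lam (rho g w) = lam w := by
  obtain ⟨v, rfl⟩ := red_surj w
  have := co_dot g v Spor.leechU
  rw [hg] at this
  rw [rho_red, lam_red, lam_red]
  exact congrArg _ this

/-- inclusion -/
def inc : Spor.Co2 →* Co0 := Subgroup.inclusion inf_le_left

theorem inc_u (g : Spor.Co2) : inc g • Spor.leechU = Spor.leechU := g.2.2

attribute [irreducible] rho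

theorem rho_maps (g : Spor.Co2) : ∀ w ∈ LinearMap.ker lam, rho (inc g) w ∈ LinearMap.ker lam := fun w hw => by
  rw [LinearMap.mem_ker, lam_rho _ (inc_u g)]; exact hw

/-- the action on the orthogonal complement of the short vector -/
def rho2 : Spor.Co2 →* Module.End (ZMod 13) (LinearMap.ker lam) where
  toFun g := (rho (inc g)).restrict (rho_maps g)
  map_one' := LinearMap.ext fun w => Subtype.ext (by
    rw [LinearMap.restrict_coe_apply, map_one, map_one]; rfl)
  map_mul' g k := LinearMap.ext fun w => Subtype.ext (by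
    rw [Module.End.mul_apply, LinearMap.restrict_coe_apply, LinearMap.restrict_coe_apply,
      LinearMap.restrict_coe_apply, map_mul, map_mul]; rfl)

theorem rho2_apply (g : Spor.Co2) (w : LinearMap.ker lam) : (rho2 g w).1 = rho (inc g) w := rfl

theorem rho2_inj : Function.Injective rho2 := by
  rw [injective_iff_map_eq_one]
  intro g hg
  have h1 : rho (inc g) = 1 := by
    apply LinearMap.ext
    intro w
    have h2 : w - (lam w * 11) • red Spor.vecU ∈ LinearMap.ker lam := by
      rw [LinearMap.mem_ker, map_sub, map_smul, lam_u, smul_eq_mul, mul_assoc, show (11 : ZMod 13) * 6 = 1 by decide,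
        mul_one, sub_self]
    have h3 := rho2_apply g ⟨_, h2⟩
    rw [hg, Module.End.one_apply] at h3
    have h4 := rho_red (inc g) Spor.leechU
    rw [inc_u] at h4
    replace h4 : rho (inc g) (red Spor.vecU) = red Spor.vecU := h4
    simp only [map_sub, map_smul, h4, sub_left_inj] at h3
    exact h3.symm
  exact Subgroup.inclusion_injective _ ((rho_inj h1).trans (map_one _).symm)


/-- The second Conway group (the stabilizer in the Leech lattice automorphism group of the short vector fixed in the definitions) is isomorphic to a subgroup of the general linear group of degree 23 over the field with 13 elements: there is an injective homomorphism into it. -/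
theorem result : ∃ f : ↥Cfsg.Spor.Co2 →* GL (Fin 23) (ZMod 13), Function.Injective f := by
  let b := Module.finBasisOfFinrankEq (ZMod 13) (LinearMap.ker lam) finrank_ker
  refine ⟨((LinearMap.toMatrixAlgEquiv b).toMulEquiv.toMonoidHom.comp rho2).toHomUnits, fun g k e => ?_⟩
  exact rho2_inj ((LinearMap.toMatrixAlgEquiv b).injective (congrArg Units.val e))

end Cfsg.Agent.S5546
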