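import Cfsg.Statements.S5548
import Cfsg.Agent.Lib.Golay.Mod

set_option autoImplicit false
open Cfsg

namespace Cfsg.Agent.S5548
open CA.Gol
open scoped Pointwise


/-- For the automorphism group of the length-24 binary Golay code of the definitions (the Mathieu group of degree 24) acting on binary words of length 24 by permuting coordinates, the only invariant subspaces of the space of all words are: zero, the span of the all-ones word, the code itself, the even-weight words, and the whole space. (So the permutation module has a unique composition series.) -/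
theorem result (W : Submodule (ZMod 2) (Cfsg.GolayPt → ZMod 2)) (hW : ∀ σ ∈ Cfsg.M24, ∀ w ∈ W, (fun p => w (σ.symm p)) ∈ W) : W = ⊥ ∨ W = Submodule.span (ZMod 2) {fun _ => (1 : ZMod 2)} ∨ W = Cfsg.golayCode ∨ (W : Set (Cfsg.GolayPt → ZMod 2)) = {w | ∑ p, w p = 0} ∨ W = ⊤ := by
  have hI := invFam_of_submodule hW
  by_cases hodd : ∃ s, ind s ∈ W ∧ ¬ Even s.card
  · obtain ⟨s, hs, h⟩ := hodd
    refine Or.inr (Or.inr (Or.inr (Or.inr (eq_top_iff.2 fun w _ => ?_))))
    rw [← ind_support w]
    exact hI.of_odd h hs _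
  push Not at hodd
  by_cases hc : ∃ s, ind s ∈ W ∧ s ∉ CW
  · obtain ⟨s, hs, h⟩ := hc
    refine Or.inr (Or.inr (Or.inr (Or.inl ?_)))
    ext w
    rw [← ind_support w, Set.mem_setOf_eq, sum_ind, ZMod.natCast_eq_zero_iff_even]
    exact ⟨hodd _, hI.of_not_code h hs⟩
  push Not at hc
  by_cases h : ∀ s, ind s ∈ W → s = ∅ ∨ s = Finset.univ
  · by_cases h1 : (fun _ => (1 : ZMod 2)) ∈ W
    · exact Or.inr (Or.inl (eq_span_one h1 h))
    · refine Or.inl (eq_bot_iff.2 fun w hw => ?_)
      rw [← ind_support w] at hw ⊢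
      rcases h _ hw with e | e
      · rw [e, ind_empty]; exact zero_mem _
      · rw [e, ind_univ] at hw; exact absurd hw h1
  · push Not at h
    obtain ⟨s, hs, h0, h2⟩ := h
    refine Or.inr (Or.inr (Or.inl (le_antisymm (fun w hw => ?_) fun w hw => ?_)))
    · rw [← support_mem_CW]; exact hc _ (by rwa [ind_support])
    · rw [← ind_support w]
      exact hI.of_code (hc s hs) h0.ne_empty h2 hs (support_mem_CW.2 hw)

end Cfsg.Agent.S5548
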