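import Cfsg.Statements.S5549
import Cfsg.Agent.Lib.Golay.Mod

set_option autoImplicit false
open Cfsg

namespace Cfsg.Agent.S5549
open CA.Gol
open scoped Pointwise

/-- number of octads and complements of octads meeting `u` oddly -/
noncomputable def NN (u : Finset GolayPt) : ℕ :=
  {s | s ∈ CW ∧ ((s.card = 8 ∨ s.card = 16) ∧ ¬ Even (u ∩ s).card)}.ncard

theorem famCW : Fam CW (fun i => fs (enc i)) (fun _ => true) 4096 where
  mem i hi _ := enc_mem_CW hi
  surj x hx := by
    obtain ⟨i, hi, rfl⟩ := exists_enc hx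
    exact ⟨i, hi, rfl, rfl⟩
  inj i hi j hj _ _ e := by
    have := fs_inj (enc_lt hi) (enc_lt hj) e
    rw [← enc_land hi, this, enc_land hj]

theorem NN_fs (m : ℕ) : NN (fs m) = countLt (fun i => true && ((Nat.beq (popc (enc i)) 8 || Nat.beq (popc (enc i)) 16)
    && Nat.beq (Nat.mod (popc (Nat.land m (enc i))) 2) 1)) 4096 := by
  apply famCW.ncard
  intro i _ _
  rw [← fs_land, card_fs, card_fs, Bool.and_eq_true, Bool.or_eq_true, beq_iff, beq_iff, beq_iff, Nat.not_even_iff]
  rfl

theorem NN_smul {g : Equiv.Perm GolayPt} (hg : g ∈ M24) (u : Finset GolayPt) : NN u = NN (g • u) :=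
  ncard_inv_transport (B := CW) (P := fun u s : Finset GolayPt => (s.card = 8 ∨ s.card = 16) ∧ ¬ Even (u ∩ s).card)
    hg rfl (fun g hg b hb => smul_mem_CW hg hb) (fun b => by rw [← smul_inter, card_smul, card_smul])

theorem NN_two {u : Finset GolayPt} (hu : u.card = 2) : NN u = 704 := by
  obtain ⟨g, hg, e⟩ := exists_smul_eq (s := u) (t := fs 3) (by omega) (by rw [hu, card_fs]; decide +kernel)
  rw [NN_smul hg, e, NN_fs]; decide +kernel

theorem NN_four {u : Finset GolayPt} (hu : u.card = 4) : NN u = 768 := by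
  obtain ⟨g, hg, e⟩ := exists_smul_eq (s := u) (t := fs 15) (by omega) (by rw [hu, card_fs]; decide +kernel)
  rw [NN_smul hg, e, NN_fs]; decide +kernel

theorem NN_zero : NN ∅ = 0 := by simp [NN]

theorem sum_mul_ind (w : GolayPt → ZMod 2) (u : Finset GolayPt) :
    ∑ p, w p * ind u p = ((u ∩ support₂ w).card : ZMod 2) := by
  rw [← sum_ind]
  refine Finset.sum_congr rfl fun p _ => ?_
  simp only [ind, Finset.mem_inter, mem_support]
  rcases zmod2_cases (w p) with h | h <;> simp [h]

theorem exists_rep (φ : golayCode →ₗ[ZMod 2] ZMod 2) :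
    ∃ u : Finset GolayPt, u.card ≤ 4 ∧ ∀ c : golayCode, φ c = ((u ∩ support₂ c.1).card : ZMod 2) := by
  obtain ⟨ψ, hψ⟩ := LinearMap.exists_extend φ
  obtain ⟨u, hu, hc⟩ := exists_small_rep (support₂ fun p => ψ fun j => if p = j then 1 else 0)
  refine ⟨u, hu, fun c => ?_⟩
  have h1 : φ c = ψ c := by rw [← hψ]; rfl
  rw [h1, LinearMap.pi_apply_eq_sum_univ]
  set s := support₂ fun p => ψ fun j => if p = j then 1 else 0 with hs
  have h2 : ∀ p, (ψ fun j => if p = j then 1 else 0) = ind s p := fun p => by rw [hs, ind_support]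
  simp only [h2, smul_eq_mul, sum_mul_ind]
  have h3 := card_symmDiff_inter s u (support₂ c.1)
  have h4 := even_card_inter hc (support_mem_CW.2 c.2)
  rw [ZMod.natCast_eq_natCast_iff']
  rw [Nat.even_iff] at h4
  omega

theorem common_point {a0 : GolayPt} (u : GolayPt → Finset GolayPt) (h2 : ∀ b ≠ a0, (u b).card = 2)
    (h1 : ∀ b ≠ a0, ∀ c ≠ a0, b ≠ c → (u b ∩ u c).card = 1) : ∃ q, ∀ b ≠ a0, q ∈ u b := by
  by_contra hcon
  push Not at hcon
  obtain ⟨b0, hb0⟩ := exists_notMem (s := {a0}) (by simp)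
  rw [Finset.mem_singleton] at hb0
  obtain ⟨x, y, hxy, e⟩ := Finset.card_eq_two.1 (h2 b0 hb0)
  obtain ⟨b1, hb1, hx⟩ := hcon x
  obtain ⟨b2, hb2, hy⟩ := hcon y
  have meet : ∀ b ≠ a0, ∀ c ≠ a0, ∃ p, p ∈ u b ∧ p ∈ u c := by
    intro b hb c hc
    by_cases hbc : b = c
    · obtain ⟨p, hp⟩ := Finset.card_pos.1 (show 0 < (u b).card by rw [h2 b hb]; norm_num)
      exact ⟨p, hp, hbc ▸ hp⟩
    · obtain ⟨p, hp⟩ := Finset.card_pos.1 (show 0 < (u b ∩ u c).card by rw [h1 b hb c hc hbc]; norm_num)
      exact ⟨p, Finset.mem_inter.1 hp⟩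
  obtain ⟨z, hz1, hz2⟩ := meet b1 hb1 b2 hb2
  have hy1 : y ∈ u b1 := by
    obtain ⟨p, hp, hp'⟩ := meet b0 hb0 b1 hb1
    rw [e, Finset.mem_insert, Finset.mem_singleton] at hp
    rcases hp with rfl | rfl
    · exact absurd hp' hx
    · exact hp'
  have hx2 : x ∈ u b2 := by
    obtain ⟨p, hp, hp'⟩ := meet b0 hb0 b2 hb2
    rw [e, Finset.mem_insert, Finset.mem_singleton] at hp
    rcases hp with rfl | rfl
    · exact hp'
    · exact absurd hp' hy
  have hzx : z ≠ x := fun h => hx (h ▸ hz1)
  have hzy : z ≠ y := fun h => hy (h ▸ hz2)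
  have pair : ∀ b ≠ a0, ∀ p q, p ≠ q → p ∈ u b → q ∈ u b → u b = {p, q} := by
    intro b hb p q hpq hp hq
    symm
    apply Finset.eq_of_subset_of_card_le _ (by rw [h2 b hb, Finset.card_pair hpq])
    intro r hr
    rw [Finset.mem_insert, Finset.mem_singleton] at hr
    rcases hr with rfl | rfl <;> assumption
  have e1 := pair b1 hb1 y z hzy.symm hy1 hz1
  have e2 := pair b2 hb2 x z hzx.symm hx2 hz2
  have hsub : ∀ b ≠ a0, u b = {x, y} ∨ u b = {y, z} ∨ u b = {x, z} := by
    intro b hb
    obtain ⟨p0, hp0, hp0'⟩ := meet b hb b0 hb0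
    obtain ⟨p1, hp1, hp1'⟩ := meet b hb b1 hb1
    obtain ⟨p2, hp2, hp2'⟩ := meet b hb b2 hb2
    rw [e, Finset.mem_insert, Finset.mem_singleton] at hp0'
    rw [e1, Finset.mem_insert, Finset.mem_singleton] at hp1'
    rw [e2, Finset.mem_insert, Finset.mem_singleton] at hp2'
    have k1 := pair b hb x y hxy
    have k2 := pair b hb y z hzy.symm
    have k3 := pair b hb x z hzx.symm
    rcases hp0' with rfl | rfl <;> rcases hp1' with rfl | rfl <;> rcases hp2' with rfl | rfl <;> tauto
  have hinj : Set.InjOn u (Finset.univ.erase a0 : Finset GolayPt) := by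
    intro b hb c hc h
    by_contra hbc
    have := h1 b (by simpa using hb) c (by simpa using hc) hbc
    rw [h, Finset.inter_self, h2 c (by simpa using hc)] at this
    omega
  have := Finset.card_le_card_of_injOn (t := ({{x, y}, {y, z}, {x, z}} : Finset (Finset GolayPt))) u
    (fun b hb => by simpa using hsub b (by simpa using hb)) hinj
  rw [Finset.card_erase_of_mem (Finset.mem_univ _), Finset.card_univ, card_golayPt] at this
  have h3 := Finset.card_le_three (a := ({x, y} : Finset GolayPt)) (b := {y, z}) (c := {x, z})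
  omega

theorem support_add_one (w : GolayPt → ZMod 2) :
    support₂ (w + fun _ => (1 : ZMod 2)) = Finset.univ \ support₂ w := by
  ext p
  simp only [mem_support, Finset.mem_sdiff, Finset.mem_univ, true_and, Pi.add_apply]
  rcases zmod2_cases (w p) with h | h <;> simp [h]

theorem support_smul (σ : Equiv.Perm GolayPt) (w : GolayPt → ZMod 2) :
    support₂ (fun p => w (σ.symm p)) = σ • support₂ w := by
  ext p
  rw [mem_smul_iff, mem_support, mem_support]; rfl

theorem cast_pair (w : GolayPt → ZMod 2) {a b : GolayPt} (hab : a ≠ b) :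
    ((({a, b} : Finset GolayPt) ∩ support₂ w).card : ZMod 2) = w a + w b := by
  rw [← sum_mul_ind]
  simp only [ind, mul_ite, mul_one, mul_zero]
  rw [Finset.sum_ite_mem, Finset.univ_inter, Finset.sum_pair hab]


/-- Let X be a group of linear automorphisms of the length-24 binary Golay code of the definitions that fix the all-ones word, containing the coordinate-permutation action of every element of the code's automorphism group (the Mathieu group of degree 24), and such that every element of X sends each codeword into its orbit under that Mathieu group up to adding the all-ones word (X has the same orbits as the Mathieu group on the code modulo the all-ones word). Then every element of X agrees, modulo the all-ones word, with the action of a single element of the Mathieu group: X induces exactly the Mathieu group on the code modulo the all-ones word. -/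
theorem result (X : Subgroup (↥Cfsg.golayCode ≃ₗ[ZMod 2] ↥Cfsg.golayCode)) (h1 : ∀ x ∈ X, ∀ e : ↥Cfsg.golayCode, (e : (Cfsg.GolayPt → ZMod 2)) = (fun _ => (1 : ZMod 2)) → x e = e) (hM : ∀ σ ∈ Cfsg.M24, ∃ x ∈ X, ∀ c : ↥Cfsg.golayCode, ((x c : ↥Cfsg.golayCode) : (Cfsg.GolayPt → ZMod 2)) = fun p => (c : (Cfsg.GolayPt → ZMod 2)) (σ.symm p)) (horb : ∀ x ∈ X, ∀ c : ↥Cfsg.golayCode, ∃ σ ∈ Cfsg.M24, ((x c : ↥Cfsg.golayCode) : (Cfsg.GolayPt → ZMod 2)) = (fun p => (c : (Cfsg.GolayPt → ZMod 2)) (σ.symm p)) ∨ ((x c : ↥Cfsg.golayCode) : (Cfsg.GolayPt → ZMod 2)) = (fun p => (c : (Cfsg.GolayPt → ZMod 2)) (σ.symm p)) + fun _ => (1 : ZMod 2)) (x : ↥Cfsg.golayCode ≃ₗ[ZMod 2] ↥Cfsg.golayCode) (hx : x ∈ X) : ∃ σ ∈ Cfsg.M24, ∀ c : ↥Cfsg.golayCode, ((x c : ↥Cfsg.golayCode) : (Cfsg.GolayPt → ZMod 2)) = (fun p => (c : (Cfsg.GolayPt → ZMod 2)) (σ.symm p)) ∨ ((x c : ↥Cfsg.golayCode) : (Cfsg.GolayPt → ZMod 2)) = (fun p => (c : (Cfsg.GolayPt → ZMod 2)) (σ.symm p)) + fun _ => (1 : ZMod 2) := by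
  have hcard : ∀ c : golayCode, ((support₂ (x c).1).card = 8 ∨ (support₂ (x c).1).card = 16) ↔
      ((support₂ c.1).card = 8 ∨ (support₂ c.1).card = 16) := by
    intro c
    obtain ⟨σ, -, h | h⟩ := horb x hx c
    · rw [h, support_smul, card_smul]
    · rw [h, support_add_one, support_smul, Finset.card_univ_sdiff, card_smul, card_golayPt]
      have := Finset.card_le_univ (support₂ c.1)
      rw [card_golayPt] at this
      omega
  have key : ∀ a b : GolayPt, a ≠ b → ∃ u : Finset GolayPt, u.card = 2 ∧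
      ∀ c : golayCode, (x c).1 a + (x c).1 b = ((u ∩ support₂ c.1).card : ZMod 2) := by
    intro a b hab
    obtain ⟨u, hu, hφ⟩ := exists_rep
      (((LinearMap.proj a : (GolayPt → ZMod 2) →ₗ[ZMod 2] ZMod 2) +
        (LinearMap.proj b : (GolayPt → ZMod 2) →ₗ[ZMod 2] ZMod 2)) ∘ₗ golayCode.subtype ∘ₗ x.toLinearMap)
    replace hφ : ∀ c : golayCode, (x c).1 a + (x c).1 b = ((u ∩ support₂ c.1).card : ZMod 2) := hφ
    refine ⟨u, ?_, hφ⟩
    have heven : Even u.card := by
      have := hφ ⟨_, one_mem_golay⟩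
      rw [h1 x hx _ rfl, show support₂ (⟨_, one_mem_golay⟩ : golayCode).1 = Finset.univ from
        by rw [← support_ind Finset.univ, ind_univ], Finset.inter_univ] at this
      rw [← ZMod.natCast_eq_zero_iff_even, ← this]; rfl
    have hN : NN u = NN {a, b} := by
      apply Set.ncard_congr (fun s hs => support₂ (x ⟨ind s, mem_CW.1 hs.1⟩).1)
      · rintro s ⟨k1, k2, k3⟩
        refine ⟨support_mem_CW.2 (x _).2, by rw [hcard, support_ind]; exact k2, ?_⟩
        rw [← ZMod.natCast_eq_zero_iff_even, cast_pair _ hab, hφ, support_ind, ZMod.natCast_eq_zero_iff_even]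
        exact k3
      · intro s t hs ht e
        have e1 := congrArg ind e
        rw [ind_support, ind_support] at e1
        exact ind_inj (congrArg Subtype.val (x.injective (Subtype.ext e1)))
      · rintro t ⟨k1, k2, k3⟩
        have e : ∀ h, (⟨ind (support₂ (x.symm ⟨ind t, mem_CW.1 k1⟩).1), h⟩ : golayCode) =
            x.symm ⟨ind t, mem_CW.1 k1⟩ := fun h => Subtype.ext (ind_support _)
        refine ⟨support₂ (x.symm ⟨ind t, mem_CW.1 k1⟩).1, ⟨support_mem_CW.2 (x.symm _).2, ?_, ?_⟩, ?_⟩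
        · rw [← hcard, LinearEquiv.apply_symm_apply, support_ind]; exact k2
        · rw [← ZMod.natCast_eq_zero_iff_even, ← hφ, LinearEquiv.apply_symm_apply, ← cast_pair _ hab, support_ind,
            ZMod.natCast_eq_zero_iff_even]
          exact k3
        · rw [e, LinearEquiv.apply_symm_apply, support_ind]
    rw [NN_two (Finset.card_pair hab)] at hN
    rw [Nat.even_iff] at heven
    by_contra hne
    have : u.card = 0 ∨ u.card = 4 := by omega
    rcases this with h | h
    · rw [Finset.card_eq_zero.1 h, NN_zero] at hN; omega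
    · rw [NN_four h] at hN; omega
  choose! u hu2 hu using key (pt 23)
  have hmeet : ∀ b ≠ pt 23, ∀ c ≠ pt 23, b ≠ c → (u b ∩ u c).card = 1 := by
    intro b hb c hc hbc
    obtain ⟨v, hv2, hv⟩ := key b c hbc
    have h3 : symmDiff (symmDiff (u b) (u c)) v ∈ CW := by
      apply mem_CW_of_even
      intro s hs
      have k1 := hu b hb.symm ⟨ind s, mem_CW.1 hs⟩
      have k2 := hu c hc.symm ⟨ind s, mem_CW.1 hs⟩
      have k3 := hv ⟨ind s, mem_CW.1 hs⟩
      rw [support_ind] at k1 k2 k3
      have k4 : (((u b ∩ s).card + (u c ∩ s).card + (v ∩ s).card : ℕ) : ZMod 2) = 0 := by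
        push_cast
        rw [← k1, ← k2, ← k3]
        generalize (x _).1 (pt 23) = α
        generalize (x _).1 b = β
        generalize (x _).1 c = γ
        revert α β γ; decide
      rw [ZMod.natCast_eq_zero_iff_even, Nat.even_iff] at k4
      have k5 := card_symmDiff_inter (symmDiff (u b) (u c)) v s
      have k6 := card_symmDiff_inter (u b) (u c) s
      rw [Nat.even_iff]; omega
    have h4 := card_symmDiff_add (u b) (u c)
    have h5 := card_symmDiff_add (symmDiff (u b) (u c)) v
    rw [hu2 b hb.symm, hu2 c hc.symm] at h4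
    rw [hv2] at h5
    rw [eq_of_symmDiff_small h3 (by omega), hv2] at h4
    omega
  obtain ⟨q, hq⟩ := common_point u (fun b hb => hu2 b hb.symm) hmeet
  have hτ : ∀ b, ∃ t, (b = pt 23 → t = q) ∧ (b ≠ pt 23 → t ≠ q ∧ u b = {q, t}) := by
    intro b
    by_cases hb : b = pt 23
    · exact ⟨q, fun _ => rfl, fun h => absurd hb h⟩
    · obtain ⟨y, z, hyz, e⟩ := Finset.card_eq_two.1 (hu2 b (Ne.symm hb))
      have := hq b hb
      rw [e, Finset.mem_insert, Finset.mem_singleton] at this
      rcases this with rfl | rfl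
      · exact ⟨z, fun h => absurd h hb, fun _ => ⟨hyz.symm, e⟩⟩
      · exact ⟨y, fun h => absurd h hb, fun _ => ⟨hyz, by rw [e, Finset.pair_comm]⟩⟩
  choose τ hτ1 hτ2 using hτ
  have hinj : Function.Injective τ := by
    intro b c e
    by_cases hb : b = pt 23 <;> by_cases hc : c = pt 23
    · rw [hb, hc]
    · exact absurd (e ▸ hτ1 b hb) (hτ2 c hc).1
    · exact absurd (e.symm ▸ hτ1 c hc) (hτ2 b hb).1
    · by_contra hbc
      have := hmeet b hb c hc hbc
      rw [(hτ2 b hb).2, (hτ2 c hc).2, e, Finset.inter_self, Finset.card_pair (hτ2 c hc).1.symm] at this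
      omega
  have hval : ∀ (c : golayCode) b, (x c).1 b = c.1 (τ b) + ((x c).1 (pt 23) + c.1 q) := by
    intro c b
    by_cases hb : b = pt 23
    · rw [hτ1 b hb, hb]
      generalize (x _).1 (pt 23) = α
      generalize c.1 q = β
      revert α β; decide
    · have := hu b (Ne.symm hb) c
      rw [(hτ2 b hb).2, cast_pair _ (hτ2 b hb).1.symm] at this
      revert this
      generalize (x _).1 (pt 23) = α
      generalize (x _).1 b = β
      generalize c.1 q = γ
      generalize c.1 (τ b) = δ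
      revert α β γ δ; decide
  let σ : Equiv.Perm GolayPt := (Equiv.ofBijective τ (Finite.injective_iff_bijective.1 hinj)).symm
  have hfin : ∀ c : golayCode, (x c).1 = (fun p => c.1 (σ.symm p)) ∨
      (x c).1 = (fun p => c.1 (σ.symm p)) + fun _ => (1 : ZMod 2) := by
    intro c
    rcases zmod2_cases ((x c).1 (pt 23) + c.1 q) with h | h
    · left; funext p; rw [hval c p, h, add_zero]; rfl
    · right; funext p; rw [hval c p, h]; rfl
  refine ⟨σ, mem_M24_of fun s hs => ?_, hfin⟩
  have h2 := support_mem_CW.2 (x ⟨ind s, mem_CW.1 hs⟩).2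
  rcases hfin ⟨ind s, mem_CW.1 hs⟩ with h | h
  · rwa [h, support_smul, support_ind] at h2
  · rw [h, support_add_one, support_smul, support_ind] at h2
    have := compl_mem_CW h2
    rwa [sdiff_sdiff_right_self, Finset.inf_eq_inter, Finset.univ_inter] at this

end Cfsg.Agent.S5549
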