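import Cfsg.Statements.S5550
import Cfsg.Agent.Lib.Golay.Mod

set_option autoImplicit false
open Cfsg

namespace Cfsg.Agent.S5550
open CA.Gol
open scoped Pointwise


/-- Let u be a word of the length-24 binary Golay code of the definitions (possibly zero or all-ones) and w any binary word of length 24 outside the code. Then some automorphism of the code (a coordinate permutation preserving it) fixes u but moves w to a word not congruent to w modulo the code: the stabilizer of a codeword fixes no non-zero element of the quotient of the space of all words by the code. -/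
theorem result (u : (Cfsg.GolayPt → ZMod 2)) (hu : u ∈ Cfsg.golayCode) (w : (Cfsg.GolayPt → ZMod 2)) (hw : w ∉ Cfsg.golayCode) : ∃ σ ∈ Cfsg.M24, (fun p => u (σ.symm p)) = u ∧ (fun p => w (σ.symm p)) - w ∉ Cfsg.golayCode := by
  obtain ⟨σ, h1, h2, h3⟩ := exists_move_of_CW (support_mem_CW.2 hu) (s := support₂ w) (by rwa [support_mem_CW])
  refine ⟨σ, h1, ?_, ?_⟩
  · have := ind_smul σ (support₂ u)
    rw [h2, ind_support] at this
    exact this.symm
  · rw [mem_CW, ind_symmDiff, ind_smul, ind_support] at h3
    rw [sub_eq_add_neg, show -w = w from funext fun p => ZMod.neg_eq_self_mod_two (w p)]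
    exact h3

end Cfsg.Agent.S5550
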