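import Cfsg.Statements.S5553
import Cfsg.Agent.Lib.Golay.Leech

set_option autoImplicit false
open Cfsg

namespace Cfsg.Agent.S5553
open CA.Gol
open scoped Pointwise

theorem card_golay : Nat.card golayCode = 2 ^ 12 := by
  have e : Fin 4096 ≃ golayCode := Equiv.ofBijective (fun i => ⟨ind (fs (enc i)), mem_CW.1 (enc_mem_CW i.2)⟩)
    ⟨fun i j e => by
      have := fs_inj (enc_lt i.2) (enc_lt j.2) (ind_inj (congrArg Subtype.val e))
      exact Fin.ext (by rw [← enc_land i.2, this, enc_land j.2]), fun w => by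
      obtain ⟨i, hi, e⟩ := exists_enc (support_mem_CW.2 w.2)
      exact ⟨⟨i, hi⟩, Subtype.ext (by show ind (fs (enc i)) = w; rw [← e, ind_support])⟩⟩
  rw [← Nat.card_congr e]; simp

/-- the code word attached to a lattice vector -/
def psi (x : ZV) : GolayPt → ZMod 2 := fun p => (((x p - x (pt 0)) / 2 + x (pt 0) : ℤ) : ZMod 2)

theorem cast_iz (c : Finset GolayPt) (p : GolayPt) : ((iz c p : ℤ) : ZMod 2) = ind c p := by
  by_cases h : p ∈ c <;> simp [iz, ind, h]

theorem psi_eq {x : ZV} {m : ℤ} {c : Finset GolayPt} {y : ZV} (h : ∀ p, x p = m + 2 * iz c p + 4 * y p) :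
    psi x = ind c + ((m - iz c (pt 0) : ℤ) : ZMod 2) • fun _ => 1 := by
  funext p
  rw [Pi.add_apply, Pi.smul_apply, smul_eq_mul, mul_one, ← cast_iz, ← Int.cast_add, psi, ZMod.intCast_eq_intCast_iff',
    h p, h (pt 0)]
  push_cast
  omega

theorem psi_mem {x : ZV} (hx : x ∈ leechLattice) : psi x ∈ golayCode := by
  obtain ⟨m, c, y, hc, h, -⟩ := mem_leech.1 hx
  rw [psi_eq h]
  exact add_mem (mem_CW.1 hc) (Submodule.smul_mem _ _ one_mem_golay)

/-- the same as a homomorphism -/
def psiHom : leechLattice →+ golayCode := AddMonoidHom.mk' (fun v => ⟨psi v, psi_mem v.2⟩) fun v w => by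
  apply Subtype.ext
  funext p
  show psi (v + w) p = psi v p + psi w p
  have h1 := same_parity v.2 p (pt 0)
  have h2 := same_parity w.2 p (pt 0)
  rw [psi, psi, psi, ← Int.cast_add, ZMod.intCast_eq_intCast_iff', Pi.add_apply, Pi.add_apply]
  push_cast
  omega

theorem psiHom_surj : Function.Surjective psiHom := by
  intro w
  refine ⟨⟨(2 : ℤ) • iz (support₂ w.1) + iz (support₂ w.1) (pt 0) • v0,
    add_mem (two_iz_mem (support_mem_CW.2 w.2)) (zsmul_mem v0_mem _)⟩, Subtype.ext ?_⟩
  show psi _ = _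
  rw [psi_eq (m := iz (support₂ w.1) (pt 0)) (c := support₂ w.1) (y := fun p => -(iz (support₂ w.1) (pt 0) * iz {pt 0} p))
    (fun p => by simp only [Pi.add_apply, Pi.smul_apply, smul_eq_mul, v0_eq]; ring)]
  simp


/-- The Leech lattice of the definitions has an additive subgroup A containing twice the lattice, of index 2^12 in the lattice, all of whose vectors have squared length divisible by 32: the invariant quadratic form 'squared length over 16 modulo 2' on the lattice modulo twice the lattice (a 24-dimensional space over the field with two elements) vanishes on a 12-dimensional subspace, so it is of plus type. -/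
theorem result : ∃ A : AddSubgroup (Cfsg.GolayPt → ℤ), A ≤ Cfsg.leechLattice ∧ (∀ v ∈ Cfsg.leechLattice, (2 : ℤ) • v ∈ A) ∧ (A.addSubgroupOf Cfsg.leechLattice).index = 2 ^ 12 ∧ ∀ v ∈ A, (32 : ℤ) ∣ Cfsg.sqNorm v := by
  refine ⟨psiHom.ker.map leechLattice.subtype, AddSubgroup.map_subtype_le _, fun v hv => ?_, ?_, ?_⟩
  · refine ⟨⟨(2 : ℤ) • v, zsmul_mem hv _⟩, ?_, rfl⟩
    have : (⟨(2 : ℤ) • v, zsmul_mem hv _⟩ : leechLattice) = ⟨v, hv⟩ + ⟨v, hv⟩ := Subtype.ext (two_smul ℤ v)
    rw [SetLike.mem_coe, AddMonoidHom.mem_ker, this, map_add]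
    apply Subtype.ext
    funext p
    exact CharTwo.add_self_eq_zero _
  · rw [AddSubgroup.addSubgroupOf, AddSubgroup.comap_map_eq_self_of_injective (AddSubgroup.subtype_injective _),
      AddSubgroup.index_ker, AddMonoidHom.range_eq_top.2 psiHom_surj, AddSubgroup.card_top, card_golay]
  · rintro _ ⟨v, hv, rfl⟩
    have h : ∀ p, (2 : ℤ) ∣ (v.1 p - v.1 (pt 0)) / 2 + v.1 (pt 0) := fun p =>
      (ZMod.intCast_zmod_eq_zero_iff_dvd _ 2).1 (congrFun (congrArg Subtype.val hv) p)
    have h0 := h (pt 0)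
    obtain ⟨m, c, y, hc, h1, h2⟩ := mem_leech.1 v.2
    obtain ⟨a, ha⟩ : ∃ a, v.1 (pt 0) = 2 * a := ⟨v.1 (pt 0) / 2, by omega⟩
    have h3 : ∀ p, v.1 p = 2 * a + 4 * ((v.1 p - 2 * a) / 4) := fun p => by
      have := h p
      have := same_parity v.2 p (pt 0)
      omega
    set z : ZV := fun p => (v.1 p - 2 * a) / 4 with hz
    have e : sqNorm v.1 = 96 * a ^ 2 + 16 * a * ∑ p, z p + 16 * sqNorm z := by
      have : ∀ p, v.1 p ^ 2 = 4 * a ^ 2 + 16 * a * z p + 16 * z p ^ 2 := fun p => by rw [h3 p]; ring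
      simp only [sqNorm, this, Finset.sum_add_distrib, ← Finset.mul_sum, Finset.sum_const, Finset.card_univ,
        card_golayPt]
      ring
    have e1 : ∑ p, v.1 p = 48 * a + 4 * ∑ p, z p := by
      rw [Finset.sum_congr rfl fun p _ => h3 p]
      simp only [Finset.sum_add_distrib, ← Finset.mul_sum, Finset.sum_const, Finset.card_univ, card_golayPt]
      ring
    have e2 := sum_LS h1
    have e3 := four_dvd_card hc
    have e4 := h1 (pt 0)
    obtain ⟨k, hk⟩ : 2 ∣ ∑ p, z p := by omega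
    obtain ⟨l, hl⟩ := sqNorm_parity z
    show 32 ∣ sqNorm v.1
    rw [e, show sqNorm z = 2 * l + 2 * k by omega, hk]
    exact ⟨3 * a ^ 2 + a * k + l + k, by ring⟩

end Cfsg.Agent.S5553
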