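import Cfsg.Statements.S5579
import Cfsg.Agent.Lib.J4.Cls2t
import Cfsg.Agent.Lib.J4.Cls2z
import Cfsg.Agent.Lib.J4.Cls3
import Cfsg.Agent.Lib.J4.Cls57
import Cfsg.Agent.Lib.J4.Cls11
import Cfsg.Agent.Lib.J4.Elev2
import Cfsg.Agent.Lib.J4.Two

set_option autoImplicit false
open Cfsg

namespace Cfsg.Agent.S5579

open CA Subgroup in
/-- Let G be a finite non-abelian simple group of Janko-four type (an involution z whose centralizer H has an extraspecial largest normal 2-subgroup E of order 2^13 containing its centralizer in H, a normal subgroup N ≥ E of H with N/E of order 3 and H/N the automorphism group of M₂₂, and a subgroup P ≤ N of order 3 with C_E(P) = ⟨z⟩, N_H(P) ≠ C_H(P) and P ≤ C_H(P)′). Then G has exactly 62 conjugacy classes. -/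
theorem result {G : Type*} [Group G] [Finite G] [IsSimpleGroup G] (hG : ¬ IsMulCommutative G) (hJ : Cfsg.IsOfJankoFourType G) :
    Nat.card (ConjClasses G) = 62 := by
  obtain ⟨z, P, hJ⟩ := hJ
  obtain ⟨T, -⟩ := CA.J4.exists_St hG hJ
  exact T.cls62 T.c11 (T.n2 T.n2z) T.n3 T.n5 T.n7 T.n11

end Cfsg.Agent.S5579
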