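import Cfsg.Statements.S5582
import Cfsg.Agent.Lib.J4.MxQ
import Cfsg.Agent.Lib.J4.MxF
import Cfsg.Agent.Lib.J4.Two

set_option autoImplicit false
open Cfsg

namespace Cfsg.Agent.S5582

/-- Let G be a finite non-abelian simple group of Janko-four type (Janko's involution-centralizer conditions; such a group is the fourth Janko group). Then the following subgroups are maximal: the centralizer of the involution z of the hypothesis; the normalizer of every elementary abelian subgroup of order 2^11; the normalizer of every self-centralizing elementary abelian subgroup of order 2^10; the normalizer of some special 2-subgroup of order 2^15 with centre of order 8; and the normalizer of every Sylow p-subgroup for p = 11, 29, 37 and 43. -/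
theorem result {G : Type*} [Group G] [Finite G] [IsSimpleGroup G] (hG : ¬ IsMulCommutative G) (z : G) (hJ : Cfsg.IsOfJankoFourTypeAt z) :
    IsCoatom (Subgroup.centralizer ({z} : Set G)) ∧
    (∀ V : Subgroup G, Cfsg.IsElementaryAbelian 2 V → Nat.card ↥V = 2 ^ 11 → IsCoatom (Subgroup.normalizer (V : Set G))) ∧
    (∀ A : Subgroup G, Cfsg.IsElementaryAbelian 2 A → Nat.card ↥A = 2 ^ 10 → Subgroup.centralizer (A : Set G) = A → IsCoatom (Subgroup.normalizer (A : Set G))) ∧
    (∃ L : Subgroup G, Cfsg.IsSpecial 2 ↥L ∧ Nat.card ↥L = 2 ^ 15 ∧ Nat.card ↥(Subgroup.center ↥L) = 8 ∧ IsCoatom (Subgroup.normalizer (L : Set G))) ∧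
    (∀ U : Sylow 11 G, IsCoatom (Subgroup.normalizer ((U : Subgroup G) : Set G))) ∧ (∀ U : Sylow 29 G, IsCoatom (Subgroup.normalizer ((U : Subgroup G) : Set G))) ∧
    (∀ U : Sylow 37 G, IsCoatom (Subgroup.normalizer ((U : Subgroup G) : Set G))) ∧ (∀ U : Sylow 43 G, IsCoatom (Subgroup.normalizer ((U : Subgroup G) : Set G))) := by
  obtain ⟨P, hJ⟩ := hJ
  obtain ⟨T, rfl, -⟩ := CA.J4.exists_St hG hJ
  haveI : Fact (Nat.Prime 11) := ⟨by norm_num⟩
  haveI : Fact (Nat.Prime 29) := ⟨by norm_num⟩
  haveI : Fact (Nat.Prime 37) := ⟨by norm_num⟩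
  haveI : Fact (Nat.Prime 43) := ⟨by norm_num⟩
  obtain ⟨h1, h2, h3, h4⟩ := T.res5582two
  exact ⟨h1, h2, h3, h4, T.max11, T.max29, T.max37, T.max43⟩

end Cfsg.Agent.S5582
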