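import Cfsg.Statements.S5588
import Cfsg.Agent.Lib.TC.Y5

set_option autoImplicit false
open Cfsg

namespace Cfsg.Agent.S5588

open CA.Fi CA.TC CA.Y5 Cfsg.Spor Cfsg.Spor.Bimonster in
def gs : List Gen := [.a, .b1, .c1, .d1, .e1, .f1, .b2, .c2, .d2, .e2, .f2, .b3, .c3, .d3, .e3, .f3]

open CA.Fi CA.TC CA.Y5 Cfsg.Spor Cfsg.Spor.Bimonster in
theorem aux (ex : List (FreeGroup Gen)) (hex : (a * b1 * c1 * a * b2 * c2 * a * b3 * c3) ^ 10 ∈ ex) :
    ∀ r ∈ extra, PresentedGroup.mk (coxRelators edges ∪ {r' | r' ∈ ex}) r = 1 := by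
  have hs : PresentedGroup.mk (coxRelators edges ∪ {r' | r' ∈ ex})
      ((a * b1 * c1 * a * b2 * c2 * a * b3 * c3) ^ 10) = 1 := PresentedGroup.one_of_mem (Or.inr hex)
  have h0 := coxFam (gs := gs) (edges := edges) (extra := ex) (by decide +kernel)
    (X := [pw ([0, 1, 2] ++ ([0, 6, 7] ++ [0, 11, 12])) 10]) (fun w hw => by
      rw [List.mem_singleton.1 hw, ev_pw, ← hs]
      congr 2)
  have s1 := h0.rel _ (List.mem_append_right _ List.mem_cons_self)
  have s2 := rot s1
  rw [List.append_assoc] at s2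
  have s3 := rot s2
  have h := h0.add (R' := [_, _]) (fun w hw => by
    rcases List.mem_pair.1 hw with rfl | rfl
    exacts [s2, s3])
  obtain ⟨a1, a2⟩ := rename h [0, 1, 2, 3, 4, 5, 6, 7, 8, 11, 12] (by decide +kernel)
  obtain ⟨a3, a4⟩ := rename h [0, 6, 7, 8, 9, 10, 11, 12, 13, 1, 2] (by decide +kernel)
  obtain ⟨a5, a6⟩ := rename h [0, 11, 12, 13, 14, 15, 1, 2, 3, 6, 7] (by decide +kernel)
  have key : ∀ (x : FreeGroup Gen) (i : ℕ) (y : FreeGroup Gen) (w u : List ℕ), frG gs i = x →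
      ev (frG gs) u = y → w = pw u 9 → coxG gs edges ex i = ev (coxG gs edges ex) w →
      PresentedGroup.mk (coxRelators edges ∪ {r' | r' ∈ ex}) (x * (y ^ 9)⁻¹) = 1 := by
    rintro _ i _ _ u rfl rfl rfl e
    rw [map_mul, map_inv, map_pow, map_ev, funext (mk_frG gs edges ex), mk_frG, e, ev_pw, mul_inv_cancel]
  intro r hr
  simp only [extra, List.mem_cons, List.not_mem_nil, or_false] at hr
  rcases hr with rfl | rfl | rfl | rfl | rfl | rfl | rfl
  · exact hs
  · exact key _ _ _ _ [0, 1, 6, 11, 2, 7, 3] rfl (by simp [gs, frG, mul_assoc]) (by decide +kernel) a1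
  · exact key _ _ _ _ [0, 1, 11, 6, 2, 12, 3] rfl (by simp [gs, frG, mul_assoc]) (by decide +kernel) a2
  · exact key _ _ _ _ [0, 6, 1, 11, 7, 2, 8] rfl (by simp [gs, frG, mul_assoc]) (by decide +kernel) a4
  · exact key _ _ _ _ [0, 6, 11, 1, 7, 12, 8] rfl (by simp [gs, frG, mul_assoc]) (by decide +kernel) a3
  · exact key _ _ _ _ [0, 11, 1, 6, 12, 2, 13] rfl (by simp [gs, frG, mul_assoc]) (by decide +kernel) a5
  · exact key _ _ _ _ [0, 11, 6, 1, 12, 7, 13] rfl (by simp [gs, frG, mul_assoc]) (by decide +kernel) a6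

/-- In the group presented by the sixteen involutions of the Y₅₅₅ Coxeter diagram subject only to the Coxeter relations and the single spider relation (a b₁ c₁ a b₂ c₂ a b₃ c₃)^10 = 1, each of the further relators used in the definitions' presentation of the Bimonster (each end node equals the ninth power of the Coxeter element of a sub-diagram of type E₇) already holds. Equivalently, the Y₅₅₅ diagram with the spider relation alone presents the Bimonster. -/
theorem result :
    ∀ r ∈ Cfsg.Spor.Bimonster.extra,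
      (PresentedGroup.mk (Cfsg.Spor.coxRelators Cfsg.Spor.Bimonster.edges ∪ {r' | r' ∈ [(Cfsg.Spor.Bimonster.a * Cfsg.Spor.Bimonster.b1 * Cfsg.Spor.Bimonster.c1 * Cfsg.Spor.Bimonster.a * Cfsg.Spor.Bimonster.b2 * Cfsg.Spor.Bimonster.c2 * Cfsg.Spor.Bimonster.a * Cfsg.Spor.Bimonster.b3 * Cfsg.Spor.Bimonster.c3) ^ 10]}) r) = 1 := by
  exact aux _ List.mem_cons_self

end Cfsg.Agent.S5588
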