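import Cfsg.Statements.S5594
import Cfsg.Agent.Lib.Golay.Leech

set_option autoImplicit false
open Cfsg

namespace Cfsg.Agent.S5594
open CA.Gol
open scoped Pointwise


/-- The automorphism group of the Leech lattice contains the negation map, and the subgroup of order 2 it generates has no complement: the automorphism group is a non-split extension of its quotient by that subgroup (it is not the direct product of a group of order 2 with the first Conway group). -/
theorem result :
    ∃ n : ↥Cfsg.Co0, (∀ v : ↥Cfsg.leechLattice, ((n • v : ↥Cfsg.leechLattice) : Cfsg.GolayPt → ℤ) = -(v : Cfsg.GolayPt → ℤ)) ∧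
    ∀ K : Subgroup ↥Cfsg.Co0, ¬ (Subgroup.zpowers n).IsComplement' K := by
  obtain ⟨n, hn⟩ := isCo_neg
  refine ⟨n, hn, fun K hK => ?_⟩
  have hσ : inM24 0x350361d242aad333a3592df0a0457 = true := by decide +kernel
  obtain ⟨a, ha⟩ := isCo_pm (perm_mem_M24 hσ)
  obtain ⟨b, hb⟩ := isCo_sg (d := fs 0x271fb) (fs_mem_CW (by decide +kernel))
  set σ := perm 0x350361d242aad333a3592df0a0457
  have h1 : ∀ p, σ (σ p) = p ∧ (σ p ∈ fs 0x271fb ↔ p ∉ fs 0x271fb) := by
    rw [forall_pt]
    intro i hi
    have h : allLt (fun i => Nat.blt (ap 0x350361d242aad333a3592df0a0457 i) 24 &&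
      Nat.beq (ap 0x350361d242aad333a3592df0a0457 (ap 0x350361d242aad333a3592df0a0457 i)) i &&
      xor (tb 0x271fb (ap 0x350361d242aad333a3592df0a0457 i)) (tb 0x271fb i)) 24 = true := by decide +kernel
    have := allLt_iff.1 h i hi
    rw [Bool.and_eq_true, Bool.and_eq_true, blt_iff, beq_iff] at this
    rw [perm_pt (inM24_valid hσ) hi, perm_pt (inM24_valid hσ) this.1.1, this.1.2, pt_mem_fs this.1.1, pt_mem_fs hi]
    refine ⟨rfl, ?_⟩
    have h2 := this.2
    revert h2
    cases tb 0x271fb i <;> cases tb 0x271fb (ap _ i) <;> simp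
  have h2 : ∀ p, σ⁻¹ p = σ p := fun p => by rw [Equiv.Perm.inv_eq_iff_eq, (h1 p).1]
  have hi : (b * a) * (b * a) = n := by
    apply Subtype.ext
    ext v p
    show (((b * a * (b * a)) • v : leechLattice) : ZV) p = ((n • v : leechLattice) : ZV) p
    rw [mul_smul, mul_smul, mul_smul, hb, ha, hb, ha, hn]
    simp only [sg, pm, h2, (h1 p).1, (h1 p).2]
    by_cases h : p ∈ fs 0x271fb <;> simp [h]
  have hn1 : n ≠ 1 := by
    intro e
    have := congrFun (hn ⟨v0, v0_mem⟩) (pt 0)
    rw [e, one_smul] at this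
    revert this; decide
  have hn2 : orderOf n = 2 := by
    apply orderOf_eq_prime _ hn1
    apply Subtype.ext
    ext v p
    show (((n ^ 2) • v : leechLattice) : ZV) p = (v : ZV) p
    rw [sq, mul_smul, hn, hn]; simp
  have h3 : K.index = 2 := by rw [hK.index_eq_card, Nat.card_zpowers, hn2]
  have h4 := Subgroup.mul_self_mem_of_index_two h3 (b * a)
  rw [hi] at h4
  exact hn1 (Subgroup.disjoint_def.1 hK.disjoint (Subgroup.mem_zpowers n) h4)

end Cfsg.Agent.S5594
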