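import Cfsg.Statements.S5599
import Cfsg.Agent.Lib.Golay.Misc

set_option autoImplicit false
open scoped Pointwise
open Cfsg

namespace Cfsg.Agent.S5599
open CA.Gol
open scoped Pointwise


/-- In the automorphism group of the length-24 code, the two-point Mathieu group (permutations of the code's group fixing the extra point and the residue 0) has index 2 in the setwise stabiliser of that pair of points, and an element of the code's group interchanging the two points normalises the two-point group and induces on it, by conjugation, an automorphism that is not inner. -/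
theorem result (g : Equiv.Perm Cfsg.GolayPt) (hg : g ∈ Cfsg.M24) (h₁ : g none = some 0) (h₂ : g (some 0) = none) : Cfsg.Spor.M22.relIndex (Cfsg.M24 ⊓ MulAction.stabilizer (Equiv.Perm Cfsg.GolayPt) ({none, some 0} : Finset Cfsg.GolayPt)) = 2 ∧ (∀ x ∈ Cfsg.Spor.M22, g * x * g⁻¹ ∈ Cfsg.Spor.M22) ∧ ¬ ∃ h ∈ Cfsg.Spor.M22, ∀ x ∈ Cfsg.Spor.M22, g * x * g⁻¹ = h * x * h⁻¹ := by
  have hM : ∀ x, x ∈ Spor.M22 ↔ x ∈ M24 ∧ x none = none ∧ x (some 0) = some 0 := fun x => and_assoc
  have hne : (none : GolayPt) ≠ some 0 := by simp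
  refine ⟨?_, ?_, ?_⟩
  · rw [Subgroup.relIndex_eq_two_iff]
    refine ⟨g, ⟨hg, ?_⟩, ?_⟩
    · show g • ({none, some 0} : Finset GolayPt) = {none, some 0}
      rw [Finset.smul_finset_insert, Finset.smul_finset_singleton]
      show ({g none, g (some 0)} : Finset GolayPt) = _
      rw [h₁, h₂, Finset.pair_comm]
    · rintro b ⟨hb, hb'⟩
      have hb'' : b • ({none, some 0} : Finset GolayPt) = {none, some 0} := hb'
      have e1 : b none ∈ ({none, some 0} : Finset GolayPt) := hb'' ▸ apply_mem_smul.2 (by simp)
      have e2 : b (some 0) ∈ ({none, some 0} : Finset GolayPt) := hb'' ▸ apply_mem_smul.2 (by simp)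
      have e3 : b none ≠ b (some 0) := b.injective.ne hne
      simp only [Finset.mem_insert, Finset.mem_singleton] at e1 e2
      replace hb : b ∈ M24 := hb
      rw [hM, hM, and_iff_right (mul_mem hb hg), and_iff_right hb, Equiv.Perm.mul_apply, Equiv.Perm.mul_apply,
        h₁, h₂, Xor]
      clear hM hb'' hb' hb hg
      rcases e1 with e1 | e1 <;> rcases e2 with e2 | e2 <;> simp_all
  · intro x hx
    rw [hM] at hx ⊢
    refine ⟨(conj_mem_M24_iff hg).2 hx.1, ?_, ?_⟩
    · rw [← h₂, conj_apply, hx.2.2]
    · conv_lhs => rw [← h₁, conj_apply, hx.2.1, h₁]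
  · rintro ⟨h, hh, e⟩
    rw [hM] at hh
    have hc : h⁻¹ * g ∈ M24 := mul_mem (inv_mem hh.1) hg
    have hc1 : (h⁻¹ * g) none = some 0 := by rw [Equiv.Perm.mul_apply, h₁, Equiv.Perm.inv_eq_iff_eq, hh.2.2]
    have hc2 : (h⁻¹ * g) (some 0) = none := by rw [Equiv.Perm.mul_apply, h₂, Equiv.Perm.inv_eq_iff_eq, hh.2.1]
    have e' : ∀ x ∈ Spor.M22, h⁻¹ * g * x = x * (h⁻¹ * g) := fun x hx => by
      have := e x hx
      calc h⁻¹ * g * x = h⁻¹ * (g * x * g⁻¹) * g := by group
        _ = x * (h⁻¹ * g) := by rw [this]; group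
    generalize h⁻¹ * g = c at *
    obtain ⟨p, hp, hcp⟩ := exists_moved hc (by rintro rfl; exact hne hc1) (s := {none, some 0})
      (Finset.card_le_two.trans (by norm_num))
    simp only [Finset.mem_insert, Finset.mem_singleton, not_or] at hp
    have hq : c p ∉ ({none, some 0, p} : Finset GolayPt) := by
      simp only [Finset.mem_insert, Finset.mem_singleton, not_or]
      exact ⟨fun h => hp.2 (c.injective (h.trans hc2.symm)), fun h => hp.1 (c.injective (h.trans hc1.symm)), hcp⟩
    obtain ⟨r, hr⟩ : ∃ r, r ∉ insert (c p) ({none, some 0, p} : Finset GolayPt) := by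
      by_contra h'
      push Not at h'
      have := Finset.card_le_card (show Finset.univ ⊆ insert (c p) ({none, some 0, p} : Finset GolayPt) from
        fun r _ => h' r)
      rw [Finset.card_univ, card_golayPt] at this
      have h4 := Finset.card_le_four (a := c p) (b := none) (c := some 0) (d := p)
      omega
    rw [Finset.mem_insert, not_or] at hr
    obtain ⟨x, hx, hfix, hxr⟩ := exists_fix_move (Finset.card_le_three.trans (by norm_num)) hq hr.2
    have := congrArg (fun σ : Equiv.Perm GolayPt => σ p) (e' x ((hM x).2 ⟨hx, hfix _ (by simp), hfix _ (by simp)⟩))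
    simp only [Equiv.Perm.mul_apply, hfix p (by simp), hxr] at this
    exact hr.1 this.symm

end Cfsg.Agent.S5599
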