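import Cfsg.Statements.S5600
import Cfsg.Agent.Lib.Golay.Six

set_option autoImplicit false
open scoped Pointwise
open Cfsg

namespace Cfsg.Agent.S5600
open CA.Gol


/-- Although the group of the length-24 code is only 5-transitive on the 24 points, it induces the full symmetric group on every 6-element subset: every permutation of a 6-set E is the restriction of an element of the group mapping E to itself. The pointwise stabiliser of E has order 16 when E lies in an octad and order 3 otherwise; in the latter case the setwise stabiliser of E has order 2160. -/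
theorem result (E : Finset Cfsg.GolayPt) (hE : E.card = 6) : (∀ σ : Equiv.Perm ↥E, ∃ g ∈ Cfsg.M24, ∀ p : ↥E, g p = σ p) ∧ ((∃ o ∈ Cfsg.octads, E ⊆ o) → Nat.card {g : Equiv.Perm Cfsg.GolayPt // g ∈ Cfsg.M24 ∧ ∀ p ∈ E, g p = p} = 16) ∧ ((¬ ∃ o ∈ Cfsg.octads, E ⊆ o) → Nat.card {g : Equiv.Perm Cfsg.GolayPt // g ∈ Cfsg.M24 ∧ ∀ p ∈ E, g p = p} = 3 ∧ Nat.card ↥(MulAction.stabilizer Cfsg.M24 E) = 2160) := by
  refine ⟨exists_induce_six hE, fun h => ncard_fix_six_in hE h, fun h => ⟨ncard_fix_six_out hE h, ?_⟩⟩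
  let φ := resHom (M24.subtype.comp (MulAction.stabilizer M24 E).subtype) E fun k => k.2
  have hs : Function.Surjective φ := by
    intro σ
    obtain ⟨g, hg, h1⟩ := exists_induce_six hE σ
    exact ⟨⟨⟨g, hg⟩, smul_eq_of_induce h1⟩, Equiv.ext fun p => Subtype.ext (h1 p)⟩
  have hk : Nat.card φ.ker = 3 := by
    rw [← ncard_fix_six_out hE h, ← Nat.card_coe_set_eq]
    refine Nat.card_congr ⟨fun k => ⟨k.1.1.1, k.1.1.2, fun p hp => ?_⟩,
      fun g => ⟨⟨⟨g.1, g.2.1⟩, smul_eq_of_fix g.2.2⟩, Equiv.ext fun p => Subtype.ext (g.2.2 p p.2)⟩,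
      fun _ => rfl, fun _ => rfl⟩
    exact congrArg (fun σ : Equiv.Perm E => (σ ⟨p, hp⟩ : GolayPt)) (MonoidHom.mem_ker.1 k.2)
  rw [← φ.ker.card_mul_index, hk, Subgroup.index_ker, MonoidHom.range_eq_top.2 hs, Subgroup.card_top,
    card_perm_six hE]

end Cfsg.Agent.S5600
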