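import Cfsg.Statements.S5601
import Cfsg.Agent.Lib.Golay.Classes

set_option autoImplicit false
open scoped Pointwise
open Cfsg

namespace Cfsg.Agent.S5601
open CA.Gol

theorem fix_zpowers (x : M24) :
    {p : GolayPt | ∀ y ∈ Subgroup.zpowers x, ((y : M24) : Equiv.Perm GolayPt) p = p}.ncard =
      (fixS (x : Equiv.Perm GolayPt)).card := by
  rw [← Set.ncard_coe_finset]
  congr 1
  ext p
  simp only [Set.mem_ofPred_eq, Finset.coe_filter, Finset.mem_univ, true_and]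
  constructor
  · intro h; exact h x (Subgroup.mem_zpowers x)
  · rintro h _ ⟨n, rfl⟩
    simp only [SubgroupClass.coe_zpow]
    exact Equiv.Perm.zpow_apply_eq_self_of_apply_eq_self h n

theorem exists_gen (X : Subgroup M24) (h : Nat.card X = 3) :
    ∃ x : M24, X = Subgroup.zpowers x ∧ orderOf (x : Equiv.Perm GolayPt) = 3 := by
  have : Fact (Nat.Prime 3) := ⟨Nat.prime_three⟩
  have := isCyclic_of_prime_card h
  obtain ⟨x, hx⟩ := (Subgroup.isCyclic_iff_exists_zpowers_eq_top X).1 this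
  refine ⟨x, hx.symm, ?_⟩
  rw [Subgroup.orderOf_coe, ← Nat.card_zpowers, hx, h]

theorem conj_zpowers {x y k : M24} (e : (k : Equiv.Perm GolayPt) * x * (k : Equiv.Perm GolayPt)⁻¹ = y) :
    MulAut.conj k • Subgroup.zpowers x = Subgroup.zpowers y := by
  have : y = MulAut.conj k x := Subtype.ext e.symm
  rw [this]
  exact MonoidHom.map_zpowers _ _

/-- The group of the length-24 code has exactly two conjugacy classes of subgroups of order 3: a subgroup of order 3 fixes either exactly 6 of the 24 points or none of them, both cases occur, and two subgroups of order 3 with the same number of fixed points are conjugate. -/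
theorem result : (∀ X : Subgroup ↥Cfsg.M24, Nat.card X = 3 → {p : Cfsg.GolayPt | ∀ x ∈ X, ((x : ↥Cfsg.M24) : Equiv.Perm Cfsg.GolayPt) p = p}.ncard = 6 ∨ {p : Cfsg.GolayPt | ∀ x ∈ X, ((x : ↥Cfsg.M24) : Equiv.Perm Cfsg.GolayPt) p = p}.ncard = 0) ∧ (∃ X : Subgroup ↥Cfsg.M24, Nat.card X = 3 ∧ {p : Cfsg.GolayPt | ∀ x ∈ X, ((x : ↥Cfsg.M24) : Equiv.Perm Cfsg.GolayPt) p = p}.ncard = 6) ∧ (∃ X : Subgroup ↥Cfsg.M24, Nat.card X = 3 ∧ {p : Cfsg.GolayPt | ∀ x ∈ X, ((x : ↥Cfsg.M24) : Equiv.Perm Cfsg.GolayPt) p = p}.ncard = 0) ∧ ∀ X Y : Subgroup ↥Cfsg.M24, Nat.card X = 3 → Nat.card Y = 3 → {p : Cfsg.GolayPt | ∀ x ∈ X, ((x : ↥Cfsg.M24) : Equiv.Perm Cfsg.GolayPt) p = p}.ncard = {p : Cfsg.GolayPt | ∀ x ∈ Y, ((x : ↥Cfsg.M24) : Equiv.Perm Cfsg.GolayPt) p = p}.ncard → ∃ k : ↥Cfsg.M24, MulAut.conj k • X = Y := by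
  refine ⟨fun X hX => ?_, ⟨Subgroup.zpowers ⟨_, perm_mem_M24 r3A_in⟩, ?_, ?_⟩,
    ⟨Subgroup.zpowers ⟨_, perm_mem_M24 r3B_in⟩, ?_, ?_⟩, fun X Y hX hY e => ?_⟩
  · obtain ⟨x, rfl, hx⟩ := exists_gen X hX
    rw [fix_zpowers]; exact fix_three x.2 hx
  · rw [Nat.card_zpowers, ← Subgroup.orderOf_coe]; exact r3A_order
  · rw [fix_zpowers]; exact r3A_fix
  · rw [Nat.card_zpowers, ← Subgroup.orderOf_coe]; exact r3B_order
  · rw [fix_zpowers]; exact r3B_fix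
  · obtain ⟨x, rfl, hx⟩ := exists_gen X hX
    obtain ⟨y, rfl, hy⟩ := exists_gen Y hY
    rw [fix_zpowers, fix_zpowers] at e
    by_cases h0 : (fixS (x : Equiv.Perm GolayPt)).card = 0
    · obtain ⟨k, hk, e1⟩ := class_3B x.2 hx h0
      obtain ⟨k', hk', e2⟩ := class_3B y.2 hy (e ▸ h0)
      exact ⟨⟨_, mul_mem (inv_mem hk') hk⟩, conj_zpowers (conj_of_conj e1 e2)⟩
    · obtain ⟨k, hk, e1⟩ := class_3A x.2 hx h0
      obtain ⟨k', hk', e2⟩ := class_3A y.2 hy (e ▸ h0)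
      exact ⟨⟨_, mul_mem (inv_mem hk') hk⟩, conj_zpowers (conj_of_conj e1 e2)⟩

end Cfsg.Agent.S5601
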