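import Cfsg.Statements.S5602
import Cfsg.Agent.Lib.Golay.Classes
import Cfsg.Agent.Lib.Golay.Objs

set_option autoImplicit false
open scoped Pointwise
open Cfsg

namespace Cfsg.Agent.S5602
open CA.Gol


/-- An element of order 3 of the group of the length-24 code having exactly 6 fixed points maps to themselves exactly 21 octads, exactly 15 trios, exactly 16 sextets and exactly 20 dodecads. -/
theorem result (g : Equiv.Perm Cfsg.GolayPt) (hg : g ∈ Cfsg.M24) (h₃ : orderOf g = 3) (h₆ : (Finset.univ.filter fun p => g p = p).card = 6) : {o : Finset Cfsg.GolayPt | o ∈ Cfsg.octads ∧ g • o = o}.ncard = 21 ∧ {T : Finset (Finset Cfsg.GolayPt) | T ∈ Cfsg.trios ∧ g • T = T}.ncard = 15 ∧ {S : Finset (Finset Cfsg.GolayPt) | S ∈ Cfsg.sextets ∧ g • S = S}.ncard = 16 ∧ {d : Finset Cfsg.GolayPt | d ∈ Cfsg.dodecads ∧ g • d = d}.ncard = 20 := by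
  obtain ⟨k, hk, e⟩ := class_3A hg h₃ (by rw [h₆]; norm_num)
  refine ⟨?_, ?_, ?_, ?_⟩
  · rw [ncard_fixed_conj (fun g hg b hb => smul_mem_octads hg hb) hk e, octads, ncard_fixed_words,
      code_perm' r3A_in]
    decide +kernel
  · rw [ncard_fixed_conj (fun g hg b hb => smul_mem_trios hg hb) hk e, ncard_fixed_trios, code_perm' r3A_in]
    decide +kernel
  · rw [ncard_fixed_conj (fun g hg b hb => smul_mem_sextets hg hb) hk e, ncard_fixed_sextets, code_perm' r3A_in]
    decide +kernel
  · rw [ncard_fixed_conj (fun g hg b hb => smul_mem_dodecads hg hb) hk e, dodecads, ncard_fixed_words,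
      code_perm' r3A_in]
    decide +kernel

end Cfsg.Agent.S5602
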