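import Cfsg.Statements.S5604
import Cfsg.Agent.Lib.Golay.Misc
import Cfsg.Agent.Lib.Golay.Objs

set_option autoImplicit false
open scoped Pointwise
open Cfsg

namespace Cfsg.Agent.S5604
open CA.Gol
open scoped Pointwise

/-- an element of order seven -/
def g7 : ℕ := 0x5a90910ab9b92c521e7ab6e688c41
/-- its powers -/
def P7 : List ℕ := [0xbdab49ca307b9ac5a928398a418820, 0x5a90910ab9b92c521e7ab6e688c41, 0xda0b21aea939ec41e75a240d2c462, 0x1596a3340823a6c3d65483c29b9623, 0x1d9486a42733a4cad0905cc4f05cb1, 0x8d9074bc556b88ca40cb54873082e5, 0x2d8f57cc744b8cc82daa4123210417]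

theorem g7_in : inM24 g7 = true := by decide +kernel
theorem g7_order : orderOf (perm g7) = 7 := order_perm g7_in (by norm_num) (by decide +kernel)

theorem mem_zp {y : Equiv.Perm GolayPt} : y ∈ Subgroup.zpowers (perm g7) ↔ code y ∈ P7 := by
  have e : P7 = (List.range 7).map (powC g7) := by decide +kernel
  rw [mem_zpowers_iff_mem_range_orderOf, g7_order, e]
  simp only [Finset.mem_image, Finset.mem_range, List.mem_map, List.mem_range]
  refine exists_congr fun j => and_congr_right fun _ => ?_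
  rw [← code_injective.eq_iff, code_pow, code_perm' g7_in]

/-- pruning -/
def okP (P : List ℕ) : List ℕ → Bool
  | [y2, y1] => anyL P fun q => Nat.beq y2 (ap q y1)
  | [y3, y2, y1] => anyL P fun q => Nat.beq y2 (ap q y1) && Nat.beq y3 (ap q y2)
  | [y4, y3, y2, _] => anyL P fun q => Nat.beq y3 (ap q y2) && Nat.beq y4 (ap q y3)
  | [y5, y4, y3, _, _] => anyL P fun q => Nat.beq y4 (ap q y3) && Nat.beq y5 (ap q y4)
  | _ => true

/-- leaf test -/
def lf (P : List ℕ) (c : ℕ) : Bool :=
  anyL P fun q => Nat.beq (ap c 17) (ap q (ap c 3)) && Nat.beq (mul c g7) (mul q c)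

theorem lf_iff {P : List ℕ} {n : Equiv.Perm GolayPt} (hP : ∀ q ∈ P, valid q = true) :
    lf P (code n) = true ↔ code (n * perm g7 * n⁻¹) ∈ P := by
  rw [lf, anyL_iff]
  constructor
  · rintro ⟨q, hq, h⟩
    rw [Bool.and_eq_true, beq_iff, beq_iff] at h
    have : n * perm g7 = perm q * n := code_inj (by
      rw [code_mul, code_mul, code_perm' g7_in, code_perm (hP q hq), h.2])
    rw [this, mul_inv_cancel_right, code_perm (hP q hq)]; exact hq
  · intro h
    refine ⟨_, h, ?_⟩
    have e : n * perm g7 = (n * perm g7 * n⁻¹) * n := by group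
    have a := ap_comm e (i := 3) (by norm_num)
    rw [code_perm' g7_in, show ap g7 3 = 17 by decide +kernel] at a
    rw [Bool.and_eq_true, beq_iff, beq_iff, ← code_mul, ← e]
    exact ⟨a, by rw [code_mul, code_perm' g7_in]⟩

theorem pass_P {P : List ℕ} {n : Equiv.Perm GolayPt} (h : code (n * perm g7 * n⁻¹) ∈ P) :
    Pass (okP P) Ls24 (code n) [] := by
  have e : n * perm g7 = (n * perm g7 * n⁻¹) * n := by group
  have a : ∀ i < 24, ap (code n) (ap g7 i) = ap (code (n * perm g7 * n⁻¹)) (ap (code n) i) := fun i hi => by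
    have := ap_comm e hi
    rwa [code_perm' g7_in] at this
  have a1 := a 23 (by norm_num)
  have a2 := a 0 (by norm_num)
  have a3 := a 1 (by norm_num)
  have a4 := a 2 (by norm_num)
  rw [show ap g7 23 = 0 by decide +kernel] at a1
  rw [show ap g7 0 = 1 by decide +kernel] at a2
  rw [show ap g7 1 = 2 by decide +kernel] at a3
  rw [show ap g7 2 = 3 by decide +kernel] at a4
  rw [pass24]
  simp only [okP, anyL_iff, Bool.and_eq_true, beq_iff, true_and, and_true]
  exact ⟨⟨_, h, a1⟩, ⟨_, h, a1, a2⟩, ⟨_, h, a2, a3⟩, ⟨_, h, a3, a4⟩⟩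

theorem ncard_P {P : List ℕ} (hP : allL P valid = true) :
    {n | n ∈ M24 ∧ code (n * perm g7 * n⁻¹) ∈ P}.ncard = searchCount (okP P) (lf P) Ls24 oneC [] :=
  chain0.card_eq_searchCount _ _ _ (fun _ hg => ⟨hg.1, fixes_nil _, pass_P hg.2, (lf_iff (allL_iff.1 hP)).2 hg.2⟩)
    fun _ hg _ h => ⟨hg, (lf_iff (allL_iff.1 hP)).1 h⟩

theorem fixT {n : Equiv.Perm GolayPt} (hn : n ∈ M24) (h : code (n * perm g7 * n⁻¹) ∈ P7) :
    n • fsL (trL 342) = fsL (trL 342) := by
  have := chain0.forall_of_searchAll (ok := okP P7) (leaf := fun c => !(lf P7 c) || actL c (trL 342) (trL 342))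
    (by decide +kernel) hn (fixes_nil _) (pass_P h)
  rw [(lf_iff (allL_iff.1 (by decide +kernel))).2 h, Bool.not_true, Bool.false_or] at this
  exact (actL_iff (trL_good (by norm_num)) (trL_good (by norm_num)) rfl).2 this

theorem exists_conj (S : Subgroup M24) (hS : Nat.card S = 7) :
    ∃ k : M24, S = Subgroup.zpowers (k⁻¹ * ⟨perm g7, perm_mem_M24 g7_in⟩ * k) := by
  have : Fact (Nat.Prime 7) := ⟨by norm_num⟩
  have f7 : (Nat.card M24).factorization 7 = 1 := by
    rw [card_M24, show (244823040 : ℕ) = 7 * 34974720 by norm_num, Nat.factorization_mul (by norm_num) (by norm_num),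
      Nat.Prime.factorization (by norm_num)]
    simp [Nat.factorization_eq_zero_of_not_dvd (show ¬ 7 ∣ 34974720 by norm_num)]
  let P : Sylow 7 M24 := Sylow.ofCard S (by rw [hS, f7]; norm_num)
  let Q : Sylow 7 M24 := Sylow.ofCard (Subgroup.zpowers ⟨perm g7, perm_mem_M24 g7_in⟩) (by
    rw [Nat.card_zpowers, ← Subgroup.orderOf_coe, f7]; exact g7_order)
  obtain ⟨k, hk⟩ := MulAction.exists_smul_eq M24 Q P
  refine ⟨k⁻¹, ?_⟩
  have : (P : Subgroup M24) = MulAut.conj k • (Q : Subgroup M24) := by rw [← hk]; rfl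
  rw [inv_inv]
  exact this.trans (MonoidHom.map_zpowers _ _)

/-- For a subgroup S of order 7 of the group of the length-24 code (a Sylow 7-subgroup): the normaliser of S has order 126, the centraliser of S has order 42 and is non-abelian, and the whole normaliser leaves some trio invariant. (These are the orders of a Frobenius group of order 21 times a symmetric group of degree 3; the isomorphism type itself is not asserted here.) -/
theorem result (S : Subgroup ↥Cfsg.M24) (hS : Nat.card S = 7) : Nat.card ↥(Subgroup.normalizer (S : Set ↥Cfsg.M24)) = 126 ∧ Nat.card ↥(Subgroup.centralizer (S : Set ↥Cfsg.M24)) = 42 ∧ (∃ x ∈ Subgroup.centralizer (S : Set ↥Cfsg.M24), ∃ y ∈ Subgroup.centralizer (S : Set ↥Cfsg.M24), x * y ≠ y * x) ∧ ∃ T ∈ Cfsg.trios, ∀ n ∈ Subgroup.normalizer (S : Set ↥Cfsg.M24), ((n : ↥Cfsg.M24) : Equiv.Perm Cfsg.GolayPt) • T = T := by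
  obtain ⟨k, rfl⟩ := exists_conj S hS
  set x : M24 := k⁻¹ * ⟨perm g7, perm_mem_M24 g7_in⟩ * k with hx
  have hx' : perm g7 = k.1 * x.1 * k.1⁻¹ := by simp [hx, mul_assoc]
  have hN : ∀ n : M24, n ∈ Subgroup.normalizer (Subgroup.zpowers x : Set M24) ↔
      code ((k.1 * n.1 * k.1⁻¹) * perm g7 * (k.1 * n.1 * k.1⁻¹)⁻¹) ∈ P7 := by
    intro n
    rw [← mem_zp, hx', conj_inv, conj_mul, conj_mul]
    have h1 : k.1 * (n.1 * x.1 * n.1⁻¹) * k.1⁻¹ ∈ Subgroup.zpowers (k.1 * x.1 * k.1⁻¹) ↔
        n * x * n⁻¹ ∈ Subgroup.zpowers x := by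
      simp only [Subgroup.mem_zpowers_iff, conj_zpow, mul_left_inj, mul_right_inj]
      exact exists_congr fun j => by rw [Subtype.ext_iff]; simp
    rw [h1]
    constructor
    · intro h; exact (Subgroup.mem_normalizer_iff.1 h x).1 (Subgroup.mem_zpowers x)
    · intro h
      apply Subgroup.mem_normalizer_fintype
      rintro _ ⟨j, rfl⟩
      show n * x ^ j * n⁻¹ ∈ Subgroup.zpowers x
      rw [← conj_zpow]; exact zpow_mem h j
  have hC : ∀ n : M24, n ∈ Subgroup.centralizer (Subgroup.zpowers x : Set M24) ↔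
      code ((k.1 * n.1 * k.1⁻¹) * perm g7 * (k.1 * n.1 * k.1⁻¹)⁻¹) ∈ [g7] := by
    intro n
    rw [List.mem_singleton, ← code_perm' g7_in, perm_code, code_injective.eq_iff, hx', conj_inv, conj_mul, conj_mul,
      mul_left_inj, mul_right_inj, mul_inv_eq_iff_eq_mul, Subgroup.zpowers_eq_closure, Subgroup.centralizer_closure,
      Subgroup.mem_centralizer_singleton_iff, Subtype.ext_iff]
    rfl
  have hcard : ∀ (H : Subgroup M24) (P : List ℕ), (∀ n : M24, n ∈ H ↔
      code ((k.1 * n.1 * k.1⁻¹) * perm g7 * (k.1 * n.1 * k.1⁻¹)⁻¹) ∈ P) →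
      Nat.card H = {n | n ∈ M24 ∧ code (n * perm g7 * n⁻¹) ∈ P}.ncard := by
    intro H P h
    rw [← ncard_conj (k := k.1) (S := {n | n ∈ M24 ∧ code ((k.1 * n * k.1⁻¹) * perm g7 * (k.1 * n * k.1⁻¹)⁻¹) ∈ P})
      (fun g => by simp only [Set.mem_ofPred_eq, conj_mem_M24_iff k.2]), ← Nat.card_coe_set_eq]
    exact Nat.card_congr ⟨fun n => ⟨n.1.1, n.1.2, (h _).1 n.2⟩, fun n => ⟨⟨n.1, n.2.1⟩, (h _).2 n.2.2⟩,
      fun _ => rfl, fun _ => rfl⟩
  refine ⟨?_, ?_, ?_, k.1⁻¹ • fsL (trL 342), smul_mem_trios (inv_mem k.2) (trL_mem (by norm_num)), fun n hn => ?_⟩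
  · rw [hcard _ _ hN, ncard_P (by decide +kernel)]; decide +kernel
  · rw [hcard _ _ hC, ncard_P (by decide +kernel)]; decide +kernel
  · have key : ∀ c (hc : inM24 c = true), lf [g7] c = true →
        k⁻¹ * ⟨perm c, perm_mem_M24 hc⟩ * k ∈ Subgroup.centralizer (Subgroup.zpowers x : Set M24) := by
      intro c hc h
      rw [hC, ← lf_iff (by decide +kernel)]
      simpa [mul_assoc, code_perm' hc] using h
    refine ⟨_, key 0x327282ca4a38f6336a97a2ea88c41 (by decide +kernel) (by decide +kernel),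
      _, key 0x23843522715b2962de000d6477a5a6 (by decide +kernel) (by decide +kernel), fun h => ?_⟩
    simp only [mul_assoc, mul_inv_cancel_left, mul_right_inj] at h
    simp only [← mul_assoc, mul_left_inj] at h
    have h2 := commute_iff_code.1 (congrArg Subtype.val h)
    rw [code_perm (by decide +kernel), code_perm (by decide +kernel)] at h2
    revert h2; decide +kernel
  · rw [← conj_smul_eq_iff (k := k.1), smul_inv_smul]
    exact fixT ((conj_mem_M24_iff k.2).2 n.2) ((hN n).1 hn)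

end Cfsg.Agent.S5604
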