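import Cfsg.Statements.S5607
import Cfsg.Agent.Lib.Golay.Misc
import Cfsg.Agent.Lib.Golay.Objs

set_option autoImplicit false
open scoped Pointwise
open Cfsg

namespace Cfsg.Agent.S5607
open CA.Gol
open scoped Pointwise

/-- centralizer of the representative -/
def C0 : Subgroup (Equiv.Perm GolayPt) := M24 ⊓ Subgroup.centralizer {perm r2B}

theorem mem_C0 {c : Equiv.Perm GolayPt} : c ∈ C0 ↔ c ∈ M24 ∧ c * perm r2B = perm r2B * c := by
  rw [C0, Subgroup.mem_inf, Subgroup.mem_centralizer_singleton_iff]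

theorem comm_iff {c : Equiv.Perm GolayPt} :
    c * perm r2B = perm r2B * c ↔ Nat.beq (mul (code c) r2B) (mul r2B (code c)) = true := by
  rw [commute_iff_code, code_perm' r2B_in]

/-- elements of the centralizer moving the extra point everywhere -/
def trC : List ℕ := [0x354323d2c922d00d62e288f3a1977, 0xc1f34b9763a0911d4c55524d602e2, 0x140ea5a0b71a4869c5f2ab280759a1, 0x1a6f02b4463a22f55420b3a4b24d94, 0x208a68a997ac829a1e6f70d005b6d0, 0x2a971030623a1d7b56869b6414920f, 0x3302d392f47ba7242802854a3b262b, 0x3d61328574b5d0f500c4139a364532, 0x41de24a886b0251a5e0570dab0b275, 0x48cd63ceee09292ac00b6204a6bcb1, 0x515b55de5088de6650f604d244044e, 0x5cdaf881c43d5891a156bd25028446, 0x61a876a6a15157603d038ddc291213, 0x6808c1856873ef4894d01255599e56, 0x7156d0cef51a5e22440664288b48ea, 0x7b8d03cc4303552ad82b622f422625, 0x8096994c7751427abe86621c08d9a4, 0x8d18512dc0ac86121d53341177d9a9, 0x954c5b31541110dbc1cb980237a627, 0x99a05b85d288d606d144159277a2ac, 0xa26e70daaa5b22224d006c0ce93ca3,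 0xa9e859c5d00364c359434aee478448, 0xb02b321d6ea26f0144c89046a63cad, 0xbdab49ca307b9ac5a928398a418820]

theorem trans0 (p : GolayPt) : ∃ c ∈ C0, c none = p := by
  have h : allLt (fun i => force (nth trC i) fun c => inM24 c && Nat.beq (mul c r2B) (mul r2B c) &&
    Nat.beq (ap c 23) i) 24 = true := by decide +kernel
  have := allLt_iff.1 h _ (ix_lt p)
  simp only [force_eq, Bool.and_eq_true] at this
  refine ⟨perm (nth trC (ix p)), mem_C0.2 ⟨perm_mem_M24 this.1.1, comm_iff.2 ?_⟩, ?_⟩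
  · rw [code_perm' this.1.1]; exact this.1.2
  · show perm _ (pt 23) = p
    rw [perm_pt (inM24_valid this.1.1) (by norm_num), beq_iff.1 this.2, pt_ix]

/-- pruning -/
def ok2 : List ℕ → Bool
  | [y2] => Nat.beq y2 0
  | [y4, y3, _] => Nat.beq y4 (ap r2B y3)
  | _ => true

theorem card_C0 : Nat.card C0 = 7680 := by
  have h1 := card_inf_stab_mul C0 (none : GolayPt)
  have h2 : MulAction.orbit C0 (none : GolayPt) = Set.univ := by
    rw [Set.eq_univ_iff_forall]
    intro p
    obtain ⟨c, hc, e⟩ := trans0 p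
    exact ⟨⟨c, hc⟩, e⟩
  have h3 := chain1.card_eq_searchCount ok2
    (fun c => Nat.beq (ap c 20) (ap r2B (ap c 3)) && Nat.beq (mul c r2B) (mul r2B c))
    (C0 ⊓ MulAction.stabilizer (Equiv.Perm GolayPt) (none : GolayPt) : Subgroup _) (by
      rintro s ⟨hs, hf⟩
      obtain ⟨hs, hc⟩ := mem_C0.1 hs
      have a : ∀ i < 24, ap (code s) (ap r2B i) = ap r2B (ap (code s) i) := fun i hi => by
        have := ap_comm hc hi
        rwa [code_perm' r2B_in] at this
      have a0 : ap (code s) 23 = 23 := (apply_pt_eq_iff (by norm_num) (by norm_num)).1 hf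
      have a1 := a 23 (by norm_num)
      have a2 := a 1 (by norm_num)
      have a3 := a 3 (by norm_num)
      rw [a0, show ap r2B 23 = 0 by decide +kernel] at a1
      rw [show ap r2B 1 = 2 by decide +kernel] at a2
      rw [show ap r2B 3 = 20 by decide +kernel] at a3
      refine ⟨hs, fixes23.2 hf, ?_, ?_⟩
      · rw [pass23]; simp only [ok2, beq_iff, a1, a2, and_self]
      · rw [beq_iff.2 a3, comm_iff.1 hc]; rfl)
    (fun g hg hf hl => ⟨mem_C0.2 ⟨hg, comm_iff.2 (Bool.and_eq_true_iff.1 hl).2⟩, fixes23.1 hf⟩)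
  rw [show searchCount _ _ _ _ _ = 320 by decide +kernel, ← Nat.card_coe_set_eq] at h3
  rw [h2, Set.ncard_univ, Nat.card_eq_fintype_card (α := GolayPt), card_golayPt] at h1
  rw [← h1]
  exact (congrArg (· * 24) h3).trans (by norm_num)

theorem uniq : ∀ S ∈ sextets, (∀ u ∈ S, perm r2B • u = u) → S = fsL (sxL 1618) :=
  famSext.forall (p := fun i => Nat.beq i 1618 || !(allL (sxL i) fun m => Nat.beq (apM r2B m) m))
    (by decide +kernel) fun i hi _ h hS => by
      rw [Bool.or_eq_true, beq_iff] at h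
      rcases h with rfl | h
      · rfl
      · exfalso
        rw [allL_iff.2 fun m hm => beq_iff.2 ?_] at h
        · exact Bool.noConfusion h
        · rw [← code_perm' r2B_in, ← smul_fs_eq_iff _ ((sxL_good hi).2 m hm) ((sxL_good hi).2 m hm)]
          exact hS _ (mem_fsL.2 ⟨m, hm, rfl⟩)

theorem fixS0 {c : Equiv.Perm GolayPt} (hc : c ∈ C0) : c • fsL (sxL 1618) = fsL (sxL 1618) := by
  obtain ⟨h1, h2⟩ := mem_C0.1 hc
  apply uniq _ (smul_mem_sextets h1 (sxL_mem (by norm_num)))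
  intro u hu
  obtain ⟨t, ht, rfl⟩ := Finset.mem_smul_finset.1 hu
  obtain ⟨m, hm, rfl⟩ := mem_fsL.1 ht
  have hg := sxL_good (i := 1618) (by norm_num)
  have h : allL (sxL 1618) (fun m => Nat.beq (apM r2B m) m) = true := by decide +kernel
  rw [smul_smul, ← h2, mul_smul, (smul_fs_eq_iff _ (hg.2 m hm) (hg.2 m hm)).2
    (by rw [code_perm' r2B_in]; exact beq_iff.1 (allL_iff.1 h m hm))]

/-- For a fixed-point-free involution t of the group of the length-24 code: its centraliser in that group has order 7680, is transitive on the 24 points, and is contained, together with t, in the stabiliser of some sextet. -/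
theorem result (t : Equiv.Perm Cfsg.GolayPt) (ht : t ∈ Cfsg.M24) (h₂ : orderOf t = 2) (h₀ : ∀ p, t p ≠ p) : Nat.card {c : Equiv.Perm Cfsg.GolayPt // c ∈ Cfsg.M24 ∧ c * t = t * c} = 7680 ∧ (∀ p q : Cfsg.GolayPt, ∃ c ∈ Cfsg.M24, c * t = t * c ∧ c p = q) ∧ ∃ S ∈ Cfsg.sextets, t • S = S ∧ ∀ c ∈ Cfsg.M24, c * t = t * c → c • S = S := by
  obtain ⟨k, hk, e⟩ := class_2B ht h₂ (card_fixS_eq_zero.2 h₀)
  have key : ∀ c, (c ∈ M24 ∧ c * t = t * c) ↔ k * c * k⁻¹ ∈ C0 := by
    intro c
    rw [mem_C0, conj_mem_M24_iff hk, ← e]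
    simp only [conj_mul, mul_left_inj, mul_right_inj]
  have key' : ∀ c ∈ C0, k⁻¹ * c * k ∈ M24 ∧ k⁻¹ * c * k * t = t * (k⁻¹ * c * k) := fun c hc =>
    (key _).2 (by simpa [mul_assoc] using hc)
  have hfix : ∀ c ∈ M24, c * t = t * c → c • k⁻¹ • fsL (sxL 1618) = k⁻¹ • fsL (sxL 1618) := fun c hc h => by
    rw [← conj_smul_eq_iff (k := k), smul_inv_smul]
    exact fixS0 ((key c).1 ⟨hc, h⟩)
  refine ⟨?_, fun p q => ?_, k⁻¹ • fsL (sxL 1618), smul_mem_sextets (inv_mem hk) (sxL_mem (by norm_num)),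
    hfix t ht rfl, hfix⟩
  · rw [← card_C0]
    exact ncard_conj (S := {c | c ∈ M24 ∧ c * t = t * c}) (T := C0) key
  · obtain ⟨a, ha, e1⟩ := trans0 (k p)
    obtain ⟨b, hb, e2⟩ := trans0 (k q)
    obtain ⟨h1, h2⟩ := key' _ (mul_mem hb (inv_mem ha))
    refine ⟨_, h1, h2, ?_⟩
    simp only [Equiv.Perm.mul_apply, ← e1]
    simp [e2]

end Cfsg.Agent.S5607
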