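import Cfsg.Statements.S5608
import Cfsg.Agent.Lib.Golay.Misc

set_option autoImplicit false
open scoped Pointwise
open Cfsg

namespace Cfsg.Agent.S5608
open CA.Gol
open scoped Pointwise

/-- pruning for elements commuting with `r3A` -/
def ok3 : List ℕ → Bool
  | [y2, y1] => Nat.beq y2 (ap r3A y1)
  | [y3, y2, _] => Nat.beq y3 (ap r3A y2)
  | [y5, y4, _, _, _] => Nat.beq y5 (ap r3A y4)
  | _ => true

theorem srch : searchAll ok3 (fun c => !(Nat.beq (ap c 17) (ap r3A (ap c 3))) ||
    !(Nat.beq (mul c r3A) (mul r3A c)) || !(ordIs c 2) || !(Nat.beq (popc (fixM c)) 0)) Ls24 oneC [] = true := by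
  decide +kernel

theorem base {s : Equiv.Perm GolayPt} (hs : s ∈ M24) (h2 : orderOf s = 2) (hc : s * perm r3A = perm r3A * s) :
    (fixS s).card ≠ 0 := by
  have a : ∀ i < 24, ap (code s) (ap r3A i) = ap r3A (ap (code s) i) := fun i hi => by
    have := ap_comm hc hi
    rwa [code_perm' r3A_in] at this
  have a1 := a 23 (by norm_num)
  have a2 := a 0 (by norm_num)
  have a3 := a 2 (by norm_num)
  have a4 := a 3 (by norm_num)
  rw [show ap r3A 23 = 0 by decide +kernel] at a1
  rw [show ap r3A 0 = 1 by decide +kernel] at a2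
  rw [show ap r3A 2 = 3 by decide +kernel] at a3
  rw [show ap r3A 3 = 17 by decide +kernel] at a4
  have := chain0.forall_of_searchAll srch hs (fixes_nil _) (by
    rw [pass24]; simp only [ok3, beq_iff, a1, a2, a3, and_self])
  have h3 := commute_iff_code.1 hc
  rw [code_perm' r3A_in] at h3
  rw [beq_iff.2 a4, h3, (ordIs_iff Nat.prime_two).2 h2, ← card_fix] at this
  simpa [beq_false_iff] using this

/-- If an element of order 3 and an involution of the group of the length-24 code commute, then either the element of order 3 has exactly 6 fixed points and the involution exactly 8, or both are fixed-point-free. -/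
theorem result (x s : Equiv.Perm Cfsg.GolayPt) (hx : x ∈ Cfsg.M24) (hs : s ∈ Cfsg.M24) (h₃ : orderOf x = 3) (h₂ : orderOf s = 2) (hc : Commute x s) : ((Finset.univ.filter fun p => x p = p).card = 6 ∧ (Finset.univ.filter fun p => s p = p).card = 8) ∨ ((Finset.univ.filter fun p => x p = p).card = 0 ∧ (Finset.univ.filter fun p => s p = p).card = 0) := by
  rcases fix_three hx h₃ with h | h
  · left
    refine ⟨h, ?_⟩
    rcases fix_two hs h₂ with h' | h'
    · exact h'.2
    · exfalso
      obtain ⟨k, hk, e⟩ := class_3A hx h₃ (by omega)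
      refine base ((conj_mem_M24_iff hk).2 hs) (by rw [orderOf_conj', h₂]) ?_ (by rw [card_fixS_conj, h'])
      rw [← e]
      simp only [mul_assoc, inv_mul_cancel_left]
      rw [← mul_assoc s, ← hc.eq, mul_assoc]
  · right
    refine ⟨h, ?_⟩
    rcases fix_two hs h₂ with h' | h'
    · exfalso
      obtain ⟨p, _, hp⟩ := exists_fix_in Nat.prime_three (h₃ ▸ pow_orderOf_eq_one x) (smul_fixS_of_commute hc.eq)
        (by rw [h'.2]; norm_num)
      exact card_fixS_eq_zero.1 h p hp
    · exact h'

end Cfsg.Agent.S5608
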