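import Cfsg.Statements.S5609
import Cfsg.Agent.Lib.Golay.Objs

set_option autoImplicit false
open scoped Pointwise
open Cfsg

namespace Cfsg.Agent.S5609
open CA.Gol
open scoped Pointwise

theorem adj_iff {a b : octads} : (blockGraph octads).Adj a b ↔ ((a : Finset GolayPt) ∩ b).card = 0 := by
  rw [blockGraph, SimpleGraph.fromRel_adj, Finset.card_eq_zero, ← Finset.disjoint_iff_inter_eq_empty]
  constructor
  · rintro ⟨_, h | h⟩
    · exact h
    · exact h.symm
  · intro h
    refine ⟨?_, Or.inl h⟩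
    rintro rfl
    have := a.2.2
    rw [disjoint_self, Finset.bot_eq_empty] at h
    rw [h] at this
    simp at this

theorem nbr {o o' : Finset GolayPt} (ho : o ∈ octads) (ho' : o' ∈ octads) {a n : ℕ} (ha : isOct a = true)
    (hn : isOct n = true) (h : (o ∩ o').card = popc (Nat.land O0 a)) :
    ∃ x ∈ octads, (o ∩ x).card = popc (Nat.land O0 n) ∧ (x ∩ o').card = popc (Nat.land n a) := by
  obtain ⟨g, hg, e1, e2⟩ := octad_pair _ O0_mem o ho _ (fs_mem_octads ha) o' ho' (by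
    show (fs O0 ∩ fs a).card = (o ∩ o').card
    rw [h, ← fs_land, card_fs])
  refine ⟨g • fs n, smul_mem_octads hg (fs_mem_octads hn), ?_, ?_⟩
  · rw [← e1, card_inter_smul, ← fs_land, card_fs]
  · rw [← e2, card_inter_smul, ← fs_land, card_fs]

theorem walk2 (a b : octads) (h : ((a : Finset GolayPt) ∩ b).card = 4) :
    ∃ w : (blockGraph octads).Walk a b, w.length = 2 := by
  obtain ⟨x, hx, h1, h2⟩ := nbr a.2 b.2 (a := 0x149f) (n := 0x3da100) (by decide +kernel) (by decide +kernel)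
    (by rw [h]; decide +kernel)
  exact ⟨.cons (v := ⟨x, hx⟩) (adj_iff.2 (h1.trans (by decide +kernel)))
    (.cons (adj_iff.2 (h2.trans (by decide +kernel))) .nil), rfl⟩

theorem walk3 (a b : octads) (h : ((a : Finset GolayPt) ∩ b).card = 2) :
    ∃ w : (blockGraph octads).Walk a b, w.length = 3 := by
  obtain ⟨x, hx, h1, h2⟩ := nbr a.2 b.2 (a := 0x3da1) (n := 0x527c0) (by decide +kernel) (by decide +kernel)
    (by rw [h]; decide +kernel)
  obtain ⟨w, hw⟩ := walk2 ⟨x, hx⟩ b (h2.trans (by decide +kernel))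
  exact ⟨.cons (adj_iff.2 (h1.trans (by decide +kernel))) w, by simp [hw]⟩

theorem no_common {a b x : Finset GolayPt} (ha : a ∈ octads) (hb : b ∈ octads) (hx : x ∈ octads)
    (h : (a ∩ b).card = 2) (h1 : (a ∩ x).card = 0) (h2 : (x ∩ b).card = 0) : False := by
  have e1 := card_symmDiff_add a b
  have e2 := card_symmDiff_add (symmDiff a b) x
  have e3 := card_symmDiff_inter a b x
  have e4 := card_CW (symmDiff_mem_CW (symmDiff_mem_CW ha.1 hb.1) hx.1)
  rw [Finset.inter_comm b x] at e3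
  rw [ha.2, hb.2] at e1
  rw [hx.2] at e2
  omega

/-- In the graph on the 759 octads of the length-24 code in which two octads are adjacent when they are disjoint, the graph is connected (of diameter 3) and two distinct octads are at distance 1, 2 or 3 exactly when they meet in 0, 4 or 2 points respectively. -/
theorem result (o o' : Finset Cfsg.GolayPt) (ho : o ∈ Cfsg.octads) (ho' : o' ∈ Cfsg.octads) (hne : o ≠ o') : (Cfsg.blockGraph Cfsg.octads).Connected ∧ ((Cfsg.blockGraph Cfsg.octads).dist ⟨o, ho⟩ ⟨o', ho'⟩ = 1 ↔ (o ∩ o').card = 0) ∧ ((Cfsg.blockGraph Cfsg.octads).dist ⟨o, ho⟩ ⟨o', ho'⟩ = 2 ↔ (o ∩ o').card = 4) ∧ ((Cfsg.blockGraph Cfsg.octads).dist ⟨o, ho⟩ ⟨o', ho'⟩ = 3 ↔ (o ∩ o').card = 2) := by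
  have hconn : (blockGraph octads).Connected := by
    refine @SimpleGraph.Connected.mk _ _ (fun a b => ?_) ⟨⟨o, ho⟩⟩
    by_cases hab : a = b
    · rw [hab]
    rcases card_inter_octads a.2 b.2 (fun e => hab (Subtype.ext e)) with h | h | h
    · exact (adj_iff.2 h).reachable
    · exact ⟨(walk3 a b h).choose⟩
    · exact ⟨(walk2 a b h).choose⟩
  have h0 : (blockGraph octads).dist ⟨o, ho⟩ ⟨o', ho'⟩ ≠ 0 := fun h =>
    hne (congrArg Subtype.val (hconn.dist_eq_zero_iff.1 h))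
  have h1 : (blockGraph octads).dist ⟨o, ho⟩ ⟨o', ho'⟩ = 1 ↔ (o ∩ o').card = 0 := by
    rw [SimpleGraph.dist_eq_one_iff_adj, adj_iff]
  have h2 : (o ∩ o').card = 4 → (blockGraph octads).dist ⟨o, ho⟩ ⟨o', ho'⟩ ≤ 2 := fun h => by
    obtain ⟨w, hw⟩ := walk2 ⟨o, ho⟩ ⟨o', ho'⟩ h
    exact hw ▸ SimpleGraph.dist_le w
  have h3 : (o ∩ o').card = 2 → (blockGraph octads).dist ⟨o, ho⟩ ⟨o', ho'⟩ ≤ 3 := fun h => by
    obtain ⟨w, hw⟩ := walk3 ⟨o, ho⟩ ⟨o', ho'⟩ h
    exact hw ▸ SimpleGraph.dist_le w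
  have h4 : (o ∩ o').card = 2 → (blockGraph octads).dist ⟨o, ho⟩ ⟨o', ho'⟩ ≠ 2 := fun h e => by
    obtain ⟨w, hw⟩ := (hconn ⟨o, ho⟩ ⟨o', ho'⟩).exists_walk_length_eq_dist
    rw [e] at hw
    cases w with
    | nil => simp at hw
    | cons a1 w =>
      cases w with
      | nil => simp at hw
      | cons a2 w =>
        cases w with
        | nil => exact no_common ho ho' (Subtype.prop _) h (adj_iff.1 a1) (adj_iff.1 a2)
        | cons a3 w => simp at hw
  refine ⟨hconn, h1, ?_⟩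
  have := card_inter_octads ho ho' hne
  omega

end Cfsg.Agent.S5609
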