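import Cfsg.Statements.S5610
import Cfsg.Agent.Lib.Golay.Pairs

set_option autoImplicit false
open scoped Pointwise
open Cfsg

namespace Cfsg.Agent.S5610
open CA.Gol


/-- The stabiliser of an octad in the group of the length-24 code has exactly three orbits on the 3795 trios, of sizes 15, 420 and 3360, and exactly three orbits on the 1771 sextets, of sizes 35, 840 and 896. -/
theorem result (o : Finset Cfsg.GolayPt) (ho : o ∈ Cfsg.octads) : (∃ X₁ ∈ Cfsg.trios, ∃ X₂ ∈ Cfsg.trios, ∃ X₃ ∈ Cfsg.trios, (MulAction.orbit ↥(MulAction.stabilizer Cfsg.M24 o) X₁).ncard = 15 ∧ (MulAction.orbit ↥(MulAction.stabilizer Cfsg.M24 o) X₂).ncard = 420 ∧ (MulAction.orbit ↥(MulAction.stabilizer Cfsg.M24 o) X₃).ncard = 3360 ∧ Cfsg.trios = MulAction.orbit ↥(MulAction.stabilizer Cfsg.M24 o) X₁ ∪ MulAction.orbit ↥(MulAction.stabilizer Cfsg.M24 o) X₂ ∪ MulAction.orbit ↥(MulAction.stabilizer Cfsg.M24 o) X₃) ∧ (∃ Y₁ ∈ Cfsg.sextets, ∃ Y₂ ∈ Cfsg.sextets, ∃ Y₃ ∈ Cfsg.sextets,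 (MulAction.orbit ↥(MulAction.stabilizer Cfsg.M24 o) Y₁).ncard = 35 ∧ (MulAction.orbit ↥(MulAction.stabilizer Cfsg.M24 o) Y₂).ncard = 840 ∧ (MulAction.orbit ↥(MulAction.stabilizer Cfsg.M24 o) Y₃).ncard = 896 ∧ Cfsg.sextets = MulAction.orbit ↥(MulAction.stabilizer Cfsg.M24 o) Y₁ ∪ MulAction.orbit ↥(MulAction.stabilizer Cfsg.M24 o) Y₂ ∪ MulAction.orbit ↥(MulAction.stabilizer Cfsg.M24 o) Y₃) := by
  constructor
  · refine trio_octad_pair.symm.orbits3 (fun _ _ => rfl) (fun _ _ => rfl) (fun g hg b hb => smul_mem_trios hg hb)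
      inv1_smul ho (octad_trans ho O0_mem) (v1 := 64) (v2 := 32) (v3 := 24) ?_ ?_ ?_ (by norm_num) (by norm_num)
      (by norm_num) ?_
    · rw [ncard_trios_inv1]; decide +kernel
    · rw [ncard_trios_inv1]; decide +kernel
    · rw [ncard_trios_inv1]; decide +kernel
    · exact famTrio.forall (p := fun i => force (inv1C O0 (trL i)) fun x => memL x [64, 32, 24]) (by decide +kernel)
        fun i hi _ h => by rw [inv1_eq _ (trL_good hi)]; exact memL3 (by rwa [force_eq] at h)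
  · refine sextet_octad_pair.symm.orbits3 (fun _ _ => rfl) (fun _ _ => rfl) (fun g hg b hb => smul_mem_sextets hg hb)
      inv1_smul ho (octad_trans ho O0_mem) (v1 := 32) (v2 := 16) (v3 := 14) ?_ ?_ ?_ (by norm_num) (by norm_num)
      (by norm_num) ?_
    · rw [ncard_sextets_inv1]; decide +kernel
    · rw [ncard_sextets_inv1]; decide +kernel
    · rw [ncard_sextets_inv1]; decide +kernel
    · exact famSext.forall (p := fun i => force (inv1C O0 (sxL i)) fun x => memL x [32, 16, 14]) (by decide +kernel)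
        fun i hi _ h => by rw [inv1_eq _ (sxL_good hi)]; exact memL3 (by rwa [force_eq] at h)

end Cfsg.Agent.S5610
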