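import Cfsg.Statements.S5611
import Cfsg.Agent.Lib.Golay.Pairs

set_option autoImplicit false
open scoped Pointwise
open Cfsg

namespace Cfsg.Agent.S5611
open CA.Gol


/-- The stabiliser of a sextet in the group of the length-24 code has exactly three orbits on the 759 octads, of sizes 15, 360 and 384, and exactly four orbits on the 3795 trios, of sizes 15, 180, 720 and 2880. -/
theorem result (S : Finset (Finset Cfsg.GolayPt)) (hS : S ∈ Cfsg.sextets) : (∃ X₁ ∈ Cfsg.octads, ∃ X₂ ∈ Cfsg.octads, ∃ X₃ ∈ Cfsg.octads, (MulAction.orbit ↥(MulAction.stabilizer Cfsg.M24 S) X₁).ncard = 15 ∧ (MulAction.orbit ↥(MulAction.stabilizer Cfsg.M24 S) X₂).ncard = 360 ∧ (MulAction.orbit ↥(MulAction.stabilizer Cfsg.M24 S) X₃).ncard = 384 ∧ Cfsg.octads = MulAction.orbit ↥(MulAction.stabilizer Cfsg.M24 S) X₁ ∪ MulAction.orbit ↥(MulAction.stabilizer Cfsg.M24 S) X₂ ∪ MulAction.orbit ↥(MulAction.stabilizer Cfsg.M24 S) X₃) ∧ (∃ Y₁ ∈ Cfsg.trios, ∃ Y₂ ∈ Cfsg.trios,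 ∃ Y₃ ∈ Cfsg.trios, ∃ Y₄ ∈ Cfsg.trios, (MulAction.orbit ↥(MulAction.stabilizer Cfsg.M24 S) Y₁).ncard = 15 ∧ (MulAction.orbit ↥(MulAction.stabilizer Cfsg.M24 S) Y₂).ncard = 180 ∧ (MulAction.orbit ↥(MulAction.stabilizer Cfsg.M24 S) Y₃).ncard = 720 ∧ (MulAction.orbit ↥(MulAction.stabilizer Cfsg.M24 S) Y₄).ncard = 2880 ∧ Cfsg.trios = MulAction.orbit ↥(MulAction.stabilizer Cfsg.M24 S) Y₁ ∪ MulAction.orbit ↥(MulAction.stabilizer Cfsg.M24 S) Y₂ ∪ MulAction.orbit ↥(MulAction.stabilizer Cfsg.M24 S) Y₃ ∪ MulAction.orbit ↥(MulAction.stabilizer Cfsg.M24 S) Y₄) := by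
  have hg := sxL_good (i := 0) (by norm_num)
  constructor
  · refine sextet_octad_pair.orbits3 (fun _ _ => rfl) (fun _ _ => rfl) (fun g hg b hb => smul_mem_octads hg hb)
      (fun g a b => inv1_smul g b a) hS (sextet_trans hS (sxL_mem (i := 0) (by norm_num)))
      (v1 := 32) (v2 := 16) (v3 := 14) ?_ ?_ ?_ (by norm_num) (by norm_num) (by norm_num) ?_
    · rw [ncard_octads_inv1 hg]; decide +kernel
    · rw [ncard_octads_inv1 hg]; decide +kernel
    · rw [ncard_octads_inv1 hg]; decide +kernel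
    · exact famOct.forall (p := fun i => force (inv1C (enc i) (sxL 0)) fun x => memL x [32, 16, 14])
        (by decide +kernel) fun i hi _ h => by rw [inv1_eq _ hg]; exact memL3 (by rwa [force_eq] at h)
  · refine trio_sextet_pair.symm.orbits4 (fun _ _ => rfl) (fun _ _ => rfl) (fun g hg b hb => smul_mem_trios hg hb)
      (fun g a b => inv2_smul g b a) hS (sextet_trans hS (sxL_mem (i := 0) (by norm_num)))
      (v1 := 96) (v2 := 64) (v3 := 48) (v4 := 44) ?_ ?_ ?_ ?_ (by norm_num) (by norm_num) (by norm_num)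
      (by norm_num) ?_
    · rw [ncard_trios_inv2 hg]; decide +kernel
    · rw [ncard_trios_inv2 hg]; decide +kernel
    · rw [ncard_trios_inv2 hg]; decide +kernel
    · rw [ncard_trios_inv2 hg]; decide +kernel
    · exact famTrio.forall (p := fun i => force (inv2C (trL i) (sxL 0)) fun x => memL x [96, 64, 48, 44])
        (by decide +kernel) fun i hi _ h => by rw [inv2_eq (trL_good hi) hg]; exact memL4 (by rwa [force_eq] at h)

end Cfsg.Agent.S5611
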