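import Cfsg.Statements.S5612
import Cfsg.Agent.Lib.Golay.Pairs

set_option autoImplicit false
open scoped Pointwise
open Cfsg

namespace Cfsg.Agent.S5612
open CA.Gol


/-- The stabiliser of a trio in the group of the length-24 code has exactly three orbits on the 759 octads, of sizes 3, 84 and 672, and exactly four orbits on the 1771 sextets, of sizes 7, 84, 336 and 1344. -/
theorem result (T : Finset (Finset Cfsg.GolayPt)) (hT : T ∈ Cfsg.trios) : (∃ X₁ ∈ Cfsg.octads, ∃ X₂ ∈ Cfsg.octads, ∃ X₃ ∈ Cfsg.octads, (MulAction.orbit ↥(MulAction.stabilizer Cfsg.M24 T) X₁).ncard = 3 ∧ (MulAction.orbit ↥(MulAction.stabilizer Cfsg.M24 T) X₂).ncard = 84 ∧ (MulAction.orbit ↥(MulAction.stabilizer Cfsg.M24 T) X₃).ncard = 672 ∧ Cfsg.octads = MulAction.orbit ↥(MulAction.stabilizer Cfsg.M24 T) X₁ ∪ MulAction.orbit ↥(MulAction.stabilizer Cfsg.M24 T) X₂ ∪ MulAction.orbit ↥(MulAction.stabilizer Cfsg.M24 T) X₃) ∧ (∃ Y₁ ∈ Cfsg.sextets, ∃ Y₂ ∈ Cfsg.sextets, ∃ Y₃ ∈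 Cfsg.sextets, ∃ Y₄ ∈ Cfsg.sextets, (MulAction.orbit ↥(MulAction.stabilizer Cfsg.M24 T) Y₁).ncard = 7 ∧ (MulAction.orbit ↥(MulAction.stabilizer Cfsg.M24 T) Y₂).ncard = 84 ∧ (MulAction.orbit ↥(MulAction.stabilizer Cfsg.M24 T) Y₃).ncard = 336 ∧ (MulAction.orbit ↥(MulAction.stabilizer Cfsg.M24 T) Y₄).ncard = 1344 ∧ Cfsg.sextets = MulAction.orbit ↥(MulAction.stabilizer Cfsg.M24 T) Y₁ ∪ MulAction.orbit ↥(MulAction.stabilizer Cfsg.M24 T) Y₂ ∪ MulAction.orbit ↥(MulAction.stabilizer Cfsg.M24 T) Y₃ ∪ MulAction.orbit ↥(MulAction.stabilizer Cfsg.M24 T) Y₄) := by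
  have hg := trL_good (i := 344) (by norm_num)
  constructor
  · refine trio_octad_pair.orbits3 (fun _ _ => rfl) (fun _ _ => rfl) (fun g hg b hb => smul_mem_octads hg hb)
      (fun g a b => inv1_smul g b a) hT (trio_trans hT (trL_mem (i := 344) (by norm_num)))
      (v1 := 64) (v2 := 32) (v3 := 24) ?_ ?_ ?_ (by norm_num) (by norm_num) (by norm_num) ?_
    · rw [ncard_octads_inv1 hg]; decide +kernel
    · rw [ncard_octads_inv1 hg]; decide +kernel
    · rw [ncard_octads_inv1 hg]; decide +kernel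
    · exact famOct.forall (p := fun i => force (inv1C (enc i) (trL 344)) fun x => memL x [64, 32, 24])
        (by decide +kernel) fun i hi _ h => by rw [inv1_eq _ hg]; exact memL3 (by rwa [force_eq] at h)
  · refine trio_sextet_pair.orbits4 (fun _ _ => rfl) (fun _ _ => rfl) (fun g hg b hb => smul_mem_sextets hg hb)
      inv2_smul hT (trio_trans hT (trL_mem (i := 344) (by norm_num)))
      (v1 := 96) (v2 := 64) (v3 := 48) (v4 := 44) ?_ ?_ ?_ ?_ (by norm_num) (by norm_num) (by norm_num)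
      (by norm_num) ?_
    · rw [ncard_sextets_inv2 hg]; decide +kernel
    · rw [ncard_sextets_inv2 hg]; decide +kernel
    · rw [ncard_sextets_inv2 hg]; decide +kernel
    · rw [ncard_sextets_inv2 hg]; decide +kernel
    · exact famSext.forall (p := fun i => force (inv2C (trL 344) (sxL i)) fun x => memL x [96, 64, 48, 44])
        (by decide +kernel) fun i hi _ h => by rw [inv2_eq hg (sxL_good hi)]; exact memL4 (by rwa [force_eq] at h)

end Cfsg.Agent.S5612
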