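import Cfsg.Statements.S5613
import Cfsg.Agent.Lib.Golay.Objs
import Cfsg.Agent.Lib.Golay.Misc

set_option autoImplicit false
open scoped Pointwise
open Cfsg

namespace Cfsg.Agent.S5613
open CA.Gol

theorem card_stab {o : Finset GolayPt} (ho : o ∈ octads) : Nat.card (MulAction.stabilizer M24 o) = 322560 := by
  have h1 := (MulAction.stabilizer M24 o).card_mul_index
  have h2 : MulAction.orbit M24 o = {x | x ∈ octads ∧ True} := by
    ext x
    simp only [and_true, Set.mem_ofPred_eq]
    constructor
    · rintro ⟨g, rfl⟩; exact smul_mem_octads g.2 ho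
    · intro hx
      obtain ⟨g, hg, e⟩ := octad_trans ho hx
      exact ⟨⟨g, hg⟩, e⟩
  rw [MulAction.index_stabilizer, h2, famOct.ncard (p := fun _ => true) (fun _ _ _ => by simp), card_M24,
    show countLt _ 4096 = 759 by decide +kernel] at h1
  omega

theorem key {o o' : Finset GolayPt} (ho : o ∈ octads) (ho' : o' ∈ octads) :
    Nat.card ↥(MulAction.stabilizer M24 o ⊓ MulAction.stabilizer M24 o') *
      countLt (fun i => wtIs 8 i && Nat.beq (popc (Nat.land O0 (enc i))) (o ∩ o').card) 4096 = 322560 := by
  have h1 := card_inf_stab_mul (MulAction.stabilizer M24 o) o'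
  obtain ⟨g, hg, e⟩ := octad_trans ho O0_mem
  rw [card_stab ho, octad_pair.orbit_eq (fun _ _ => rfl) (fun _ _ => rfl) (fun g hg b hb => smul_mem_octads hg hb)
    card_inter_smul ho ho', ncard_inv_transport (P := fun a b => (a ∩ b).card = (o ∩ o').card) hg e
    (fun g hg b hb => smul_mem_octads hg hb) (fun b => by rw [card_inter_smul]),
    famOct.ncard (p := fun i => Nat.beq (popc (Nat.land O0 (enc i))) (o ∩ o').card)
      (fun _ _ _ => by rw [← fs_land, card_fs, beq_iff])] at h1
  exact h1

/-- In the group of the length-24 code, the joint stabiliser of two octads has order 10752, 1152 or 720 according as the octads meet in 0, 4 or 2 points. -/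
theorem result (o o' : Finset Cfsg.GolayPt) (ho : o ∈ Cfsg.octads) (ho' : o' ∈ Cfsg.octads) : ((o ∩ o').card = 0 → Nat.card ↥(MulAction.stabilizer Cfsg.M24 o ⊓ MulAction.stabilizer Cfsg.M24 o') = 10752) ∧ ((o ∩ o').card = 4 → Nat.card ↥(MulAction.stabilizer Cfsg.M24 o ⊓ MulAction.stabilizer Cfsg.M24 o') = 1152) ∧ ((o ∩ o').card = 2 → Nat.card ↥(MulAction.stabilizer Cfsg.M24 o ⊓ MulAction.stabilizer Cfsg.M24 o') = 720) := by
  have h := key ho ho'
  refine ⟨fun e => ?_, fun e => ?_, fun e => ?_⟩
  · rw [e, show countLt _ 4096 = 30 by decide +kernel] at h; omega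
  · rw [e, show countLt _ 4096 = 280 by decide +kernel] at h; omega
  · rw [e, show countLt _ 4096 = 448 by decide +kernel] at h; omega

end Cfsg.Agent.S5613
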