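import Cfsg.Statements.S5614
import Cfsg.Agent.Lib.Golay.M12

set_option autoImplicit false
open scoped Pointwise
open Cfsg

namespace Cfsg.Agent.S5614
open CA.Gol


/-- In the group of the length-24 code, the joint stabiliser of two octads meeting in exactly two points is isomorphic to the symmetric group of degree 6. -/
theorem result (o o' : Finset Cfsg.GolayPt) (ho : o ∈ Cfsg.octads) (ho' : o' ∈ Cfsg.octads) (h₂ : (o ∩ o').card = 2) : Nonempty (↥(MulAction.stabilizer Cfsg.M24 o ⊓ MulAction.stabilizer Cfsg.M24 o') ≃* Equiv.Perm (Fin 6)) := by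
  have hd : symmDiff o o' ∈ dodecads := ⟨symmDiff_mem_CW ho.1 ho'.1, by
    have := card_symmDiff_add o o'
    rw [ho.2, ho'.2, h₂] at this; omega⟩
  have h6 : (o \ o').card = 6 := by
    have := Finset.card_sdiff_add_card_inter o o'
    rw [ho.2, h₂] at this; omega
  have hC : o \ o' ∈ hexadsOn (symmDiff o o') := ⟨h6, o, ho, by ext p; simp [Finset.mem_symmDiff]; tauto⟩
  have : MulAction.stabilizer M24 o ⊓ MulAction.stabilizer M24 o' =
      MulAction.stabilizer M24 (symmDiff o o') ⊓ MulAction.stabilizer M24 (o \ o') := by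
    ext g
    show (g.1 • o = o ∧ g.1 • o' = o') ↔ (g.1 • symmDiff o o' = symmDiff o o' ∧ g.1 • (o \ o') = o \ o')
    constructor
    · rintro ⟨h1, h2⟩; rw [smul_symmDiff, smul_sdiff, h1, h2]; exact ⟨rfl, rfl⟩
    · rintro ⟨h1, h2⟩
      have h3 : g.1 • o = o := smul_octad_eq g.2 ho ho (by omega) Finset.sdiff_subset
        fun p hp => Finset.sdiff_subset (mem_of_smul_eq h2 hp)
      rw [smul_symmDiff, h3] at h1
      exact ⟨h3, symmDiff_right_injective o h1⟩
  rw [this]
  exact hexad_iso hd hC

end Cfsg.Agent.S5614
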