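import Cfsg.Statements.S5615
import Cfsg.Agent.Lib.Golay.Pairs

set_option autoImplicit false
open scoped Pointwise
open Cfsg

namespace Cfsg.Agent.S5615
open CA.Gol
open scoped Pointwise

theorem mem_trL {i : ℕ} (hi : i < 3795) : fs O0 ∈ fsL (trL i) ↔ memL O0 (trL i) = true := by
  rw [fs_mem_fsL (trL_good hi).2 O0_lt, memL_iff]

theorem range15 {T : Finset (Finset GolayPt)} (hT : T ∈ trios) (h : fs O0 ∈ T) :
    ∃ i < 15, T = fsL (trL (Nat.add 330 i)) :=
  famTrio.forall (P := fun T => fs O0 ∈ T → ∃ i < 15, T = fsL (trL (Nat.add 330 i)))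
    (p := fun i => !(memL O0 (trL i)) || (Nat.ble 330 i && Nat.blt i 345)) (by decide +kernel)
    (fun i hi _ h h' => by
      rw [(mem_trL hi).1 h', Bool.not_true, Bool.false_or, Bool.and_eq_true, ble_iff, blt_iff] at h
      exact ⟨i - 330, by omega, by rw [show Nat.add 330 (i - 330) = i by simp only [Nat.add_eq]; omega]⟩) T hT h

theorem inv1_mem {T : Finset (Finset GolayPt)} (hT : T ∈ trios) {o : Finset GolayPt} (h : o ∈ T) : inv1 o T = 64 := by
  rw [inv1, Finset.sum_eq_single_of_mem o h, Finset.inter_self, (hT.2.1 o h).2]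
  · norm_num
  · intro b hb hne
    rw [Finset.disjoint_iff_inter_eq_empty.1 (hT.2.2 o h b hb hne.symm)]; rfl

/-- elements fixing the octad and the trio 344 and moving the others to 330 -/
def cert : List (ℕ × ℕ) := [(331, 0x7494934caf38aad432d4592f000623), (330, 0x1dab37b6f2a3a0b228c849c0c888a1), (335, 0x556fb41c9984cc21d486caf41c4a2), (338, 0x89d326d0353396a8327679008196e2), (337, 0x73c93aa072b0154634e9340ab08a37), (342, 0x159649b4a6a0d1561e4a4c02f74417), (332, 0x12a4d4bdc4316703d16cad86805e21), (334, 0x8a6476cc76509688308fad02603ae5), (340, 0x19d3055056684889566f62e26281d7), (343, 0x28e99107381568355947da2db844e), (333, 0x75a935a45020cef619b25201589437), (336, 0x2c8f06dae433aa84adf3a302a04462), (339, 0xd67664232a0ccf225aa41eeb008ae), (341, 0x1d5ec9ca262012bb220d51c54285d7)]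

theorem normal {o : Finset GolayPt} {T₁ T₂ : Finset (Finset GolayPt)} (h1 : T₁ ∈ trios) (h2 : T₂ ∈ trios)
    (o1 : o ∈ T₁) (o2 : o ∈ T₂) (hne : T₁ ≠ T₂) :
    ∃ g ∈ M24, g • o = fs O0 ∧ g • T₁ = fsL (trL 344) ∧ g • T₂ = fsL (trL 330) := by
  have h0 : fs O0 ∈ fsL (trL 344) := (mem_trL (by norm_num)).2 (by decide +kernel)
  have hT := trL_mem (i := 344) (by norm_num)
  obtain ⟨g, hg, e1, e2⟩ := trio_octad_pair _ h1 _ hT _ (h1.2.1 o o1) _ O0_mem (by
    show inv1 o T₁ = inv1 (fs O0) _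
    rw [inv1_mem h1 o1, inv1_mem hT h0])
  obtain ⟨i, hi, e3⟩ := range15 (smul_mem_trios hg h2) (e2 ▸ mem_smul_fam.2 o2)
  have hc : allLt (fun i => Nat.beq i 14 || anyL cert fun e => Nat.beq e.1 (Nat.add 330 i) && inM24 e.2 &&
      Nat.beq (apM e.2 O0) O0 && actL e.2 (trL 344) (trL 344) && actL e.2 (trL (Nat.add 330 i)) (trL 330)) 15
      = true := by decide +kernel
  have h3 := allLt_iff.1 hc i hi
  simp only [Bool.or_eq_true, anyL_iff, Bool.and_eq_true, beq_iff] at h3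
  rcases h3 with rfl | ⟨c, _, ⟨⟨⟨_, c1⟩, c2⟩, c3⟩, c4⟩
  · exact absurd (smul_left_cancel g (e1.trans e3.symm)) hne
  · rw [← code_perm' c1] at c2 c3 c4
    refine ⟨perm c.2 * g, mul_mem (perm_mem_M24 c1) hg, ?_, ?_, ?_⟩
    · rw [mul_smul, e2, smul_fs_eq_iff _ O0_lt O0_lt, c2]
    · rw [mul_smul, e1]; exact (actL_iff (trL_good (by norm_num)) (trL_good (by norm_num)) rfl).2 c3
    · rw [mul_smul, e3]
      exact (actL_iff (trL_good (by simp only [Nat.add_eq]; omega)) (trL_good (by norm_num))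
        (by rw [trL_length, trL_length])).2 c4

/-- `c` fixes the fifteen trios through the base octad -/
def fix15 (c : ℕ) : Bool := allLt (fun i => actL c (trL (Nat.add 330 i)) (trL (Nat.add 330 i))) 15

theorem fix15_iff {g : Equiv.Perm GolayPt} : fix15 (code g) = true ↔ ∀ T ∈ trios, fs O0 ∈ T → g • T = T := by
  have hg : ∀ i < 15, Nat.add 330 i < 3795 := fun i hi => by simp only [Nat.add_eq]; omega
  rw [fix15, allLt_iff]
  constructor
  · intro h T hT ho
    obtain ⟨i, hi, rfl⟩ := range15 hT ho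
    exact (actL_iff (trL_good (hg i hi)) (trL_good (hg i hi)) rfl).2 (h i hi)
  · intro h i hi
    have hm : allLt (fun i => memL O0 (trL (Nat.add 330 i))) 15 = true := by decide +kernel
    exact (actL_iff (trL_good (hg i hi)) (trL_good (hg i hi)) rfl).1
      (h _ (trL_mem (hg i hi)) ((mem_trL (hg i hi)).2 (allLt_iff.1 hm i hi)))

theorem back {g : Equiv.Perm GolayPt} (hg : g ∈ M24) (h : ∀ p ∈ fs O0, g p = p) :
    ∀ T ∈ trios, fs O0 ∈ T → g • T = T := by
  have := chain5.forall_of_searchAll (ok := fun _ => true)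
    (leaf := fun c => !(Nat.beq (Nat.land O0 (fixM c)) O0) || fix15 c) (by decide +kernel) hg
    (fixes_of_fix_fs h (by decide +kernel)) (pass_true _ _ _)
  rw [beq_iff.2 ((fix_fs_iff O0_lt).1 h), Bool.not_true, Bool.false_or] at this
  exact fix15_iff.1 this

/-- the pointwise stabilizer of the base octad -/
def E16 : List ℕ := [0xbdab49ca307b9ac5a928398a418820, 0xb9e086be3593a6952d94b10a618820, 0xb99b28523343aaa4b16f258a718820, 0xbc92655a2c3b9706cea47d0a818820, 0xba91094e346b9e63d8955b0a918820, 0xba64d4562f83a87312d362caa18820, 0xbb1f3a4232ab916218ed4a8ab18820, 0xbae957b6289ba44b1cd0524ac18820, 0xbc0ea332364b892451ebaccad18820, 0xbd17661a2a23933ac1a7448af18820, 0xbb4c93ae2453ac893e8c9d4b018820, 0xba1474922b3398d85676a3cb218820, 0xbd6cb22627638cfa224a834b318820, 0xbbd8459e29b39559b606920b418820, 0xbcc8cb2a265b8f47c9096c0b518820, 0xb926faa22da3a0b6255231cb618820]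

theorem triv {g : Equiv.Perm GolayPt} (hg : g ∈ M24) (ho : g • fs O0 = fs O0) (h4 : g (pt 4) = pt 4)
    (h : ∀ T ∈ trios, fs O0 ∈ T → g • T = T) : g = 1 := by
  have hl : ∀ m ∈ O0 :: [0x401ed0, 0x453910, 0x343490, 0x311350, 0x51a610, 0x5481d0, 0x258c50, 0x20ab90, 0x1d0a90, 0x182d50, 0x6920d0, 0x6c0710, 0xcb250, 0x99590, 0x789810], g • fs m = fs m := by
    intro m hm
    rcases List.mem_cons.1 hm with rfl | hm
    · exact ho
    have hc : allL [0x401ed0, 0x453910, 0x343490, 0x311350, 0x51a610, 0x5481d0, 0x258c50, 0x20ab90, 0x1d0a90, 0x182d50, 0x6920d0, 0x6c0710, 0xcb250, 0x99590, 0x789810] (fun m => tb m 4 &&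
      anyLt (fun i => memL m (trL (Nat.add 330 i)) && memL O0 (trL (Nat.add 330 i))) 15) = true := by decide +kernel
    have h1 := allL_iff.1 hc m hm
    simp only [Bool.and_eq_true, anyLt_iff] at h1
    obtain ⟨h1, i, hi, h2, h3⟩ := h1
    have hi' : Nat.add 330 i < 3795 := by simp only [Nat.add_eq]; omega
    have hT := trL_mem hi'
    have h5 : fs m ∈ fsL (trL (Nat.add 330 i)) := mem_fsL.2 ⟨m, memL_iff.1 h2, rfl⟩
    have h6 : g • fs m ∈ fsL (trL (Nat.add 330 i)) := by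
      rw [← h _ hT ((mem_trL hi').2 h3)]; exact mem_smul_fam.2 h5
    have h7 : pt 4 ∈ fs m := (pt_mem_fs (by norm_num)).2 h1
    by_contra hne
    exact Finset.disjoint_left.1 (hT.2.2 _ h6 _ h5 hne) (h4 ▸ apply_mem_smul.2 h7) h7
  have hF : ∀ p ∈ fs 0x7dbfd0, g p = p := by
    intro p hp
    have hc : allLt (fun i => !(tb 0x7dbfd0 i) || allLt (fun j => Nat.beq j i ||
      anyL (O0 :: [0x401ed0, 0x453910, 0x343490, 0x311350, 0x51a610, 0x5481d0, 0x258c50, 0x20ab90, 0x1d0a90, 0x182d50, 0x6920d0, 0x6c0710, 0xcb250, 0x99590, 0x789810]) fun m => xor (tb m i) (tb m j)) 24) 24 = true := by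
      decide +kernel
    have h2 := allLt_iff.1 hc _ (ix_lt p)
    rw [← pt_ix p, pt_mem_fs (ix_lt p)] at hp
    rw [hp, Bool.not_true, Bool.false_or] at h2
    rw [← pt_ix p]
    exact fix_of_separated hl (ix_lt p) h2
  have h2 := fixRound_sound hg (F' := 16777215) (l := [0xe91104, 0xecc040, 0xf08320, 0xf210c0, 0xf50018, 0xf82402, 16, 64, 128, 256, 512, 1024, 2048, 0x1000, 0x2000, 0x8000, 0x10000, 0x40000, 0x80000, 0x100000, 0x200000, 0x400000]) (by decide +kernel) hF
  exact Equiv.ext fun p => h2 p (mem_fs_full p)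

theorem forth {g : Equiv.Perm GolayPt} (hg : g ∈ M24) (ho : g • fs O0 = fs O0)
    (h : ∀ T ∈ trios, fs O0 ∈ T → g • T = T) : ∀ p ∈ fs O0, g p = p := by
  have hc : allLt (fun x => tb O0 x || anyL E16 fun c => inM24 c && Nat.beq (Nat.land O0 (fixM c)) O0 &&
    Nat.beq (ap c x) 4) 24 = true := by decide +kernel
  have hx := ap_code_lt g (i := 4) (by norm_num)
  have h1 := allLt_iff.1 hc _ hx
  have h4 : tb O0 (ap (code g) 4) = false := by
    rw [← Bool.not_eq_true, ← pt_mem_fs hx, ← apply_pt g (by norm_num), ← ho, apply_mem_smul]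
    decide +kernel
  simp only [h4, Bool.false_or, anyL_iff, Bool.and_eq_true, beq_iff] at h1
  obtain ⟨c, _, ⟨c1, c2⟩, c3⟩ := h1
  rw [← code_perm' c1] at c2 c3
  have hτ := (fix_fs_iff O0_lt).2 c2
  have hτo : (perm c * g) • fs O0 = fs O0 := by rw [mul_smul, ho, smul_eq_of_fix hτ]
  have h44 : (perm c * g) (pt 4) = pt 4 := by
    rw [apply_pt_eq_iff (by norm_num) (by norm_num), ap_mul_code _ _ (by norm_num), c3]
  have := triv (mul_mem (perm_mem_M24 c1) hg) hτo h44
    fun T hT hoT => by rw [mul_smul, h T hT hoT, back (perm_mem_M24 c1) hτ T hT hoT]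
  intro p hp
  apply (perm c).injective
  rw [hτ p hp]
  rw [← Equiv.Perm.mul_apply, this, Equiv.Perm.one_apply]

/-- An octad of the length-24 code lies in exactly 15 trios; the stabiliser of the octad in the code's group acts doubly transitively on these 15 trios, and the kernel of this action is the pointwise stabiliser of the octad. -/
theorem result (o : Finset Cfsg.GolayPt) (ho : o ∈ Cfsg.octads) : {T : Finset (Finset Cfsg.GolayPt) | T ∈ Cfsg.trios ∧ o ∈ T}.ncard = 15 ∧ (∀ T₁ T₂ T₁' T₂' : Finset (Finset Cfsg.GolayPt), T₁ ∈ Cfsg.trios → T₂ ∈ Cfsg.trios → T₁' ∈ Cfsg.trios → T₂' ∈ Cfsg.trios → o ∈ T₁ → o ∈ T₂ → o ∈ T₁' → o ∈ T₂' → T₁ ≠ T₂ → T₁' ≠ T₂' → ∃ g ∈ Cfsg.M24, g • o = o ∧ g • T₁ = T₁' ∧ g • T₂ = T₂') ∧ ∀ g ∈ Cfsg.M24, g • o = o → ((∀ T ∈ Cfsg.trios, o ∈ T → g • T = T) ↔ ∀ p ∈ o, g p = p) := by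
  obtain ⟨k, hk, e⟩ := octad_trans ho O0_mem
  refine ⟨?_, fun T₁ T₂ T₁' T₂' h1 h2 h1' h2' o1 o2 o1' o2' hne hne' => ?_, fun g hg hgo => ?_⟩
  · rw [ncard_inv_transport (P := fun (a : Finset GolayPt) T => a ∈ T) hk e (fun g hg b hb => smul_mem_trios hg hb)
      (fun b => mem_smul_fam), famTrio.ncard (p := fun i => memL O0 (trL i)) (fun i hi _ => mem_trL hi)]
    decide +kernel
  · obtain ⟨a, ha, a1, a2, a3⟩ := normal h1 h2 o1 o2 hne
    obtain ⟨b, hb, b1, b2, b3⟩ := normal h1' h2' o1' o2' hne'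
    refine ⟨b⁻¹ * a, mul_mem (inv_mem hb) ha, ?_, ?_, ?_⟩
    · rw [mul_smul, a1, ← b1, inv_smul_smul]
    · rw [mul_smul, a2, ← b2, inv_smul_smul]
    · rw [mul_smul, a3, ← b3, inv_smul_smul]
  · have hg' := (conj_mem_M24_iff hk).2 hg
    rw [← conj_fix_iff (k := k), e]
    constructor
    · intro h
      refine forth hg' (by rw [← e, conj_smul_eq_iff, hgo]) fun T hT hoT => ?_
      rw [← smul_inv_smul k T, conj_smul_eq_iff]
      exact h _ (smul_mem_trios (inv_mem hk) hT) (by rw [← mem_smul_fam (g := k), e, smul_inv_smul]; exact hoT)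
    · intro h T hT hoT
      rw [← conj_smul_eq_iff (k := k)]
      exact back hg' h _ (smul_mem_trios hk hT) (e ▸ mem_smul_fam.2 hoT)

end Cfsg.Agent.S5615
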