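import Cfsg.Statements.S5619
import Cfsg.Agent.Lib.Golay.M12

set_option autoImplicit false
open scoped Pointwise
open Cfsg

namespace Cfsg.Agent.S5619
open CA.Gol

theorem sylow_of {H : Type*} [Group H] [Finite H] (hc : Nat.card H = 72) (A : Subgroup H) (hA : ∀ x, x ∈ A ↔ x ^ 3 = 1)
    (h9 : Nat.card A = 9) (φ : QuaternionGroup 2 →* H) (hφ : Function.Injective φ) :
    (∀ Q : Sylow 3 H, (Q : Subgroup H).Normal ∧ Nat.card Q = 9 ∧ ∀ x ∈ (Q : Subgroup H), x ^ 3 = 1) ∧
      ∀ P : Sylow 2 H, Nonempty (P ≃* QuaternionGroup 2) := by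
  have : Fact (Nat.Prime 3) := ⟨Nat.prime_three⟩
  have f3 : (72 : ℕ).factorization 3 = 2 := by
    rw [show (72 : ℕ) = 3 ^ 2 * 8 by norm_num, Nat.factorization_mul (by norm_num) (by norm_num),
      Nat.prime_three.factorization_pow]
    simp [Nat.factorization_eq_zero_of_not_dvd (show ¬ 3 ∣ 8 by norm_num)]
  have f2 : (72 : ℕ).factorization 2 = 3 := by
    rw [show (72 : ℕ) = 2 ^ 3 * 9 by norm_num, Nat.factorization_mul (by norm_num) (by norm_num),
      Nat.prime_two.factorization_pow]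
    simp [Nat.factorization_eq_zero_of_not_dvd (show ¬ 2 ∣ 9 by norm_num)]
  have hN : A.Normal := ⟨fun x hx g => by rw [hA] at hx ⊢; rw [conj_pow, hx]; simp⟩
  constructor
  · intro Q
    let A' : Sylow 3 H := Sylow.ofCard A (by rw [h9, hc, f3]; norm_num)
    have hN' : (A' : Subgroup H).Normal := hN
    have := Sylow.unique_of_normal A' hN'
    have hQ : Q = A' := Subsingleton.elim _ _
    rw [hQ]
    exact ⟨hN, h9, fun x hx => (hA x).1 hx⟩
  · intro P
    have h8 : Nat.card φ.range = 8 := by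
      rw [← Nat.card_congr (MonoidHom.ofInjective hφ).toEquiv, Nat.card_eq_fintype_card, QuaternionGroup.card]
    let B : Sylow 2 H := Sylow.ofCard φ.range (by rw [h8, hc, f2]; norm_num)
    exact ⟨(Sylow.equiv P B).trans (MonoidHom.ofInjective hφ).symm⟩

/-- the elements of order dividing three -/
def A9 : List ℕ := [0xbdab49ca307b9ac5a928398a418820, 0xbcecaac22b40a89934c77b0a470c20, 0xbdaaa9ac921a68f8350e11e2561820, 0xbdaad9c0ab62143951c93089179c20, 0xbd66ab48b033e825b46c4b8913a020, 0xbd674b408b131a7929e37222532420, 0xbcecdac890719485d0e21be254b020, 0xbd66db2e3238d468518f424a413820, 0xbced4aacb249dae8284660c9143c20]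

/-- a quaternion subgroup -/
def qf : QuaternionGroup 2 → ℕ
  | .a i => nth [0xbdab49ca307b9ac5a928398a418820, 0xb92322aa6d61e09a2d0f1bab630820, 0xbda6aaacb048da8951ec31e2470820, 0xb90ab8d2ad41a0f5498970e7638820] i.val
  | .xa i => nth [0xbb555a1644332c38ccee7a57040820, 0xbc2455ce961bc87ac5c64314d48820, 0xbb693545643a2ce2d4c34be5060820, 0xbc1719555672486994676228d78820] i.val

/-- the base case -/
abbrev H0 : Subgroup (Equiv.Perm GolayPt) := fixer H12 [1, 0, 23]

/-- membership test -/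
def inH0 (c : ℕ) : Bool := inH12 c && allL [1, 0, 23] fun b => Nat.beq (ap c b) b

theorem inH0_sound {c : ℕ} (h : inH0 c = true) : ∃ t ∈ H0, code t = c := by
  rw [inH0, Bool.and_eq_true, allL_iff] at h
  obtain ⟨t, ht, e⟩ := memb12 c h.1
  refine ⟨t, ⟨ht, fun b hb => ?_⟩, e⟩
  have hb' : b < 24 := by revert b; decide
  rw [apply_pt_eq_iff hb' hb', e]; exact beq_iff.1 (h.2 b hb)

theorem cube_mem {g : Equiv.Perm GolayPt} (hg : g ∈ H0) (h : g ^ 3 = 1) : code g ∈ A9 := by
  have := kchain3.forall_of_searchAll (ok := fun _ => true)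
    (leaf := fun c => !(Nat.beq (powC c 3) oneC) || memL c A9) (by decide +kernel) hg.1 hg.2 (pass_true _ _ _)
  rw [← code_pow, h, code_one, beq_iff.2 rfl, Bool.not_true, Bool.false_or, memL_iff] at this
  exact this

/-- the normal subgroup of order nine -/
def A0 : Subgroup H0 where
  carrier := {x | x ^ 3 = 1}
  one_mem' := one_pow 3
  mul_mem' := by
    intro a b ha hb
    have h1 := cube_mem a.2 (congrArg Subtype.val ha)
    have h2 := cube_mem b.2 (congrArg Subtype.val hb)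
    have h : allL A9 (fun x => allL A9 fun y => Nat.beq (powC (mul x y) 3) oneC) = true := by decide +kernel
    have h3 := allL_iff.1 (allL_iff.1 h _ h1) _ h2
    rw [beq_iff, ← code_mul, ← code_pow, code_eq_one_iff] at h3
    exact Subtype.ext h3
  inv_mem' := by
    intro a ha
    show a⁻¹ ^ 3 = 1
    rw [inv_pow, show a ^ 3 = 1 from ha, inv_one]

theorem card_A0 : Nat.card A0 = 9 := by
  have := kchain3.card_eq_searchCount (fun _ => true) (fun c => Nat.beq (powC c 3) oneC) {g | g ∈ H0 ∧ g ^ 3 = 1}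
    (fun g hg => ⟨hg.1.1, hg.1.2, pass_true _ _ _, by rw [← code_pow, hg.2, code_one]; exact beq_iff.2 rfl⟩)
    (fun g a b h => ⟨⟨a, b⟩, by rwa [beq_iff, ← code_pow, code_eq_one_iff] at h⟩)
  rw [show searchCount _ _ _ _ _ = 9 by decide +kernel, ← Nat.card_coe_set_eq] at this
  rw [← this]
  exact Nat.card_congr ⟨fun x => ⟨x.1.1, x.1.2, congrArg Subtype.val x.2⟩, fun x => ⟨⟨x.1, x.2.1⟩, Subtype.ext x.2.2⟩,
    fun _ => rfl, fun _ => rfl⟩

theorem qf_in : ∀ x, inH0 (qf x) = true := by decide +kernel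
theorem qf_mul : ∀ x y, qf (x * y) = mul (qf x) (qf y) := by decide +kernel
theorem qf_inj : ∀ x, qf x = oneC → x = 1 := by decide +kernel

/-- the embedding of the quaternion group -/
noncomputable def qhom : QuaternionGroup 2 →* H0 :=
  MonoidHom.mk' (fun x => ⟨(inH0_sound (qf_in x)).choose, (inH0_sound (qf_in x)).choose_spec.1⟩) (by
    intro x y
    apply Subtype.ext
    apply code_inj
    rw [Subgroup.coe_mul, code_mul, (inH0_sound (qf_in x)).choose_spec.2, (inH0_sound (qf_in y)).choose_spec.2,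
      (inH0_sound (qf_in (x * y))).choose_spec.2, qf_mul])

theorem qhom_inj : Function.Injective qhom := by
  rw [injective_iff_map_eq_one]
  intro x hx
  apply qf_inj
  rw [← (inH0_sound (qf_in x)).choose_spec.2, code_eq_one_iff]
  exact congrArg Subtype.val hx

theorem card_H0 : Nat.card H0 = 72 := by rw [kchain3.card]; decide +kernel

/-- In the group of the length-24 code, the subgroup fixing a dodecad setwise and three of its points individually (a group of order 72) has a normal Sylow 3-subgroup that is elementary abelian of order 9, and its Sylow 2-subgroups are quaternion of order 8. -/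
theorem result (d : Finset Cfsg.GolayPt) (hd : d ∈ Cfsg.dodecads) (p q r : Cfsg.GolayPt) (hp : p ∈ d) (hq : q ∈ d) (hr : r ∈ d) (hpq : p ≠ q) (hpr : p ≠ r) (hqr : q ≠ r) : (∀ Q : Sylow 3 ↥(MulAction.stabilizer Cfsg.M24 d ⊓ MulAction.stabilizer Cfsg.M24 p ⊓ MulAction.stabilizer Cfsg.M24 q ⊓ MulAction.stabilizer Cfsg.M24 r), (Q : Subgroup ↥(MulAction.stabilizer Cfsg.M24 d ⊓ MulAction.stabilizer Cfsg.M24 p ⊓ MulAction.stabilizer Cfsg.M24 q ⊓ MulAction.stabilizer Cfsg.M24 r)).Normal ∧ Nat.card ↥Q = 9 ∧ ∀ x ∈ (Q : Subgroup ↥(MulAction.stabilizer Cfsg.M24 d ⊓ MulAction.stabilizer Cfsg.M24 p ⊓ MulAction.stabilizer Cfsg.M24 q ⊓ MulAction.stabilizer Cfsg.M24 r)), x ^ 3 = 1) ∧ ∀ P : Sylow 2 ↥(MulAction.stabilizer Cfsg.M24 d ⊓ MulAction.stabilizer Cfsg.M24 p ⊓ MulAction.stabilizer Cfsg.M24 q ⊓ MulAction.stabilizer Cfsg.M24 r), Nonempty (↥P ≃* QuaternionGroup 2) := by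
  obtain ⟨k, hk, e0, e1, e2, e3⟩ := dtrans3 hd hp hq hr hpq hpr hqr
  have key : ∀ g : Equiv.Perm GolayPt, k * g * k⁻¹ ∈ H0 ↔ g ∈ M24 ∧ g • d = d ∧ g p = p ∧ g q = q ∧ g r = r := by
    intro g
    simp only [mem_fixer, mem_H12, fixes_cons, fixes_nil, and_true, ← e0, ← e1, ← e2, ← e3, conj_mem_M24_iff hk,
      conj_smul_eq_iff, conj_apply, k.injective.eq_iff]
    tauto
  let e : ↥(MulAction.stabilizer M24 d ⊓ MulAction.stabilizer M24 p ⊓ MulAction.stabilizer M24 q ⊓
      MulAction.stabilizer M24 r) ≃* H0 :=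
    { toFun := fun g => ⟨k * g.1.1 * k⁻¹, (key _).2 ⟨g.1.2, g.2.1.1.1, g.2.1.1.2, g.2.1.2, g.2.2⟩⟩
      invFun := fun g =>
        have h := (key (k⁻¹ * g.1 * k)).1 (by simpa [mul_assoc] using g.2)
        ⟨⟨k⁻¹ * g.1 * k, h.1⟩, ⟨⟨h.2.1, h.2.2.1⟩, h.2.2.2.1⟩, h.2.2.2.2⟩
      left_inv := fun g => Subtype.ext (Subtype.ext (by simp [mul_assoc]))
      right_inv := fun g => Subtype.ext (by simp [mul_assoc])
      map_mul' := fun a b => Subtype.ext (by simp [mul_assoc]) }
  refine sylow_of ((Nat.card_congr e.toEquiv).trans card_H0) (A0.comap e.toMonoidHom) (fun x => ?_) ?_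
    (e.symm.toMonoidHom.comp qhom) (e.symm.injective.comp qhom_inj)
  · show e x ^ 3 = 1 ↔ _
    rw [← map_pow, map_eq_one_iff _ e.injective]
  · rw [← card_A0, Subgroup.comap_equiv_eq_map_symm', Subgroup.card_map_of_injective e.symm.injective]

end Cfsg.Agent.S5619
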