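import Cfsg.Statements.S5620
import Cfsg.Agent.Lib.Golay.M12
import Cfsg.Agent.Lib.Golay.Misc

set_option autoImplicit false
open scoped Pointwise
open Cfsg

namespace Cfsg.Agent.S5620
open CA.Gol

/-- the map `x ↦ -1/x` -/
def gam : ℕ := 0x5883388a1c8f5140b46cd317aed7

theorem gam_in : inM24 gam = true := by decide +kernel

theorem gam_smul : perm gam • Spor.squareDodecad = Finset.univ \ Spor.squareDodecad := by
  rw [squareDodecad_eq, ← fs_compl, smul_fs_eq_iff _ (by norm_num) (by decide +kernel), code_perm' gam_in]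
  decide +kernel

theorem gam_zero : perm gam (some 0) = none := by
  have : perm gam (pt 0) = pt 23 := by rw [perm_pt (inM24_valid gam_in) (by norm_num)]; decide +kernel
  exact this

theorem mem_conj {k x : Equiv.Perm GolayPt} (hk : k ∈ M24) : x ∈ MulAut.conj k • Spor.M11 ↔
    x ∈ M24 ∧ x • k • Spor.squareDodecad = k • Spor.squareDodecad ∧ x (k (some 0)) = k (some 0) := by
  rw [Subgroup.mem_pointwise_smul_iff_inv_smul_mem]
  obtain ⟨y, rfl⟩ : ∃ y, x = k * y * k⁻¹ := ⟨k⁻¹ * x * k, by group⟩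
  have : (MulAut.conj k)⁻¹ • (k * y * k⁻¹) = y := by simp [mul_assoc]
  rw [this, conj_mem_M24_iff hk, conj_smul_eq_iff, conj_apply, k.injective.eq_iff, ← and_assoc]
  rfl

theorem gam_conj : MulAut.conj (perm gam) • Spor.M11 =
    Spor.M12 ⊓ MulAction.stabilizer (Equiv.Perm GolayPt) (none : GolayPt) := by
  ext x
  rw [mem_conj (perm_mem_M24 gam_in), gam_smul, gam_zero, smul_sdiff, smul_univ, ← and_assoc]
  show _ ↔ (x ∈ M24 ∧ x • Spor.squareDodecad = Spor.squareDodecad) ∧ x none = none
  simp only [Finset.sdiff_eq_inter_compl, Finset.univ_inter, compl_inj_iff]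

theorem mem_rhs {c : ℕ} (h : (inM24 c && Nat.beq (apM c 0x5335f) 0x5335f && Nat.beq (ap c 23) 23) = true) :
    perm c ∈ Spor.M12 ⊓ MulAction.stabilizer (Equiv.Perm GolayPt) (none : GolayPt) := by
  simp only [Bool.and_eq_true, beq_iff] at h
  refine ⟨⟨perm_mem_M24 h.1.1, ?_⟩, ?_⟩
  · show perm c • Spor.squareDodecad = Spor.squareDodecad
    rw [squareDodecad_eq, smul_fs_eq_iff _ (by norm_num) (by norm_num), code_perm' h.1.1, h.1.2]
  · show perm c (pt 23) = pt 23
    rw [perm_pt (inM24_valid h.1.1) (by norm_num), h.2]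

/-- Inside the stabiliser of the dodecad of squares (a Mathieu group of degree 12), the stabiliser of the residue 0 (a point of the dodecad) and the stabiliser of the extra point (a point outside the dodecad) are isomorphic but not conjugate; conjugation by a suitable element of the code's group that maps the dodecad of squares onto its complement carries the first onto the second. -/
theorem result : Nonempty (↥(Cfsg.Spor.M12 ⊓ MulAction.stabilizer (Equiv.Perm Cfsg.GolayPt) (none : Cfsg.GolayPt)) ≃* ↥Cfsg.Spor.M11) ∧ (¬ ∃ k ∈ Cfsg.Spor.M12, MulAut.conj k • Cfsg.Spor.M11 = Cfsg.Spor.M12 ⊓ MulAction.stabilizer (Equiv.Perm Cfsg.GolayPt) (none : Cfsg.GolayPt)) ∧ ∃ g ∈ Cfsg.M24, g • Cfsg.Spor.squareDodecad = Finset.univ \ Cfsg.Spor.squareDodecad ∧ MulAut.conj g • Cfsg.Spor.M11 = Cfsg.Spor.M12 ⊓ MulAction.stabilizer (Equiv.Perm Cfsg.GolayPt) (none : Cfsg.GolayPt) := by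
  refine ⟨⟨((Spor.M11.equivSMul (MulAut.conj (perm gam))).trans (MulEquiv.subgroupCongr gam_conj)).symm⟩, ?_,
    perm gam, perm_mem_M24 gam_in, gam_smul, gam_conj⟩
  rintro ⟨k, hk, e⟩
  have h1 := mem_rhs (c := 0xb9e8b89a60b56027b9a4530a944861) (by decide +kernel)
  have h2 := mem_rhs (c := 0xbd6717b56939461b52507314831040) (by decide +kernel)
  rw [← e, mem_conj hk.1] at h1 h2
  have h3 : k (some 0) ∈ Spor.squareDodecad :=
    mem_of_smul_eq (show k • Spor.squareDodecad = _ from hk.2) (by rw [squareDodecad_eq]; decide +kernel)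
  have h4 := h1.2.2
  have h5 := h2.2.2
  rw [squareDodecad_eq] at h3
  rw [← pt_ix (k (some 0))] at h3 h4 h5
  have hi := ix_lt (k (some 0))
  rw [pt_mem_fs hi] at h3
  rw [apply_pt_eq_iff hi hi, code_perm (by decide +kernel)] at h4 h5
  generalize ix (k (some 0)) = i at *
  revert h3 h4 h5
  interval_cases i <;> decide +kernel

end Cfsg.Agent.S5620
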