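import Cfsg.Statements.S5622
import Cfsg.Agent.Lib.Golay.Abs

set_option autoImplicit false
open Cfsg

namespace Cfsg.Agent.S5622
open CA.Gol
open scoped Pointwise


/-- Let C be a self-dual binary code of length 24 with minimum weight at least 8 (a 12-dimensional subspace of the 24-dimensional space over the field with two elements, any two of whose words have dot product zero, with no non-zero word of weight below 8 — an abstract extended binary Golay code). Then the minimum weight of C is exactly 8, and the supports of the words of weight 8 (the octads) form a Steiner system S(5, 8, 24) on the 24 coordinates: every 5 coordinates lie in the support of exactly one word of weight 8. -/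
theorem result (C : Submodule (ZMod 2) (Fin 24 → ZMod 2)) (hdim : Module.finrank (ZMod 2) C = 12) (horth : ∀ v ∈ C, ∀ w ∈ C, ∑ i, v i * w i = 0) (hmin : ∀ w ∈ C, w ≠ 0 → 8 ≤ hammingNorm w) : (∃ w ∈ C, hammingNorm w = 8) ∧ Cfsg.IsSteinerSystem 5 8 (Cfsg.wordsOfWeight (C : Set (Fin 24 → ZMod 2)) 8) := by
  obtain ⟨t, -, hc⟩ := Finset.exists_subset_card_eq (s := (Finset.univ : Finset (Fin 24))) (n := 5) (by simp)
  obtain ⟨o, ho, h8, -⟩ := Abs.exists_octad hdim horth hmin hc
  refine ⟨⟨o, ho, h8⟩, fun b hb => hb.2, fun s hs => ?_⟩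
  obtain ⟨o, ho, h8, h⟩ := Abs.exists_octad hdim horth hmin hs
  refine ⟨support₂ o, ⟨⟨⟨o, ho, rfl⟩, h8⟩, h⟩, ?_⟩
  rintro _ ⟨⟨⟨o', ho', rfl⟩, h8'⟩, h'⟩
  have h1 := Abs.norm_add o' o
  have h4 : 5 ≤ (support₂ o' ∩ support₂ o).card := hs ▸ Finset.card_le_card (Finset.subset_inter h' h)
  rw [← Abs.norm_eq] at h8'
  by_contra hne
  have h2 := hmin _ (add_mem ho' ho) (by
    rw [← Abs.sub_eq]; exact sub_ne_zero.2 fun e => hne (by rw [e]))
  omega

end Cfsg.Agent.S5622
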