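import Cfsg.Statements.S5625
import Cfsg.Agent.Lib.Golay.Steiner

set_option autoImplicit false
open Cfsg

namespace Cfsg.Agent.S5625
open CA.Gol
open scoped Pointwise


/-- In any Steiner system S(5, 8, 24) and for any set Y of three points, the blocks meeting Y in exactly 3, 2, 1 and 0 points number 21, 168, 360 and 210 respectively (so there are 759 blocks in all). -/
theorem result (α : Type*) [Fintype α] [DecidableEq α] (hα : Fintype.card α = 24) (B : Set (Finset α)) (hB : Cfsg.IsSteinerSystem 5 8 B) (Y : Finset α) (hY : Y.card = 3) : {b : Finset α | b ∈ B ∧ (b ∩ Y).card = 3}.ncard = 21 ∧ {b : Finset α | b ∈ B ∧ (b ∩ Y).card = 2}.ncard = 168 ∧ {b : Finset α | b ∈ B ∧ (b ∩ Y).card = 1}.ncard = 360 ∧ {b : Finset α | b ∈ B ∧ (b ∩ Y).card = 0}.ncard = 210 := by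
  have h5 : ∀ s : Finset α, s.card = 5 → (St.thru B s).card = 1 := fun s hs => St.card_thru_top hB hs
  have h4 := St.card_thru_of (i := 4) (m' := 5) hB.1 h5 (by norm_num) (by rw [hα])
  have h3 := St.card_thru_of (i := 3) (m' := 21) hB.1 h4 (by norm_num) (by rw [hα])
  have h2 := St.card_thru_of (i := 2) (m' := 77) hB.1 h3 (by norm_num) (by rw [hα])
  have h1 := St.card_thru_of (i := 1) (m' := 253) hB.1 h2 (by norm_num) (by rw [hα])
  have h0 := St.card_thru_of (i := 0) (m' := 759) hB.1 h1 (by norm_num) (by rw [hα])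
  have k3 := St.sum_choose Y h3
  have k2 := St.sum_choose Y h2
  have k1 := St.sum_choose Y h1
  have k0 := St.sum_choose Y h0
  rw [St.sum_by_meet Y fun j => j.choose _, hY] at k0 k1 k2 k3
  simp only [Finset.sum_range_succ, Finset.range_zero, Finset.sum_empty, Nat.choose] at k0 k1 k2 k3
  omega

end Cfsg.Agent.S5625
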