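import Cfsg.Statements.S5627
import Cfsg.Agent.Lib.Golay.Plane

set_option autoImplicit false
open Cfsg

namespace Cfsg.Agent.S5627
open CA.Gol
open scoped Pointwise

/-- counting `k`-subsets of `{0, …, n - 1}` with a hereditary property -/
def cnt (p : ℕ → Bool) (n : ℕ) : ℕ → ℕ → ℕ :=
  Nat.rec (fun k _ => Bool.rec 0 1 (Nat.beq k 0))
    (fun n ih k m => Bool.rec (Nat.add (ih k m) (force (Nat.lor m (Nat.pow 2 n)) fun m' =>
      Bool.rec 0 (ih (Nat.pred k) m') (p m'))) 1 (Nat.beq k 0)) n

theorem cnt_eq {P : Finset GolayPt → Prop} {p : ℕ → Bool} (hp : ∀ m, P (fs m) ↔ p m = true)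
    (hP : ∀ S T, S ⊆ T → P T → P S) (n : ℕ) (hn : n ≤ 24) : ∀ k m, P (fs m) →
      {S : Finset GolayPt | (∀ q ∈ S, ix q < n) ∧ S.card = k ∧ P (S ∪ fs m)}.ncard = cnt p n k m := by
  have h0 : ∀ n m, P (fs m) → {S : Finset GolayPt | (∀ q ∈ S, ix q < n) ∧ S.card = 0 ∧ P (S ∪ fs m)}.ncard = 1 := by
    intro n m hm
    rw [Set.ncard_eq_one]
    refine ⟨∅, Set.eq_singleton_iff_unique_mem.2 ⟨⟨by simp, rfl, by simpa using hm⟩, fun S hS => ?_⟩⟩
    exact Finset.card_eq_zero.1 hS.2.1
  induction n with
  | zero =>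
    intro k m hm
    cases k with
    | zero => exact h0 0 m hm
    | succ k =>
      show _ = 0
      rw [Set.ncard_eq_zero]
      refine Set.eq_empty_of_forall_notMem fun S hS => ?_
      obtain ⟨q, hq⟩ := Finset.card_pos.1 (show 0 < S.card by rw [hS.2.1]; omega)
      exact Nat.not_lt_zero _ (hS.1 q hq)
  | succ n ih =>
    intro k m hm
    cases k with
    | zero => exact h0 _ m hm
    | succ k =>
      have e : cnt p (n + 1) (k + 1) m = cnt p n (k + 1) m + force (Nat.lor m (Nat.pow 2 n)) fun m' =>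
        Bool.rec 0 (cnt p n k m') (p m') := rfl
      rw [e, force_eq, ← ih (by omega) (k + 1) m hm]
      have hfs : fs (Nat.lor m (Nat.pow 2 n)) = insert (pt n) (fs m) := by
        rw [fs_lor, fs_two_pow (by omega), Finset.union_comm]; rfl
      have e2 : (Bool.rec 0 (cnt p n k (Nat.lor m (Nat.pow 2 n))) (p (Nat.lor m (Nat.pow 2 n))) : ℕ) =
          {S : Finset GolayPt | (∀ q ∈ S, ix q < n) ∧ S.card = k ∧ P (S ∪ insert (pt n) (fs m))}.ncard := by
        cases hb : p (Nat.lor m (Nat.pow 2 n))
        · show 0 = _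
          symm
          rw [Set.ncard_eq_zero]
          refine Set.eq_empty_of_forall_notMem fun S hS => ?_
          have := (hp _).1 (hfs ▸ hP _ _ Finset.subset_union_right hS.2.2)
          rw [hb] at this; exact absurd this (by decide)
        · rw [← hfs]; exact (ih (by omega) k _ ((hp _).2 hb)).symm
      have hnot : ∀ S : Finset GolayPt, (∀ q ∈ S, ix q < n) → pt n ∉ S := fun S hS h => by
        have := hS _ h
        rw [ix_pt (by omega)] at this
        exact lt_irrefl _ this
      rw [e2, ← Set.ncard_image_of_injOn (f := insert (pt n)) (s := {S : Finset GolayPt | (∀ q ∈ S, ix q < n) ∧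
        S.card = k ∧ P (S ∪ insert (pt n) (fs m))}) (fun S hS T hT e => by
          rw [← Finset.erase_insert (hnot S hS.1), e, Finset.erase_insert (hnot T hT.1)]),
        ← Set.ncard_union_eq]
      · congr 1
        ext S
        constructor
        · rintro ⟨h1, h2, h3⟩
          have h4 : ∀ q ∈ S, q ≠ pt n → ix q < n := fun q hq hne => by
            have := h1 q hq
            have : ix q ≠ n := fun e => hne (by rw [← e, pt_ix])
            omega
          by_cases hS : pt n ∈ S
          · refine Or.inr ⟨S.erase (pt n), ⟨fun q hq => h4 q (Finset.mem_of_mem_erase hq) (Finset.ne_of_mem_erase hq),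
              by rw [Finset.card_erase_of_mem hS, h2]; rfl, ?_⟩, Finset.insert_erase hS⟩
            rwa [Finset.union_insert, ← Finset.insert_union, Finset.insert_erase hS]
          · exact Or.inl ⟨fun q hq => h4 q hq fun e => hS (e ▸ hq), h2, h3⟩
        · rintro (⟨h1, h2, h3⟩ | ⟨T, ⟨h1, h2, h3⟩, rfl⟩)
          · exact ⟨fun q hq => Nat.lt_succ_of_lt (h1 q hq), h2, h3⟩
          · refine ⟨fun q hq => ?_, by rw [Finset.card_insert_of_notMem (hnot T h1), h2], ?_⟩
            · rcases Finset.mem_insert.1 hq with rfl | hq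
              · rw [ix_pt (by omega)]; omega
              · exact Nat.lt_succ_of_lt (h1 q hq)
            · rwa [Finset.insert_union, ← Finset.union_insert]
      · rw [Set.disjoint_left]
        rintro S h1 ⟨T, -, rfl⟩
        exact hnot _ h1.1 (Finset.mem_insert_self _ _)

theorem count_indep {α : Type*} [Fintype α] [DecidableEq α] {L : Set (Finset α)} (h : St.Pl L) (k : ℕ) :
    {S : Finset α | S.card = k ∧ ∀ l ∈ L, (l ∩ S).card ≤ 2}.ncard =
      cnt (fun m => allLt (fun j => Nat.ble (popc (Nat.land (St.lineM j) m)) 2) 21) 21 k 0 := by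
  obtain ⟨H, hH⟩ := h.exists_hyp
  obtain ⟨f, -, hf⟩ := h.frame hH
  rw [← cnt_eq (P := fun T => ∀ j < 21, (fs (St.lineM j) ∩ T).card ≤ 2)
    (fun m => by simp only [allLt_iff, ble_iff, ← card_fs, fs_land])
    (fun S T hST hT j hj => le_trans (Finset.card_le_card (Finset.inter_subset_inter_left hST)) (hT j hj))
    21 (by norm_num) k 0 (by simp [fs_zero])]
  let g : α → GolayPt := fun a => pt (f.symm a)
  have hg : Function.Injective g := fun a b e =>
    f.symm.injective (Fin.ext (pt_inj (by have := (f.symm a).2; omega) (by have := (f.symm b).2; omega) e))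
  have hl : ∀ j : Fin 21, ((St.ML j).image f).image g = fs (St.lineM j) := by
    intro j
    rw [Finset.image_image, show g ∘ f = fun x : Fin 21 => pt x by funext x; simp [g]]
    revert j; decide +kernel
  have hI : ∀ S : Finset α, (∀ l ∈ L, (l ∩ S).card ≤ 2) ↔ ∀ j < 21, (fs (St.lineM j) ∩ (S.image g ∪ fs 0)).card ≤ 2 := by
    intro S
    rw [fs_zero, Finset.union_empty]
    constructor
    · intro h1 j hj
      rw [← hl ⟨j, hj⟩, ← Finset.image_inter _ _ hg, Finset.card_image_of_injective _ hg]
      exact h1 _ ((hf _).2 ⟨_, rfl⟩)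
    · intro h1 l hl'
      obtain ⟨j, rfl⟩ := (hf l).1 hl'
      have := h1 j j.2
      rwa [← hl j, ← Finset.image_inter _ _ hg, Finset.card_image_of_injective _ hg] at this
  apply Set.ncard_congr (fun S _ => S.image g)
  · rintro S ⟨h1, h2⟩
    refine ⟨fun q hq => ?_, by rw [Finset.card_image_of_injective _ hg, h1], (hI S).1 h2⟩
    obtain ⟨a, -, rfl⟩ := Finset.mem_image.1 hq
    have := (f.symm a).2
    rw [ix_pt (by omega)]; exact this
  · intro S T _ _ e; exact Finset.image_injective hg e
  · rintro T ⟨h1, h2, h3⟩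
    obtain ⟨S, -, rfl⟩ := Finset.subset_image_iff.1 (show T ⊆ Finset.univ.image g from fun q hq =>
      Finset.mem_image.2 ⟨f ⟨ix q, h1 q hq⟩, Finset.mem_univ _, by simp [g]⟩)
    exact ⟨S, ⟨by rw [← h2, Finset.card_image_of_injective _ hg], (hI S).2 h3⟩, rfl⟩


/-- In a projective plane of order 4 (a Steiner system S(2, 5, 21)), call a set of points independent when no line meets it in more than two points. There are exactly 2520 independent 4-sets and exactly 168 independent 6-sets (hyperovals), and every independent 4-set lies in exactly one hyperoval. -/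
theorem result {α : Type*} [Fintype α] [DecidableEq α] (hα : Fintype.card α = 21) (L : Set (Finset α)) (hL : Cfsg.IsSteinerSystem 2 5 L) : {S : Finset α | (S.card = 4 ∧ ∀ l ∈ L, (l ∩ S).card ≤ 2)}.ncard = 2520 ∧ {H : Finset α | (H.card = 6 ∧ ∀ l ∈ L, (l ∩ H).card ≤ 2)}.ncard = 168 ∧ ∀ S : Finset α, (S.card = 4 ∧ ∀ l ∈ L, (l ∩ S).card ≤ 2) → ∃! H : Finset α, (H.card = 6 ∧ ∀ l ∈ L, (l ∩ H).card ≤ 2) ∧ S ⊆ H := by
  have h : St.Pl L := ⟨hα, hL⟩
  refine ⟨?_, ?_, fun S hS => h.existsUnique_hyperoval hS.1 hS.2⟩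
  · rw [count_indep h]; decide +kernel
  · rw [count_indep h]; decide +kernel

end Cfsg.Agent.S5627
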