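import Cfsg.Statements.S5628
import Cfsg.Agent.Lib.Golay.Plane

set_option autoImplicit false
open Cfsg

namespace Cfsg.Agent.S5628
open CA.Gol
open scoped Pointwise


/-- In a projective plane of order 4 (a Steiner system S(2, 5, 21)), every permutation of the six points of a hyperoval (a 6-set met by no line in more than two points) is the restriction of exactly one automorphism of the plane. In particular the stabiliser of a hyperoval in the automorphism group is isomorphic to the symmetric group of degree 6 acting faithfully on the hyperoval. -/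
theorem result {α : Type*} [Fintype α] [DecidableEq α] (hα : Fintype.card α = 21) (L : Set (Finset α)) (hL : Cfsg.IsSteinerSystem 2 5 L) (H : Finset α) (hH : (H.card = 6 ∧ ∀ l ∈ L, (l ∩ H).card ≤ 2)) (σ : Equiv.Perm ↥H) : ∃! g : Equiv.Perm α, g ∈ Cfsg.setSystemAut L ∧ ∀ p : ↥H, g p = σ p := by
  have h : St.Pl L := ⟨hα, hL⟩
  let e : H ≃ Fin 6 := Finset.equivFinOfCardEq hH.1
  have h1 : St.Hyp L fun i => (e.symm i : α) :=
    St.hyp_of hH.2 (Subtype.val_injective.comp e.symm.injective) fun i => (e.symm i).2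
  have h2 : St.Hyp L fun i => (σ (e.symm i) : α) :=
    St.hyp_of hH.2 (Subtype.val_injective.comp (σ.injective.comp e.symm.injective)) fun i => (σ (e.symm i)).2
  have hmem : ∀ g ∈ Cfsg.setSystemAut L, ∀ l ∈ L, g • l ∈ L := by
    intro g hg l hl
    have : g • L = L := hg
    rw [← this]; exact Set.smul_mem_smul_set hl
  have key : ∀ g ∈ Cfsg.setSystemAut L, (∀ p ∈ H, g p = p) → g = 1 := by
    intro g hg hfix
    ext p
    by_cases hp : p ∈ H
    · exact hfix p hp
    have hne : ∀ i, p ≠ e.symm i := fun i e' => hp (e' ▸ (e.symm i).2)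
    have hl : ∀ i, g p ∈ St.ln L p (e.symm i) := by
      intro i
      obtain ⟨l1, a1, b1⟩ := h.ln_spec (hne i)
      obtain ⟨j, hj, hj'⟩ := h.secant h1 l1 b1
      have k : ∀ q, q ∈ St.ln L p (e.symm i) → g q ∈ g • St.ln L p (e.symm i) := fun q hq =>
        Finset.smul_mem_smul_finset hq
      rw [h.uniq l1 (hmem g hg _ l1) (h1.inj.ne hj) hj' b1 (by simpa [hfix] using k _ hj')
        (by simpa [hfix] using k _ b1)]
      exact k p a1
    by_contra hgp
    have k : ∀ i, (e.symm i : α) ∈ St.ln L p (e.symm 0) := fun i => by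
      rw [h.uniq (h.ln_spec (hne 0)).1 (h.ln_spec (hne i)).1 hgp (hl 0) (h.ln_spec (hne 0)).2.1 (hl i)
        (h.ln_spec (hne i)).2.1]
      exact (h.ln_spec (hne i)).2.2
    have := h1.ind _ (h.ln_spec (hne 0)).1 0 1 2 (k 0) (k 1) (k 2)
    revert this; decide
  obtain ⟨g, g1, g2⟩ := St.iso_of_hyp h h h1 h2
  have hg : g ∈ Cfsg.setSystemAut L := g2
  have hg' : ∀ p : H, g p = σ p := fun p => by simpa using g1 (e p)
  refine ⟨g, ⟨hg, hg'⟩, fun k hk => ?_⟩
  have := key (g⁻¹ * k) (mul_mem (inv_mem hg) hk.1) fun p hp => by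
    rw [Equiv.Perm.mul_apply, Equiv.Perm.inv_eq_iff_eq, hk.2 ⟨p, hp⟩, hg' ⟨p, hp⟩]
  rw [inv_mul_eq_one] at this
  exact this.symm

end Cfsg.Agent.S5628
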